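import Mathlib
import Cfsg.Agent.H26.MXa
import Cfsg.Agent.H10.Mx5

/-! Overgroups of imprimitive subgroups of the special linear group: blocks of dimension `≥ 2`. -/

set_option autoImplicit false
set_option maxHeartbeats 400000

namespace Cfsg.Agent.H26.MX

open Module

variable {F : Type*} [Field F] {W : Type*} [AddCommGroup W] [Module F W] {T : Type} [Fintype T]
  [DecidableEq T]

/-- permuting the coordinate blocks -/
def Mono (g : (T → W) ≃ₗ[F] (T → W)) : Prop := ∀ i, ∃ j, ∀ w k, k ≠ j → g (Pi.single i w) k = 0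

/-- `M` contains the block monomial elements of determinant one -/
def OvM (M : Subgroup ((T → W) ≃ₗ[F] (T → W))) : Prop := ∀ g ∈ SLv F (T → W), Mono g → g ∈ M

/-- a functional on one block -/
def pj (i : T) (ψ : Dual F W) : Dual F (T → W) := ψ ∘ₗ LinearMap.proj i

omit [Fintype T] [DecidableEq T] in
@[simp] theorem pj_apply (i : T) (ψ : Dual F W) (x : T → W) : pj i ψ x = ψ (x i) := rfl

/-- the component of a functional -/
def cp (i : T) (φ : Dual F (T → W)) : Dual F W := φ ∘ₗ LinearMap.single F (fun _ => W) i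

omit [Fintype T] in
@[simp] theorem cp_apply (i : T) (φ : Dual F (T → W)) (x : W) : cp i φ x = φ (Pi.single i x) := rfl

theorem sum_pj_cp (φ : Dual F (T → W)) : ∑ i, pj i (cp i φ) = φ := by
  refine LinearMap.ext fun x => ?_
  simp [← map_sum, Finset.univ_sum_single]

theorem exists_cp_ne {φ : Dual F (T → W)} (h : φ ≠ 0) : ∃ i, cp i φ ≠ 0 := by
  by_contra! h1
  exact h (by rw [← sum_pj_cp φ]; simp [h1, pj])

/-- permuting the blocks -/
def pm (F W : Type*) [Field F] [AddCommGroup W] [Module F W] (σ : Equiv.Perm T) :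
    (T → W) ≃ₗ[F] (T → W) := LinearEquiv.funCongrLeft F W σ

omit [Fintype T] [DecidableEq T] in
@[simp] theorem pm_apply (σ : Equiv.Perm T) (x : T → W) (i : T) : pm F W σ x i = x (σ i) := rfl

omit [Fintype T] in
theorem eq_single_of {x : T → W} {j : T} (h : ∀ k, k ≠ j → x k = 0) : x = Pi.single j (x j) := by
  ext k; by_cases hk : k = j <;> simp [hk, h]

omit [Fintype T] in
theorem Mono.mul {g g' : (T → W) ≃ₗ[F] (T → W)} (h : Mono g) (h' : Mono g') : Mono (g * g') := fun i => by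
  obtain ⟨j, hj⟩ := h' i
  obtain ⟨l, hl⟩ := h j
  exact ⟨l, fun w k hk => by rw [mul_app, eq_single_of (hj w), hl _ k hk]⟩

omit [Fintype T] in
theorem mono_pm (σ : Equiv.Perm T) : Mono (pm F W σ) := fun i =>
  ⟨σ⁻¹ i, fun w k hk => by
    rw [pm_apply, Pi.single_eq_of_ne fun h => hk (by simp [← h])]⟩

omit [Fintype T] in
theorem mono_of_rank_one {g : (T → W) ≃ₗ[F] (T → W)} {i : T} {w : W} {ψ : Dual F W}
    (h : ∀ x, g x = x + ψ (x i) • (Pi.single i w : T → W)) : Mono g := fun j =>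
  ⟨j, fun y k hk => by
    by_cases hj : j = i
    · subst hj; simp [h, hk]
    · simp [h, hk, Ne.symm hj]⟩

variable [FiniteDimensional F W] {M : Subgroup ((T → W) ≃ₗ[F] (T → W))}

theorem OvM.tv (h : OvM M) (i : T) {w : W} {ψ : Dual F W} (h0 : ψ w = 0) :
    Tv M (Pi.single i w) (pj i ψ) :=
  ⟨by simpa, h _ (tvE_mem_SLv _ _ _) (mono_of_rank_one (ψ := ψ) fun _ => rfl)⟩

theorem OvM.exists_comp (h : OvM M) {g : (T → W) ≃ₗ[F] (T → W)} (hg : Mono g) (k : T) {w : W}
    {ψ : Dual F W} (h1 : ψ w = 1) : ∃ g' ∈ M, ∃ c : F, LinearMap.det (g : (T → W) →ₗ[F] _) * (1 + c) = 1 ∧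
      ∀ x, g' x = g x + (c * ψ (g x k)) • (Pi.single k w : T → W) := by
  have h2 := (LinearEquiv.isUnit_det' g).ne_zero
  let c := (LinearMap.det (g : (T → W) →ₗ[F] _))⁻¹ - 1
  have h3 : 1 + pj k (c • ψ) (Pi.single k w) = (LinearMap.det (g : (T → W) →ₗ[F] _))⁻¹ := by simp [c, h1]
  have h4 := h3.trans_ne (inv_ne_zero h2)
  refine ⟨H10.dtv (Pi.single k w) (pj k (c • ψ)) * g, h _ (mem_SLv.2 ?_)
    ((mono_of_rank_one (ψ := c • ψ) (H10.dtv_apply' h4)).mul hg), c, by simp [c, h2],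
    fun x => by simp [H10.dtv_apply' h4]⟩
  rw [LinearEquiv.coe_toLinearMap_mul, map_mul, H10.det_dtv h4, h3, inv_mul_cancel₀ h2]

theorem exists_perm_two {a b i j : T} (hab : a ≠ b) (hij : i ≠ j) :
    ∃ σ : Equiv.Perm T, σ a = i ∧ σ b = j :=
  ⟨Equiv.swap (Equiv.swap a i b) j * Equiv.swap a i, by
    rw [Equiv.Perm.mul_apply, Equiv.swap_apply_left, Equiv.swap_apply_of_ne_of_ne _ hij]
    exact fun h => hab ((Equiv.swap a i).injective (by rw [← h, Equiv.swap_apply_left])), by simp⟩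

theorem OvM.sl_le_of_elem [Nontrivial W] (h : OvM M) {i j : T} (hij : i ≠ j)
    (h1 : ∀ x ψ, Tv M (Pi.single i x) (pj j ψ)) : SLv F (T → W) ≤ M := by
  obtain ⟨w, hw⟩ := exists_ne (0 : W)
  obtain ⟨χ, hχ⟩ := exists_dual_one (F := F) hw
  have h2 : ∀ a b, a ≠ b → ∀ x ψ, Tv M (Pi.single a x) (pj b ψ) := fun a b hab x ψ => by
    obtain ⟨σ, rfl, rfl⟩ := exists_perm_two hab hij
    obtain ⟨g, hg, c, -, h3⟩ := h.exists_comp (mono_pm σ) b hχ
    convert (h1 x (ψ + (c * ψ w) • χ)).conj hg using 1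
    · ext k; simp [h3, Pi.single_apply, hab.symm]
    · refine LinearMap.ext fun y => ?_
      obtain ⟨y, rfl⟩ := g.surjective y
      rw [dc_apply, inv_app]; simp [h3]; ring
  refine sl_le_of_full fun u => ?_
  rw [← Finset.univ_sum_single u]
  refine (fullSub M).sum_mem fun a _ φ hφ => ?_
  rw [← sum_pj_cp φ]
  refine Tv.sum _ fun b _ => ?_
  by_cases hab : a = b
  · exact hab ▸ h.tv a hφ
  · exact h2 a b hab _ _

theorem forall_of_not_mem_span {A : Type*} [AddCommGroup A] [Module F A] (h2 : 2 ≤ finrank F A)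
    {P : A → Prop} (hP : ∀ a b, P a → P b → P (a - b)) {x : A} (h : ∀ a ∉ F ∙ x, P a) (a : A) : P a := by
  have : Module.Finite F A := Module.finite_of_finrank_pos (by omega)
  by_cases ha : a ∈ F ∙ x
  swap
  · exact h a ha
  obtain ⟨y, -, hy⟩ := exists_not_mem_of_lt (W := F ∙ x) (U := ⊤) (by
    have := finrank_span_one_le (F := F) x; rw [finrank_top]; omega)
  simpa using hP _ _ (h (a + y) (by rwa [Submodule.add_mem_iff_right _ ha])) (h y hy)

theorem OvM.sl_le_of_center (h : OvM M) (hm : 2 ≤ finrank F W) {i : T} {x : W} (hx : x ≠ 0)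
    {φ : Dual F (T → W)} (h0 : φ ≠ 0) (h1 : cp i φ = 0) (h2 : ∀ c : F, Tv M (Pi.single i x) (c • φ)) :
    SLv F (T → W) ≤ M := by
  have : Nontrivial W := Module.nontrivial_of_finrank_pos (R := F) (by omega)
  obtain ⟨j, hj⟩ := exists_cp_ne h0
  have hij : i ≠ j := by rintro rfl; exact hj h1
  have h3 := forall_of_not_mem_span (F := F) (A := Dual F W) (by simpa)
    (P := fun ψ => ∀ c : F, Tv M (Pi.single i x) (c • pj j ψ)) (x := cp j φ)
    (fun a b ha hb c => by simpa [pj, LinearMap.sub_comp, smul_sub] using (ha c).sub (hb c))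
    fun ψ hψ c => by
      by_cases h3 : ψ = 0
      · simpa [h3, pj] using tv_zero M _
      obtain ⟨y, h4, h5⟩ := exists_vec_pair (φ := cp j φ) (ψ := ψ) fun d hd => hψ (by
        have : d ≠ 0 := by rintro rfl; simp [hd] at hj
        exact Submodule.mem_span_singleton.2 ⟨d⁻¹, by simp [hd, this]⟩)
      simpa [show φ (Pi.single j y) = 1 from h4] using (h2 c).comm (h.tv j h5) (by simp [hij.symm])
  refine h.sl_le_of_elem hij fun y ψ => forall_of_not_mem_span (F := F) hm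
    (P := fun y => Tv M (Pi.single i y) (pj j ψ)) (x := x)
    (fun a b ha hb => by simpa [Pi.single_sub] using ha.sub_left hb) (fun y hy => ?_) y
  obtain ⟨χ, h4, h5⟩ := exists_dual_pair (F := F) (u := y) (x := x) fun d hd => hy (by
    have : d ≠ 0 := by rintro rfl; simp [hd] at hx
    exact Submodule.mem_span_singleton.2 ⟨d⁻¹, by simp [hd, this]⟩)
  simpa [h4] using (h3 ψ 1).comm_left (h.tv i h5) (by simp [hij.symm])

theorem exists_dual_vec (hm : 2 ≤ finrank F W) (u : W) : ∃ (z : W) (χ : Dual F W), χ z = 1 ∧ χ u = 0 := by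
  obtain ⟨z, -, hz⟩ := exists_not_mem_of_lt (W := F ∙ u) (U := ⊤) (by
    have := finrank_span_one_le (F := F) u; rw [finrank_top]; omega)
  obtain ⟨χ, h1, h2⟩ := exists_dual hz
  exact ⟨z, χ, h1, h2 u (Submodule.mem_span_singleton_self u)⟩

theorem OvM.sl_le_of_axis (h : OvM M) (hm : 2 ≤ finrank F W) {j : T} {u : T → W} (hu : u j ≠ 0)
    {φ : Dual F (T → W)} (h0 : φ ≠ 0) (h1 : cp j φ = 0) (h2 : ∀ c : F, Tv M u (c • φ)) :
    SLv F (T → W) ≤ M := by
  obtain ⟨x, χ, h3, h4⟩ := exists_dual_vec hm (u j)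
  obtain ⟨ψ, h5, h6⟩ := exists_dual_pair (F := F) (u := x) (x := u j) fun c hc =>
    hu (by simp [hc, show c = 0 by simpa [hc, h3] using h4])
  exact h.sl_le_of_center hm (i := j) (x := x) (by rintro rfl; simp at h3) h0 h1 fun c => by
    simpa [h5] using (h.tv j h6).comm (h2 c) (by simp [show φ (Pi.single j x) = 0 from LinearMap.congr_fun h1 x])

theorem OvM.sl_le_of_tv (h : OvM M)
    (hm : 3 ≤ finrank F W ∨ 2 ≤ finrank F W ∧ 3 ≤ Fintype.card T ∧ ∃ c : F, c ≠ 0 ∧ c ≠ 1) {i j : T}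
    (hij : i ≠ j) {u : T → W} (hu : u j ≠ 0) {φ : Dual F (T → W)} (h0 : cp i φ ≠ 0)
    (h2 : ∀ c : F, Tv M u (c • φ)) : SLv F (T → W) ≤ M := by
  rcases hm with hm | ⟨hm, ht, c, hc0, hc1⟩
  · obtain ⟨y, hy⟩ := exists_apply_eq_one h0
    obtain ⟨z, -, hz⟩ := exists_not_mem_of_lt (W := Submodule.span F {y, u i}) (U := ⊤) (by
      have := finrank_span_pair_le (F := F) y (u i); rw [finrank_top]; omega)
    obtain ⟨ψ, h3, h4⟩ := exists_dual hz
    refine h.sl_le_of_axis (by omega) hu (φ := pj i ψ) (fun h5 => ?_) (by ext; simp [hij]) fun c => ?_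
    · simpa [h3] using LinearMap.congr_fun h5 (Pi.single i z)
    · simpa [show φ (Pi.single i y) = 1 from hy] using (h2 c).comm
        (h.tv i (h4 y (Submodule.subset_span (by simp)))) (h4 _ (Submodule.subset_span (by simp)))
  obtain ⟨k, hki, hkj⟩ : ∃ k, k ≠ i ∧ k ≠ j := by
    obtain ⟨k, -, hk⟩ := Finset.exists_mem_notMem_of_card_lt_card (s := {i, j}) (t := Finset.univ)
      (Finset.card_le_two.trans_lt ht)
    exact ⟨k, by simpa using hk⟩
  obtain ⟨z, χ, h3, h4⟩ := exists_dual_vec hm (u k)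
  obtain ⟨y', ψ, h5, h6⟩ := exists_dual_vec hm (u i)
  obtain ⟨y, h7, h8⟩ := exists_not_mem_two (LinearMap.ker_eq_top.not.2 h0)
    (LinearMap.ker_eq_top.not.2 (show ψ ≠ 0 by rintro rfl; simp at h5))
  rw [LinearMap.mem_ker] at h7 h8
  have h9 : 1 + pj i (((c - 1) / ψ y) • ψ) (Pi.single i y) ≠ 0 := by simpa [h8]
  obtain ⟨g, hg, d, -, h10⟩ := h.exists_comp (mono_of_rank_one (ψ := ((c - 1) / ψ y) • ψ) (H10.dtv_apply' h9)) k h3
  simp only [H10.dtv_apply' h9] at h10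
  refine h.sl_le_of_axis hm hu (φ := dc φ g - φ) (fun h11 => ?_) (by ext; simp [h10, hij, hki, hkj])
    fun e => ?_
  · simpa [h10, hki, h8, sub_eq_zero, hc1, show φ (Pi.single i y) ≠ 0 from h7] using
      LinearMap.congr_fun h11 (Pi.single i y)
  · convert ((h2 e).fix hg (by simp [h10, h4, h6])).sub (h2 e) using 1
    ext; simp [mul_sub]

theorem exists_two_of_not_mono [Nontrivial W] {g : (T → W) ≃ₗ[F] (T → W)} (hg : ¬ Mono g) :
    ∃ i w j j', j ≠ j' ∧ g (Pi.single i w) j ≠ 0 ∧ g (Pi.single i w) j' ≠ 0 := by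
  simp only [Mono, not_forall, not_exists] at hg
  obtain ⟨i, hi⟩ := hg
  obtain ⟨_, j, -, h1⟩ := hi i
  obtain ⟨w, j', h2, h3⟩ := hi j
  let L : T → W →ₗ[F] W := fun j => LinearMap.proj j ∘ₗ (g : (T → W) →ₗ[F] (T → W)) ∘ₗ LinearMap.single F (fun _ => W) i
  obtain ⟨x, h4, h5⟩ := exists_not_mem_two (W := LinearMap.ker (L j)) (U := LinearMap.ker (L j'))
    (LinearMap.ker_eq_top.not.2 fun h => h1 (LinearMap.congr_fun h _))
    (LinearMap.ker_eq_top.not.2 fun h => h3 (LinearMap.congr_fun h _))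
  exact ⟨i, x, j', j, h2, h5, h4⟩

theorem OvM.sl_le_big (h : OvM M)
    (hm : 3 ≤ finrank F W ∨ 2 ≤ finrank F W ∧ 3 ≤ Fintype.card T ∧ ∃ c : F, c ≠ 0 ∧ c ≠ 1)
    {g : (T → W) ≃ₗ[F] (T → W)} (hg : g ∈ M) (hg' : ¬ Mono g) : SLv F (T → W) ≤ M := by
  have hm2 : 2 ≤ finrank F W := by omega
  have : Nontrivial W := Module.nontrivial_of_finrank_pos (R := F) (by omega)
  obtain ⟨i, w, j, j', h1, h2, h3⟩ := exists_two_of_not_mono hg'
  obtain ⟨z, χ, h4, h5⟩ := exists_dual_vec hm2 w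
  have h6 : ∀ c : F, Tv M (g (Pi.single i w)) (c • dc (pj i χ) g⁻¹) := fun c => by
    convert (h.tv i (ψ := c • χ) (w := w) (by simp [h5])).conj hg using 1
    exact LinearMap.ext fun _ => rfl
  obtain ⟨k, hk⟩ := exists_cp_ne (dc_ne_zero (φ := pj i χ) (fun h7 => by
    simpa [h4] using LinearMap.congr_fun h7 (Pi.single i z)) g⁻¹)
  by_cases hkj : k = j
  · exact h.sl_le_of_tv hm (hkj.trans_ne h1) h3 hk h6
  · exact h.sl_le_of_tv hm hkj h2 hk h6

end Cfsg.Agent.H26.MX
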