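import Mathlib
import Cfsg.Agent.H26.C2a

/-! Overgroups of the monomial group: homology groups and the parabolic case. -/

set_option autoImplicit false
set_option maxHeartbeats 400000

namespace Cfsg.Agent.H26.MX

open Module

section gen
variable {F : Type*} [Field F] {V : Type*} [AddCommGroup V] [Module F V] {N : Subgroup (V ≃ₗ[F] V)}

theorem Tv.of_mul {A B : V ≃ₗ[F] V} (hA : A ∈ N) (hB : B ∈ N) {u : V} {φ : Dual F V} (h0 : φ u = 0)
    (h : ∀ x, A x = B x + φ (B x) • u) : Tv N u φ :=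
  Tv.of (mul_mem hA (inv_mem hB)) h0 fun y => by rw [mul_app, h, app_inv]

/-- `N` contains the full group of homologies with centre `v` and axis `φ` -/
def Hm (N : Subgroup (V ≃ₗ[F] V)) (v : V) (φ : Dual F V) : Prop :=
  φ v = 1 ∧ ∀ ε : F, ε ≠ 0 → ∃ g ∈ N, ∀ x, g x = x + ((ε - 1) * φ x) • v

variable {v v' : V} {φ φ' : Dual F V}

theorem Hm.conj {g : V ≃ₗ[F] V} (h : Hm N v φ) (hg : g ∈ N) (h1 : ∀ x, φ' (g x) = φ x) :
    Hm N (g v) φ' := ⟨(h1 v).trans h.1, fun ε hε => by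
  obtain ⟨a, ha, h2⟩ := h.2 ε hε
  exact ⟨g * a * g⁻¹, mul_mem (mul_mem hg ha) (inv_mem hg), fun x => by simp [h2, ← h1]⟩⟩

theorem Hm.act (h : Hm N v φ) (h' : Hm N v' φ') {ε : F} (hε : ε ≠ 0) :
    Hm N (v' + ((ε - 1) * φ v') • v) (φ' - ((1 - ε⁻¹) * φ' v) • φ) := by
  obtain ⟨g, hg, h1⟩ := h.2 ε hε
  rw [← h1]
  exact h'.conj hg fun x => by simp [h1, h.1]; field_simp; ring

theorem Hm.tv (h : Hm N v φ) (h' : Hm N v' φ') (h0 : φ v' = 0) {ε : F} (hε : ε ≠ 0) :
    Tv N v' (((ε - 1) * (ε - 1) * φ' v * ε⁻¹) • φ) := by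
  obtain ⟨A, hA, h1⟩ := (h'.act h hε).2 ε hε
  obtain ⟨B, hB, h2⟩ := h.2 ε hε
  refine Tv.of_mul hA hB (by simp [h0]) fun x => ?_
  simp only [h1, h2, h0, LinearMap.sub_apply, LinearMap.smul_apply, map_add, map_smul, h.1, smul_eq_mul]
  match_scalars <;> field_simp <;> ring

theorem exists_not_mem_card [Finite F] {n : ℕ} (h : n < Nat.card F) (s : Finset F) (hs : s.card ≤ n) :
    ∃ a, a ∉ s := by
  have := Fintype.ofFinite F
  obtain ⟨a, -, ha⟩ := Finset.exists_mem_notMem_of_card_lt_card (s := s) (t := Finset.univ)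
    (by rw [Finset.card_univ, ← Nat.card_eq_fintype_card]; omega)
  exact ⟨a, ha⟩

theorem seven_or_five [Finite F] (h : 5 ≤ Nat.card F) : 7 ≤ Nat.card F ∨ (5 : F) = 0 := by
  have := Fintype.ofFinite F
  rw [Nat.card_eq_fintype_card] at h ⊢
  have h1 := FiniteField.cast_card_eq_zero F
  have h2 := FiniteField.isPrimePow_card F
  obtain h3 | h3 | h3 : 7 ≤ Fintype.card F ∨ Fintype.card F = 5 ∨ Fintype.card F = 6 := by omega
  · exact Or.inl h3
  · exact Or.inr (by simpa [h3] using h1)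
  · exact absurd (h3 ▸ h2) (by decide)

end gen

variable {F : Type*} [Field F] {T : Type} [Fintype T] [DecidableEq T]
  {N M : Subgroup ((T → F) ≃ₗ[F] (T → F))}

/-- coordinate vector -/
abbrev eb (i : T) : T → F := Pi.single i 1
/-- coordinate functional -/
abbrev pb (i : T) : Dual F (T → F) := LinearMap.proj i

theorem exists_eb_ne {φ : Dual F (T → F)} (h : φ ≠ 0) : ∃ i, φ (eb i) ≠ 0 := by
  by_contra! h1
  exact h (LinearMap.pi_ext' fun i => LinearMap.ext_ring (h1 i))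

/-- `N` contains an elementary transvection -/
def ET (N : Subgroup ((T → F) ≃ₗ[F] (T → F))) : Prop :=
  ∃ a b : T, ∃ c : F, c ≠ 0 ∧ Tv N (eb a) (c • pb b)

section gl
variable (hH : ∀ i, Hm N (eb i) (pb i)) {θ : F} (h0 : θ ≠ 0) (h1 : θ ≠ 1)
include hH h0 h1

theorem et_of_center {i : T} {χ : Dual F (T → F)} (hχ : χ ≠ 0) (h : Tv N (eb i) χ) : ET N := by
  obtain ⟨j, hj⟩ := exists_eb_ne hχ
  have hij : i ≠ j := by rintro rfl; exact hj h.zero
  obtain ⟨g, hg, h2⟩ := (hH j).2 θ h0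
  refine ⟨i, j, (θ - 1) * χ (eb j), mul_ne_zero (sub_ne_zero.2 h1) hj, ?_⟩
  convert (h.fix hg (by simp [h2, hij.symm])).sub h using 1
  exact LinearMap.ext fun x => by simp [h2]; ring

theorem et_of_axis {i : T} {v : T → F} (hv : v ≠ 0) {c : F} (hc : c ≠ 0) (h : Tv N v (c • pb i)) :
    ET N := by
  obtain ⟨j, hj⟩ := Function.ne_iff.1 hv
  have hij : i ≠ j := by rintro rfl; exact hj (by simpa [hc] using h.zero)
  obtain ⟨g, hg, h2⟩ := (hH j).2 θ h0
  have h3 := (h.fix_left hg (by simp [h2, hij])).sub_left h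
  rw [h2, add_sub_cancel_left] at h3
  have h4 := mul_ne_zero (sub_ne_zero.2 h1) hj
  exact ⟨j, i, _, mul_ne_zero h4 hc, by simpa [smul_smul] using h3.smul_right h4⟩

theorem Hm.supp (hn : ¬ ET N) {v : T → F} {φ : Dual F (T → F)} (h : Hm N v φ) (i : T) :
    v i = 0 ↔ φ (eb i) = 0 := by
  have h2 := sub_ne_zero.2 h1
  have h3 : v ≠ 0 := by rintro rfl; simpa using h.1
  have h4 : φ ≠ 0 := by rintro rfl; simpa using h.1
  refine ⟨fun h5 => by_contra fun h6 => hn (et_of_axis hH h0 h1 h3 ?_ ((hH i).tv h h5 h0)),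
    fun h5 => by_contra fun h6 => hn (et_of_center hH h0 h1 (smul_ne_zero ?_ h4) (h.tv (hH i) h5 h0))⟩
  all_goals simp [h0, h2, h6]

theorem Hm.half (hn : ¬ ET N) {v : T → F} {φ : Dual F (T → F)} (h : Hm N v φ) (i : T) :
    v i * φ (eb i) = 0 ∨ v i * φ (eb i) = 1 ∨ 2 * (v i * φ (eb i)) = 1 := by
  by_contra! h2
  have h3 : 1 - (v i * φ (eb i))⁻¹ ≠ 0 := sub_ne_zero.2 fun h => h2.2.1 (inv_eq_one.1 h.symm)
  have h4 := ((h.act (hH i) h3).supp hH h0 h1 hn i).1 (by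
    have := mul_ne_zero_iff.1 h2.1
    simp; field_simp [this.1, this.2]; ring)
  simp only [LinearMap.sub_apply, LinearMap.smul_apply, LinearMap.proj_apply, Pi.single_eq_same,
    smul_eq_mul] at h4
  grind

theorem Hm.beta (hn : ¬ ET N) {v : T → F} {φ : Dual F (T → F)} (h : Hm N v φ) {i j : T} (hij : i ≠ j)
    {ε : F} (hε : ε ≠ 0) {x : F} (hx : x = -((ε - 1) * (1 - ε⁻¹)) * (v i * φ (eb i) * (v j * φ (eb j)))) :
    x = 0 ∨ x = 1 ∨ 2 * x = 1 := by
  have h2 := (h.act (hH i) hε).half hH h0 h1 hn j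
  rwa [show _ * _ = x by simp [hx, hij, hij.symm]; ring] at h2

theorem Hm.half_five (hn : ¬ ET N) (h5 : (5 : F) = 0) {v : T → F} {φ : Dual F (T → F)} (h : Hm N v φ)
    {i j : T} (hij : i ≠ j) (hi : v i ≠ 0) (hj : v j ≠ 0) : 2 * (v j * φ (eb j)) = 1 := by
  have h2 : (2 : F) ≠ 0 := fun h => one_ne_zero (α := F) (by linear_combination h5 - 2 * h)
  have h3 := h.beta hH h0 h1 hn hij (ε := -1) (by simp) rfl
  have h4 := h.beta hH h0 h1 hn hij h2 rfl
  have h6 := h.half hH h0 h1 hn i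
  have h7 := h.half hH h0 h1 hn j
  have h8 := (h.supp hH h0 h1 hn i).not.1 hi
  have h9 := (h.supp hH h0 h1 hn j).not.1 hj
  have h10 := mul_ne_zero hi h8
  have h11 := mul_ne_zero hj h9
  generalize v i * φ (eb i) = a at *
  generalize v j * φ (eb j) = b at *
  grind

end gl

theorem Hm.single [Finite F] (hq : 5 ≤ Nat.card F) (hT : 3 ≤ Fintype.card T)
    (hH : ∀ i, Hm N (eb i) (pb i)) (hS : ∀ j k, pm F F (Equiv.swap j k) ∈ N) (hn : ¬ ET N)
    {v : T → F} {φ : Dual F (T → F)} (h : Hm N v φ) {i j : T} (hij : i ≠ j) (hi : v i ≠ 0) :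
    v j = 0 := by
  classical
  by_contra hj
  obtain ⟨a, ha⟩ := exists_not_mem_card (F := F) (n := 2) (by omega) {0, 1} Finset.card_le_two
  simp only [Finset.mem_insert, Finset.mem_singleton, not_or] at ha
  have hs := h.supp hH ha.1 ha.2 hn
  rcases seven_or_five hq with h7 | h5
  · obtain ⟨b, hb⟩ := exists_not_mem_card (F := F) (n := 4) (by omega) {0, 1, a, a⁻¹} Finset.card_le_four
    obtain ⟨c, hc⟩ := exists_not_mem_card (F := F) (n := 6) (by omega) {0, 1, a, a⁻¹, b, b⁻¹}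
      Finset.card_le_six
    simp only [Finset.mem_insert, Finset.mem_singleton, not_or] at hb hc
    have h1 := h.beta hH ha.1 ha.2 hn hij ha.1 rfl
    have h2 := h.beta hH ha.1 ha.2 hn hij hb.1 rfl
    have h3 := h.beta hH ha.1 ha.2 hn hij hc.1 rfl
    have h4 := mul_ne_zero (mul_ne_zero hi ((hs i).not.1 hi)) (mul_ne_zero hj ((hs j).not.1 hj))
    generalize v i * φ (eb i) * (v j * φ (eb j)) = x at *
    have key : ∀ a b : F, a ≠ 0 → b ≠ 0 → -((a - 1) * (1 - a⁻¹)) * x = -((b - 1) * (1 - b⁻¹)) * x →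
        b = a ∨ b = a⁻¹ := fun a b _ _ _ => by grind
    have h5 : ∀ a : F, a ≠ 0 → a ≠ 1 → -((a - 1) * (1 - a⁻¹)) * x ≠ 0 := fun a h h' => by
      simp [h4, sub_eq_zero, h', eq_comm (a := (1 : F))]
    have h6 := mt (key a b ha.1 hb.1) (not_or.2 hb.2.2)
    have h7 := mt (key a c ha.1 hc.1) (not_or.2 ⟨hc.2.2.1, hc.2.2.2.1⟩)
    have h8 := mt (key b c hb.1 hc.1) (not_or.2 hc.2.2.2.2)
    have h9 := h5 a ha.1 ha.2
    have h10 := h5 b hb.1 hb.2.1
    have h11 := h5 c hc.1 hc.2.1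
    generalize -((a - 1) * (1 - a⁻¹)) * x = X at *
    generalize -((b - 1) * (1 - b⁻¹)) * x = Y at *
    generalize -((c - 1) * (1 - c⁻¹)) * x = Z at *
    have h12 : ∀ X Y : F, 2 * X = 1 → 2 * Y = 1 → X = Y := fun X Y h h' => by
      linear_combination Y * h - X * h'
    have := h12 X Y
    have := h12 X Z
    have := h12 Y Z
    grind
  obtain ⟨k, hki, hkj⟩ : ∃ k, k ≠ i ∧ k ≠ j := by
    obtain ⟨k, -, hk⟩ := Finset.exists_mem_notMem_of_card_lt_card (s := {i, j}) (t := Finset.univ)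
      (Finset.card_le_two.trans_lt hT)
    exact ⟨k, by simpa using hk⟩
  have h2 : (2 : F) ≠ 0 := fun h => one_ne_zero (α := F) (by linear_combination h5 - 2 * h)
  have h3 := h.half_five hH ha.1 ha.2 hn h5 hij hi hj
  have h4 := h.half_five hH ha.1 ha.2 hn h5 hij.symm hj hi
  by_cases hk : v k = 0
  · have h6 := (h.act (h.conj (φ' := dc φ (pm F F (Equiv.swap j k))) (hS j k) fun x => by
      simp only [dc_apply]; congr 1; ext; simp) h2).half hH ha.1 ha.2 hn j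
    have h7 : pm F F (Equiv.swap j k) v = v - v j • eb j + v j • eb k := by
      ext l; by_cases h7 : l = j <;> by_cases h8 : l = k <;> simp_all [Equiv.swap_apply_def]
    have h8 : pm F F (Equiv.swap j k) (eb j) = eb k := by
      ext l; simp [Pi.single_apply, Equiv.swap_apply_eq_iff]
    simp [h7, h8, h.1, (hs k).1 hk, hkj.symm] at h6
    grind
  · have h6 := (h.act (hH i) (ε := -1) (by simp)).half_five hH ha.1 ha.2 hn h5 hkj
      (by simp [hki, hk, (hs i).not.1 hi]; grind) (by simp [hij.symm, hj, (hs i).not.1 hi]; grind)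
    simp [hij.symm, hij] at h6
    grind

end Cfsg.Agent.H26.MX
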