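import Mathlib
import Cfsg.Agent.H26.C2b

/-! Overgroups of the monomial group in the special linear group. -/

set_option autoImplicit false
set_option maxHeartbeats 400000

namespace Cfsg.Agent.H26.MX

open Module

variable {F : Type*} [Field F] {T : Type} [Fintype T] [DecidableEq T]
  {M : Subgroup ((T → F) ≃ₗ[F] (T → F))}

theorem exists_not_mem_idx (s : Finset T) {n : ℕ} (hs : s.card ≤ n) (h : n < Fintype.card T) :
    ∃ a, a ∉ s := by
  obtain ⟨a, -, ha⟩ := Finset.exists_mem_notMem_of_card_lt_card (s := s) (t := Finset.univ)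
    (hs.trans_lt h)
  exact ⟨a, ha⟩

theorem apply_eq_of_supp {φ : Dual F (T → F)} {b : T} (h : ∀ i, i ≠ b → φ (eb i) = 0) (y : T → F) :
    φ y = y b * φ (eb b) := by
  rw [LinearMap.pi_apply_eq_sum_univ, Finset.sum_eq_single b _ (by simp)]
  · congr; ext; simp [Pi.single_apply, eq_comm]
  · intro i _ hi
    convert smul_zero (y i); convert h i hi; simp [Pi.single_apply, eq_comm]

theorem OvM.mono (h : OvM M) (σ : Equiv.Perm T) {d : T → F} (hd : ∀ i, d i ≠ 0)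
    (h1 : (∏ i, d i) * Equiv.Perm.sign σ = 1) : ∃ g ∈ M, ∀ x j, g x j = d j * x (σ j) := by
  let g := (LinearEquiv.piCongrRight fun i => LinearEquiv.smulOfNeZero F F (d i) (hd i)) * pm F F σ
  have hg : ∀ x j, g x j = d j * x (σ j) := fun _ _ => rfl
  refine ⟨g, h _ (mem_SLv.2 ?_) fun i => ⟨σ⁻¹ i, fun w k hk => ?_⟩, hg⟩
  · rw [← LinearMap.det_toMatrix', show LinearMap.toMatrix' (g : (T → F) →ₗ[F] (T → F)) =
      Matrix.diagonal d * σ.permMatrix F by
        ext i j; simp [hg, Pi.single_apply, PEquiv.toMatrix_apply, eq_comm],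
      Matrix.det_mul, Matrix.det_diagonal, Matrix.det_permutation, h1]
  · rw [hg, Pi.single_eq_of_ne fun h => hk (by simp [← h]), mul_zero]

theorem OvM.comp (h : OvM M) (σ : Equiv.Perm T) {d : T → F} (k : T) (hd : ∀ i, i ≠ k → d i ≠ 0) :
    ∃ g ∈ M, ∃ c : F, c ≠ 0 ∧ ∀ x j, g x j = (if j = k then c else d j) * x (σ j) := by
  have h1 : (∏ i ∈ Finset.univ.erase k, d i) * Equiv.Perm.sign σ ≠ 0 := mul_ne_zero
    (Finset.prod_ne_zero_iff.2 fun i hi => hd i (Finset.ne_of_mem_erase hi))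
    (by rcases Int.units_eq_one_or (Equiv.Perm.sign σ) with h | h <;> simp [h])
  obtain ⟨g, hg, h2⟩ := h.mono σ (d := fun j => if j = k then _ else d j)
    (fun i => by split_ifs with hi; exacts [inv_ne_zero h1, hd i hi]) (by
      rw [← Finset.mul_prod_erase _ _ (Finset.mem_univ k), if_pos rfl, Finset.prod_congr rfl
        fun i hi => if_neg (Finset.ne_of_mem_erase hi), mul_assoc, inv_mul_cancel₀ h1])
  exact ⟨g, hg, _, inv_ne_zero h1, h2⟩

theorem OvM.tor (h : OvM M) {i j : T} (hij : i ≠ j) {θ : F} (h0 : θ ≠ 0) :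
    ∃ g ∈ M, ∀ x, g x = x + ((θ - 1) * x i) • eb i + ((θ⁻¹ - 1) * x j) • eb j := by
  have h1 : 1 + pj i ((θ - 1) • LinearMap.id) (eb i) = θ := by simp
  have h2 := h1.trans_ne h0
  obtain ⟨g, hg, c, h3, h4⟩ := h.exists_comp (mono_of_rank_one (ψ := (θ - 1) • LinearMap.id)
    (H10.dtv_apply' h2)) j (ψ := LinearMap.id) (w := 1) rfl
  rw [H10.det_dtv h2, h1] at h3
  exact ⟨g, hg, fun x => by simp [h4, H10.dtv_apply' h2, hij.symm, show c = θ⁻¹ - 1 by grind]⟩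

theorem OvM.sl_le_of_te (h : OvM M) (hT : 4 ≤ Fintype.card T) {θ : F} (h0 : θ ≠ 0) (h1 : θ ≠ 1)
    {o : T} {ψ : Dual F (T → F)} (hψ : ψ ≠ 0) (h2 : Tv M (eb o) ψ) : SLv F (T → F) ≤ M := by
  obtain ⟨j, hj⟩ := exists_eb_ne hψ
  have hoj : o ≠ j := by rintro rfl; exact hj h2.zero
  obtain ⟨l, hl⟩ := exists_not_mem_idx {o, j} Finset.card_le_two (by omega)
  obtain ⟨l', hl'⟩ := exists_not_mem_idx {o, j, l} Finset.card_le_three (by omega)
  simp only [Finset.mem_insert, Finset.mem_singleton, not_or] at hl hl'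
  obtain ⟨g, hg, h3⟩ := h.tor (Ne.symm hl.2) h0
  obtain ⟨g', hg', h4⟩ := h.tor (Ne.symm hl'.2.1) h0
  have h5 := (h2.fix hg (by simp [h3, hoj.symm, hl.1])).sub h2
  have h6 := (h5.fix hg' (by simp [h4, hoj.symm, hl'.1])).sub h5
  have h7 : (θ - 1) * (θ - 1) * ψ (eb j) ≠ 0 := by simp [hj, sub_eq_zero, h1]
  refine h.sl_le_of_elem hoj fun x χ => ?_
  by_cases h8 : x * χ 1 = 0
  · refine (tv_zero M 0).congr (by simp [hoj.symm]) fun y => ?_
    rw [pj_apply, ← mul_one (y j), ← smul_eq_mul, map_smul, ← Pi.single_smul]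
    simp [mul_assoc, mul_comm (χ 1), h8]
  obtain ⟨t, ht, h9⟩ := h.tor (Ne.symm hl.2) (div_ne_zero h8 h7)
  refine (h6.fix ht (by simp [h9, hoj.symm, hl.1])).congr (by simp [hoj.symm]) fun y => ?_
  rw [pj_apply, ← mul_one (y j), ← smul_eq_mul, map_smul]
  ext i
  simp [h3, h4, h9, hl.2, hl'.2.1, hl'.2.2, Ne.symm hl.2, Ne.symm hl'.2.1, Ne.symm hl'.2.2, Pi.single_apply]
  split_ifs
  · field_simp [sub_ne_zero.2 h1]; ring
  · rfl

theorem te_of_res {o : T} {A B : (T → F) ≃ₗ[F] (T → F)} (hA : A ∈ M) (hB : B ∈ M)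
    (h : ∀ x i, i ≠ o → A x i = B x i) (h0 : A (eb o) = B (eb o)) {c : F} (h1 : B (eb o) = c • eb o)
    {x : T → F} (hx : A x o ≠ B x o) : ∃ ψ, ψ ≠ 0 ∧ Tv M (eb o) ψ := by
  have hc : c ≠ 0 := by rintro rfl; simp at h1
  refine ⟨pb o ∘ₗ ((A * B⁻¹ : (T → F) ≃ₗ[F] (T → F)) : (T → F) →ₗ[F] (T → F)) - pb o,
    fun h2 => hx (by simpa [sub_eq_zero, ← inv_app] using LinearMap.congr_fun h2 (B x)),
    Tv.of_mul hA hB ?_ fun y => ?_⟩
  · have : B⁻¹ (eb o) = c⁻¹ • eb o := inv_eq_of (by simp [h1, hc])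
    simp only [LinearMap.sub_apply, LinearMap.comp_apply, LinearEquiv.coe_coe, mul_app, this]
    simp [h0, h1, hc]
  · ext i
    by_cases hi : i = o <;> simp [hi, h]

/-- restriction to the coordinates other than `o` -/
def res (F : Type*) [Field F] (o : T) : (T → F) →ₗ[F] ({i // i ≠ o} → F) :=
  LinearMap.funLeft F F Subtype.val

omit [Fintype T] [DecidableEq T] in
@[simp] theorem res_apply (o : T) (x : T → F) (i : {i // i ≠ o}) : res F o x i = x i := rfl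

/-- the image of the parabolic subgroup in the Levi factor -/
def Lf (M : Subgroup ((T → F) ≃ₗ[F] (T → F))) (o : T) :
    Subgroup (({i // i ≠ o} → F) ≃ₗ[F] ({i // i ≠ o} → F)) where
  carrier := {n | ∃ g ∈ M, ∀ x, res F o (g x) = n (res F o x)}
  one_mem' := ⟨1, M.one_mem, fun _ => rfl⟩
  mul_mem' := by
    rintro _ _ ⟨a, ha, h1⟩ ⟨b, hb, h2⟩
    exact ⟨a * b, mul_mem ha hb, fun x => by rw [mul_app, h1, h2, mul_app]⟩
  inv_mem' := by
    rintro _ ⟨a, ha, h1⟩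
    exact ⟨a⁻¹, inv_mem ha, fun x => (inv_eq_of (by rw [← h1, app_inv])).symm⟩

omit [Fintype T] in
theorem res_eb {o : T} (a : {i // i ≠ o}) : res F o (eb a.1) = eb a := by
  ext i; simp [Pi.single_apply, Subtype.ext_iff]

theorem exists_bar {o : T} {g : (T → F) ≃ₗ[F] (T → F)} {c : F} (h : g (eb o) = c • eb o) :
    ∃ n : ({i // i ≠ o} → F) ≃ₗ[F] ({i // i ≠ o} → F), ∀ x, res F o (g x) = n (res F o x) := by
  let e : ({i // i ≠ o} → F) →ₗ[F] (T → F) :=
    LinearMap.pi fun i => if h : i = o then 0 else LinearMap.proj ⟨i, h⟩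
  have hc : c ≠ 0 := by rintro rfl; simp at h
  have h1 : ∀ x, x = e (res F o x) + x o • eb o := fun x => by
    ext i; by_cases hi : i = o <;> simp [e, hi]
  have h2 : res F o (eb o) = 0 := by ext i; simp [i.2]
  have h3 : ∀ y, res F o (e y) = y := fun y => by ext i; simp [e, i.2]
  refine ⟨LinearEquiv.ofInjectiveEndo (res F o ∘ₗ (g : (T → F) →ₗ[F] (T → F)) ∘ₗ e)
    ((injective_iff_map_eq_zero _).2 fun y hy => ?_), fun x => ?_⟩
  · have h4 := h1 (g (e y))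
    rw [show res F o (g (e y)) = 0 from hy, map_zero, zero_add] at h4
    rw [← h3 y, g.injective (a₁ := e y) (a₂ := (g (e y) o / c) • eb o) (by rw [map_smul, h, smul_smul,
      div_mul_cancel₀ _ hc, ← h4]), map_smul, h2, smul_zero]
  · conv_lhs => rw [h1 x]
    simp [h, h2]

theorem OvM.sl_le_of_fix [Finite F] (h : OvM M) (hq : 5 ≤ Nat.card F) (hT : 5 ≤ Fintype.card T)
    {g : (T → F) ≃ₗ[F] (T → F)} (hg : g ∈ M) {o a j j' : T} {c : F} (h1 : g (eb o) = c • eb o)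
    (hj : j ≠ j') (h2 : g (eb a) j ≠ 0) (h3 : g (eb a) j' ≠ 0) : SLv F (T → F) ≤ M := by
  classical
  obtain ⟨θ, hθ⟩ := exists_not_mem_card (F := F) (n := 3) (by omega) {0, 1, -1} Finset.card_le_three
  simp only [Finset.mem_insert, Finset.mem_singleton, not_or] at hθ
  suffices ∃ k ψ, ψ ≠ 0 ∧ Tv M (eb k) ψ by
    obtain ⟨k, ψ, h4, h5⟩ := this
    exact h.sl_le_of_te (by omega) hθ.1 hθ.2.1 h4 h5
  have hH : ∀ i, Hm (Lf M o) (eb i) (pb i) := fun i => ⟨by simp, fun ε hε => by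
    obtain ⟨t, ht, h4⟩ := h.tor i.2 hε
    have h5 : 1 + ((ε - 1) • pb (F := F) i) (eb i) ≠ 0 := by simpa
    refine ⟨_, ⟨t, ht, fun x => ?_⟩, H10.dtv_apply' h5⟩
    ext k; simp [h4, H10.dtv_apply' h5, Pi.single_apply, Subtype.ext_iff, k.2]⟩
  by_cases hn : ET (Lf M o)
  · obtain ⟨a, b, d, hd, h4, g, hg, h5⟩ := hn
    have hab : b.1 ≠ a.1 := fun h => by simp [Subtype.ext h, hd] at h4
    replace h5 : ∀ x i, i ≠ o → g x i = x i + d * x b * eb (F := F) a.1 i := fun x i hi => by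
      simpa [Pi.single_apply, Subtype.ext_iff] using congrFun (h5 x) ⟨i, hi⟩
    have h6 : g (eb o) = g (eb o) o • eb o := by
      ext i; by_cases hi : i = o <;> simp [hi, h5, b.2]
    by_cases h7 : ∀ k, k ≠ o → g (eb k) o = 0
    · obtain ⟨t, ht, h8⟩ := h.tor a.2 hθ.1
      have h9 := apply_eq_of_supp (φ := pb o ∘ₗ (g : (T → F) →ₗ[F] (T → F))) h7
      refine ⟨a, ((θ - 1) * d) • pb b.1, fun h => ?_, Tv.of_mul (mul_mem ht hg) (mul_mem hg ht)
        (by simp [hab]) fun x => ?_⟩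
      · simpa [hd, sub_eq_zero, hθ.2.1] using LinearMap.congr_fun h (eb b.1)
      ext i
      simp only [LinearMap.comp_apply, LinearEquiv.coe_coe, LinearMap.proj_apply] at h9
      simp only [mul_app, h8 (g x), Pi.add_apply, Pi.smul_apply, LinearMap.smul_apply, LinearMap.proj_apply,
        h5 _ _ a.2, h5 _ _ b.2]
      by_cases hi : i = o
      · simp only [hi, h9 x, h9 (t x)]; simp [h8, a.2.symm]; ring
      · simp only [h5 _ _ hi]; simp [h8, hi, hab, b.2]; ring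
    push Not at h7
    obtain ⟨k, hk, h7⟩ := h7
    obtain ⟨l, hl⟩ := exists_not_mem_idx {o, a.1, b.1, k} Finset.card_le_four (by omega)
    simp only [Finset.mem_insert, Finset.mem_singleton, not_or] at hl
    obtain ⟨t, ht, h8⟩ := h.tor (Ne.symm hl.1) hθ.1
    refine ⟨o, te_of_res (mul_mem ht hg) (mul_mem hg ht) (fun x i hi => ?_) ?_ (c := θ * g (eb o) o) ?_
      (x := eb k) ?_⟩
    · simp only [mul_app, h8 (g x), Pi.add_apply, Pi.smul_apply, h5 _ _ hi, h5 _ _ hl.1]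
      simp [h8, hi, b.2, hl.2.1, Ne.symm hl.2.2.1]; ring
    · rw [mul_app, mul_app, h6, map_smul]; simp [h8, hl.1]; rw [h6]; simp; module
    · rw [mul_app]; simp [h8, hl.1]; rw [h6]; simp; module
    · simp [h8, hk.symm, hl.2.2.2, hl.1, Ne.symm hl.1, h7, sub_eq_zero, hθ.2.1]
  have hS : ∀ j k, pm F F (Equiv.swap j k) ∈ Lf M o := fun j k => by
    obtain ⟨s, hs, e, -, h4⟩ := h.comp (Equiv.swap j.1 k.1) (d := 1) o (by simp)
    exact ⟨s, hs, fun x => by ext i; simp [h4, i.2, Subtype.val_injective.map_swap]⟩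
  have hao : a ≠ o := by rintro rfl; simp_all [Pi.single_apply]
  obtain ⟨n, h4⟩ := exists_bar h1
  have h5 := (hH ⟨a, hao⟩).conj (φ' := dc (pb ⟨a, hao⟩) n⁻¹) ⟨g, hg, h4⟩ (by simp [← inv_app])
  rw [← res_eb, ← h4] at h5
  have h6 := fun i j => h5.single (i := i) (j := j) hq (by simp; omega) hH hS hn
  obtain ⟨b, hb, h7, h8⟩ : ∃ b, b ≠ o ∧ g (eb a) b ≠ 0 ∧ g (eb a) o ≠ 0 := by
    by_cases h7 : j = o
    · exact ⟨j', h7 ▸ hj.symm, h3, h7 ▸ h2⟩
    by_cases h8 : j' = o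
    · exact ⟨j, h7, h2, h8 ▸ h3⟩
    exact absurd (h6 ⟨j, h7⟩ ⟨j', h8⟩ (by simpa) h2) h3
  have h9 : ∀ i, i ≠ o → i ≠ b → g (eb a) i = 0 := fun i hi hib =>
    h6 ⟨b, hb⟩ ⟨i, hi⟩ (by simpa using hib.symm) h7
  have h10 := apply_eq_of_supp (b := ⟨b, hb⟩) fun i hi =>
    (h5.supp hH hθ.1 hθ.2.1 hn i).1 (h9 i i.2 fun h => hi (Subtype.ext h))
  have h11 : ∀ x, g x b = x a * g (eb a) b := fun x => by
    have h11 := h10 (res F o (g x))
    have h12 := h10 (res F o (g (eb a)))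
    rw [h5.1] at h12
    rw [h4, dc_apply, inv_app, ← h4] at h11
    simp only [res_apply, LinearMap.proj_apply] at h11 h12
    grind
  obtain ⟨t, ht, h12⟩ := h.tor hao hθ.1
  obtain ⟨t', ht', h13⟩ := h.tor hb hθ.1
  refine ⟨o, te_of_res (mul_mem ht' hg) (mul_mem hg ht) (fun x i hi => ?_) ?_ (c := θ⁻¹ * c) ?_
    (x := eb a) ?_⟩
  · by_cases hib : i = b <;> simp [h12, h13, h1, hi, hib, hb, h11 x, h9]
    ring
  · simp [h12, h13, h1, hao, hb]; module
  · simp [h12, h1, hao]; module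
  · simp [h12, h13, h1, hao, hao.symm, hb.symm, h8]
    grind

end Cfsg.Agent.H26.MX
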