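import Mathlib
import Cfsg.Agent.H26.C2c
import Cfsg.Agent.H26.SLMax
import Cfsg.Agent.H26.Small

/-! Maximality of the imprimitive subgroups of the special linear group. -/

set_option autoImplicit false
set_option maxHeartbeats 400000

namespace Cfsg.Agent.H26.MX

open Module

variable {F : Type*} [Field F] {T : Type} [Fintype T] [DecidableEq T]
  {M : Subgroup ((T → F) ≃ₗ[F] (T → F))}

/-- at most one non-zero coordinate -/
def S1 (x : T → F) : Prop := ∃ b, ∀ i, i ≠ b → x i = 0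

omit [Fintype T] [DecidableEq T] in
theorem exists_two_of_not_S1 (o : T) {x : T → F} (h : ¬ S1 x) : ∃ j j', j ≠ j' ∧ x j ≠ 0 ∧ x j' ≠ 0 := by
  simp only [S1, not_exists, not_forall] at h
  obtain ⟨j, -, h1⟩ := h o
  obtain ⟨j', h2, h3⟩ := h j
  exact ⟨j', j, h2, h3, h1⟩

theorem exists_col (g : (T → F) ≃ₗ[F] (T → F)) (i : T) : ∃ a, g (eb a) i ≠ 0 :=
  exists_eb_ne (φ := dc (pb (F := F) i) g)
    (dc_ne_zero (fun h => by simpa using LinearMap.congr_fun h (eb i)) g)

section np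
variable [Finite F] (h : OvM M) (hq : 5 ≤ Nat.card F) (hT : 8 ≤ Fintype.card T)
  (hn : ¬ SLv F (T → F) ≤ M) {g : (T → F) ≃ₗ[F] (T → F)} (hg : g ∈ M)
include h hq hT hn hg

theorem np_S1 {k : T} (hk : S1 (g (eb k))) (a : T) : S1 (g (eb a)) := by
  by_contra ha
  obtain ⟨l, hl⟩ := hk
  obtain ⟨j, j', h1, h2, h3⟩ := exists_two_of_not_S1 k ha
  obtain ⟨s, hs, c, hc, h4⟩ := h.comp (Equiv.swap k l) (d := 1) k (by simp)
  refine hn (h.sl_le_of_fix hq (by omega) (mul_mem hs hg) (o := k) (a := a) (c := s (g (eb k)) k) ?_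
    ((Equiv.swap k l).injective.ne h1) ?_ ?_)
  · ext i
    by_cases hi : i = k
    · simp [hi]
    · simp [h4, hi, hl _ ((Equiv.swap k l).injective.ne hi |>.trans_eq (Equiv.swap_apply_left k l))]
  all_goals simp only [mul_app, h4, Equiv.swap_apply_self]; split_ifs <;> simp [*]

theorem np_frame {t : (T → F) ≃ₗ[F] (T → F)} (ht : t ∈ M) {k : T} (hk : t (g (eb k)) = g (eb k))
    (a : T) : (∃ c : F, t (g (eb a)) = c • g (eb a)) ∨ g⁻¹ (t (g (eb a))) a = 0 := by
  obtain ⟨b, hb⟩ := np_S1 h hq hT hn (mul_mem (inv_mem hg) (mul_mem ht hg)) (k := k)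
    ⟨k, fun i hi => by rw [mul_app, mul_app, hk, inv_app]; exact Pi.single_eq_of_ne hi _⟩ a
  by_cases hab : a = b
  · subst hab
    refine Or.inl ⟨g⁻¹ (t (g (eb a))) a, ?_⟩
    rw [← map_smul, ← Pi.single_smul, smul_eq_mul, mul_one]
    exact (app_inv g _).symm.trans (congrArg g (eq_single_of hb))
  · exact Or.inr (hb a hab)

variable (hS : ∀ a, ¬ S1 (g (eb a)))

theorem np_two {k i j a l : T} (hij : i ≠ j) (hi : g (eb k) i = 0) (hj : g (eb k) j = 0)
    (ha : g (eb a) i ≠ 0) (hli : l ≠ i) (hlj : l ≠ j) : g (eb a) l = 0 := by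
  classical
  by_contra hl
  have key : ∀ θ : F, θ ≠ 0 → θ ≠ 1 → 1 + (θ - 1) * (g (eb a) i * g⁻¹ (eb i) a) +
      (θ⁻¹ - 1) * (g (eb a) j * g⁻¹ (eb j) a) = 0 := fun θ h0 h1 => by
    obtain ⟨t, ht, h2⟩ := h.tor hij h0
    rcases np_frame h hq hT hn hg ht (k := k) (by simp [h2, hi, hj]) a with ⟨c, hc⟩ | h3
    · have h3 := congrFun hc l
      have h4 := congrFun hc i
      simp [h2, hli, hlj, hij] at h3 h4
      grind
    · simpa [h2, mul_assoc, ← inv_app] using h3
  obtain ⟨a, ha⟩ := exists_not_mem_card (F := F) (n := 2) (by omega) {0, 1} Finset.card_le_two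
  obtain ⟨b, hb⟩ := exists_not_mem_card (F := F) (n := 3) (by omega) {0, 1, a} Finset.card_le_three
  obtain ⟨c, hc⟩ := exists_not_mem_card (F := F) (n := 4) (by omega) {0, 1, a, b} Finset.card_le_four
  simp only [Finset.mem_insert, Finset.mem_singleton, not_or] at ha hb hc
  have := key a ha.1 ha.2
  have := key b hb.1 hb.2.1
  have := key c hc.1 hc.2.1
  grind

include hS

theorem np_zero {k i j : T} (hij : i ≠ j) (hi : g (eb k) i = 0) : g (eb k) j ≠ 0 := fun hj => by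
  obtain ⟨a, ha⟩ := exists_col g i
  obtain ⟨l, hl⟩ := exists_not_mem_idx {i, j} Finset.card_le_two (by omega)
  obtain ⟨l', hl'⟩ := exists_not_mem_idx {i, j, l} Finset.card_le_three (by omega)
  obtain ⟨l'', hl''⟩ := exists_not_mem_idx {i, j, l, l'} Finset.card_le_four (by omega)
  simp only [Finset.mem_insert, Finset.mem_singleton, not_or] at hl hl' hl''
  have h1 := fun l => np_two h hq hT hn hg (l := l) hij hi hj ha
  obtain ⟨b, hb⟩ := exists_col g l
  refine hS b ⟨l, fun p hp => ?_⟩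
  by_cases hp' : p = l'
  · exact np_two h hq hT hn hg (Ne.symm hl''.2.2.1) (h1 l hl.1 hl.2) (h1 l'' hl''.1 hl''.2.1) hb hp
      (hp' ▸ Ne.symm hl''.2.2.2)
  · exact np_two h hq hT hn hg (Ne.symm hl'.2.2) (h1 l hl.1 hl.2) (h1 l' hl'.1 hl'.2.1) hb hp hp'

theorem np_full (k : T) : ∃ i, g (eb k) i = 0 := by
  by_contra! hx
  obtain ⟨a, ha⟩ := exists_not_mem_idx {k} (n := 1) (by simp) (by omega)
  rw [Finset.mem_singleton] at ha
  obtain ⟨ξ, hξ⟩ : ∃ ξ : T → F, ∀ j, g (eb a) j = g (eb k) j * ξ j :=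
    ⟨fun j => g (eb a) j / g (eb k) j, fun j => (mul_div_cancel₀ _ (hx j)).symm⟩
  obtain ⟨φ, hφ⟩ : ∃ φ : Dual F (T → F), ∀ y, φ y = g⁻¹ y a := ⟨dc (pb a) g⁻¹, fun _ => rfl⟩
  have hk : φ (g (eb k)) = 0 := by rw [hφ, inv_app]; exact Pi.single_eq_of_ne ha _
  have h1 : φ (fun j => g (eb k) j * ξ j) = 1 := by
    rw [hφ, ← funext hξ, inv_app]; exact Pi.single_eq_same _ _
  have key : ∀ s : Finset T, s.card ≤ 6 → ∀ σ : Equiv.Perm T, Equiv.Perm.sign σ = 1 →
      (∀ p ∉ s, σ p = p) → ∀ i, ξ (σ i) ≠ ξ i → φ (fun j => g (eb k) j * ξ (σ j)) = 0 := by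
    intro s hs σ h2 h3 i hi
    obtain ⟨t, ht, h4⟩ := h.mono σ (d := fun j => g (eb k) j / g (eb k) (σ j))
      (fun j => div_ne_zero (hx _) (hx _)) (by
        rw [Finset.prod_div_distrib, Equiv.prod_comp σ (g (eb k)), h2,
          div_self (Finset.prod_ne_zero_iff.2 fun j _ => hx j)]; simp)
    have h5 : t (g (eb a)) = fun j => g (eb k) j * ξ (σ j) := by
      ext j; rw [h4, hξ]; field_simp [hx]
    rcases np_frame h hq hT hn hg ht (k := k) (by ext j; simp [h4, hx]) a with ⟨c, hc⟩ | h6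
    swap
    · rwa [h5, ← hφ] at h6
    obtain ⟨p, hp⟩ := exists_not_mem_idx s hs (by omega)
    obtain ⟨p', hp'⟩ := exists_not_mem_idx (insert p s) (n := 7)
      ((Finset.card_insert_le _ _).trans (by omega)) (by omega)
    rw [Finset.mem_insert, not_or] at hp'
    have h6 := mt (np_zero h hq hT hn hg hS (k := a) hp'.1)
    have h7 := congrFun (h5.symm.trans hc)
    have h8 := h7 p
    have h9 := h7 p'
    have h10 := h7 i
    have := hx i
    simp only [Pi.smul_apply, smul_eq_mul, h3 p hp, h3 p' hp'.2] at h8 h9 h10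
    rw [← hξ] at h8 h9
    rw [hξ] at h10
    have h11 : c = 1 := by grind
    exact absurd (mul_left_cancel₀ (hx i) (by rw [h10, h11, one_mul])) hi
  have h2 : ∀ i j i' j', ξ i ≠ ξ j → ξ i' ≠ ξ j' → i ≠ i' → i ≠ j' → j ≠ i' → j = j' := by
    intro i j i' j' h2 h3 h4 h5 h6
    by_contra h7
    have h8 : i ≠ j := fun h => h2 (h ▸ rfl)
    have h9 : i' ≠ j' := fun h => h3 (h ▸ rfl)
    obtain ⟨l, hl⟩ := exists_not_mem_idx {i, j, i', j'} Finset.card_le_four (by omega)
    obtain ⟨l', hl'⟩ := exists_not_mem_idx {i, j, i', j', l} Finset.card_le_five (by omega)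
    simp only [Finset.mem_insert, Finset.mem_singleton, not_or] at hl hl'
    have h10 := key {i, j, l, i', j', l'} Finset.card_le_six
    have h11 := h10 (Equiv.swap i j * Equiv.swap j l) (by simp [h8, Ne.symm hl.2.1])
      (fun p hp => by simp_all [Equiv.swap_apply_def]) i (by simp [Equiv.swap_apply_def]; grind)
    have h12 := h10 (Equiv.swap i' j' * Equiv.swap j' l') (by simp [h9, Ne.symm hl'.2.2.2.1])
      (fun p hp => by simp_all [Equiv.swap_apply_def]) i' (by simp [Equiv.swap_apply_def]; grind)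
    have h13 := h10 (Equiv.swap i j * Equiv.swap j l * (Equiv.swap i' j' * Equiv.swap j' l'))
      (by simp [h8, h9, Ne.symm hl.2.1, Ne.symm hl'.2.2.2.1])
      (fun p hp => by simp_all [Equiv.swap_apply_def]) i (by simp [Equiv.swap_apply_def]; grind)
    have h14 : (fun p => g (eb k) p * ξ p) + (fun p => g (eb k) p * ξ ((Equiv.swap i j * Equiv.swap j l *
        (Equiv.swap i' j' * Equiv.swap j' l')) p)) = (fun p => g (eb k) p *
        ξ ((Equiv.swap i j * Equiv.swap j l) p)) + fun p => g (eb k) p *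
        ξ ((Equiv.swap i' j' * Equiv.swap j' l') p) := by
      ext p; simp only [Pi.add_apply, Equiv.Perm.mul_apply, Equiv.swap_apply_def]; grind
    have h15 := congrArg φ h14
    rw [map_add, map_add, h1, h11, h12, h13] at h15
    simp at h15
  obtain ⟨i, γ, h3⟩ : ∃ i γ, ∀ j, j ≠ i → ξ j = γ := by
    by_cases h3 : ∀ i j, ξ i = ξ j
    · exact ⟨k, ξ k, fun j _ => h3 j k⟩
    push Not at h3
    obtain ⟨i, j, h3⟩ := h3
    obtain ⟨p, hp⟩ := exists_not_mem_idx {i, j} Finset.card_le_two (by omega)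
    obtain ⟨p', hp'⟩ := exists_not_mem_idx {i, j, p} Finset.card_le_three (by omega)
    simp only [Finset.mem_insert, Finset.mem_singleton, not_or] at hp hp'
    have h4 : ∀ l, l ≠ i → l ≠ j → ξ l = ξ p := fun l h4 h5 => by_contra fun h6 =>
      hp.2 (h2 i j l p h3 h6 h4.symm (Ne.symm hp.1) h5.symm).symm
    by_cases h5 : ξ j = ξ p
    · exact ⟨i, ξ p, fun l hl => by by_cases h6 : l = j; exacts [h6 ▸ h5, h4 l hl h6]⟩
    refine ⟨j, ξ p, fun l hl => ?_⟩
    by_cases h6 : l = i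
    · by_contra h7
      exact hp'.2.2 (h2 i p j p' (h6 ▸ h7) (h4 p' hp'.1 hp'.2.1 ▸ h5) (fun h => h3 (h ▸ rfl))
        (Ne.symm hp'.1) hp.2).symm
    exact h4 l h6 hl
  have h4 : ∀ (σ : Equiv.Perm T) j, σ j = i → (fun p => g (eb k) p * ξ (σ p)) =
      γ • g (eb k) + ((ξ i - γ) * g (eb k) j) • eb j := fun σ j hj => by
    ext p
    by_cases hp : p = j
    · simp [hp, hj]; ring
    · simp [hp, h3 _ (hj ▸ σ.injective.ne hp), mul_comm]
  have h5 : ξ i ≠ γ := fun h5 => by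
    have h6 := h4 1 i rfl
    simp only [Equiv.Perm.one_apply] at h6
    simp [h6, h5, hk] at h1
  have h6 := apply_eq_of_supp (φ := φ) (b := i) fun j hj => by
    obtain ⟨l, hl⟩ := exists_not_mem_idx {i, j} Finset.card_le_two (by omega)
    simp only [Finset.mem_insert, Finset.mem_singleton, not_or] at hl
    have h6 : (Equiv.swap j i * Equiv.swap i l) j = i := by simp [Equiv.swap_apply_def]; grind
    have h7 := key {i, j, l} (Finset.card_le_three.trans (by omega)) (Equiv.swap j i * Equiv.swap i l)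
      (by simp [hj, Ne.symm hl.1]) (fun p hp => by simp_all [Equiv.swap_apply_def]) j
      (by rw [h6, h3 j hj]; exact h5)
    rw [h4 _ j h6] at h7
    simpa [hk, sub_eq_zero, h5, hx] using h7
  have h7 := h6 (g (eb k))
  have h8 := h6 fun j => g (eb k) j * ξ j
  simp only [hk, h1] at h7 h8
  have := hx i
  grind

end np

theorem OvM.sl_le_one [Finite F] (h : OvM M) (hq : 5 ≤ Nat.card F) (hT : 8 ≤ Fintype.card T)
    {g : (T → F) ≃ₗ[F] (T → F)} (hg : g ∈ M) (hg' : ¬ Mono g) : SLv F (T → F) ≤ M := by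
  classical
  by_contra hn
  have : Nonempty T := Fintype.card_pos_iff.1 (by omega)
  obtain ⟨i⟩ := this
  have hS : ∀ a, ¬ S1 (g (eb a)) := fun a ha => hg' fun b =>
    (np_S1 h hq hT hn hg ha b).imp fun j hj w k hk => by
      rw [← mul_one w, ← smul_eq_mul, Pi.single_smul, map_smul, Pi.smul_apply, hj k hk, smul_zero]
  let Z : (T → F) → T → Prop := fun x z => x z = 0 ∧ ∀ i, i ≠ z → x i ≠ 0
  let Ω : (T → F) → Prop := fun x => ∃ g ∈ M, ∃ k, x = g (eb k)
  have h1 : ∀ x, Ω x → S1 x ∨ ∃ z, Z x z := by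
    rintro _ ⟨g, hg, k, rfl⟩
    refine or_iff_not_imp_left.2 fun h1 => ?_
    have h2 := fun a ha => h1 (np_S1 h hq hT hn hg (k := a) ha k)
    obtain ⟨z, hz⟩ := np_full h hq hT hn hg h2 k
    exact ⟨z, hz, fun i hi => np_zero h hq hT hn hg h2 hi.symm hz⟩
  have h2 : ∀ g ∈ M, ∀ x, Ω x → Ω (g x) := by
    rintro g hg _ ⟨g', hg', k, rfl⟩
    exact ⟨g * g', mul_mem hg hg', k, rfl⟩
  have h3 : ∀ y z, Z y z → Ω y := fun y z hy => by
    obtain ⟨p, hp⟩ := (h1 _ ⟨g, hg, i, rfl⟩).resolve_left (hS i)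
    have h3 : ∀ j, j ≠ z → g (eb i) (Equiv.swap p z j) ≠ 0 := fun j hj =>
      hp.2 _ ((Equiv.swap p z).injective.ne hj |>.trans_eq (Equiv.swap_apply_right p z))
    obtain ⟨s, hs, c, -, h4⟩ := h.comp (Equiv.swap p z) (d := fun j => y j / g (eb i) (Equiv.swap p z j)) z
      fun j hj => div_ne_zero (hy.2 j hj) (h3 j hj)
    refine ⟨s * g, mul_mem hs hg, i, funext fun j => ?_⟩
    by_cases hj : j = z <;> simp [h4, hj, hy.1, hp.1, h3]
  obtain ⟨u, hu⟩ := g.surjective (eb i)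
  obtain ⟨z, hz⟩ := (h1 u ⟨g⁻¹, inv_mem hg, i, (inv_eq_of hu).symm⟩).resolve_left fun ⟨b, hb⟩ =>
    hS b ⟨i, fun l hl => by
    rw [eq_single_of hb, ← mul_one (u b), ← smul_eq_mul, Pi.single_smul, map_smul] at hu
    have h5 : u b ≠ 0 := fun h => by simpa [h] using congrFun hu i
    simpa [hl, h5] using congrFun hu l⟩
  obtain ⟨j, hj, hj'⟩ : ∃ j, j ≠ z ∧ g (eb j) i ≠ 0 := by
    by_contra! h4
    simpa [hz.1, hu] using apply_eq_of_supp (φ := dc (pb i) g) h4 u
  obtain ⟨l, hl⟩ := exists_not_mem_idx {j, z} Finset.card_le_two (by omega)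
  obtain ⟨p, hp⟩ := exists_not_mem_idx {j, l} Finset.card_le_two (by omega)
  obtain ⟨p', hp'⟩ := exists_not_mem_idx {j, l, p} Finset.card_le_three (by omega)
  obtain ⟨r, hr⟩ := exists_not_mem_card (F := F) (n := 2) (by omega) {0, -g (eb l) i / g (eb j) i}
    Finset.card_le_two
  simp only [Finset.mem_insert, Finset.mem_singleton, not_or] at hl hp hp' hr
  obtain ⟨w, hw⟩ : ∃ w, w = g (r • eb j + eb l) := ⟨_, rfl⟩
  have h4 : w i ≠ 0 := by simp [hw]; grind
  obtain ⟨μ, hμ⟩ := exists_not_mem_card (F := F) (n := 4) (by omega)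
    {0, -u l, -u j / r, -1 / w i} Finset.card_le_four
  simp only [Finset.mem_insert, Finset.mem_singleton, not_or] at hμ
  have h5 := h1 _ (h2 g hg _ (h3 (u + μ • (r • eb j + eb l)) z
    ⟨by simp [hz.1, hj.symm, Ne.symm hl.2], fun a ha => by
      have := hz.2 a ha
      simp [Pi.single_apply]; grind⟩))
  rw [map_add, hu, map_smul, ← hw] at h5
  have h6 : ∀ a, (eb i + μ • w : T → F) a = 0 ↔ w a = 0 := fun a => by simp [Pi.single_apply]; grind
  have h7 : Ω w := by
    rcases h5 with ⟨b, hb⟩ | ⟨b, hb⟩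
    · obtain rfl : i = b := by_contra fun h => h4 ((h6 i).1 (hb i h))
      obtain ⟨a, ha⟩ := exists_not_mem_idx {i} (n := 1) (by simp) (by omega)
      rw [Finset.mem_singleton] at ha
      obtain ⟨t, ht, h7⟩ := h.tor (Ne.symm ha) h4
      refine ⟨t, ht, i, funext fun a' => ?_⟩
      by_cases h8 : a' = i <;> simp [h7, h8, ha, fun h => (h6 a').1 (hb a' h)]
    · exact h3 w b ⟨(h6 b).1 hb.1, fun a ha => (h6 a).not.1 (hb.2 a ha)⟩
  have h8 := h1 _ (h2 _ (inv_mem hg) _ h7)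
  rw [hw, inv_app] at h8
  rcases h8 with ⟨b, hb⟩ | ⟨b, hb⟩
  · have h9 := hb j
    have h10 := hb l
    simp [hl.1, Ne.symm hl.1, hr.1] at h9 h10
    exact hl.1 (h10.trans h9.symm)
  · have h9 := hb.2 p
    have h10 := hb.2 p'
    simp [hp, hp'] at h9 h10
    exact hp'.2.2 (h10.trans h9.symm)

open Cfsg.Geo Matrix

/-- transport of structure for automorphism groups -/
def cjE {V V' : Type*} [AddCommGroup V] [Module F V] [AddCommGroup V'] [Module F V'] (e : V ≃ₗ[F] V') :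
    (V' ≃ₗ[F] V') ≃* (V ≃ₗ[F] V) where
  toFun g := e.trans (g.trans e.symm)
  invFun g := e.symm.trans (g.trans e)
  left_inv _ := by ext; simp
  right_inv _ := by ext; simp
  map_mul' _ _ := by ext; simp

theorem cjE_mem_SLv {V V' : Type*} [AddCommGroup V] [Module F V] [AddCommGroup V'] [Module F V']
    (e : V ≃ₗ[F] V') (g : V' ≃ₗ[F] V') : g ∈ SLv F V' ↔ cjE e g ∈ SLv F V := by
  rw [mem_SLv, mem_SLv, ← LinearMap.det_conj _ e.symm]; rfl

variable {ι : Type} [Fintype ι] [DecidableEq ι] {t m : ℕ} {D : Fin t → Submodule F (ι → F)}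

theorem exists_dec_coord (hD : IsMDecomposition m D) (W : Type*) [AddCommGroup W] [Module F W]
    [FiniteDimensional F W] (hW : finrank F W = m) : ∃ e : (Fin t → W) ≃ₗ[F] (ι → F),
      ∀ i v, v ∈ D i ↔ ∀ k, k ≠ i → e.symm v k = 0 := by
  have f := fun i => LinearEquiv.ofFinrankEq W (D i) (hW.trans (hD.finrank_eq i).symm)
  let L : (Fin t → W) →ₗ[F] (ι → F) := ∑ i, (D i).subtype ∘ₗ (f i).toLinearMap ∘ₗ LinearMap.proj i
  have h2 : ∀ i w, L (Pi.single i w) = f i w := fun i w => by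
    simp only [L, LinearMap.sum_apply]
    rw [Finset.sum_eq_single i (fun j _ hj => by simp [hj]) (by simp)]; simp
  have h3 : Function.Surjective L := LinearMap.range_eq_top.1 (eq_top_iff.2 (hD.iSup_eq_top ▸ iSup_le
    fun i v hv => ⟨Pi.single i ((f i).symm ⟨v, hv⟩), by simp [h2]⟩))
  have h4 : finrank F (Fin t → W) = finrank F (ι → F) := by
    simp [finrank_pi_fintype, hW, hD.h26_card]
  let e := LinearEquiv.ofBijective L ⟨(LinearMap.injective_iff_surjective_of_finrank_eq_finrank h4).2 h3, h3⟩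
  refine ⟨e, fun i v => ⟨fun hv k hk => ?_, fun hv => ?_⟩⟩
  · rw [show e.symm v = Pi.single i ((f i).symm ⟨v, hv⟩) from e.symm_apply_eq.2
      ((h2 _ _).trans (by simp)).symm,
      Pi.single_eq_of_ne hk]
  · rw [← e.apply_symm_apply v, eq_single_of hv]
    exact h2 i _ ▸ (f i _).2

theorem dec_max_of (hD : IsMDecomposition m D) (W : Type*) [AddCommGroup W] [Module F W]
    [FiniteDimensional F W] (hW : finrank F W = m) (hne : ¬ specialLinear ι F ≤ decompositionStabilizer D)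
    (h : ∀ M : Subgroup ((Fin t → W) ≃ₗ[F] (Fin t → W)), OvM M → ∀ g ∈ M, ¬ Mono g → SLv F _ ≤ M) :
    IsMaximalIn (specialLinear ι F) (decompositionStabilizer D ⊓ specialLinear ι F) := by
  obtain ⟨e, he⟩ := exists_dec_coord hD W hW
  let φ := (H11.glEquiv ι F).trans (cjE e)
  have h1 : ∀ g, g ∈ specialLinear ι F ↔ φ g ∈ SLv F _ := fun g => (mem_sl_iff g).trans (cjE_mem_SLv e _)
  have h2 : ∀ g, g ∈ decompositionStabilizer D ↔ Mono (φ g) := fun g =>
    ⟨fun ⟨σ, hσ⟩ i => ⟨σ i, fun w => (he _ _).1 (hσ i ▸ ⟨e (Pi.single i w),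
      (he _ _).2 fun k hk => by simp [hk], rfl⟩)⟩,
    fun hg => le_decompositionStabilizer_of_map hD fun i => (hg i).imp fun j hj v hv => (he _ _).2 fun k hk => by
      have := hj (e.symm v i) k hk
      rwa [← eq_single_of ((he _ _).1 hv), show φ g (e.symm v) = e.symm (g.val *ᵥ v) by
        simp [φ, cjE]] at this⟩
  refine MaxP.isMaximalIn (fun M hM _ g hg hg' x hx => ?_) hne
  obtain ⟨y, hy, h3⟩ := h (M.map φ.toMonoidHom) (fun a ha ha' => ⟨φ.symm a, hM
    ⟨(h2 _).2 (by simpa), (h1 _).2 (by simpa)⟩, by simp⟩) _ ⟨g, hg, rfl⟩ (mt (h2 g).2 hg') ((h1 x).1 hx)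
  rwa [← φ.injective h3]

theorem dec_max [Fintype F] (hD : IsMDecomposition m D) (hn : 8 ≤ Fintype.card ι)
    (h1 : ¬ (m = 1 ∧ Fintype.card F ≤ 4)) (h2 : ¬ (m = 2 ∧ Fintype.card F = 2)) :
    IsMaximalIn (specialLinear ι F) (decompositionStabilizer D ⊓ specialLinear ι F) := by
  have h3 := hD.h26_card
  have h4 := hD.pos
  have hne := sl_not_le_decompositionStabilizer hD
  by_cases hm : m = 1
  · subst hm
    exact dec_max_of hD F (by simp) hne fun M hM g => hM.sl_le_one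
      (by rw [Nat.card_eq_fintype_card]; omega) (by simp; omega)
  refine dec_max_of hD (Fin m → F) (by simp) hne fun M hM g => hM.sl_le_big ?_
  by_cases hm2 : m = 2
  · subst hm2
    classical
    obtain ⟨a, ha⟩ := exists_not_mem_card (F := F) (n := 2) (by
      have := Fintype.one_lt_card (α := F); rw [Nat.card_eq_fintype_card]; omega) {0, 1} Finset.card_le_two
    exact Or.inr ⟨by simp, by simp; omega, a, by simpa using ha⟩
  · exact Or.inl (by simp; omega)

end Cfsg.Agent.H26.MX
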