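import Mathlib
import Cfsg.Agent.H26.C3b

/-! Overgroups of tensor product subgroups of the special linear group: root elements. -/

set_option autoImplicit false
set_option maxHeartbeats 400000

namespace Cfsg.Agent.H26.MX

open Module

variable {F : Type*} [Field F]

section gen
variable {X : Type*} [AddCommGroup X] [Module F X] [FiniteDimensional F X]

theorem forall_tv_pair (hX : 2 ≤ finrank F X) {P : X → Dual F X → Prop}
    (h1 : ∀ g ∈ SLv F X, ∀ x φ, P x φ → P (g x) (dc φ g⁻¹)) (h2 : ∀ x φ ψ, P x φ → P x ψ → P x (φ - ψ))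
    (h3 : ∀ x φ (c : F), P x φ → P x (c • φ)) (h4 : ∀ x φ, P x φ → φ x = 0) {x₀ : X} {φ₀ : Dual F X}
    (hx₀ : x₀ ≠ 0) (hφ₀ : φ₀ ≠ 0) (h5 : P x₀ φ₀) {x : X} {φ : Dual F X} (hx : x ≠ 0) (h : φ x = 0) :
    P x φ := by
  obtain ⟨g, hg, rfl⟩ := exists_map_of_tv hX (fun _ _ => tv_SLv) hx₀ hx
  have h6 := h1 g hg _ _ h5
  have h7 := dc_ne_zero hφ₀ g⁻¹
  generalize dc φ₀ g⁻¹ = χ at h6 h7
  by_cases h8 : ∃ c : F, χ = c • φ
  · obtain ⟨c, rfl⟩ := h8
    simpa [show c ≠ 0 by rintro rfl; simp at h7] using h3 _ _ c⁻¹ h6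
  obtain ⟨y, h9, h10⟩ := exists_vec_pair (not_exists.1 h8)
  have h11 := h1 _ (inv_mem (tvE_mem_SLv y φ h10)) _ _ h6
  rw [inv_eq_of (x := g x₀) (by simp [h]), inv_inv] at h11
  convert h2 _ _ _ h11 h6 using 1
  ext; simp [h9]

theorem exists_rank_one (h : 3 ≤ finrank F X ∨ ∃ c : F, c ≠ 0 ∧ c ≠ 1) {𝓔 : Submodule F (End F X)}
    (h1 : ∀ (u : X) (φ : Dual F X), φ u = 0 → ∀ e ∈ 𝓔,
      (1 + φ.smulRight u) * e * (1 - φ.smulRight u) ∈ 𝓔) {e : End F X} (he : e ∈ 𝓔)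
    (h2 : ∀ c : F, e ≠ c • LinearMap.id) :
    ∃ (u : X) (φ : Dual F X), u ≠ 0 ∧ φ ≠ 0 ∧ φ u = 0 ∧ φ.smulRight u ∈ 𝓔 := by
  obtain ⟨u, hu⟩ : ∃ u, LinearIndependent F ![u, e u] := by
    by_contra! h3
    obtain ⟨c, hc⟩ := e.exists_eq_smul_id_of_forall_notLinearIndependent h3
    exact h2 c hc
  have hu0 : u ≠ 0 := hu.ne_zero 0
  obtain ⟨χ, h3, h4⟩ := exists_dual_pair (F := F) (u := u) (x := e u) fun c hc =>
    (LinearIndependent.pair_iff' hu0).1 hu c hc.symm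
  rcases h with h | ⟨c, hc0, hc1⟩
  · obtain ⟨z, -, hz⟩ := exists_not_mem_of_lt (W := Submodule.span F {u, e u}) (U := ⊤) (by
      have := finrank_span_pair_le (F := F) u (e u); rw [finrank_top]; omega)
    obtain ⟨φ, h5, h6⟩ := exists_dual hz
    have h7 := h6 u (Submodule.subset_span (by simp))
    have h8 := h6 (e u) (Submodule.subset_span (by simp))
    have h9 := sub_mem (h1 u φ h7 e he) he
    refine ⟨u, φ, hu0, by rintro rfl; simp at h5, h7, ?_⟩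
    convert sub_mem h9 (h1 u χ h4 _ h9) using 1
    ext x; simp [h3, h4, h7, h8]; module
  · refine ⟨u, χ, hu0, by rintro rfl; simp at h3, h4, ?_⟩
    rw [← 𝓔.smul_mem_iff (mul_ne_zero hc0 (sub_ne_zero.2 hc1))]
    convert sub_mem (𝓔.smul_mem c (sub_mem (h1 u χ h4 e he) he))
      (sub_mem (h1 u (c • χ) (by simp [h4]) e he) he) using 1
    ext x; simp [h3, h4]; module

/-- a pair of members of the family `S` with maximal intersection -/
structure MaxPr (M : Subgroup (X ≃ₗ[F] X)) (S : Set (Submodule F X)) (W W' : Submodule F X) : Prop where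
  inv : ∀ g ∈ M, ∀ U ∈ S, U.map (g : X →ₗ[F] X) ∈ S
  left : W ∈ S
  right : W' ∈ S
  ne : W ≠ W'
  inf : W ⊓ W' ≠ ⊥
  max : ∀ U ∈ S, ∀ U' ∈ S, finrank F ↥(W ⊓ W') < finrank F ↥(U ⊓ U') → U = U'

variable {M : Subgroup (X ≃ₗ[F] X)} {S : Set (Submodule F X)} {W W' : Submodule F X}

omit [FiniteDimensional F X] in
theorem MaxPr.symm (h : MaxPr M S W W') : MaxPr M S W' W :=
  ⟨h.inv, h.right, h.left, h.ne.symm, inf_comm W W' ▸ h.inf, inf_comm W W' ▸ h.max⟩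

omit [FiniteDimensional F X] in
theorem MaxPr.map (h : MaxPr M S W W') {g : X ≃ₗ[F] X} (hg : g ∈ M) :
    MaxPr M S (W.map (g : X →ₗ[F] X)) (W'.map (g : X →ₗ[F] X)) :=
  ⟨h.inv, h.inv g hg _ h.left, h.inv g hg _ h.right,
    (Submodule.map_injective_of_injective g.injective).ne h.ne,
    fun h1 => h.inf ((Submodule.map_eq_bot_iff (e := g)).1 (by rwa [Submodule.map_inf _ g.injective])),
    by simpa [finrank_map_inf] using h.max⟩

theorem MaxPr.stab (h : MaxPr M S W W') {g : X ≃ₗ[F] X} (hg : g ∈ M) (h1 : ∀ y ∈ W, y ∈ W' → g y = y)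
    {x : X} (hx : x ∈ W') (hx' : g x ∉ W) (h2 : g x ∈ W') : ∀ y ∈ W', g y ∈ W' :=
  stab_of_max (h.max _ (h.inv g hg _ h.right) _ h.right) h1 hx hx' h2

theorem MaxPr.key (h : MaxPr M S W W') {t : End F X} (ht : t ∈ Th M W) {x : X} (hx : x ∈ W')
    (hx' : x ∉ W) (h2 : t x ∈ W') : ∀ y ∈ W', t y ∈ W' := fun y hy => by
  obtain ⟨h3, h4, g, hg, h5⟩ := ht
  have := h.stab hg (fun y hy _ => by simp [h5, h4 y hy]) hx
    (by rwa [h5, W.add_mem_iff_left (h3 x)]) (h5 x ▸ add_mem hx h2) y hy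
  rwa [h5, W'.add_mem_iff_right hy] at this

theorem exists_maxPr [Finite X] (h : ∀ g ∈ M, ∀ U ∈ S, U.map (g : X →ₗ[F] X) ∈ S) (hW : W ∈ S)
    (hW' : W' ∈ S) (hne : W ≠ W') (h0 : W ⊓ W' ≠ ⊥) : ∃ U U', MaxPr M S U U' := by
  obtain ⟨U, h1, U', h2, h3, h4, h5⟩ := exists_max_pair hW hW' hne h0
  exact ⟨U, U', h, h1, h2, h3, h4, h5⟩

end gen

variable {A C : Type*} [AddCommGroup A] [Module F A] [AddCommGroup C] [Module F C]

/-- evaluation functional -/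
def ev (φ : Dual F A) (ψ : C) : Dual F (C →ₗ[F] A) := φ ∘ₗ LinearMap.applyₗ ψ

@[simp] theorem ev_apply (φ : Dual F A) (ψ : C) (v : C →ₗ[F] A) : ev φ ψ v = φ (v ψ) := rfl

/-- the elementary endomorphism `e ⊗ (β ⊗ ψ)` -/
def tn (β : Dual F C) (e : End F A) (ψ : C) : End F (C →ₗ[F] A) :=
  (LinearMap.smulRightₗ β) ∘ₗ e ∘ₗ LinearMap.applyₗ ψ

@[simp] theorem tn_apply (β : Dual F C) (e : End F A) (ψ : C) (v : C →ₗ[F] A) :
    tn β e ψ v = β.smulRight (e (v ψ)) := rfl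

/-- the pure tensors with a given second factor -/
def Wt (A : Type*) [AddCommGroup A] [Module F A] (β : Dual F C) : Submodule F (C →ₗ[F] A) :=
  LinearMap.range (LinearMap.smulRightₗ β)

theorem mem_Wt {β : Dual F C} {v : C →ₗ[F] A} : v ∈ Wt A β ↔ ∃ z, β.smulRight z = v := Iff.rfl

theorem sr_mem_Wt (β : Dual F C) (z : A) : β.smulRight z ∈ Wt A β := ⟨z, rfl⟩

theorem sr_inj {β : Dual F C} (h : β ≠ 0) : Function.Injective (LinearMap.smulRightₗ β : A →ₗ[F] _) :=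
  fun z z' hz => by
    obtain ⟨c, hc⟩ := exists_apply_eq_one h
    simpa [hc] using LinearMap.congr_fun hz c

theorem sr_ne_zero {β : Dual F C} (h : β ≠ 0) {z : A} (hz : z ≠ 0) : β.smulRight z ≠ 0 :=
  fun h1 => hz (sr_inj h (h1.trans (map_zero _).symm))

theorem finrank_Wt {β : Dual F C} (h : β ≠ 0) : finrank F (Wt A β) = finrank F A :=
  LinearMap.finrank_range_of_inj (sr_inj h)

/-- `M` contains the transvections of both tensor factors -/
structure OvT (M : Subgroup ((C →ₗ[F] A) ≃ₗ[F] (C →ₗ[F] A))) : Prop where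
  left : ∀ (u : A) (φ : Dual F A), φ u = 0 → ∃ g ∈ M, ∀ v, g v = v + (φ ∘ₗ v).smulRight u
  right : ∀ (ψ : C) (β : Dual F C), β ψ = 0 → ∃ g ∈ M, ∀ v, g v = v + β.smulRight (v ψ)

variable {M : Subgroup ((C →ₗ[F] A) ≃ₗ[F] (C →ₗ[F] A))}

theorem OvT.th (h : OvT M) {β : Dual F C} {ψ : C} (h0 : β ψ = 0) (c : F) :
    c • tn β 1 ψ ∈ Th M (Wt A β) := by
  obtain ⟨g, hg, h1⟩ := h.right (c • ψ) β (by simp [h0])
  refine ⟨fun x => Submodule.smul_mem _ _ (sr_mem_Wt _ _), ?_, g, hg, fun v => by ext; simp [h1, smul_comm c]⟩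
  rintro _ ⟨z, rfl⟩
  ext; simp [h0]

theorem linearMap_eq {α β : Type} [Fintype α] [Fintype β] [DecidableEq β] (a : Basis α F A)
    (b : Basis β F C) (i : α) (j : β) : b.linearMap a (i, j) = (b.coord j).smulRight (a i) :=
  b.ext fun m => by simp [Basis.linearMap_apply_apply, Finsupp.single_apply, eq_comm]

variable [FiniteDimensional F A] [FiniteDimensional F C]

theorem OvT.sl_left (h : OvT M) {a : A ≃ₗ[F] A} (ha : a ∈ SLv F A) :
    ∃ g ∈ M, ∀ v, g v = (a : A →ₗ[F] A) ∘ₗ v := by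
  let N : Subgroup (A ≃ₗ[F] A) :=
    { carrier := {a | ∃ g ∈ M, ∀ v, g v = (a : A →ₗ[F] A) ∘ₗ v}
      one_mem' := ⟨1, M.one_mem, fun _ => rfl⟩
      mul_mem' := by
        rintro _ _ ⟨a, ha, h1⟩ ⟨b, hb, h2⟩
        exact ⟨a * b, mul_mem ha hb, fun x => by rw [mul_app, h1, h2]; rfl⟩
      inv_mem' := by
        rintro _ ⟨a, ha, h1⟩
        exact ⟨a⁻¹, inv_mem ha, fun x => inv_eq_of (by ext; simp [h1])⟩ }
  exact sl_le_of_full (M := N) (fun u φ hφ => ⟨hφ, h.left u φ hφ⟩) ha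

theorem OvT.sl_right (h : OvT M) {a : C ≃ₗ[F] C} (ha : a ∈ SLv F C) :
    ∃ g ∈ M, ∀ v, g v = v ∘ₗ (a.symm : C →ₗ[F] C) := by
  let N : Subgroup (C ≃ₗ[F] C) :=
    { carrier := {a | ∃ g ∈ M, ∀ v, g v = v ∘ₗ (a.symm : C →ₗ[F] C)}
      one_mem' := ⟨1, M.one_mem, fun _ => rfl⟩
      mul_mem' := by
        rintro _ _ ⟨a, ha, h1⟩ ⟨b, hb, h2⟩
        exact ⟨a * b, mul_mem ha hb, fun x => by rw [mul_app, h1, h2]; rfl⟩
      inv_mem' := by
        rintro _ ⟨a, ha, h1⟩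
        exact ⟨a⁻¹, inv_mem ha, fun x => inv_eq_of (by
          rw [h1]; exact LinearMap.ext fun c => congrArg x (app_inv _ c))⟩ }
  refine sl_le_of_full (M := N) (fun u φ hφ => ⟨hφ, ?_⟩) ha
  obtain ⟨g, hg, h1⟩ := h.right u (-φ) (by simp [hφ])
  exact ⟨g, hg, fun v => by ext; simp [h1, tvE, unip, sub_eq_add_neg]⟩

theorem OvT.sl_le_of_tv (h : OvT M) (hA : 2 ≤ finrank F A) (hC : 3 ≤ finrank F C) {u : A}
    {φ : Dual F A} {β : Dual F C} {ψ : C} (hu : u ≠ 0) (hφ : φ ≠ 0) (hβ : β ≠ 0) (hψ : ψ ≠ 0)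
    (h1 : φ u = 0) (h2 : β ψ = 0) (h3 : ∀ c : F, Tv M (β.smulRight u) (c • ev φ ψ)) :
    SLv F (C →ₗ[F] A) ≤ M := by
  have h4 : ∀ (u : A) (φ : Dual F A) (β : Dual F C) (ψ : C), u ≠ 0 → ψ ≠ 0 → φ u = 0 → β ψ = 0 →
      Tv M (β.smulRight u) (ev φ ψ) := fun u' φ' β' ψ' hu' hψ' h5 h6 => by
    have h7 := (forall_tv_pair (P := fun u φ => φ u = 0 ∧ ∀ c : F, Tv M (β.smulRight u) (c • ev φ ψ))
      hA (fun a ha u φ h7 => ⟨by simpa [← inv_app] using h7.1, fun c => by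
        obtain ⟨g, hg, h8⟩ := h.sl_left ha
        convert (h7.2 c).conj hg using 1
        · ext; simp [h8]
        · refine LinearMap.ext fun v => ?_
          obtain ⟨v, rfl⟩ := g.surjective v
          rw [dc_apply, inv_app]; simp [h8]⟩)
      (fun u φ χ h7 h8 => ⟨by simp [h7.1, h8.1], fun c => by
        convert (h7.2 c).sub (h8.2 c) using 1; ext; simp [mul_sub]⟩)
      (fun u φ d h7 => ⟨by simp [h7.1], fun c => by convert h7.2 (c * d) using 1; ext; simp [mul_assoc]⟩)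
      (fun _ _ h => h.1) hu hφ ⟨h1, h3⟩ hu' h5).2
    simpa using (forall_tv_pair (P := fun ψ β => β ψ = 0 ∧ ∀ c : F, Tv M (β.smulRight u') (c • ev φ' ψ))
      (by omega) (fun a ha ψ β h7 => ⟨by simpa [← inv_app] using h7.1, fun c => by
        obtain ⟨g, hg, h8⟩ := h.sl_right ha
        convert (h7.2 c).conj hg using 1
        · ext; simp [h8]
        · refine LinearMap.ext fun v => ?_
          obtain ⟨v, rfl⟩ := g.surjective v
          rw [dc_apply, inv_app]; simp [h8]⟩)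
      (fun ψ β χ h7 h8 => ⟨by simp [h7.1, h8.1], fun c => by
        convert (h7.2 c).sub_left (h8.2 c) using 1; ext; simp [sub_smul]⟩)
      (fun ψ β d h7 => ⟨by simp [h7.1], fun c => by
        convert Tv.smul_left' (c := d) (by simpa [smul_smul] using h7.2 (d * c)) (h7.2 c).zero using 1
        ext; simp [smul_smul]⟩)
      (fun _ _ h => h.1) hψ hβ ⟨h2, h7⟩ hψ' h6).2 1
  let a := finBasis F A
  let b := finBasis F C
  have h5 : ∀ (c : F) i j k l, i ≠ k → j ≠ l →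
      Tv M ((b.coord j).smulRight (a i)) (c • ev (a.coord k) (b l)) := fun c i j k l h5 h6 =>
    h4 _ (c • a.coord k) _ _ (a.ne_zero i) (b.ne_zero l) (by simp [h5]) (by simp [h6.symm])
  have h6 : ∀ (c : F) i j k l, j ≠ l →
      Tv M ((b.coord j).smulRight (a i)) (c • ev (a.coord k) (b l)) := fun c i j k l h6 => by
    by_cases h7 : i = k
    swap
    · exact h5 c i j k l h7 h6
    obtain ⟨i', hi'⟩ := Fintype.exists_ne_of_one_lt_card (by simpa) i
    obtain ⟨j', -, hj'⟩ := Finset.exists_mem_notMem_of_card_lt_card (s := {j, l}) (t := Finset.univ)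
      (Finset.card_le_two.trans_lt (by simpa))
    simp only [Finset.mem_insert, Finset.mem_singleton, not_or] at hj'
    simpa using (h5 1 i j i' j' hi'.symm (Ne.symm hj'.1)).comm (h5 c i' j' k l (h7 ▸ hi') hj'.2)
      (by simp [h6.symm])
  refine sl_le_of_basis (b.linearMap a) fun ⟨i, j⟩ ⟨k, l⟩ hne c => ?_
  rw [linearMap_eq, show (b.linearMap a).coord (k, l) = ev (a.coord k) (b l) from
    (b.linearMap a).ext fun ⟨m, n⟩ => by
      rw [Basis.coord_apply, Basis.repr_self, linearMap_eq]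
      by_cases h : n = l <;> simp [Finsupp.single_apply, h, eq_comm (a := l)]]
  by_cases h7 : j = l
  swap
  · exact h6 c i j k l h7
  obtain ⟨j', hj'⟩ := Fintype.exists_ne_of_one_lt_card (by simp; omega) j
  simpa using (h6 1 i j k j' hj'.symm).comm (h6 c k j' k l (h7 ▸ hj'))
    (by simp [show i ≠ k from fun h => hne (Prod.ext h h7)])

theorem ext_sr {Y : Type*} [AddCommGroup Y] [Module F Y] {f g : (C →ₗ[F] A) →ₗ[F] Y}
    (h : ∀ (β : Dual F C) (z : A), f (β.smulRight z) = g (β.smulRight z)) : f = g :=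
  ((finBasis F C).linearMap (finBasis F A)).ext fun ⟨i, j⟩ => by
    rw [linearMap_eq, h]

theorem OvT.sl_le_of_th (h : OvT M) (hA : 2 ≤ finrank F A) (hC : 3 ≤ finrank F C)
    (hq : 3 ≤ finrank F A ∨ ∃ c : F, c ≠ 0 ∧ c ≠ 1) {β : Dual F C} (hβ : β ≠ 0) {t : End F (C →ₗ[F] A)}
    (ht : ∀ c : F, c • t ∈ Th M (Wt A β)) (h0 : t ≠ 0) {w : C →ₗ[F] A} (hw : w ∈ Wt A β)
    (hw' : ∀ v, t v ≠ w) : SLv F (C →ₗ[F] A) ≤ M := by
  have ht1 : t ∈ Th M (Wt A β) := by simpa using ht 1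
  obtain ⟨c₀, hc₀⟩ := exists_apply_eq_one hβ
  have h1 : ∀ v, t v = β.smulRight (t v c₀) := fun v => by
    obtain ⟨z, hz⟩ := mem_Wt.1 (ht1.1 v)
    simp [← hz, hc₀]
  obtain ⟨γ, hγ⟩ : ∃ γ : Dual F C, ∀ c : F,
      LinearMap.applyₗ c₀ ∘ₗ t ∘ₗ LinearMap.smulRightₗ γ ≠ c • (LinearMap.id : End F A) := by
    by_contra! h2
    refine h0 (ext_sr fun γ z => ?_)
    obtain ⟨c, hc⟩ := h2 γ
    replace hc : ∀ z, t (γ.smulRight z) c₀ = c • z := LinearMap.congr_fun hc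
    obtain ⟨y, rfl⟩ := hw
    have : c = 0 := by_contra fun h3 => hw' (γ.smulRight (c⁻¹ • y)) (by rw [h1, hc]; simp [h3])
    rw [h1, hc]; ext; simp [this]
  obtain ⟨ψ, ⟨⟨-, h2⟩, h3⟩, hψ⟩ := exists_not_mem_of_lt (W := ⊥)
    (U := ⊤ ⊓ LinearMap.ker β ⊓ LinearMap.ker γ) (by
      have := finrank_le_inf_ker ⊤ β
      have := finrank_le_inf_ker (⊤ ⊓ LinearMap.ker β) γ
      rw [finrank_top] at *; rw [finrank_bot]; omega)
  replace h2 : β ψ = 0 := h2
  let 𝓔 : Submodule F (End F A) :=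
    { carrier := {e | ∀ c : F, c • tn β e ψ ∈ Th M (Wt A β)}
      add_mem' := fun ha hb c => by convert add_mem (ha c) (hb c) using 1; ext; simp
      zero_mem' := fun c => by convert (Th M (Wt A β)).zero_mem; ext; simp
      smul_mem' := fun d _ ha c => by convert ha (c * d) using 1; ext; simp; module }
  obtain ⟨u, φ, hu, hφ, h4, h5⟩ := exists_rank_one hq (𝓔 := 𝓔) (fun u φ h4 e he c => by
      obtain ⟨g, hg, h5⟩ := h.left u φ h4
      refine Th.conj hg (he c) ?_ ?_ fun v => by ext; simp [h5, h4]; module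
      · rintro _ ⟨z, rfl⟩
        exact ⟨z + φ z • u, by ext; simp [h5, smul_smul]⟩
      · rintro _ ⟨z, rfl⟩
        exact ⟨z - φ z • u, (inv_eq_of (by ext; simp [h5, h4, smul_smul, smul_sub])).symm⟩)
    (fun c => by
      obtain ⟨g, hg, h5⟩ := h.right ψ γ h3
      have h6 : ∀ x ∈ Wt A β, g x = x := by rintro _ ⟨z, rfl⟩; ext; simp [h5, h2]
      convert sub_mem (Th.conj (b := c • t * (g : End F _)) (inv_mem hg) (ht c)
        (fun x hx => (inv_eq_of (h6 x hx)).symm ▸ hx) (fun x hx => (h6 x hx).symm ▸ hx) fun v => by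
          rw [inv_eq_of (h6 _ ((ht c).1 v))]; simp) (ht c) using 1
      refine LinearMap.ext fun v => ?_
      simp [h5, ← h1]) hγ
  exact h.sl_le_of_tv hA hC hu hφ hβ hψ h4 h2 fun c => Th.tv (h5 c) (fun v => by ext; simp [smul_smul]; ring_nf)
    (sr_ne_zero hβ hu)

end Cfsg.Agent.H26.MX
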