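import Mathlib
import Cfsg.Agent.H26.C3c
import Cfsg.Agent.H26.C4a
import Cfsg.Agent.H10.Mx11
import Cfsg.Agent.H10.MxB

/-! Forms over an extension field; the unitary subgroups of symplectic and orthogonal groups. -/

set_option autoImplicit false
set_option maxHeartbeats 400000

namespace Cfsg.Agent.H26.MX

open Module H10 H11

variable {F : Type*} [Field F] {V : Type*} [AddCommGroup V] [Module F V]
  {E : Type*} [Field E] [Algebra F E] [Module E V] [IsScalarTower F E V] {σ : E →+* E}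
  {B : V →ₗ[F] V →ₗ[F] F} {M : Subgroup (V ≃ₗ[F] V)}

local notation "𝔱" => Algebra.trace F E

theorem exists_lift [Finite E] (h : ∀ (k : E) x y, B (k • x) y = B x (σ k • y)) :
    ∃ b : V →ₛₗ[σ] V →ₗ[E] E, ∀ x y, 𝔱 (b x y) = B x y := by
  choose b hb using fun x y : V => exists_trace_eq (F := F) (E := E)
    (B x ∘ₗ (LinearMap.toSpanSingleton E V y).restrictScalars F)
  replace hb : ∀ x y k, 𝔱 (k * b x y) = B x (k • y) := hb
  refine ⟨LinearMap.mk₂'ₛₗ σ (RingHom.id E) b (fun x y z => ?_) (fun c x y => ?_) (fun x y z => ?_)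
    fun c x y => ?_, fun x y => by simpa using hb x y 1⟩ <;> refine trace_ext (F := F) fun k => ?_
  · simp [mul_add, hb]
  · rw [smul_eq_mul, ← mul_assoc, hb, hb, h, smul_smul, mul_comm]
  · simp [mul_add, hb]
  · rw [smul_eq_mul, ← mul_assoc, hb, hb, smul_smul]; rfl

variable {b : V →ₛₗ[σ] V →ₗ[E] E}

theorem lift_sep (h : ∀ x y, 𝔱 (b x y) = B x y) (hB : B.SeparatingLeft) : b.SeparatingLeft :=
  fun x hx => hB x fun y => by rw [← h, hx, map_zero]

theorem lift_symm [Finite E] (h : ∀ x y, 𝔱 (b x y) = B x y) (h1 : ∀ k, 𝔱 (σ k) = 𝔱 k)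
    (h2 : ∀ k, σ (σ k) = k) {ε : F} (h3 : ∀ x y, B y x = ε * B x y) (x y : V) :
    b y x = ε • σ (b x y) := trace_ext (F := F) fun k => by
  rw [← smul_eq_mul, ← map_smul, h, h3, ← h, map_smulₛₗ, mul_smul_comm, map_smul, ← h1]
  simp [h2]

theorem eq_zero_of_lift [Finite E] {η : E} (hη : η ≠ 0) (h : ∀ x y, 𝔱 (η * b x y) = B x y) {x y : V}
    (h1 : ∀ k : E, B x (k • y) = 0) : b x y = 0 := trace_ext (F := F) fun k => by
  have := h1 (k / η)
  rw [← h, map_smul, smul_eq_mul, ← mul_assoc, mul_div_cancel₀ _ hη] at this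
  simp [this]

/-- a quadratic extension with its involution -/
structure Qd (F : Type*) [Field F] [Algebra F E] (σ : E →+* E) : Prop where
  ne : σ ≠ RingHom.id E
  invol : ∀ k, σ (σ k) = k
  alg : ∀ c, σ (algebraMap F E c) = algebraMap F E c
  tr : ∀ k, algebraMap F E (Algebra.trace F E k) = k + σ k

theorem qd_of [Finite E] (hr : finrank F E = 2) (h1 : σ ≠ RingHom.id E)
    (h2 : ∀ c, σ (algebraMap F E c) = algebraMap F E c) : Qd F σ := by
  classical
  have := finite_of_algebra F E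
  let s : E ≃ₐ[F] E := AlgEquiv.ofBijective ⟨σ, h2⟩ (Finite.injective_iff_bijective.1 σ.injective)
  have h3 : s ≠ 1 := fun h => h1 (RingHom.ext fun k => DFunLike.congr_fun h k)
  have h4 : (Finset.univ : Finset (E ≃ₐ[F] E)) = {1, s} := (Finset.eq_univ_of_card _ (by
    rw [Finset.card_pair h3.symm, ← Nat.card_eq_fintype_card, IsGalois.card_aut_eq_finrank, hr])).symm
  refine ⟨h1, fun k => ?_, h2, fun k => by
    rw [trace_eq_sum_automorphisms, h4, Finset.sum_pair h3.symm]; rfl⟩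
  have h5 : s * s ∈ ({1, s} : Finset _) := h4 ▸ Finset.mem_univ _
  simp only [Finset.mem_insert, Finset.mem_singleton, mul_eq_left, h3, or_false] at h5
  exact DFunLike.congr_fun h5 k

theorem Qd.tr_sigma (h : Qd F σ) (k : E) : 𝔱 (σ k) = 𝔱 k :=
  (algebraMap F E).injective (by rw [h.tr, h.tr, h.invol, add_comm])

theorem Qd.fixed [Finite E] (h : Qd F σ) {a : E} (ha : σ a = a) : ∃ c, algebraMap F E c = a := by
  obtain ⟨k, hk⟩ := exists_trace_one (F := F) (E := E)
  exact ⟨𝔱 (a * k), by rw [h.tr, map_mul, ha, ← mul_add, ← h.tr, hk, map_one, mul_one]⟩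

theorem Qd.smul_tr (h : Qd F σ) (k : E) (v : V) : 𝔱 k • v = (k + σ k) • v := by
  rw [← h.tr, algebraMap_smul]

theorem nrmE_rs (g : V ≃ₗ[E] V) : NrmE E (rs F g) := fun k => ⟨k, fun v => map_smul g k v⟩

theorem not_nrmE {g : V ≃ₗ[F] V} {v : V} {k : E} (h1 : g v = v) (h2 : g (k • v) ∉ E ∙ v) :
    ¬ NrmE E g := fun h => by
  obtain ⟨k', hk⟩ := h k
  exact h2 (Submodule.mem_span_singleton.2 ⟨k', by rw [hk, h1]⟩)

theorem nrmE_of_sing [Finite E] [Module.Finite F E] [Module.Finite E V] {ε κ : E} {τ : E →+ E}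
    {q : V → E} (hE : Cl ε κ τ b q) (hm : 7 ≤ finrank E V) {y : V ≃ₗ[F] V}
    (h : ∀ v, q v = 0 → ∀ k : E, y (k • v) ∈ Ln F E (y v)) : NrmE E y := fun k => by
  have : Module.Finite F V := Module.Finite.trans E V
  choose! l hl using fun v hv => mem_Ln.1 (h v hv k)
  have key : ∀ u v, u ≠ 0 → q u = 0 → q v = 0 → b u v = 0 → v ∉ E ∙ u → l u = l v :=
    fun u v hu h1 h2 h3 hv => by
    have h4 := hl (u + v) (by simp [hE.Q_add, h1, h2, h3])
    rw [smul_add, map_add, map_add, ← hl u h1, ← hl v h2, smul_add] at h4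
    have h5 : (l (u + v) - l v) • y v = (l u - l (u + v)) • y u := by
      rw [sub_smul, sub_smul, sub_eq_sub_iff_add_eq_add, add_comm, h4]
    by_cases h6 : l (u + v) - l v = 0
    · rw [h6, zero_smul, eq_comm, smul_eq_zero_iff_left (app_ne_zero y hu)] at h5
      linear_combination h5 + h6
    have h7 : y v ∈ Ln F E (y u) := (Submodule.smul_mem_iff (E ∙ y u) h6).1 (h5 ▸ smul_mem_Ln (F := F) _ _)
    rw [← map_eq_of_le (W := Ln F E u) (g := y) ((finrank_Ln hu).trans (finrank_Ln (app_ne_zero y hu)).symm)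
      (fun x hx => by obtain ⟨j, rfl⟩ := mem_Ln.1 hx; exact h u h1 j), mem_map_iff, inv_app] at h7
    exact absurd h7 hv
  obtain ⟨u, -, hu0, hu⟩ := hE.exists_sing3 (W := ⊤) (by rw [finrank_top]; omega)
  have h1 : ∀ v, q v = 0 → y (k • v) = l u • y v := fun v hv => by
    by_cases h0 : v = 0
    · simp [h0]
    have h2 := hE.form.finrank_perp hE.sep (Submodule.span E {u, v})
    have h3 := finrank_span_pair_le (F := E) u v
    obtain ⟨t, h4, h5, h6⟩ := hE.exists_sing_notMem (W := perp b (Submodule.span E {u, v}))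
      (Z := Submodule.span E {u, v}) (by omega)
    rw [mem_perp_span] at h4
    rw [← hl v hv, key u t hu0 hu h6 (h4 u (by simp)) fun h => h5 (Submodule.span_mono (by simp) h),
      key v t h0 hv h6 (h4 v (by simp)) fun h => h5 (Submodule.span_mono (by simp) h)]
  let S : Submodule E V :=
    { carrier := {v | ∀ j : E, y (k • j • v) = l u • y (j • v)}
      zero_mem' := by simp
      add_mem' := fun ha hb j => by simp [ha j, hb j]
      smul_mem' := fun c x hx j => by simpa only [smul_smul j c] using hx (j * c) }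
  exact ⟨l u, fun v => by simpa using (hE.eq_top_of_sing (S := S) (by omega)
    fun x hx j => h1 _ (hE.sing_smul hx j)).ge (Submodule.mem_top (x := v)) 1⟩

theorem fld_max_of {ι : Type} [Fintype ι] [DecidableEq ι] {φ : E →ₐ[F] Matrix ι ι F}
    {G : Subgroup (GL ι F)} {G' : Subgroup (EV φ ≃ₗ[F] EV φ)} (hG : ∀ g, g ∈ G ↔ gE φ g ∈ G')
    (hne : ∃ g ∈ G', ¬ NrmE E g) (h : ∀ M ≤ G', (∀ g ∈ G', NrmE E g → g ∈ M) → ∀ g ∈ M,
      ¬ NrmE E g → G' ≤ M) : Geo.IsMaximalIn G (Geo.subalgebraNormalizer φ.range ⊓ G) := by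
  refine MaxP.isMaximalIn (fun M hM h1 g hg hg' x hx => ?_) fun hle => ?_
  · obtain ⟨y, hy, h3⟩ := h (M.map (gE φ).toMonoidHom) (by rintro _ ⟨a, ha, rfl⟩; exact (hG a).1 (h1 ha))
      (fun a ha ha' => ⟨(gE φ).symm a, hM ⟨mem_normalizer_of_nrmE (by simpa), (hG _).2 (by simpa)⟩, by simp⟩)
      _ ⟨g, hg, rfl⟩ (mt mem_normalizer_of_nrmE hg') ((hG x).1 hx)
    rwa [← (gE φ).injective h3]
  · obtain ⟨g, hg, hg'⟩ := hne
    exact hg' (by simpa using nrmE_of_mem_normalizer (hle ((hG ((gE φ).symm g)).2 (by simpa))))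

end Cfsg.Agent.H26.MX
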