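import Mathlib
import Cfsg.Agent.H26.F3a

/-! The unitary subgroups of symplectic and orthogonal groups are maximal. -/

set_option autoImplicit false
set_option maxHeartbeats 400000

namespace Cfsg.Agent.H26.MX

open Module H10 H11

variable {F : Type*} [Field F] {V : Type*} [AddCommGroup V] [Module F V]
  {E : Type*} [Field E] [Algebra F E] [Module E V] [IsScalarTower F E V] {σ : E →+* E}
  {B : V →ₗ[F] V →ₗ[F] F} {M : Subgroup (V ≃ₗ[F] V)} {b : V →ₛₗ[σ] V →ₗ[E] E} {Q : V → F}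
  [Finite E] [Module.Finite F E] [Module.Finite E V]

local notation "𝔱" => Algebra.trace F E

theorem su_sp_le (h : Cl (σ := RingHom.id F) (-1) 0 0 B Q) (hq : Qd F σ)
    (hE : Cl 1 1 (trHom σ) b fun x => b x x) {δ : E} (hδ : σ δ = -δ) (hδ0 : δ ≠ 0) (h2 : (2 : F) ≠ 0)
    (ht : ∀ x y, 𝔱 (δ * b x y) = B x y) (hm : 7 ≤ finrank E V) (hM : M ≤ h.Om)
    (hH : ∀ g ∈ h.Om, NrmE E g → g ∈ M) {g : V ≃ₗ[F] V} (hg : g ∈ M) (hg' : ¬ NrmE E g) :
    h.Om ≤ M := by
  have : Module.Finite F V := Module.Finite.trans E V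
  have hM' := hM.trans h.om_le_isom
  have h2' : (2 : E) ≠ 0 := by rw [← map_ofNat (algebraMap F E)]; simpa using h2
  have hI : ∀ s ∈ Isom b fun x => b x x, rs F s ∈ M := fun s hs =>
    hH _ ((mem_om_alt h).2 fun x y => by simp [← ht, hs.1]) (nrmE_rs s)
  have h0 : ∀ {x y}, b x y = 0 → B x y = 0 := fun h => by rw [← ht, h]; simp
  obtain ⟨d, hd⟩ := hq.fixed (a := δ * δ) (by simp [hδ])
  have hd0 : d ≠ 0 := by rintro rfl; simp [hδ0, eq_comm] at hd
  have ea := fun v c x => h.eich_apply (alt_Q h v) (map_zero _) c x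
  have h1 : ∀ v, b v v = 0 → ∀ c, h.eich v 0 c * h.eich (δ • v) 0 (-c / d) ∈ M := fun v hv c => by
    convert hI _ (hE.eich_mem_isom (c := c • (2 * δ)) hv (map_zero _) (by
      simp [Algebra.smul_def, hq.alg, hδ, map_ofNat])) using 1
    ext y
    simp only [mul_app, rs_apply, ea, hE.eich_apply hv (map_zero _), map_zero, LinearMap.zero_apply,
      zero_smul, add_zero, smul_zero, sub_zero, map_sub, map_smul, h0 (x := v) (y := δ • v) (by simp [hv]),
      mul_smul]
    simp only [← ht, hq.smul_tr, ← algebraMap_smul E c, ← algebraMap_smul E (-c / d), map_smulₛₗ,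
      LinearMap.smul_apply, smul_eq_mul, map_mul, map_neg, hδ, map_div₀, hd, Algebra.smul_def]
    match_scalars <;> field_simp <;> ring
  obtain ⟨v, hv, k, hk⟩ : ∃ v, b v v = 0 ∧ ∃ k : E, g (k • v) ∉ Ln F E (g v) := by
    by_contra! h3; exact hg' (nrmE_of_sing hE hm h3)
  have h3 : g (δ • v) ∉ E ∙ g v := fun h3 => hk (by
    have h4 : k • v = (𝔱 k / 2) • v + (𝔱 (k / δ) / 2) • δ • v := by
      simp only [← algebraMap_smul E (_ / 2 : F), map_div₀, hq.tr, hδ, map_ofNat]
      match_scalars; field_simp; ring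
    rw [h4, map_add, map_smul, map_smul]
    exact add_mem (Submodule.smul_mem _ _ (self_mem_Ln _)) (Submodule.smul_mem (Ln F E (g v)) _ h3))
  replace h1 : ∀ c, h.eich (g v) 0 c * h.eich (g (δ • v)) 0 (-c / d) ∈ M := fun c => by
    have := mul_mem (mul_mem hg (h1 v hv c)) (inv_mem hg)
    rwa [← conj_mul, h.conj_eich (hM' hg), h.conj_eich (hM' hg), map_zero] at this
  generalize g v = z at h1 h3
  generalize g (δ • v) = x at h1 h3
  have h4 := hE.form.finrank_perp hE.sep (Submodule.span E {z, x})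
  have h5 := finrank_span_pair_le (F := E) z x
  obtain ⟨u, h6, h7, hu⟩ := hE.exists_sing_notMem (W := perp b (Submodule.span E {z, x}))
    (Z := Submodule.span E {z, x}) (by omega)
  rw [mem_perp_span] at h6
  have h8 := hE.refl (h6 z (by simp))
  have h9 := hE.refl (h6 x (by simp))
  have hu0 : u ≠ 0 := by rintro rfl; simp at h7
  obtain ⟨w, h10, h11⟩ := hE.form.exists_perp_not hE.sep (W := Submodule.span E {z, u}) (x := x) fun h => by
    obtain ⟨a, c, rfl⟩ := Submodule.mem_span_pair.1 h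
    have hc : c ≠ 0 := by rintro rfl; exact h3 (by simp [Submodule.smul_mem, Submodule.mem_span_singleton_self])
    exact h7 (Submodule.mem_span_pair.2 ⟨-a / c, 1 / c, by match_scalars <;> field_simp <;> ring⟩)
  have h12 := h10 u (Submodule.subset_span (by simp))
  have h13 := hE.refl (h10 z (Submodule.subset_span (by simp)))
  have h14 := hE.flip_one h11
  have h15 : ∀ (a : E) (c : F), h.eich x 0 (-c) * h.eich (x + a • u) 0 c ∈ M := fun a c => by
    obtain ⟨e, he⟩ := hE.exists_tau (σ a • w)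
    have h15 := hI _ (hE.eich_mem_isom hu (by simp [h12]) he)
    have := mul_mem (inv_mem (h1 (-c * d))) (mul_mem (mul_mem h15 (h1 (-c * d))) (inv_mem h15))
    rw [← conj_mul, h.conj_eich (hM' h15), h.conj_eich (hM' h15), map_zero, rs_apply, rs_apply,
      hE.eich_of_perp hu (by simp [h12]) _ h8, hE.eich_of_perp hu (by simp [h12]) _ h9, mul_inv_rev] at this
    simpa [h13, h14, hq.invol, hd0, mul_assoc, inv_mul_cancel_left, h.eich_inv (alt_Q h x) (map_zero _)] using this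
  have h16 : ∀ c, h.eich u 0 c ∈ M := fun c => by
    convert mul_mem (h15 1 (c / 2)) (h15 (-1) (c / 2)) using 1
    ext y
    simp [mul_app, ea, alt_self h, h0 h9, h.refl (h0 h9)]
    match_scalars <;> field_simp <;> ring
  have h17 : ∀ p, b p p = 0 → ∀ c, h.eich p 0 c ∈ M := fun p hp c => by
    by_cases hp0 : p = 0
    · rw [hp0, h.eich_zero_left]; exact one_mem _
    obtain ⟨s, hs, rfl⟩ := hE.form.witt_one hE.sep hu0 hp0 (hp.trans hu.symm)
    exact tv_map h hM' (hI s hs) h16 c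
  refine om_le_of_tv h fun v c => ?_
  by_cases hv0 : v = 0
  · rw [hv0, h.eich_zero_left]; exact one_mem _
  obtain ⟨p, -, hp, h18⟩ := hE.exists_sing_not_perp (Cl.nondegOn_top hE.sep)
    (Or.inl (by rw [finrank_top]; omega)) (s := v) (let ⟨y, hy⟩ := hE.exists_ne hv0; ⟨y, trivial, hE.refl_ne hy⟩)
  obtain ⟨p, hp, h19⟩ : ∃ p, b p p = 0 ∧ b p v = b v v / 2 + δ :=
    ⟨σ ((b v v / 2 + δ) / b p v) • p, hE.sing_smul hp _, by
      rw [map_smulₛₗ, hq.invol, LinearMap.smul_apply, smul_eq_mul, div_mul_cancel₀ _ h18]⟩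
  have h20 : σ (b v v) = b v v := by simpa using (hE.symm v v).symm
  simpa using tv_line h hM' (h17 p hp) (h17 (v - p) (by
    simp [hp, h19, hE.symm p v, h20, hδ, map_ofNat]; field_simp; ring)) (fun h21 => by
    have := congrArg (algebraMap F E) h21
    simp [← ht, hq.tr, hp, h19, hδ, h20, map_ofNat] at this
    exact mul_ne_zero h2' (mul_ne_zero hδ0 hδ0) (by linear_combination this)) 1 c

theorem su_o_le (h : Cl (σ := RingHom.id F) 1 2 (AddMonoidHom.id F) B Q) (hq : Qd F σ) (hH : IsHerm b)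
    (hE : Cl 1 1 (trHom σ) b fun x => b x x) (ht : ∀ x y, 𝔱 (b x y) = B x y)
    (hQ : ∀ x, algebraMap F E (Q x) = b x x) (hm : 7 ≤ finrank E V) (hM : M ≤ h.Om)
    (hN : ∀ g ∈ h.Om, NrmE E g → g ∈ M) {g : V ≃ₗ[F] V} (hg : g ∈ M) (hg' : ¬ NrmE E g) :
    h.Om ≤ M := by
  have : Module.Finite F V := Module.Finite.trans E V
  have := finite_of_algebra F E
  have hM' := hM.trans h.om_le_isom
  have hn : 7 ≤ finrank F V := by
    rw [← finrank_mul_finrank F E V]; nlinarith [finrank_pos (R := F) (M := E)]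
  have h0 : ∀ {x y}, b x y = 0 → B x y = 0 := fun h => by rw [← ht, h]; simp
  have hs : ∀ {x}, Q x = 0 ↔ b x x = 0 := by simp [← hQ]
  let f : UIsom b →* Isom B Q := ((rs F).comp (UIsom b).subtype).codRestrict _ fun s =>
    ⟨fun x y => by simp [← ht, s.2.1], fun x => (algebraMap F E).injective (by simp [hQ, s.2.1])⟩
  have hI : ∀ s ∈ hE.Om, rs F s ∈ M := fun s hs => hN _ ((mem_om_quad h (by omega)
    (f ⟨s, hE.om_le_isom hs⟩)).2 (by
      have := Subgroup.mem_map_of_mem f (hH.sisom_perfect_aux hE.sep (Or.inl (by omega))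
        (x := ⟨s, hE.om_le_isom hs⟩) (mem_sisom.2 ((mem_om_herm hH hE).1 hs).2))
      rw [Subgroup.map_commutator] at this
      exact Subgroup.commutator_mono le_top le_top this)) (nrmE_rs s)
  have h1 : ∀ v, b v v = 0 → ∀ k : E, h.eich v (k • v) 0 ∈ M := fun v hv k => by
    convert hI _ (hE.eich_mem_om (c := k - σ k) hv (map_zero _) (by simp [hq.invol])) using 1
    ext y
    simp only [rs_apply, h.eich_apply (hs.2 hv) (h0 (x := v) (y := k • v) (by simp [hv])),
      hE.eich_apply hv (map_zero _), ← ht, hq.smul_tr, one_mul, zero_mul, zero_smul, map_smulₛₗ,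
      LinearMap.smul_apply, smul_eq_mul, map_mul, hq.invol, map_zero, LinearMap.zero_apply]
    module
  have h2 : ∀ g ∈ M, ∀ v, b v v = 0 → ∀ k : E, g (k • v) ∈ h.Arm M (g v) := fun g hg v hv k a => by
    rw [← map_smul, ← smul_assoc]
    exact h.map_mem_ar hM' hg ((h.mem_ar (hs.2 hv)).2 ⟨h0 (by simp [hv]), 0,
      (hs.2 (hE.sing_smul hv _)).symm, h1 v hv _⟩)
  have h3 : ∀ z, z ≠ 0 → b z z = 0 → ∀ x ∈ h.Arm M z, x ∉ E ∙ z → ∀ y, b z y = 0 → y ∈ h.Arm M z :=
    fun z hz0 hz x hx hx' y hy => by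
    have h3 : ∀ u x c, b u u = 0 → b u x = 0 → trHom σ c = b x x → b u z = 0 → b x z = 0 →
        ∀ a ∈ (h.Arm M z).toAddSubgroup, hE.eich u x c a ∈ (h.Arm M z).toAddSubgroup :=
      fun u x c h3 h4 h5 h6 h7 a ha =>
        h.map_mem_arm hM' (hI _ (hE.eich_mem_om h3 h4 h5)) (hE.eich_fix c h6 h7) ha
    by_cases h4 : b z x = 0
    · exact hE.perp_irr hm hz0 (Or.inl hz) h3 hx h4 hx' hy
    have h5 := hE.form.finrank_perp hE.sep (E ∙ z)
    have h6 := finrank_span_one_le (F := E) z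
    obtain ⟨w, h7, h8⟩ := exists_not_mem_of_lt (W := E ∙ z) (U := perp b (E ∙ z)) (by omega)
    replace h7 := h7 z (Submodule.mem_span_singleton_self z)
    obtain ⟨c, hc⟩ := hE.exists_tau w
    refine hE.perp_irr hm hz0 (Or.inl hz) h3 (sub_mem (h3 z w c hz h7 hc hz (hE.refl h7) x hx) hx)
      (by simp [hE.eich_apply hz h7, hz, h7]) (fun h9 => h8 ?_) hy
    obtain ⟨a, ha⟩ := Submodule.mem_span_singleton.1 h9
    rw [hE.eich_apply hz h7] at ha
    exact Submodule.mem_span_singleton.2 ⟨(b w x - c * b z x - a) / b z x, by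
      rw [div_eq_inv_mul, mul_smul, inv_smul_eq_iff₀ h4]; linear_combination (norm := module) -ha⟩
  obtain ⟨v, hv, k, hk⟩ : ∃ v, b v v = 0 ∧ ∃ k : E, g (k • v) ∉ Ln F E (g v) := by
    by_contra! h3; exact hg' (nrmE_of_sing hE hm h3)
  have hv0 : v ≠ 0 := by rintro rfl; simp at hk
  have h4 := h3 _ (app_ne_zero g hv0) (hs.1 (((hM' hg).2 v).trans (hs.2 hv))) _ (h2 g hg v hv k) hk
  obtain ⟨y, h5, h6⟩ : ∃ y, b (g v) y = 0 ∧ b v (g⁻¹ y) ≠ 0 := by
    by_contra! h5
    refine hk (hE.form.mem_of_perp hE.sep (W := E ∙ g v) fun y hy => eq_zero_of_lift one_ne_zero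
      (by simpa using ht) fun j => ?_)
    rw [← app_inv g (j • y), (hM' hg).1]
    exact h0 (by rw [map_smulₛₗ, LinearMap.smul_apply,
      h5 (j • y) (by simp [hy _ (Submodule.mem_span_singleton_self _)]), smul_zero])
  have h7 := h.map_mem_arm (e := v) hM' (one_mem M) rfl (y := g⁻¹ y) fun a => by
    simpa [← inv_app] using h.map_mem_ar hM' (inv_mem hg) (h4 y h5 a)
  rw [one_app] at h7
  have h8 : h.Full M v := h.full_of_ar (hs.2 hv) (fun t h8 => by
    have h9 : ∀ t, B v t = 0 → σ (b v t) = -b v t := fun t h => by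
      have := hq.tr (b v t); rw [ht, h, map_zero] at this; linear_combination -this
    obtain ⟨c, hc⟩ := hq.fixed (a := b v t / b v (g⁻¹ y)) (by
      rw [map_div₀, h9 t h8, h9 _ (h.ar_perp (h.ar_of_arm h7)), neg_div_neg_eq])
    simpa using h.ar_of_arm (add_mem (h3 v hv0 hv _ h7 (fun h => h6 (by
      obtain ⟨a, ha⟩ := Submodule.mem_span_singleton.1 h; simp [← ha, hv])) (t - c • g⁻¹ y) (by
      rw [map_sub, ← algebraMap_smul E, map_smul, hc, smul_eq_mul, div_mul_cancel₀ _ h6, sub_self]))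
      (Submodule.smul_mem _ c h7))) fun c hc => by rw [show c = 0 from hc, h.eich_zero]; exact one_mem _
  obtain ⟨p, hp, h9⟩ := hE.form.exists_partner hE.sep hv hv0
  obtain ⟨m, h10, c, hc, h11⟩ := hH.exists_eichSub_point hE.sep hv hv0 hp (by rintro rfl; simp at h9)
  obtain ⟨j, hj⟩ := exists_trace_one (F := F) (E := E)
  obtain ⟨m', h13, h14⟩ := hH.exists_eichSub_smul hE.sep (a := j / c) hp hv (hE.flip_one h9)
    (div_ne_zero (by rintro rfl; simp at hj) hc) (Or.inl (by omega))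
  rw [hH.eichSub_eq hE.sep] at h10 h13
  refine h.om_le_of_full hM' h8 (h8.map hM' (hI _ (mul_mem ((mem_om_herm hH hE).2 ⟨m'.2.1, mem_sisom.1 h13⟩)
    ((mem_om_herm hH hE).2 ⟨m.2.1, mem_sisom.1 h10⟩)))) ?_
  simp [mul_app, h11, h14, ← ht, h9, mul_div_cancel₀ _ hc, hj]

end Cfsg.Agent.H26.MX
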