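import Mathlib
import Cfsg.Agent.H26.F3b
import Cfsg.Agent.H26.C2d

/-! The unitary subgroups of symplectic and orthogonal groups, in matrices. -/

set_option autoImplicit false
set_option maxHeartbeats 400000

namespace Cfsg.Agent.H26.MX

open Module H10 H11

variable {F : Type*} [Field F] {V : Type*} [AddCommGroup V] [Module F V]
  {E : Type*} [Field E] [Algebra F E] [Module E V] [IsScalarTower F E V]
  {B : V →ₗ[F] V →ₗ[F] F} {Q : V → F} {ε κ : F} {τ : F →+ F}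

local notation "𝔱" => Algebra.trace F E

theorem exists_adj_hom [Nontrivial V] (h : Cl (σ := RingHom.id F) ε κ τ B Q)
    (ha : ∀ k : E, ∃ k' : E, ∀ u v, B (k • u) v = B u (k' • v)) : ∃ σ : E →+* E,
      (∀ k u v, B (k • u) v = B u (σ k • v)) ∧ ∀ c, σ (algebraMap F E c) = algebraMap F E c := by
  choose s hs using ha
  obtain ⟨v, hv⟩ := exists_ne (0 : V)
  have h1 : ∀ k k' : E, (∀ u, B (k • u) v = B u (k' • v)) → s k = k' := fun k k' h1 =>
    smul_left_injective E hv (sub_eq_zero.1 (h.form.separatingRight h.sep fun u => by simp [← hs, h1]))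
  exact ⟨⟨⟨⟨s, h1 _ _ (by simp)⟩, fun a b => h1 _ _ fun u => by rw [mul_smul, hs, hs, smul_smul, mul_comm]⟩,
    h1 _ _ (by simp), fun a b => h1 _ _ fun u => by simp [add_smul, hs]⟩, hs, fun c => h1 _ _ (by simp)⟩

theorem smul_not_mem {σ : E →+* E} (h : ∀ c, σ (algebraMap F E c) = algebraMap F E c) {k : E}
    (hk : σ k ≠ k) {v : V} (hv : v ≠ 0) : k • v ∉ F ∙ v := fun h1 => by
  obtain ⟨c, hc⟩ := Submodule.mem_span_singleton.1 h1
  rw [← algebraMap_smul E] at hc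
  exact hk (by rw [← smul_left_injective E hv hc, h])

theorem sp_not_nrmE [FiniteDimensional F V] (h : Cl (σ := RingHom.id F) (-1) 0 0 B Q) {v : V} {k : E}
    (hk : k • v ∉ F ∙ v) (h1 : ∀ j : E, B (k • v) (j • v) = 0) : ∃ g ∈ h.Om, ¬ NrmE E g := by
  obtain ⟨u, h2, h3⟩ := h.form.exists_perp_not h.sep hk
  refine ⟨h.eich u 0 1, h.eich_mem_om (alt_Q h u) (map_zero _) (alt_Q h 0).symm, not_nrmE (k := k)
    (h.eich_fix _ (h.refl (h2 v (Submodule.mem_span_singleton_self v))) (by simp)) fun h4 => ?_⟩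
  obtain ⟨a, ha⟩ := Submodule.mem_span_singleton.1 h4
  have := congrArg (B (k • v)) ha
  simp [h.eich_apply (alt_Q h u) (map_zero _), h1, h.flip_one h3, h3] at this

theorem mem_om_cjE {σ : F →+* F} {B : V →ₛₗ[σ] V →ₗ[F] F} (h : Cl ε κ τ B Q) {W : Type*} [AddCommGroup W]
    [Module F W] (e : W ≃ₗ[F] V) (g : V ≃ₗ[F] V) : g ∈ h.Om ↔ cjE e g ∈ (h.pullback e).Om := by
  have h1 : ∀ u w c, Q (e u) = 0 → B (e u) (e w) = 0 →
      cjE e (h.eich (e u) (e w) c) = (h.pullback e).eich u w c := fun u w c h1 h2 => by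
    ext x; simp [cjE, h.eich_apply h1 h2, (h.pullback e).eich_apply h1 h2]
  refine ⟨fun hg => h.om_le (M := (h.pullback e).Om.comap (cjE e).toMonoidHom) (fun u w c h2 h3 h4 => ?_) hg,
    fun hg => ?_⟩
  · obtain ⟨u, rfl⟩ := e.surjective u
    obtain ⟨w, rfl⟩ := e.surjective w
    exact (h1 u w c h2 h3).symm.subst (motive := (· ∈ _)) ((h.pullback e).eich_mem_om h2 h3 h4)
  · obtain ⟨x, hx, h2⟩ := (h.pullback e).om_le (M := h.Om.map (cjE e).toMonoidHom)
      (fun u w c h2 h3 h4 => ⟨_, h.eich_mem_om h2 h3 h4, h1 u w c h2 h3⟩) hg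
    rwa [← (cjE e).injective h2]

variable [Finite E] [Module.Finite F E] [Module.Finite E V]

theorem su_sp_max (h : Cl (σ := RingHom.id F) (-1) 0 0 B Q) (hr : finrank F E = 2) (h2 : (2 : F) ≠ 0)
    (ha : ∀ k : E, ∃ k' : E, ∀ u v, B (k • u) v = B u (k' • v))
    (hb : ¬ ∀ (k : E) u v, B (k • u) v = B u (k • v)) (hm : 7 ≤ finrank E V) :
    (∃ g ∈ h.Om, ¬ NrmE E g) ∧ ∀ M ≤ h.Om, (∀ g ∈ h.Om, NrmE E g → g ∈ M) → ∀ g ∈ M,
      ¬ NrmE E g → h.Om ≤ M := by
  have : Module.Finite F V := Module.Finite.trans E V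
  have : Nontrivial V := Module.nontrivial_of_finrank_pos (R := E) (by omega)
  obtain ⟨σ, h3, h4⟩ := exists_adj_hom h ha
  have hq := qd_of hr (fun h => hb (by simpa [h] using h3)) h4
  obtain ⟨b, h5⟩ := exists_lift h3
  obtain ⟨k, hk⟩ := DFunLike.ne_iff.1 hq.ne
  have hδ0 : k - σ k ≠ 0 := sub_ne_zero.2 (Ne.symm hk)
  have hδ : σ (k - σ k) = -(k - σ k) := by simp [hq.invol]
  generalize k - σ k = δ at hδ hδ0
  have h6 : ∀ x y, 𝔱 (δ * (δ⁻¹ • b) x y) = B x y := by simp [hδ0, h5]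
  have hE := clHerm (B := δ⁻¹ • b) ⟨hq.ne, hq.invol, fun x y => by
    simp [lift_symm h5 hq.tr_sigma hq.invol h.symm x y, hδ]⟩ fun x hx => h.sep x fun y => by
      rw [← h6, hx]; simp
  obtain ⟨v, -, hv0, hv⟩ := hE.exists_sing3 (W := ⊤) (by rw [finrank_top]; omega)
  exact ⟨sp_not_nrmE h (smul_not_mem h4 hk hv0) fun j => by
    rw [← h6, map_smul, map_smulₛₗ, LinearMap.smul_apply, hv]; simp,
    fun M hM hH g hg hg' => su_sp_le h hq hE hδ hδ0 h2 h6 hm hM hH hg hg'⟩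

theorem su_o_max (h : Cl (σ := RingHom.id F) 1 2 (AddMonoidHom.id F) B Q) (hr : finrank F E = 2)
    (ha : ∀ k : E, ∃ k' : E, ∀ u v, B (k • u) v = B u (k' • v))
    (hb : ¬ ∀ (k : E) u v, B (k • u) v = B u (k • v)) (hc : ∀ k : E, ∃ c : F, ∀ v, Q (k • v) = c * Q v)
    (hm : 7 ≤ finrank E V) :
    (∃ g ∈ h.Om, ¬ NrmE E g) ∧ ∀ M ≤ h.Om, (∀ g ∈ h.Om, NrmE E g → g ∈ M) → ∀ g ∈ M,
      ¬ NrmE E g → h.Om ≤ M := by
  have : Module.Finite F V := Module.Finite.trans E V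
  have : Nontrivial V := Module.nontrivial_of_finrank_pos (R := E) (by omega)
  obtain ⟨σ, h3, h4⟩ := exists_adj_hom h ha
  have hq := qd_of hr (fun h => hb (by simpa [h] using h3)) h4
  obtain ⟨b, h5⟩ := exists_lift h3
  have hH : IsHerm b := ⟨hq.ne, hq.invol, fun x y => by
    simp [lift_symm h5 hq.tr_sigma hq.invol h.symm x y]⟩
  have hE := clHerm hH (lift_sep h5 h.sep)
  obtain ⟨j, hj⟩ := exists_trace_one (F := F) (E := E)
  obtain ⟨c, h6⟩ := hc j
  obtain ⟨c', h7⟩ := hc (1 + j)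
  have h8 : ∀ x, b x x = algebraMap F E ((c' - 1 - c) * Q x) := fun x => by
    have h8 := h7 x
    rw [add_smul, one_smul, h.Q_add, h6] at h8
    rw [show (c' - 1 - c) * Q x = B x (j • x) by simp at h8; linear_combination -h8, ← h5, hq.tr,
      map_smul, smul_eq_mul, map_mul, hH.symm, ← add_mul, ← hq.tr, hj, map_one, one_mul]
  have h9 : c' - 1 - c = 1 := by
    obtain ⟨x, hx⟩ := exists_ne (0 : V)
    obtain ⟨y, hy⟩ := h.form.exists_right_eq_one h.sep hx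
    have h9 := h8 (x + y)
    rw [hE.Q_add, h.Q_add, h8, h8, trHom_apply, ← hq.tr, h5, hy, ← map_add, ← map_add,
      AddMonoidHom.id_apply] at h9
    linear_combination -(algebraMap F E).injective h9
  simp only [h9, one_mul] at h8
  refine ⟨?_, fun M hM hN g hg hg' => su_o_le h hq hH hE h5 (fun x => (h8 x).symm) hm hM hN hg hg'⟩
  obtain ⟨k, hk⟩ := DFunLike.ne_iff.1 hq.ne
  obtain ⟨v, -, hv0, hv⟩ := hE.exists_sing3 (W := ⊤) (by rw [finrank_top]; omega)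
  have h10 := hE.form.finrank_perp hE.sep (E ∙ v)
  have h11 := finrank_span_one_le (F := E) v
  obtain ⟨u, h12, h13, hu⟩ := hE.exists_sing_notMem (W := perp b (E ∙ v)) (Z := E ∙ v) (by omega)
  replace h12 := hE.refl (h12 v (Submodule.mem_span_singleton_self v))
  have h14 : ∀ (c : F) (j : E), c • u = j • v → c = 0 := fun c j h => by_contra fun h0 => h13
    (Submodule.mem_span_singleton.2 ⟨c⁻¹ • j, by rw [smul_assoc, ← h, inv_smul_smul₀ h0]⟩)
  obtain ⟨w, h15, h16⟩ := h.form.exists_perp_not h.sep (W := Submodule.span F {u, v}) (x := k • v) fun h => by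
    obtain ⟨a, c, h⟩ := Submodule.mem_span_pair.1 h
    rw [h14 a (k - algebraMap F E c) (by rw [sub_smul, ← h]; simp), zero_smul, zero_add] at h
    exact smul_not_mem h4 hk hv0 (Submodule.mem_span_singleton.2 ⟨c, h⟩)
  have h17 : Q u = 0 := by simpa [h8] using hu
  have h18 := h15 u (Submodule.subset_span (by simp))
  refine ⟨h.eich u w (Q w), h.eich_mem_om h17 h18 rfl, not_nrmE (k := k) (h.eich_fix _ (by simp [← h5, h12])
    (h.refl (h15 v (Submodule.subset_span (by simp))))) fun h19 => ?_⟩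
  obtain ⟨a, ha⟩ := Submodule.mem_span_singleton.1 h19
  rw [h.eich_of_perp h17 h18 _ (by simp [← h5, h12]), h.flip_one h16] at ha
  simpa using h14 1 (a - k) (by rw [sub_smul, ha]; simp)

open Matrix Geo

omit [Finite E] [Module.Finite F E] in
theorem mem_om_gE {ι : Type} [Fintype ι] [DecidableEq ι] (φ : E →ₐ[F] Matrix ι ι F)
    {B : (ι → F) →ₗ[F] (ι → F) →ₗ[F] F} {Q : (ι → F) → F} (h : Cl (σ := RingHom.id F) ε κ τ B Q)
    (g : GL ι F) : glEquiv ι F g ∈ h.Om ↔ gE φ g ∈ (h.pullback (EV.eq φ)).Om :=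
  mem_om_cjE h (EV.eq φ) _

theorem su_sp_mat {m : ℕ} (φ : E →ₐ[F] Matrix (Fin m ⊕ Fin m) (Fin m ⊕ Fin m) F) (hm : 7 ≤ m)
    (hr : finrank F E = 2) (h2 : (2 : F) ≠ 0) (ha : IsAdjointClosedFor (sympForm m F) φ.range)
    (hb : ¬ IsSelfAdjointFor (sympForm m F) φ.range) :
    IsMaximalIn (spGL m F) (subalgebraNormalizer φ.range ⊓ spGL m F) := by
  have h1 := EV.finrank_mul φ
  obtain ⟨h2, h3⟩ := su_sp_max (E := E) ((clSp m F).pullback (EV.eq φ)) hr h2 (fun k => by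
      obtain ⟨_, ⟨k', rfl⟩, h3⟩ := ha _ ⟨k, rfl⟩
      simp only [sympForm_eq_spBilin] at h3
      exact ⟨k', h3⟩)
    (fun h2 => hb (by rintro _ ⟨k, rfl⟩ u v; simp only [sympForm_eq_spBilin]; exact h2 k u v))
    (by rw [hr] at h1; simp at h1; omega)
  exact fld_max_of (fun g => (mem_spGL_iff g).trans (mem_om_gE φ _ g)) h2 h3

theorem su_o_mat {n : ℕ} (φ : E →ₐ[F] Matrix (Fin n) (Fin n) F) (hn : 13 ≤ n) {Q : (Fin n → F) → F}
    (hQ : IsNondegenerateQuadraticForm Q) (hr : finrank F E = 2)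
    (ha : IsAdjointClosedFor (QuadraticMap.polar Q) φ.range)
    (hb : ¬ IsSelfAdjointFor (QuadraticMap.polar Q) φ.range)
    (hc : ∀ k ∈ φ.range, ∃ c : F, ∀ v, Q (k *ᵥ v) = c * Q v) :
    IsMaximalIn (omegaGL Q) (subalgebraNormalizer φ.range ⊓ omegaGL Q) := by
  have h1 := EV.finrank_mul φ
  have := finite_of_algebra F E
  obtain ⟨h2, h3⟩ := su_o_max (E := E) ((clO hQ).pullback (EV.eq φ)) hr (fun k => by
      obtain ⟨_, ⟨k', rfl⟩, h3⟩ := ha _ ⟨k, rfl⟩
      exact ⟨k', fun u v => h3 _ _⟩) (fun h2 => hb (by rintro _ ⟨k, rfl⟩ u v; exact h2 k u v))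
    (fun k => hc _ ⟨k, rfl⟩) (by rw [hr] at h1; simp at h1; omega)
  exact fld_max_of (fun g => (mem_omegaGL_iff (clO hQ) (by simp; omega) g).trans (mem_om_gE φ _ g)) h2 h3

end Cfsg.Agent.H26.MX
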