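import Mathlib
import Cfsg.Agent.H26.F3c

/-! The extension field subgroups `Sp_{n/r}(q^r).r` of the symplectic groups are maximal. -/

set_option autoImplicit false
set_option maxHeartbeats 400000

namespace Cfsg.Agent.H26.MX

open Module H10 H11

variable {F : Type*} [Field F] {V : Type*} [AddCommGroup V] [Module F V]
  {E : Type*} [Field E] [Algebra F E] [Module E V] [IsScalarTower F E V]
  {B : V →ₗ[F] V →ₗ[F] F} {M : Subgroup (V ≃ₗ[F] V)} {b : V →ₗ[E] V →ₗ[E] E} {Q : V → F} {q : V → E}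
  [Finite E] [Module.Finite F E] [Module.Finite E V]

local notation "𝔱" => Algebra.trace F E

/-- an overgroup of the symplectic group over the extension field -/
structure OvS (B : V →ₗ[F] V →ₗ[F] F) (Q : V → F) (b : V →ₗ[E] V →ₗ[E] E) (q : V → E)
    (M : Subgroup (V ≃ₗ[F] V)) : Prop where
  cl : Cl (σ := RingHom.id F) (-1) 0 0 B Q
  cl' : Cl (σ := RingHom.id E) (-1) 0 0 b q
  tr : ∀ x y, Algebra.trace F E (b x y) = B x y
  le : M ≤ Isom B Q
  ov : ∀ s ∈ Isom b q, rs F s ∈ M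

variable (o : OvS B Q b q M)
include o

omit [Finite E] [Module.Finite F E] [Module.Finite E V] in
theorem OvS.eich {u w : V} (h : b u w = 0) (c : E) : rs F (o.cl'.eich u w c) ∈ M :=
  o.ov _ (o.cl'.eich_mem_isom (alt_Q o.cl' u) h (alt_Q o.cl' w).symm)

omit [Finite E] [Module.Finite F E] in
theorem OvS.om_le {z : V} (hz : z ≠ 0) (h : ∀ c, o.cl.eich z 0 c ∈ M) : o.cl.Om ≤ M :=
  om_le_of_tv o.cl fun v c => by
    by_cases hv : v = 0
    · rw [hv, o.cl.eich_zero_left]; exact one_mem _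
    obtain ⟨s, hs, rfl⟩ := o.cl'.form.witt_one o.cl'.sep hz hv (by simp [alt_Q o.cl'])
    exact tv_map o.cl o.le (o.ov s hs) h c

theorem OvS.adj (hr : (finrank F E).Prime) {S : Set (Submodule F V)} {v : V} (hv : v ≠ 0)
    {W : Submodule F V} (hd : finrank F W = finrank F E) (hP : MaxPr M S (Ln F E v) W) :
    ∃ ν : Dual F V, (∃ x ∈ W, ν x = 1) ∧ ∀ z ∈ W, ν z = 0 → ∃ t ∈ M, ∀ y ∈ W, t y = y + ν y • z := by
  have : Module.Finite F V := Module.Finite.trans E V
  have h1 := not_Ln_le hP.ne ((finrank_Ln hv).trans hd.symm)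
  have e1 := fun {u} (hu : b v u = 0) c x => o.cl'.eich_apply (alt_Q o.cl' v) hu c x
  have e2 : ∀ {u}, b v u = 0 → ∀ c, ∀ y ∈ Ln F E v, rs F (o.cl'.eich v u c) y = y := fun hu c y hy => by
    obtain ⟨k, rfl⟩ := mem_Ln.1 hy
    exact o.cl'.eich_fix _ (by simp [alt_self o.cl']) (by simp [o.cl'.refl hu])
  have e3 : ∀ {u}, b v u = 0 → ∀ c, ∀ x ∈ W, x ∉ Ln F E v → o.cl'.eich v u c x ∈ W →
      ∀ y ∈ W, o.cl'.eich v u c y ∈ W := fun hu c x hx hx' h => hP.stab (o.eich hu c)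
    (fun y hy _ => e2 hu c y hy) hx (fun h2 => hx' ((rs F _).injective (e2 hu c _ h2) ▸ h2)) h
  suffices ∃ x ∈ W, x ∉ Ln F E v ∧ (∀ y ∈ W, ∃ c : F, y - c • x ∈ Ln F E v) ∧
      ∀ k : E, ∃ u c, b v u = 0 ∧ o.cl'.eich v u c x = x + k • v by
    obtain ⟨x, hx, hx', h2, h3⟩ := this
    obtain ⟨ν, h4, h5⟩ := exists_dual hx'
    have h6 : ∀ y ∈ W, y - ν y • x ∈ Ln F E v := fun y hy => by
      obtain ⟨c, hc⟩ := h2 y hy
      rwa [show ν y = c by simpa [h4, sub_eq_zero] using h5 _ hc]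
    refine ⟨ν, ⟨x, hx, h4⟩, fun z hz h7 => ?_⟩
    obtain ⟨k, rfl⟩ := mem_Ln.1 (show z ∈ Ln F E v by simpa [h7] using h6 z hz)
    obtain ⟨u, c, h8, h9⟩ := h3 k
    refine ⟨_, o.eich h8 c, fun y hy => ?_⟩
    have := e2 h8 c _ (h6 y hy)
    rw [map_sub, map_smul, rs_apply _ x, h9] at this
    linear_combination (norm := module) this
  by_cases h2 : ∀ y ∈ W, b v y = 0
  · obtain ⟨x, hx, hx'⟩ := SetLike.not_le_iff_exists.1 fun h => hP.ne.symm
      (Submodule.eq_of_le_of_finrank_eq h (hd.trans (finrank_Ln hv).symm))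
    have h3 : ∀ u, b v u = 0 → ∀ y ∈ W, o.cl'.eich v u 0 y = y + b u y • v := fun u hu y hy =>
      o.cl'.eich_of_perp (alt_Q o.cl' v) hu _ (h2 y hy)
    refine ⟨x, hx, hx', hyper_of_key hr hP.inf h1 hx' fun φ h4 h5 y hy => ?_, fun k => ?_⟩
    · obtain ⟨u, rfl⟩ := o.cl'.exists_B φ
      have h6 := o.cl'.refl h4
      simpa [h3 u h6 y hy, W.add_mem_iff_right hy] using e3 h6 0 x hx hx' (h3 u h6 x hx ▸ add_mem hx h5) y hy
    · obtain ⟨u, h4, h5⟩ := o.cl'.form.exists_perp_not o.cl'.sep (W := E ∙ v) hx'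
      have h6 : b v (-k • u) = 0 := by simp [h4 v (Submodule.mem_span_singleton_self v)]
      exact ⟨_, 0, h6, by rw [h3 _ h6 x hx]; simp [o.cl'.flip_one h5]⟩
  push Not at h2
  obtain ⟨x, hx, h2⟩ := h2
  have h3 : ∀ y ∈ Ln F E v, b v y = 0 := fun y hy => by
    obtain ⟨k, rfl⟩ := mem_Ln.1 hy; simp [alt_self o.cl']
  have h4 : ∀ k y, o.cl'.eich v 0 (-k / b v x) y = y + (b v y / b v x * k) • v := fun k y => by
    rw [e1 (map_zero _)]; simp only [map_zero, LinearMap.zero_apply]; match_scalars <;> ring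
  refine ⟨x, hx, fun h => h2 (h3 x h), fun y hy => ?_, fun k => ⟨0, -k / b v x, map_zero _, by simp only [h4]; simp [h2]⟩⟩
  obtain ⟨c, hc⟩ := mem_bot_of_mul hr hP.inf h1 (κ := b v y / b v x) fun k hk => by
    simpa [h4, W.add_mem_iff_right hy] using e3 (map_zero _) (-k / b v x) x hx (fun h => h2 (h3 x h))
      (by simpa [h4, h2] using add_mem hx hk) y hy
  refine ⟨c, by_contra fun h5 => h1 fun k => ?_⟩
  have h6 := sub_mem hy (W.smul_mem c hx)
  have h7 : b v (y - c • x) = 0 := by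
    rw [map_sub, ← algebraMap_smul E, map_smul, hc, smul_eq_mul, div_mul_cancel₀ _ h2, sub_self]
  simpa [h4, h2, W.add_mem_iff_right hx] using e3 (map_zero _) (-k / b v x) _ h6 h5 (by simpa [h4, h7]) x hx

omit [Module.Finite E V] [Module.Finite F E] in
theorem OvS.eich_mem {v : V} {m : E} (hm : m ≠ 0) {k : E} {t : V ≃ₗ[F] V} (ht : t ∈ M)
    (h : ∀ j : E, t (j • v) = j • v + 𝔱 (m * j) • k • v) (j : E) :
    o.cl.eich (k • v) (j • v) (-𝔱 (m * j)) ∈ M := by
  have h0 : ∀ i j : E, B (i • v) (j • v) = 0 := by simp [← o.tr, alt_self o.cl']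
  have h5 : ∀ (i : E) x, 𝔱 (i * b v x) = B (i • v) x := by simp [← o.tr]
  have h1 : ∀ x, b v (t⁻¹ x) = b v x + B (k • v) x • m := fun x => trace_ext (F := F) fun i => by
    rw [h5, ← (o.le ht).1, app_inv, h, mul_add, map_add, map_add 𝔱, h5, mul_smul_comm, map_smul B,
      map_smul 𝔱, mul_comm i m]
    simp [mul_comm]
  convert mul_mem (o.eich (u := v) (map_zero _) (j / m)) (mul_mem (mul_mem ht
    (o.eich (u := v) (map_zero _) (-j / m))) (inv_mem ht)) using 1
  ext x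
  have h4 : ∀ c x, o.cl'.eich v 0 c x = x - (c * b v x) • v := fun c x => by
    simp [o.cl'.eich_apply (alt_Q o.cl' v) (map_zero _)]
  rw [mul_app, mul_app, mul_app, rs_apply, rs_apply, h4 _ (t⁻¹ x), map_sub t, app_inv, h, h1, h4,
    show m * (-j / m * (b v x + B (k • v) x • m)) = -(j * b v x) - B (k • v) x • (m * j) by
    simp only [Algebra.smul_def]; field_simp; ring, map_sub 𝔱, map_neg, map_smul 𝔱, h5,
    o.cl.eich_apply (alt_Q o.cl _) (h0 _ _)]
  simp only [← algebraMap_smul E (_ : F) (_ : V), Algebra.smul_def, map_mul, map_neg, map_sub, map_one,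
    map_add, map_smul, alt_self o.cl', Algebra.algebraMap_self_apply]
  match_scalars <;> field_simp <;> ring

theorem OvS.om_le_four (hr : finrank F E = 2) (hq : ∀ c : F, c = 0 ∨ c = 1) (hm : 3 ≤ finrank E V)
    {g : V ≃ₗ[F] V} (hg : g ∈ M) {v : V} {k : E} (hk : g (k • v) ∉ Ln F E (g v)) : o.cl.Om ≤ M := by
  have := finite_of_algebra F E
  have hv : v ≠ 0 := by rintro rfl; simp at hk
  obtain ⟨s, hs⟩ := Fintype.exists_ne_of_one_lt_card (α := E ≃ₐ[F] E) (by
    rw [← Nat.card_eq_fintype_card, IsGalois.card_aut_eq_finrank, hr]; omega) 1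
  have hd := qd_of (σ := (s : E →+* E)) hr (fun h => hs (AlgEquiv.ext fun a => DFunLike.congr_fun h a)) s.commutes
  generalize (s : E →+* E) = σ at hd
  have h1 : (-1 : F) = 1 := (hq _).resolve_left (by simp)
  have h1' : (2 : E) = 0 := by
    have := congrArg (algebraMap F E) h1; rw [map_neg, map_one] at this; linear_combination -this
  have h2 : σ k ≠ k := fun h => hk (by
    obtain ⟨c, rfl⟩ := hd.fixed h
    simpa using Submodule.smul_mem _ c (self_mem_Ln (F := F) (E := E) (g v)))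
  have h3 : σ k = 1 + k := by
    have := hd.tr k
    rcases hq (𝔱 k) with h | h <;> simp only [h, map_zero, map_one] at this
    · exact absurd (by linear_combination -this - k * h1') h2
    · linear_combination -this - k * h1'
  have h4 : k * k = 1 + k := by
    obtain ⟨c, hc⟩ := hd.fixed (a := k * σ k) (by simp [hd.invol, mul_comm])
    rcases hq c with rfl | rfl
    · simp only [map_zero, zero_eq_mul, map_eq_zero, or_self] at hc
      simp [hc] at h2
    · rw [h3, map_one] at hc; linear_combination -hc - k * h1'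
  have h0 : ∀ {x y}, b x y = 0 → B x y = 0 := fun h => by rw [← o.tr, h]; simp
  have ea := fun v c x => o.cl.eich_apply (alt_Q o.cl v) (map_zero _) c x
  have hi : ∀ x, (o.cl.eich x 0 1)⁻¹ = o.cl.eich x 0 1 := fun x => by
    rw [o.cl.eich_inv (alt_Q o.cl x) (map_zero _)]; simp [h1]
  have h5 : ∀ v, o.cl.eich v 0 1 * o.cl.eich (k • v) 0 1 ∈ M := fun v => by
    convert o.eich (u := v) (map_zero _) k using 1
    ext y
    simp only [mul_app, rs_apply, ea, o.cl'.eich_apply (alt_Q o.cl' v) (map_zero _), map_zero,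
      LinearMap.zero_apply, zero_smul, add_zero, smul_zero, sub_zero, map_sub, map_smul, one_mul,
      h0 (x := v) (y := k • v) (by simp [alt_self o.cl'])]
    simp only [← o.tr, hd.smul_tr, map_smul, LinearMap.smul_apply, smul_eq_mul, map_mul, h3]
    match_scalars
    · ring
    · linear_combination (-b v y - σ (b v y)) * h4 - (b v y + (1 + k) * σ (b v y)) * h1'
  have h6 : ∀ u w, B u w = 0 → o.cl.eich u w (-1) = (o.cl.eich (w + u) 0 1)⁻¹ * o.cl.eich w 0 1 :=
    fun u w h => by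
    rw [eq_inv_mul_iff_mul_eq]; ext x
    simp [mul_app, ea, o.cl.eich_apply (alt_Q o.cl u) h, h, o.cl.refl h, alt_self o.cl]; module
  have h7 : ∀ {z x}, o.cl.eich z 0 1 * o.cl.eich x 0 1 ∈ M → ∀ w c, b z w = 0 →
      o.cl.eich z 0 1 * o.cl.eich (o.cl'.eich z w c x) 0 1 ∈ M := fun {z x} h w c hw => by
    have h8 := o.eich hw c
    have := mul_mem (mul_mem h8 h) (inv_mem h8)
    rwa [← conj_mul, o.cl.conj_eich (o.le h8), o.cl.conj_eich (o.le h8), map_zero, rs_apply,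
      o.cl'.eich_fix c (alt_self o.cl' z) (o.cl'.refl hw)] at this
  have h8 : ∀ z x, o.cl.eich z 0 1 * o.cl.eich x 0 1 ∈ M → z ≠ 0 → x ∉ E ∙ z → b z x = 0 → o.cl.Om ≤ M :=
    fun z x h hz hx h8 => by
    obtain ⟨u, h9, h10⟩ := o.cl'.form.exists_perp_not o.cl'.sep hx
    replace h9 := h9 z (Submodule.mem_span_singleton_self z)
    have h11 : ∀ a : E, o.cl.eich z 0 1 * o.cl.eich (x + a • z) 0 1 ∈ M := fun a => by
      simpa [o.cl'.eich_of_perp (alt_Q o.cl' z) (w := -(a • u)) (by simp [h9]) _ h8, o.cl'.flip_one h10]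
        using h7 h (-(a • u)) 0 (by simp [h9])
    have h12 : ∀ a : E, B z (x + a • z) = 0 := fun a => h0 (by simp [h8, alt_self o.cl'])
    have h13 : ∀ a : E, o.cl.eich z (x + a • z) (-1) ∈ M := fun a => by
      simpa [h6 _ _ (h12 a), add_smul, add_assoc, mul_assoc] using mul_mem (inv_mem (h11 (a + 1))) (h11 a)
    have h14 : B z (k • z) = 0 := h0 (by simp [alt_self o.cl'])
    have h15 : o.cl.eich z (k • z) (-1) ∈ M := by
      rw [h6 _ _ h14, show k • z + z = k • k • z by rw [smul_smul, h4]; module, ← hi (k • z), ← mul_inv_rev]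
      exact inv_mem (h5 _)
    refine o.om_le hz fun c => ?_
    rcases hq c with rfl | rfl
    · rw [o.cl.eich_zero]; exact one_mem _
    convert mul_mem (mul_mem (h13 k) (inv_mem (h13 0))) (inv_mem h15) using 1
    rw [o.cl.eich_inv (alt_Q o.cl _) (h12 0), o.cl.eich_inv (alt_Q o.cl _) h14,
      o.cl.eich_mul (alt_Q o.cl _) (h12 k) (by simpa using h12 0),
      o.cl.eich_mul (alt_Q o.cl _) (by simpa using h14) (by simpa using h14)]
    simp [alt_self o.cl, h0 (x := k • z) (y := x) (by simp [h8])]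
  have h9 := mul_mem (mul_mem hg (h5 v)) (inv_mem hg)
  rw [← conj_mul, o.cl.conj_eich (o.le hg), o.cl.conj_eich (o.le hg), map_zero] at h9
  have hz := app_ne_zero g hv
  generalize g v = z at *
  generalize g (k • v) = x at *
  by_cases h10 : b z x = 0
  · exact h8 z x h9 hz hk h10
  have h11 := o.cl'.form.finrank_perp o.cl'.sep (Submodule.span E {z, x})
  have h12 := finrank_span_pair_le (F := E) z x
  obtain ⟨u, h13, hu⟩ := exists_not_mem_of_lt (W := ⊥) (U := perp b (Submodule.span E {z, x})) (by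
    rw [finrank_bot]; omega)
  rw [mem_perp_span] at h13
  obtain ⟨w, c, h14, -, h15⟩ := o.cl'.exists_eich_apply (v' := x + u) (alt_Q o.cl' z)
    (by simp [alt_Q o.cl']) (by simp [h13]) h10
  refine h8 x (x + u) ?_ (by rintro rfl; simp at h10) (fun h => hu ?_) (by simp [h13, alt_self o.cl'])
  · have := mul_mem (inv_mem h9) (h7 h9 w c h14)
    rwa [mul_inv_rev, mul_assoc, inv_mul_cancel_left, hi, h15] at this
  obtain ⟨a, ha⟩ := Submodule.mem_span_singleton.1 h
  have := congrArg (b z) ha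
  simp only [map_smul, map_add, h13 z (by simp), add_zero, smul_eq_mul, mul_eq_right₀ h10] at this
  simpa [this] using ha

theorem OvS.om_le_of_not (hr : (finrank F E).Prime) (hm : 2 ≤ finrank E V) (hn : 5 ≤ finrank F V) {g : V ≃ₗ[F] V} (hg : g ∈ M)
    (hg' : ¬ NrmE E g) : o.cl.Om ≤ M := by
  have : Module.Finite F V := Module.Finite.trans E V
  have : Finite V := Module.finite_of_finite E
  obtain ⟨v, k, hk⟩ : ∃ v, ∃ k : E, g (k • v) ∉ Ln F E (g v) := by
    by_contra! h3; exact hg' (nrmE_of hm h3)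
  have hv : v ≠ 0 := by rintro rfl; simp at hk
  let S : Set (Submodule F V) := {W | ∃ y ∈ M, ∃ v, v ≠ 0 ∧ W = (Ln F E v).map y.toLinearMap}
  obtain ⟨U, U', hP⟩ := exists_maxPr (M := M) (S := S) (W := Ln F E (g v)) (by
    rintro g hg _ ⟨y, hy, β, hβ, rfl⟩
    exact ⟨g * y, mul_mem hg hy, β, hβ, map_map' _ _ _⟩)
    ⟨1, one_mem _, _, app_ne_zero g hv, (Submodule.map_id _).symm⟩ ⟨g, hg, v, hv, rfl⟩
    (fun h => hk (h ▸ ⟨_, smul_mem_Ln k v, rfl⟩)) ((Submodule.ne_bot_iff _).2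
      ⟨g v, ⟨self_mem_Ln _, _, self_mem_Ln _, rfl⟩, app_ne_zero g hv⟩)
  obtain ⟨y, hy, u, hu, rfl⟩ := hP.left
  obtain ⟨y', hy', w, hw, rfl⟩ := hP.right
  have h4 := hP.map (inv_mem hy)
  rw [map_map', map_map', inv_mul_cancel, show (Ln F E u).map (1 : V ≃ₗ[F] _).toLinearMap = _ from
    Submodule.map_id _] at h4
  have h5 := mul_mem (inv_mem hy) hy'
  generalize y⁻¹ * y' = s at h4 h5
  obtain ⟨ν, ⟨_, ⟨x, hx, rfl⟩, h6⟩, h7⟩ := o.adj hr hu ((finrank_map _ s).trans (finrank_Ln hw)) h4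
  obtain ⟨m, h8⟩ := exists_trace_eq (F := F) (E := E)
    (dc ν s ∘ₗ (LinearMap.toSpanSingleton E V w).restrictScalars F)
  replace h8 : ∀ j, 𝔱 (m * j) = ν (s (j • w)) := fun j => by rw [mul_comm]; exact h8 j
  obtain ⟨i, rfl⟩ := mem_Ln.1 hx
  replace h6 : 𝔱 (m * i) = 1 := (h8 i).trans h6
  have hm0 : m ≠ 0 := by rintro rfl; simp at h6
  have h9 : ∀ k, 𝔱 (m * k) = 0 → ∀ j : E, o.cl.eich (k • w) (j • w) (-𝔱 (m * j)) ∈ M := fun k hk => by
    obtain ⟨t, ht, h9⟩ := h7 _ ⟨_, smul_mem_Ln k w, rfl⟩ (h8 k ▸ hk)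
    exact o.eich_mem hm0 (mul_mem (mul_mem (inv_mem h5) ht) h5) (fun j => by
      rw [mul_app, mul_app, h9 (s _) ⟨_, smul_mem_Ln j w, rfl⟩, h8]; exact inv_eq_of (by simp))
  have h0 : ∀ i j : E, B (i • w) (j • w) = 0 := by simp [← o.tr, alt_self o.cl']
  have h10 : ∀ {z y : V} {c c' : F}, B z y = 0 → o.cl.eich z y c ∈ M → o.cl.eich z y c' ∈ M →
      o.cl.eich z 0 (c - c') ∈ M := fun h h1 h2 => by
    simpa [o.cl.eich_inv (alt_Q o.cl _) h, o.cl.eich_mul (alt_Q o.cl _) h (w' := -_) (by simpa using h),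
      alt_self o.cl, sub_eq_add_neg] using mul_mem h1 (inv_mem h2)
  obtain ⟨l, h11, hl⟩ := (Submodule.ne_bot_iff _).1 (LinearMap.ker_ne_bot_of_finrank_lt
    (f := Algebra.traceForm F E m) (by simpa using hr.one_lt))
  replace h11 : 𝔱 (m * l) = 0 := h11
  by_cases hq : ∀ c : F, c = 0 ∨ c = 1
  swap
  · push Not at hq
    obtain ⟨c, hc0, hc1⟩ := hq
    refine o.om_le (smul_ne_zero hl hw) fun d => ?_
    have h12 := h9 (c • l) (by simp [h11]) ((d / (c - c * c)) • i)
    rw [smul_assoc, o.cl.eich_smul_left (alt_Q o.cl _) (h0 _ _), ← smul_assoc] at h12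
    convert h10 (h0 _ _) h12 (h9 l h11 _) using 2
    have : 1 - c ≠ 0 := sub_ne_zero.2 hc1.symm
    simp [h6]; field_simp; ring
  by_cases hr2 : finrank F E = 2
  · exact o.om_le_four hr2 hq (by rw [← finrank_mul_finrank F E V, hr2] at hn; omega) hg hk
  obtain ⟨n, h12, hn0⟩ := (Submodule.ne_bot_iff _).1 (LinearMap.ker_ne_bot_of_finrank_lt
    (f := (Algebra.traceForm F E l).prod (Algebra.traceForm F E i)) (by have := hr.two_le; simp; omega))
  simp only [LinearMap.mem_ker, LinearMap.prod_apply, Function.prod, Prod.mk_eq_zero,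
    Algebra.traceForm_apply] at h12
  obtain ⟨t, ht, h13⟩ := o.cl'.form.witt_one o.cl'.sep hw (smul_ne_zero (div_ne_zero hm0 hn0) hw)
    (by simp [alt_Q o.cl'])
  have h14 := mul_mem (mul_mem (o.ov t ht) (h9 (l * n / m) (by
    rw [mul_div_cancel₀ _ hm0]; exact h12.1) (i * n / m))) (inv_mem (o.ov t ht))
  rw [o.cl.conj_eich (o.le (o.ov t ht)), rs_apply, rs_apply, map_smul, map_smul, h13, smul_smul, smul_smul,
    mul_div_cancel₀ _ hm0, h12.2, show l * n / m * (m / n) = l by field_simp,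
    show i * n / m * (m / n) = i by field_simp] at h14
  refine o.om_le (smul_ne_zero hl hw) fun d => ?_
  rcases hq d with rfl | rfl
  · rw [o.cl.eich_zero]; exact one_mem _
  simpa [h6] using h10 (h0 _ _) h14 (h9 l h11 i)

omit o in
theorem sp_fld_mat {m : ℕ} (φ : E →ₐ[F] Matrix (Fin m ⊕ Fin m) (Fin m ⊕ Fin m) F) (hm : 3 ≤ m)
    (hr : (finrank F E).Prime) (ha : Geo.IsSelfAdjointFor (sympForm m F) φ.range)
    (hb : ∀ k ∈ φ.range, ∀ v, sympForm m F (k.mulVec v) v = 0) :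
    Geo.IsMaximalIn (spGL m F) (Geo.subalgebraNormalizer φ.range ⊓ spGL m F) := by
  have h := (clSp m F).pullback (EV.eq φ)
  have hn : 5 ≤ finrank F (EV φ) := by rw [(EV.eq φ).finrank_eq]; simp; omega
  simp only [Geo.IsSelfAdjointFor, sympForm_eq_spBilin] at ha hb
  set B : EV φ →ₗ[F] EV φ →ₗ[F] F := H11.pull (spBilin (Fin m) F) (EV.eq φ).toLinearMap
  obtain ⟨b, h1⟩ := exists_lift (σ := RingHom.id E) (B := B) fun k x y => ha _ ⟨k, rfl⟩ _ _
  have h2 : ∀ x, b x x = 0 := fun x => trace_ext (F := F) fun k => by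
    simpa [← h1] using (show B (k • x) x = 0 from hb _ ⟨k, rfl⟩ _)
  have hE := clAlt h2 (lift_sep h1 h.sep)
  have : Nontrivial (EV φ) := Module.nontrivial_of_finrank_pos (R := F) (by omega)
  obtain ⟨v, hv⟩ := exists_ne (0 : EV φ)
  obtain ⟨k, -, hk⟩ := exists_norm_one (F := F) (E := E) hr.two_le
  refine fld_max_of (fun g => (mem_spGL_iff g).trans (mem_om_gE φ _ g))
    (sp_not_nrmE h (v := v) (k := k) (fun h3 => hk ?_) fun j => by simp [← h1, h2])
    fun M hM hH g hg hg' => OvS.om_le_of_not ⟨h, hE, h1, hM.trans h.om_le_isom, fun s hs =>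
      hH _ ((mem_om_alt h).2 fun x y => by simp [← h1, hs.1]) (nrmE_rs s)⟩ hr ?_ hn hg hg'
  · obtain ⟨c, hc⟩ := Submodule.mem_span_singleton.1 h3
    exact ⟨c, smul_left_injective E hv ((algebraMap_smul E c v).trans hc)⟩
  obtain ⟨f, -, hf⟩ := hE.form.exists_partner hE.sep rfl hv
  simpa using (hE.form.linearIndependent_pair rfl (hf ▸ one_ne_zero)).fintype_card_le_finrank

end Cfsg.Agent.H26.MX
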