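import Mathlib
import Cfsg.Agent.H26.C4a
import Cfsg.Agent.H26.C2d
import Cfsg.Agent.H26.LinCase

/-! Maximality of the tensor product subgroups of the special linear group. -/

set_option autoImplicit false
set_option maxHeartbeats 400000

namespace Cfsg.Agent.H26.MX

open Module

variable {F : Type*} [Field F] {A C : Type*} [AddCommGroup A] [Module F A] [AddCommGroup C]
  [Module F C] {M : Subgroup ((C →ₗ[F] A) ≃ₗ[F] (C →ₗ[F] A))}

theorem mem_Wt_of {β : Dual F C} (hβ : β ≠ 0) {x : C →ₗ[F] A} (h : ∀ ψ, β ψ = 0 → x ψ = 0) :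
    x ∈ Wt A β := by
  obtain ⟨c, hc⟩ := exists_apply_eq_one hβ
  exact ⟨x c, LinearMap.ext fun y => by
    simpa [sub_eq_zero, eq_comm (a := x y)] using h (y - β y • c) (by simp [hc])⟩

variable [FiniteDimensional F A] [FiniteDimensional F C]

theorem apply_eq_zero_of_closed (hAC : finrank F A < finrank F C) {W : Submodule F (C →ₗ[F] A)}
    (hW : finrank F W = finrank F A) {w : C →ₗ[F] A} (hw : w ∈ W) {ψ : C}
    (h : ∀ β : Dual F C, β ψ = 0 → β.smulRight (w ψ) ∈ W) : w ψ = 0 := by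
  by_contra h0
  let f : Dual F C →ₗ[F] (C →ₗ[F] A) := LinearMap.smulRightₗ.flip (w ψ)
  have hf : Function.Injective f := fun a b hab => LinearMap.ext fun c =>
    smul_left_injective F h0 (LinearMap.congr_fun hab c)
  have h1 := finrank_le_inf_ker (⊤ : Submodule F (Dual F C)) (Dual.eval F C ψ)
  have h2 := (Submodule.equivMapOfInjective f hf (⊤ ⊓ LinearMap.ker (Dual.eval F C ψ))).finrank_eq
  rw [finrank_top, Subspace.dual_finrank_eq] at h1
  obtain ⟨β, ⟨-, h3⟩, h4⟩ := (Submodule.eq_of_le_of_finrank_le (S₂ := W)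
    (S₁ := (⊤ ⊓ LinearMap.ker (Dual.eval F C ψ)).map f) (by
    rintro _ ⟨β, hβ, rfl⟩; exact h β hβ.2) (by omega)).ge hw
  exact h0 (by rw [← h4]; simp [f, show β ψ = 0 from h3])

theorem OvT.sl_le_of_maxPr (h : OvT M) (hA : 2 ≤ finrank F A) (hAC : finrank F A < finrank F C)
    (hq : 3 ≤ finrank F A ∨ ∃ c : F, c ≠ 0 ∧ c ≠ 1) {S : Set (Submodule F (C →ₗ[F] A))}
    {β β' : Dual F C} (hβ : β ≠ 0) (hβ' : β' ≠ 0) {y : (C →ₗ[F] A) ≃ₗ[F] (C →ₗ[F] A)} (hy : y ∈ M)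
    {W : Submodule F (C →ₗ[F] A)} (hW : W = (Wt A β').map y.toLinearMap)
    (hP : MaxPr M S (Wt A β) W) : SLv F (C →ₗ[F] A) ≤ M := by
  by_contra hn
  have hd : finrank F W = finrank F A := by rw [hW, finrank_map, finrank_Wt hβ']
  have hd' := (finrank_Wt (A := A) hβ).trans hd.symm
  obtain ⟨w, hw, hw'⟩ := SetLike.not_le_iff_exists.1 fun h => hP.ne (Submodule.eq_of_le_of_finrank_eq h hd')
  obtain ⟨x, hx, hx'⟩ := SetLike.not_le_iff_exists.1 fun h =>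
    hP.ne (Submodule.eq_of_le_of_finrank_eq h hd'.symm).symm
  obtain ⟨_, ⟨⟨z, rfl⟩, hi⟩, hi0⟩ := (Submodule.ne_bot_iff _).1 hP.inf
  replace hi : β.smulRight z ∈ W := hi
  replace hi0 : z ≠ 0 := by rintro rfl; simp at hi0
  have h1 : ∀ ψ, β ψ = 0 → ∀ x ∈ W, x ∉ Wt A β → x ψ = 0 → ∀ w ∈ W, w ψ = 0 :=
    fun ψ hψ x hx hx' h1 w hw => apply_eq_zero_of_closed hAC hd hw fun γ hγ => by
      obtain ⟨g, hg, h2⟩ := h.right ψ γ hγ
      have h3 : g x = x := by ext; simp [h2, h1]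
      have := hP.stab hg (by rintro _ ⟨z, rfl⟩ -; ext; simp [h2, hψ]) hx (h3.symm ▸ hx') (h3.symm ▸ hx) w hw
      rwa [h2, W.add_mem_iff_right hw] at this
  obtain ⟨z', hz'⟩ := mem_map_iff.1 (hW ▸ hi)
  obtain ⟨ψ', h2, h3⟩ := (Submodule.ne_bot_iff _).1 (LinearMap.ker_ne_bot_of_finrank_lt
    (f := ((F ∙ z').mkQ ∘ₗ y⁻¹ w).prod β') (by
      have := (F ∙ z').finrank_quotient_add_finrank
      rw [finrank_span_singleton (by rintro rfl; exact sr_ne_zero hβ hi0 (by simpa using hz'.symm))] at this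
      rw [finrank_prod, finrank_self]; omega))
  simp only [LinearMap.mem_ker, LinearMap.prod_apply, Function.prod, LinearMap.comp_apply, Prod.mk_eq_zero,
    Submodule.mkQ_apply, Submodule.Quotient.mk_eq_zero, Submodule.mem_span_singleton] at h2
  obtain ⟨⟨d, h2⟩, h4⟩ := h2
  obtain ⟨b, hb, h5⟩ : ∃ b : End F (C →ₗ[F] A), (∀ c : F, c • b ∈ Th M W) ∧
      ∀ v, b v = y (β'.smulRight (y⁻¹ v ψ')) :=
    ⟨y.toLinearMap ∘ₗ tn β' 1 ψ' ∘ₗ y⁻¹.toLinearMap, fun c => hW ▸ Th.conj hy (h.th h4 c)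
      (fun x hx => ⟨x, hx, rfl⟩) (fun x hx => mem_map_iff.1 hx) fun x => by simp [← inv_app], fun _ => rfl⟩
  have hb1 : b ∈ Th M W := by simpa using hb 1
  have h6 : ∀ x ∈ W, ∃ v, b v = x := fun x hx => by
    obtain ⟨_, ⟨z, rfl⟩, rfl⟩ := hW ▸ hx
    obtain ⟨γ, hγ⟩ := exists_dual_one (F := F) h3
    exact ⟨y (γ.smulRight z), by rw [h5, inv_app]; simp [hγ]⟩
  have h7 := hP.symm.key hb1 hw hw' (by
    rw [h5, ← h2, show β'.smulRight (d • z') = d • y⁻¹ (β.smulRight z) by rw [← hz']; ext; simp [smul_comm d],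
      map_smul, app_inv]
    exact Submodule.smul_mem _ _ (sr_mem_Wt _ _))
  have hF : ∀ t : End F (C →ₗ[F] A), (∀ c : F, c • t ∈ Th M (Wt A β)) → (∀ v, t v ∈ W) → t = 0 :=
    fun t ht h8 => by_contra fun h9 => hn (h.sl_le_of_th hA (by omega) hq hβ ht h9 hw fun v hv => hw' (hv ▸ h8 v))
  by_cases h8 : ∀ z : A, b (β.smulRight z) = 0
  · obtain ⟨ψ, h9, h10⟩ : ∃ ψ, β ψ = 0 ∧ x ψ ≠ 0 := by
      by_contra! h9; exact hx' (mem_Wt_of hβ h9)
    obtain ⟨w, h11, h12⟩ := exists_not_mem_of_lt (U := Wt A β)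
      (W := LinearMap.range ((tn β 1 ψ).domRestrict W)) (by
        have h11 := ((tn β (1 : End F A) ψ).domRestrict W).finrank_range_add_finrank_ker
        have h12 : finrank F (LinearMap.ker ((tn β (1 : End F A) ψ).domRestrict W)) ≠ 0 := fun h =>
          sr_ne_zero hβ hi0 (congrArg Subtype.val ((Submodule.eq_bot_iff _).1
            (Submodule.finrank_eq_zero.1 h) ⟨_, hi⟩ (by ext; simp [h9])))
        omega)
    obtain ⟨v, rfl⟩ := h6 x hx
    refine hn (h.sl_le_of_th hA (by omega) hq hβ (t := tn β 1 ψ * b) (fun c => ?_)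
      (fun h => sr_ne_zero hβ h10 (LinearMap.congr_fun h v)) h11 fun v hv => h12 ⟨⟨_, hb1.1 v⟩, hv⟩)
    convert neg_mem (Th.key (h.th h9 c) hb1 h7) using 1
    exact LinearMap.ext fun v => by simp [h8]
  push Not at h8
  obtain ⟨z₂, h8⟩ := h8
  have h9 : ∀ ψ, β ψ = 0 → (∀ x ∈ W, β.smulRight (x ψ) ∈ W) → ∀ v : C →ₗ[F] A,
      b (β.smulRight (v ψ)) = β.smulRight (b v ψ) := fun ψ h9 h10 v =>
    sub_eq_zero.1 (LinearMap.congr_fun (hF (b * tn β 1 ψ - tn β 1 ψ * b) (fun c => by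
      convert Th.key (h.th h9 c) hb1 h7 using 1
      exact LinearMap.ext fun v => by simp [hb1.2.1 _ (h10 _ (hb1.1 v)), smul_sub])
      fun v => sub_mem (hb1.1 _) (h10 _ (hb1.1 v))) v)
  have h10 : ∀ ψ, ψ ≠ 0 → β ψ = 0 → ∀ x ∈ W, x ∉ Wt A β → x ψ ≠ 0 := fun ψ h0 hψ x hx hx' h10 => by
    have h11 := h1 ψ hψ x hx hx' h10
    obtain ⟨γ, hγ⟩ := exists_dual_one (F := F) h0
    have := h9 ψ hψ (fun x hx => by simp [h11 x hx]) (γ.smulRight z₂)
    simp [hγ, h11 _ (hb1.1 _), h8] at this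
  have h11 : ∀ z, ∃ ψ, β ψ = 0 ∧ x ψ = z := fun z => by
    have h11 : Function.Injective (x.domRestrict (⊤ ⊓ LinearMap.ker β)) :=
      (injective_iff_map_eq_zero _).2 fun ψ hψ => Subtype.ext (by_contra fun h0 => h10 ψ h0 ψ.2.2 x hx hx' hψ)
    have h12 := finrank_le_inf_ker (⊤ : Submodule F C) β
    rw [finrank_top, ← LinearMap.finrank_range_of_inj h11] at h12
    obtain ⟨ψ, hψ⟩ := (Submodule.eq_top_of_finrank_eq (S := LinearMap.range (x.domRestrict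
      (⊤ ⊓ LinearMap.ker β))) (le_antisymm (Submodule.finrank_le _) (by omega))).ge Submodule.mem_top
    exact ⟨ψ, ψ.2.2, hψ⟩
  rcases hq with hq | ⟨c, hc0, hc1⟩
  swap
  · obtain ⟨ψ, h12, h13⟩ := h11 z₂
    obtain ⟨v, hv⟩ := h6 x hx
    have := LinearMap.congr_fun (hF _ (Th.cube (h.th h12) hb h7 hc0 hc1) fun v => hb1.1 _) v
    exact h8 (by simpa [hv, h13] using this)
  have h12 : ∀ ψ, β ψ = 0 → β.smulRight (x ψ) ∈ W → ∀ x ∈ W, β.smulRight (x ψ) ∈ W := fun ψ h12 h13 =>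
    hP.key (t := tn β 1 ψ) (by simpa using h.th h12 1) hx hx' h13
  obtain ⟨ψ, h13, rfl⟩ := h11 z
  have h14 : ψ ≠ 0 := by rintro rfl; simp at hi0
  by_cases h15 : ∀ z', β.smulRight z' ∈ W → ∃ c : F, z' = c • x ψ
  · obtain ⟨x', h16, h17⟩ := exists_not_mem_of_lt (W := Submodule.span F {β.smulRight (x ψ), x}) (U := W) (by
      have := finrank_span_pair_le (F := F) (β.smulRight (x ψ)) x; omega)
    obtain ⟨c, hc⟩ := h15 _ (h12 ψ h13 hi x' h16)
    have h18 := sub_mem h16 (W.smul_mem c hx)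
    refine h10 ψ h14 h13 _ h18 (fun ⟨z, hz⟩ => h17 ?_) (by simp [hc])
    obtain ⟨e, rfl⟩ := h15 z (hz ▸ h18 :)
    exact Submodule.mem_span_pair.2 ⟨e, c, by rw [← sub_add_cancel x' (c • x), ← hz]; ext; simp [smul_comm e]⟩
  push Not at h15
  obtain ⟨z', h15, h16⟩ := h15
  obtain ⟨ψ₂, h17, rfl⟩ := h11 z'
  obtain ⟨γ, h18, h19⟩ := exists_dual_pair (F := F) (u := ψ) (x := ψ₂) fun c hc => h16 c (by simp [hc])
  have h20 := h9 ψ h13 (h12 ψ h13 hi) (γ.smulRight z₂)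
  have h21 := h9 ψ₂ h17 (h12 ψ₂ h17 h15) (γ.smulRight z₂)
  refine h10 ψ h14 h13 _ (hb1.1 (γ.smulRight z₂)) (fun ⟨z, hz⟩ => h8 ?_) (sr_inj hβ (by simpa [h19] using h20.symm))
  simpa [h18, ← hz, h17] using h21

theorem OvT.exists_Wt (h : OvT M) (hA : 2 ≤ finrank F A) (hAC : finrank F A < finrank F C)
    (hq : 3 ≤ finrank F A ∨ ∃ c : F, c ≠ 0 ∧ c ≠ 1) {W : Submodule F (C →ₗ[F] A)}
    (hd : finrank F W = finrank F A)
    (hW : ∀ g ∈ M, ∀ w ∈ W, w ≠ 0 → g w = w → ∀ x ∈ W, g x ∈ W) : ∃ β, β ≠ 0 ∧ W = Wt A β := by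
  by_contra! hn
  have h1 : ∀ w ∈ W, w ≠ 0 → ∀ ψ, w ψ = 0 → ∀ x ∈ W, x ψ = 0 := fun w hw h0 ψ hψ x hx =>
    apply_eq_zero_of_closed hAC hd hx fun γ hγ => by
      obtain ⟨g, hg, h2⟩ := h.right ψ γ hγ
      have := hW g hg w hw h0 (by ext; simp [h2, hψ]) x hx
      rwa [h2, W.add_mem_iff_right hx] at this
  have h2 : ∀ (β : Dual F C) (u : A), u ≠ 0 → β.smulRight u ∈ W → β = 0 := fun β u hu h2 =>
    by_contra fun hβ => hn β hβ (Submodule.eq_of_le_of_finrank_eq (fun x hx => mem_Wt_of hβ fun ψ hψ =>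
      h1 _ h2 (sr_ne_zero hβ hu) ψ (by simp [hψ]) x hx) (hd.trans (finrank_Wt hβ).symm))
  obtain ⟨w, hw, h0⟩ := exists_not_mem_of_lt (W := ⊥) (U := W) (by rw [finrank_bot]; omega)
  replace h0 : w ≠ 0 := h0
  have h3 : LinearMap.range w = ⊤ := by
    by_contra h3
    obtain ⟨φ, hφ, h4⟩ := (LinearMap.range w).exists_le_ker_of_lt_top (lt_top_iff_ne_top.2 h3)
    have h5 := finrank_le_inf_ker (⊤ : Submodule F A) φ
    rw [finrank_top] at h5
    obtain ⟨u, ⟨-, h6⟩, hu⟩ := exists_not_mem_of_lt (W := ⊥) (U := ⊤ ⊓ LinearMap.ker φ) (by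
      rw [finrank_bot]; omega)
    obtain ⟨g, hg, h7⟩ := h.left u φ h6
    obtain ⟨c, hc⟩ := DFunLike.ne_iff.1 h0
    have h8 := (LinearMap.injective_iff_surjective_of_finrank_eq_finrank hd
      (f := (LinearMap.applyₗ c).domRestrict W)).1 ((injective_iff_map_eq_zero _).2 fun x hx =>
        Subtype.ext (by_contra fun h8 => hc (h1 x x.2 h8 c hx w hw)))
    refine hφ (LinearMap.ext fun a => ?_)
    obtain ⟨x, rfl⟩ := h8 a
    have := hW g hg w hw h0 (by ext c; simp [h7, show φ (w c) = 0 from h4 ⟨c, rfl⟩]) x x.2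
    rw [h7, W.add_mem_iff_right x.2] at this
    exact LinearMap.congr_fun (h2 _ u hu this) c
  obtain ⟨s, hs⟩ := w.exists_rightInverse_of_surjective h3
  replace hs : ∀ a, w (s a) = a := LinearMap.congr_fun hs
  obtain ⟨x, hx, hx'⟩ := exists_not_mem_of_lt (W := F ∙ w) (U := W) (by
    have := finrank_span_one_le (F := F) w; omega)
  have h4 : (x ∘ₗ s) ∘ₗ w = x := LinearMap.ext fun c => by
    simpa [sub_eq_zero] using h1 w hw h0 (s (w c) - c) (by simp [hs]) x hx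
  obtain ⟨u, φ, hu, hφ, -, h5⟩ := exists_rank_one hq (𝓔 := W.comap (LinearMap.lcomp F A w)) (e := x ∘ₗ s)
    (fun u φ h5 e he => by
      obtain ⟨g, hg, h6⟩ := h.left u φ h5
      obtain ⟨g', hg', h7⟩ := h.right (s u) (-(φ ∘ₗ w)) (by simp [hs, h5])
      convert hW _ (mul_mem hg hg') w hw h0 (by ext; simp [h6, h7, hs, h5]) _ he using 1
      refine Iff.of_eq (congrArg (· ∈ W) ?_)
      ext; simp [h6, h7, hs]; module)
    (show (x ∘ₗ s) ∘ₗ w ∈ W by rwa [h4]) fun c hc => hx' (Submodule.mem_span_singleton.2 ⟨c, by rw [← h4, hc]; rfl⟩)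
  refine hφ (LinearMap.ext fun a => ?_)
  simpa [hs] using LinearMap.congr_fun (h2 (φ ∘ₗ w) u hu h5) (s a)

/-- preserving the tensor structure -/
def Tn (g : (C →ₗ[F] A) ≃ₗ[F] (C →ₗ[F] A)) : Prop :=
  ∃ (a : A ≃ₗ[F] A) (f : Dual F C ≃ₗ[F] Dual F C), ∀ β z, g (β.smulRight z) = (f β).smulRight (a z)

theorem tn_of_Wt [Nontrivial A] (hC : 2 ≤ finrank F C) {g : (C →ₗ[F] A) ≃ₗ[F] (C →ₗ[F] A)}
    (h : ∀ β : Dual F C, β ≠ 0 → ∃ β', ∀ z, g (β.smulRight z) ∈ Wt A β') : Tn g := by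
  have h1 : ∀ β : Dual F C, β ≠ 0 → ∃ (β' : Dual F C) (a : A ≃ₗ[F] A),
      ∀ z, g (β.smulRight z) = β'.smulRight (a z) := fun β hβ => by
    obtain ⟨β', h1⟩ := h β hβ
    choose l hl using h1
    obtain ⟨z₀, hz₀⟩ := exists_ne (0 : A)
    have h2 : β' ≠ 0 := by rintro rfl; exact sr_ne_zero hβ hz₀ (by simpa using (hl z₀).symm)
    obtain ⟨c, hc⟩ := exists_apply_eq_one h2
    have h3 : ∀ z, g (β.smulRight z) = β'.smulRight (g (β.smulRight z) c) := fun z => by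
      rw [← hl]; simp [hc]
    exact ⟨β', LinearEquiv.ofInjectiveEndo (LinearMap.applyₗ c ∘ₗ g.toLinearMap ∘ₗ LinearMap.smulRightₗ β)
      ((injective_iff_map_eq_zero _).2 fun z hz => sr_inj hβ (g.injective (by
        simpa [show g (β.smulRight z) c = 0 from hz] using h3 z))), h3⟩
  have h2 : ∀ β γ : Dual F C, (∀ c : F, γ ≠ c • β) → β ≠ 0 → ∀ (β' : Dual F C) (a : A ≃ₗ[F] A),
      (∀ z, g (β.smulRight z) = β'.smulRight (a z)) → ∃ γ' : Dual F C,
        ∀ z, g (γ.smulRight z) = γ'.smulRight (a z) := fun β γ h2 hβ β' a ha => by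
    obtain ⟨γ', b, hb⟩ := h1 γ fun h => h2 0 (by simp [h])
    obtain ⟨δ, e, he⟩ := h1 (β + γ) fun h => h2 (-1) (by rw [eq_neg_of_add_eq_zero_right h]; ext; simp)
    have h3 : ∀ z c, δ c • e z = β' c • a z + γ' c • b z := fun z c => by
      have := LinearMap.congr_fun (he z) c
      rw [show (β + γ).smulRight z = β.smulRight z + γ.smulRight z by ext; simp [add_smul], map_add,
        ha, hb] at this
      exact this.symm
    obtain ⟨z₀, hz₀⟩ := exists_ne (0 : A)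
    have h4 : ∀ (β γ β' γ' : Dual F C) (a b : A ≃ₗ[F] A), (∀ c : F, γ ≠ c • β) →
        (∀ z, g (β.smulRight z) = β'.smulRight (a z)) → (∀ z, g (γ.smulRight z) = γ'.smulRight (b z)) →
        ∃ x, γ' x = 1 ∧ β' x = 0 := fun β γ β' γ' a b h4 ha hb => exists_vec_pair fun c hc => by
      have h5 := g.injective (a₁ := γ.smulRight z₀) (a₂ := β.smulRight (a⁻¹ (c • b z₀))) (by
        rw [ha, hb, hc, app_inv]; ext; simp [smul_smul, mul_comm])
      obtain ⟨x, h6, h7⟩ := exists_vec_pair h4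
      simpa [h6, h7, hz₀] using LinearMap.congr_fun h5 x
    obtain ⟨x, h5, h6⟩ := h4 β γ β' γ' a b h2 ha hb
    obtain ⟨x', h7, h8⟩ := h4 γ β γ' β' b a (fun c hc => by
      have : c ≠ 0 := by rintro rfl; simp [hc] at hβ
      exact h2 c⁻¹ (by simp [hc, this])) hb ha
    have h9 : ∀ z, δ x' • e z = a z := fun z => by simpa [h7, h8] using h3 z x'
    have h10 : δ x' ≠ 0 := fun h => hz₀ (by simpa [h] using (h9 z₀).symm)
    refine ⟨(δ x / δ x') • γ', fun z => LinearMap.ext fun c => ?_⟩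
    simp [hb, ← h9, ← show δ x • e z = b z by simpa [h5, h6] using h3 z x, smul_smul]
    congr 1; field_simp
  have : Nontrivial (Dual F C) := Module.nontrivial_of_finrank_pos (R := F) (by simp; omega)
  obtain ⟨β, hβ⟩ := exists_ne (0 : Dual F C)
  obtain ⟨β', a, ha⟩ := h1 β hβ
  have h3 : ∀ γ : Dual F C, ∃ γ' : Dual F C, ∀ z, g (γ.smulRight z) = γ'.smulRight (a z) := fun γ => by
    by_cases h3 : ∃ c : F, γ = c • β
    · obtain ⟨c, rfl⟩ := h3
      exact ⟨c • β', fun z => by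
        rw [show (c • β).smulRight z = c • β.smulRight z by ext; simp [smul_smul], map_smul, ha]
        ext; simp [smul_smul]⟩
    · exact h2 β γ (not_exists.1 h3) hβ β' a ha
  obtain ⟨z₀, hz₀⟩ := exists_ne (0 : A)
  obtain ⟨χ, hχ⟩ := exists_dual_one (F := F) (app_ne_zero a hz₀)
  let f : End F (Dual F C) := LinearMap.llcomp F C A F χ ∘ₗ g.toLinearMap ∘ₗ LinearMap.smulRightₗ.flip z₀
  have h4 : ∀ γ z, g (γ.smulRight z) = (f γ).smulRight (a z) := fun γ z => by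
    obtain ⟨γ', h4⟩ := h3 γ
    rw [h4, show f γ = γ' by ext; simp [f, h4, hχ]]
  exact ⟨a, LinearEquiv.ofInjectiveEndo f ((injective_iff_map_eq_zero _).2 fun γ hγ => by_contra fun h0 =>
    sr_ne_zero h0 hz₀ (by simpa [hγ] using h4 γ z₀)), h4⟩

theorem OvT.sl_le [Finite F] (h : OvT M) (hA : 2 ≤ finrank F A) (hAC : finrank F A < finrank F C)
    (hq : 3 ≤ finrank F A ∨ ∃ c : F, c ≠ 0 ∧ c ≠ 1) {g : (C →ₗ[F] A) ≃ₗ[F] (C →ₗ[F] A)} (hg : g ∈ M)
    (hg' : ¬ Tn g) : SLv F (C →ₗ[F] A) ≤ M := by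
  have : Finite (C →ₗ[F] A) := Module.finite_of_finite F
  have : Nontrivial A := Module.nontrivial_of_finrank_pos (R := F) (by omega)
  let S : Set (Submodule F (C →ₗ[F] A)) := {W | ∃ y ∈ M, ∃ β, β ≠ 0 ∧ W = (Wt A β).map y.toLinearMap}
  have h1 : ∀ g ∈ M, ∀ U ∈ S, U.map g.toLinearMap ∈ S := by
    rintro g hg _ ⟨y, hy, β, hβ, rfl⟩
    exact ⟨g * y, mul_mem hg hy, β, hβ, map_map' _ _ _⟩
  by_cases h2 : ∀ W ∈ S, ∀ W' ∈ S, W ⊓ W' ≠ ⊥ → W = W'
  · refine absurd (tn_of_Wt (by omega) fun β hβ => ?_) hg'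
    have h3 : _ ∈ S := ⟨g, hg, β, hβ, rfl⟩
    obtain ⟨β', -, h4⟩ := h.exists_Wt hA hAC hq ((finrank_map _ g).trans (finrank_Wt hβ))
      fun s hs w hw h0 h4 x hx => h2 _ (h1 s hs _ h3) _ h3
        ((Submodule.ne_bot_iff _).2 ⟨w, ⟨⟨w, hw, h4⟩, hw⟩, h0⟩) ▸ ⟨x, hx, rfl⟩
    exact ⟨β', fun z => h4 ▸ ⟨_, sr_mem_Wt β z, rfl⟩⟩
  push Not at h2
  obtain ⟨W, hW, W', hW', h2, h3⟩ := h2
  obtain ⟨U, U', hP⟩ := exists_maxPr h1 hW hW' h3 h2
  obtain ⟨y, hy, β, hβ, rfl⟩ := hP.left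
  obtain ⟨y', hy', β', hβ', rfl⟩ := hP.right
  have h4 := hP.map (inv_mem hy)
  rw [map_map', map_map', inv_mul_cancel, show (Wt A β).map (1 : (C →ₗ[F] A) ≃ₗ[F] _).toLinearMap = _ from
    Submodule.map_id _] at h4
  exact h.sl_le_of_maxPr hA hAC hq hβ hβ' (mul_mem (inv_mem hy) hy') rfl h4

theorem ovT_of (h : ∀ g ∈ SLv F (C →ₗ[F] A), Tn g → g ∈ M) : OvT M where
  left u φ h0 := ⟨unip (LinearMap.llcomp F C A A (φ.smulRight u)) fun v => by ext; simp [h0],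
    h _ (unip_mem_SLv _ _) ⟨tvE u φ h0, 1, fun β z => by ext; simp [unip, smul_smul]⟩,
    fun v => by ext; simp [unip]⟩
  right ψ γ h0 := ⟨unip (tn γ 1 ψ) fun v => by ext; simp [h0],
    h _ (unip_mem_SLv _ _) ⟨1, tvE γ (Dual.eval F C ψ) h0, fun β z => by
      ext; simp [tvE, unip, smul_smul, add_smul, mul_comm]⟩, fun v => rfl⟩

open Cfsg.Geo Matrix Kronecker

variable {ι : Type} [Fintype ι] [DecidableEq ι] {a b : ℕ}

/-- coordinates for the tensor structure -/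
noncomputable def tenE (e : ι ≃ Fin a × Fin b) (P : GL ι F) :
    ((Fin b → F) →ₗ[F] (Fin a → F)) ≃ₗ[F] (ι → F) :=
  LinearMap.toMatrix'.trans ((LinearEquiv.curry F F (Fin a) (Fin b)).symm.trans
    ((LinearEquiv.funCongrLeft F F e).trans (H11.glEquiv ι F P)))

theorem tenE_apply (e : ι ≃ Fin a × Fin b) (P : GL ι F) (v : (Fin b → F) →ₗ[F] (Fin a → F)) :
    tenE e P v = P.val *ᵥ ((fun p => v (eb p.2) p.1) ∘ e) := by
  simp [tenE]; rfl

theorem mem_ten_of_tn {e : ι ≃ Fin a × Fin b} {P g : GL ι F} (h : Tn (cjE (tenE e P) (H11.glEquiv ι F g))) :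
    g ∈ tensorProductSubgroup a b e P := by
  obtain ⟨x, f, h⟩ := h
  let D := LinearEquiv.piRing F F (Fin b) F
  refine (mem_tensorProductSubgroup e P g).2 ⟨(H11.glEquiv _ F).symm x,
    (H11.glEquiv _ F).symm (cjE D.symm f), matrix_ext_mulVec fun w => ?_⟩
  obtain ⟨v, rfl⟩ := (tenE e P).surjective w
  refine LinearMap.congr_fun (ext_sr (f := g.val.mulVecLin ∘ₗ (tenE e P).toLinearMap)
    (g := (trA e P _).mulVecLin ∘ₗ (tenE e P).toLinearMap) fun β z => ?_) v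
  have h1 := (tenE e P).symm_apply_eq.1 (h β z)
  simp only [LinearMap.comp_apply, LinearEquiv.coe_coe, mulVecLin_apply]
  refine Eq.trans h1 ?_
  rw [tenE_apply, tenE_apply, trA_mulVec]
  congr 2
  ext ⟨i, j⟩
  have h2 := congrFun (H11.glEquiv_apply ((H11.glEquiv _ F).symm x) z) i
  have h3 := congrFun (H11.glEquiv_apply ((H11.glEquiv _ F).symm (cjE D.symm f)) (D β)) j
  rw [MulEquiv.apply_symm_apply] at h2 h3
  simp only [LinearMap.smulRight_apply, Pi.smul_apply, smul_eq_mul, h2,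
    show f β (eb j) = _ from Eq.trans (by simp [cjE, D]) h3]
  simp [mulVec, dotProduct, Fintype.sum_prod_type, Finset.sum_mul_sum, D]
  rw [Finset.sum_comm]
  exact Finset.sum_congr rfl fun _ _ => Finset.sum_congr rfl fun _ _ => by ring

theorem ten_max [Fintype F] (ha : 2 ≤ a) (hab : a < b) (hq : ¬ (a = 2 ∧ Fintype.card F = 2))
    (e : ι ≃ Fin a × Fin b) (P : GL ι F) :
    IsMaximalIn (specialLinear ι F) (tensorProductSubgroup a b e P ⊓ specialLinear ι F) := by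
  classical
  let φ := (H11.glEquiv ι F).trans (cjE (tenE e P))
  have h1 : ∀ g, g ∈ specialLinear ι F ↔ φ g ∈ SLv F _ := fun g => (mem_sl_iff g).trans (cjE_mem_SLv _ _)
  refine MaxP.isMaximalIn (fun M hM _ g hg hg' x hx => ?_) fun hle => by
    have : Nonempty ι := ⟨e.symm (⟨0, by omega⟩, ⟨0, by omega⟩)⟩
    obtain ⟨i, j, -, hij, -⟩ := exists_three (ι := ι) (by rw [Fintype.card_congr e]; simp; nlinarith)
    have := rank_tv_sub_one _ _ (single_dot_single (F := F) hij)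
    exact tv_ne_one (single_dot_single hij) (by simp) (by simp) (eq_one_of_mem_tensorProductSubgroup
      (hle (tv_mem_specialLinear _ _ _)) (by omega) (by omega))
  obtain ⟨y, hy, h3⟩ := (ovT_of (M := M.map φ.toMonoidHom) fun a ha ha' => ⟨φ.symm a, hM
    ⟨mem_ten_of_tn (by rwa [← φ.apply_symm_apply a] at ha'), (h1 _).2 (by simpa)⟩, by simp⟩).sl_le
    (by simpa) (by simpa) (by
      by_cases h : a = 2
      · obtain ⟨c, hc⟩ := exists_not_mem_card (F := F) (n := 2) (by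
          have := Fintype.one_lt_card (α := F); rw [Nat.card_eq_fintype_card]; omega) {0, 1}
          Finset.card_le_two
        exact Or.inr ⟨c, by simpa using hc⟩
      · exact Or.inl (by simp; omega)) ⟨g, hg, rfl⟩ (mt mem_ten_of_tn hg') ((h1 x).1 hx)
  rwa [← φ.injective h3]

end Cfsg.Agent.H26.MX
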