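import Mathlib
import Cfsg.Agent.H10.Mx6
import Cfsg.Agent.H10.Mx10
import Cfsg.Agent.H26.C4b
import Cfsg.Agent.H26.C3c

/-! The geometric maximal subgroups of the special linear groups, collected. -/

set_option autoImplicit false

namespace Cfsg.Agent.H26.MX

open Module H11 H10 Cfsg.Geo

section quad

variable {F : Type*} [Field F] {V : Type*} [AddCommGroup V] [Module F V] [FiniteDimensional F V]
  [Finite F] {B B' : V →ₗ[F] V →ₗ[F] F} {Q Q' : V → F}

theorem prop_of_no_tv (h2 : (2 : F) ≠ 0) (h : Cl (σ := RingHom.id F) 1 2 (AddMonoidHom.id F) B Q)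
    (h' : Cl (σ := RingHom.id F) 1 2 (AddMonoidHom.id F) B' Q') (hn : 7 ≤ finrank F V)
    {M : Subgroup (V ≃ₗ[F] V)} (hM : h.Om ≤ M) (hM' : h'.Om ≤ M)
    (hno : ∀ e, e ≠ 0 → ∀ φ : Dual F V, φ e = 0 → dtv e φ ∈ M → φ = 0) :
    ∃ l : F, ∀ x y, B' x y = l * B x y := by
  have hQ : IsQuad B Q := h.form
  have hQ' : IsQuad B' Q' := h'.form
  obtain ⟨T, hT, hTd⟩ := exists_big_totSing h
  obtain ⟨e1, a1, b1, c1⟩ := h'.exists_sing3 (W := T) (by omega)
  obtain ⟨l1, h1⟩ := prop_on_perp h h' (by omega) hM hM' b1 (hT _ a1) c1 (hno _ b1)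
  have hT' : ∀ x ∈ T, Q' x = 0 := fun x hx => by
    have k : B e1 x = 0 := by simpa [hT _ a1, hT _ hx, hT _ (add_mem a1 hx)] using (hQ.add' e1 x).symm
    simpa [hQ.diag', hQ'.diag', hT x hx, h2] using h1 x x k k
  have d1 := finrank_span_one_le (F := F) e1
  obtain ⟨e2, a2, b2⟩ := exists_not_mem_of_lt (U := T) (W := Submodule.span F {e1}) (by omega)
  have d2 := finrank_span_pair_le (F := F) e1 e2
  obtain ⟨e3, a3, b3⟩ := exists_not_mem_of_lt (U := T) (W := Submodule.span F {e1, e2}) (by omega)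
  have c2 := hT' _ a2
  have c3 := hT' _ a3
  have b2' : e2 ≠ 0 := by rintro rfl; simp at b2
  have b3' : e3 ≠ 0 := by rintro rfl; simp at b3
  obtain ⟨l2, h2'⟩ := prop_on_perp h h' (by omega) hM hM' b2' (hT _ a2) c2 (hno _ b2')
  obtain ⟨l3, h3⟩ := prop_on_perp h h' (by omega) hM hM' b3' (hT _ a3) c3 (hno _ b3')
  obtain ⟨x, y, x1, x2, x3, y1, y2, y3, hxy⟩ : ∃ x y, B e1 x = 0 ∧ B e2 x = 0 ∧ B e3 x = 0 ∧
      B e1 y = 0 ∧ B e2 y = 0 ∧ B e3 y = 0 ∧ B x y ≠ 0 := by
    by_contra hc; push Not at hc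
    have k1 := finrank_le_inf_ker ⊤ (B e1)
    have k2 := finrank_le_inf_ker (⊤ ⊓ LinearMap.ker (B e1)) (B e2)
    have k3 := finrank_le_inf_ker (⊤ ⊓ LinearMap.ker (B e1) ⊓ LinearMap.ker (B e2)) (B e3)
    rw [finrank_top] at k1
    set Z := ⊤ ⊓ LinearMap.ker (B e1) ⊓ LinearMap.ker (B e2) ⊓ LinearMap.ker (B e3)
    have d3 := h.form.finrank_perp h.sep Z
    have : Z ≤ perp B Z := fun y hy x hx => hc x y hx.1.1.2 hx.1.2 hx.2 hy.1.1.2 hy.1.2 hy.2
    have := Submodule.finrank_mono this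
    omega
  obtain rfl : l1 = l2 := mul_right_cancel₀ hxy ((h1 x y x1 y1).symm.trans (h2' x y x2 y2))
  obtain rfl : l1 = l3 := mul_right_cancel₀ hxy ((h1 x y x1 y1).symm.trans (h3 x y x3 y3))
  obtain ⟨p, p1, p2⟩ := h.form.exists_perp_not h.sep b3
  obtain ⟨q0, q1, q2⟩ := h.form.exists_perp_not h.sep b2
  have p3 := p1 e1 (Submodule.subset_span (by simp))
  have p4 := p1 e2 (Submodule.subset_span (by simp))
  have q3 := q1 e1 (Submodule.mem_span_singleton_self _)
  set q := q0 - B e3 q0 • p with hq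
  have q4 : B e1 q = 0 := by simp [hq, q3, p3]
  have q5 : B e2 q = 1 := by simp [hq, q2, p4]
  have q6 : B e3 q = 0 := by simp [hq, p2]
  have r1 : ∀ u, B e3 u = 0 → (B e1 u = 0 ∨ B e2 u = 0) → ∀ v, B' u v = l1 * B u v :=
    fun u u1 u2 v => by
      have k1 := h3 u (v - B e3 v • p) u1 (by simp [p2])
      have k2 : B' u p = l1 * B u p := u2.elim (fun a => h1 u p a p3) fun a => h2' u p a p4
      simp only [map_sub, map_smul, smul_eq_mul] at k1
      linear_combination k1 + B e3 v * k2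
  have r2 : ∀ v, B' p v = l1 * B p v := fun v => by
    have k1 := h2' p (v - B e2 v • q) p4 (by simp [q5])
    have k2 := h1 p q p3 q4
    simp only [map_sub, map_smul, smul_eq_mul] at k1
    linear_combination k1 + B e2 v * k2
  refine ⟨l1, fun u v => ?_⟩
  have k1 := r1 (u - B e3 u • p - B e2 u • q) (by simp [p2, q6]) (Or.inr (by simp [p4, q5])) v
  have k2 := r1 q q6 (Or.inl q4) v
  simp only [map_sub, map_smul, smul_eq_mul, LinearMap.sub_apply, LinearMap.smul_apply] at k1
  linear_combination k1 + B e3 u * r2 v + B e2 u * k2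

/-- Orthogonal groups in odd characteristic are maximal in the special linear group. -/
theorem max_simQ' (h : Cl (σ := RingHom.id F) 1 2 (AddMonoidHom.id F) B Q) (h2 : (2 : F) ≠ 0)
    (hn : 7 ≤ finrank F V) : IsMaximalIn (H10.SLv F V) (simQ F Q ⊓ H10.SLv F V) := by
  have hQ : IsQuad B Q := h.form
  refine isMaximalIn_inf (fun hc => h.not_SLv_le_simG (by omega) (hc.trans (simQ_le_simG hQ)))
    fun M hHM _ g hg hgS => ?_
  have hM : h.Om ≤ M := (le_inf (fun g hg => ⟨1, one_ne_zero, fun x => by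
    rw [(h.om_le_isom hg).2, one_mul]⟩) h.om_le_SLv).trans hHM
  by_contra hc
  obtain ⟨l, hl⟩ := prop_of_no_tv h2 h (h.pullback g.symm) hn hM (h.om_pull_le hM hg)
    fun e he φ a b => by
      by_contra h0; exact hc (SLv_le_of_dtv_quad h h2 (by omega) hM he h0 a b)
  have k : ∀ x, Q x = l * Q (g x) := fun x => by
    have := hl (g x) (g x)
    simp only [pull_apply, LinearEquiv.coe_coe, LinearEquiv.symm_apply_apply, hQ.diag'] at this
    exact mul_left_cancel₀ h2 (by linear_combination this)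
  obtain ⟨x, -, hx⟩ := hQ.exists_nonsingular (Cl.nondegOn_top h.sep) (by
    intro e; have := congrArg (fun W : Submodule F V => finrank F W) e; simp at this; omega)
  have hl0 : l ≠ 0 := by rintro rfl; exact hx (by simpa using k x)
  exact hgS ⟨l⁻¹, inv_ne_zero hl0, fun x => by rw [k x]; field_simp⟩

end quad

variable {F : Type*} [Field F] [Fintype F] {n : ℕ}

theorem sl_max_subspace {W : Submodule F (Fin n → F)} (h0 : W ≠ ⊥) (h1 : W ≠ ⊤) :
    IsMaximalIn (specialLinear (Fin n) F) (subspaceStabilizer W ⊓ specialLinear (Fin n) F) :=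
  (MaxP.of_equiv (glEquiv _ F) mem_sl_iff (fun g _ => MX.mem_subspaceStabilizer_iff W g)
    (maxP_stab h0)).isMaximalIn (sl_not_le_subspaceStabilizer h0 h1)

theorem sl_max_sub (hn : 4 ≤ n) (F₀ : Subfield F) (r : ℕ) (P : GL (Fin n) F) (hr : r.Prime)
    (hcard : Fintype.card F = Nat.card F₀ ^ r) :
    IsMaximalIn (specialLinear (Fin n) F) (subfieldSubgroup F₀ P ⊓ specialLinear (Fin n) F) := by
  obtain ⟨θ, hθ, -⟩ := H10.exists_frob F₀
  refine H10.isMaximalIn_subfield hθ P (fun g => ?_)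
    (H10.max_sub_SL hθ (by simp; omega) hr (by rw [← hcard, Nat.card_eq_fintype_card]))
  rw [← map_inv, ← map_mul, ← map_mul, ← H10.mem_specialLinear_iff']
  simp [Geo.specialLinear, MonoidHom.mem_ker]

theorem sl_max_sp (hn : 7 ≤ n) (f : (Fin n → F) → (Fin n → F) → F) (hf : IsSymplecticForm f) :
    IsMaximalIn (specialLinear (Fin n) F) (similarityGroup f ⊓ specialLinear (Fin n) F) := by
  have h := H10.clAlt (B := (H10.bilinOf hf.bilinear).flip) (fun x => hf.alternating x)
    fun v hv => by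
      by_contra h0
      obtain ⟨x, hx⟩ := (hf.nondegenerate v h0).1
      first | exact hx (hv x) | exact hx (by rw [hf.skew]; simpa using hv x)
  exact H10.isMaximalIn_gl H10.mem_specialLinear_iff'
    (fun g _ => H10.mem_similarityGroup_iff (f := f) (B := (H10.bilinOf hf.bilinear).flip) (fun _ _ => rfl) g)
    (h.max_simG (by simp; omega) H10.nq_zero)

theorem sl_max_su (hn : 7 ≤ n) (σ : F ≃+* F) (f : (Fin n → F) → (Fin n → F) → F)
    (hf : IsUnitaryForm σ f) :
    IsMaximalIn (specialLinear (Fin n) F) (similarityGroup f ⊓ specialLinear (Fin n) F) := by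
  let B : (Fin n → F) →ₛₗ[(σ : F →+* F)] (Fin n → F) →ₗ[F] F :=
    LinearMap.mk₂'ₛₗ (σ : F →+* F) (RingHom.id F) (fun x y => f y x)
      (fun a b y => by rw [hf.herm y, hf.add_left, map_add, ← hf.herm, ← hf.herm])
      (fun c a y => by
        rw [hf.herm y, hf.smul_left, map_mul, ← hf.herm]; rfl)
      (fun a b y => hf.add_left _ _ _) (fun c a y => hf.smul_left _ _ _)
  have hH : H11.IsHerm B := ⟨fun hc => hf.ne_refl (RingEquiv.ext fun a => congrArg (fun t : F →+* F => t a) hc),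
    hf.involutive, fun x y => (hf.herm x y).symm⟩
  have h := H10.clHerm hH fun v hv => by
    by_contra h0
    obtain ⟨x, hx⟩ := (hf.nondegenerate v h0).1
    first | exact hx (hv x) | exact hx (by rw [hf.herm]; simpa using hv x)
  exact H10.isMaximalIn_gl H10.mem_specialLinear_iff'
    (fun g _ => H10.mem_similarityGroup_iff (f := f) (B := B) (fun _ _ => rfl) g)
    (h.max_simG (by simp; omega) (H10.IsHerm.nq hH))

theorem sl_max_o (hn : 7 ≤ n) (hodd : Odd (Fintype.card F)) (Q : (Fin n → F) → F)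
    (hQ : IsNondegenerateQuadraticForm Q) :
    IsMaximalIn (specialLinear (Fin n) F) (quadSimilarityGroup Q ⊓ specialLinear (Fin n) F) := by
  exact H10.isMaximalIn_gl H10.mem_specialLinear_iff'
    (fun g _ => H10.mem_quadSimilarityGroup_iff Q g)
    (max_simQ' (H10.clO hQ) (H11.two_ne_zero_of_odd_card hodd) (by simp; omega))

end Cfsg.Agent.H26.MX
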