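import Mathlib
import Cfsg.Agent.H11.Im17
import Cfsg.Agent.H10.Ag8

/-!
Stabilisers of non-degenerate planes in five-dimensional orthogonal spaces.
-/

set_option autoImplicit false
set_option linter.unusedSectionVars false

namespace Cfsg.Agent.H26.S4

open Module H10 H11 H11.Im Cfsg.Geo

variable {F : Type*} [Field F] {V : Type*} [AddCommGroup V] [Module F V] [FiniteDimensional F V]
  {B : V →ₗ[F] V →ₗ[F] F} {Q : V → F} [Fintype F]
  (h : Cl (σ := RingHom.id F) 1 2 (AddMonoidHom.id F) B Q) {N : Subgroup (V ≃ₗ[F] V)}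

theorem rr_apply {u f : V} (qu : Q u = 0) (qf : Q f = 0) (uf : B u f = 1) {α β : F} (a0 : α ≠ 0)
    (b0 : β ≠ 0) {x : V} (hx : B u x = 0) :
    (r h (u + α • f) * r h (u + β • f)) x = x + ((β / α - 1) * B f x) • u := by
  have hQ : IsQuad B Q := h.form
  have fu : B f u = 1 := (hQ.comm f u).trans uf
  simp only [LinearEquiv.mul_apply, r_apply, hQ.add', hQ.smul', qu, qf, map_add, map_sub,
    map_smul, LinearMap.add_apply, LinearMap.smul_apply, smul_eq_mul, uf, fu, hx, hQ.diag']
  simp only [mul_zero, zero_add, mul_one]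
  match_scalars <;> field_simp <;> ring

theorem arm_of_torus (t2 : (2 : F) ≠ 0) (hN : N ≤ Isom B Q) {u f : V} (qu : Q u = 0) (qf : Q f = 0)
    (uf : B u f = 1) (hT : ∀ s : F, s ≠ 0 → r h (u + (1 : F) • f) * r h (u + (s * s) • f) ∈ N) {w : V}
    (hw : w ∈ h.Ar N u) : w ∈ h.Arm N u := by
  have hQ : IsQuad B Q := h.form
  have fu : B f u = 1 := (hQ.comm f u).trans uf
  have k : ∀ s : F, (s * s) • w ∈ h.Ar N u := fun s => by
    by_cases s0 : s = 0
    · simp [s0]
    have ss := mul_ne_zero s0 s0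
    have := h.map_mem_ar hN (hT s s0) hw
    rw [rr_apply h qu qf uf one_ne_zero ss (h.diag0 qu), rr_apply h qu qf uf one_ne_zero ss hw.1, fu,
      show u + ((s * s / 1 - 1) * 1) • u = (s * s) • u by module] at this
    have := sub_mem (h.mem_ar_smul qu _ this ss) (h.smul_mem_ar qu (s * s * ((s * s / 1 - 1) * B f w)))
    convert this using 1
    rw [RingHom.id_apply]; module
  intro a
  have := sub_mem (k ((a + 1) / 2)) (k ((a - 1) / 2))
  convert this using 1
  rw [← sub_smul]; congr 1; field_simp; ring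

theorem arm_smul {u w : V} (qu : Q u = 0) {c : F} (c0 : c ≠ 0) (hw : w ∈ h.Arm N (c • u)) :
    w ∈ h.Arm N u := fun a => by
  have := h.mem_ar_smul qu c (hw (a / c)) c0
  rwa [RingHom.id_apply, smul_smul, mul_div_cancel₀ _ c0] at this

theorem key (h4 : 4 ≤ Fintype.card F) (hN : N ≤ Isom B Q) {u f y : V} (qu : Q u = 0) (qf : Q f = 0)
    (uf : B u f = 1) (hy0 : y ∈ h.Arm N u) (hy1 : y ∈ h.Arm N f) (qy0 : Q y ≠ 0)
    {U : Submodule F V} (hU : ∀ w ∈ h.Ar N u, w ∈ U) (hf : f ∈ U) {b : V} (hb : Lam h N b)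
    (bu : B b u ≠ 0) : b ∈ U := by
  have hQ : IsQuad B Q := h.form
  obtain ⟨s, s0, s1⟩ := exists_sq_ne h4
  obtain ⟨f', qf', uf', mb, af'⟩ : ∃ f, Q f = 0 ∧ B u f = 1 ∧ b ∈ Submodule.span F {u, f} ∧
      ∀ z ∈ h.Arm N u, B f z = 0 → z ∈ h.Arm N f := by
    have qb := hb.1
    have e1 : B u (r h b u) = -(Q b)⁻¹ * B b u * B b u := by
      rw [r_apply]; simp [h.diag0 qu, hQ.comm u b]
    have e0 : B u (r h b u) ≠ 0 := by simp [e1, qb, bu]
    refine ⟨(B u (r h b u))⁻¹ • r h b u, h.sing_smul (by rw [(r_isom h b).2, qu]) _, by simp [e0],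
      Submodule.mem_span_pair.mpr ⟨Q b / B b u, B b u, ?_⟩, fun z hz fz a => ?_⟩
    · rw [e1, r_apply]; match_scalars <;> field_simp <;> ring
    · have uz := h.ar_perp (h.ar_of_arm hz)
      have bz : B b z = 0 := by
        rw [map_smul, LinearMap.smul_apply, smul_eq_zero] at fz
        simpa [r_apply, uz, qb, bu] using fz.resolve_left (inv_ne_zero e0)
      have := h.map_mem_ar hN (hb.2 (Q b)⁻¹) (hz (a / B u (r h b u)))
      rw [rf_fix h b _ (x := _ • z) (by simp [bz])] at this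
      have := h.mem_ar_smul (M := N) (y := (a / B u (r h b u)) • z)
        (h.sing_smul (x := r h b u) (by rw [(r_isom h b).2, qu]) (B u (r h b u))⁻¹)
        (B u (r h b u)) (by rwa [smul_smul, mul_inv_cancel₀ e0, one_smul]) e0
      rwa [RingHom.id_apply, smul_smul, mul_div_cancel₀ _ e0] at this
  have fu : B f u = 1 := (hQ.comm f u).trans uf
  have su := h.self_mem_arm (M := N) qu
  have uU := hU u (h.ar_of_arm su)
  have uy := h.ar_perp (h.ar_of_arm hy0)
  have fy := h.ar_perp (h.ar_of_arm hy1)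
  have tm := torus_mem h qu qf uf hy0 hy1 qy0 s0
  obtain ⟨w, _, uw, rfl, ew⟩ := h.exists_eich_apply qu (qf.trans qf'.symm) (uf.trans uf'.symm)
    (by simp [uf])
  have iE := h.eich_mem_isom qu uw (c := Q w) rfl
  have Eu : h.eich u w (Q w) u = u := h.eich_fix _ (h.diag0 qu) (h.refl uw)
  have hy1 : h.eich u w (Q w) y ∈ h.Arm N u := by
    rw [h.eich_of_perp qu uw _ uy]; exact add_mem hy0 ((h.Arm N u).smul_mem _ su)
  have tm' := torus_mem h qu qf' uf' hy1 (af' _ hy1 (by rw [← ew, iE.1, fy]))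
    (by rwa [iE.2]) s0
  have cj : ∀ a : F, r h (u + a • f') =
      h.eich u w (Q w) * r h (u + a • f) * (h.eich u w (Q w))⁻¹ := fun a => by
    rw [conj_r h iE, map_add, map_smul, Eu, ew]
  rw [iE.2, cj, cj] at tm'
  obtain ⟨T, hT⟩ : ∃ T, T = r h (u + (s * s * Q y)⁻¹ • f) * r h (u + (Q y)⁻¹ • f) := ⟨_, rfl⟩
  have Tx : ∀ x, B u x = 0 → T x = x + ((s * s - 1) * B f x) • u := fun x hx => by
    rw [hT, rr_apply h qu qf uf (by simp [s0, qy0]) (by simp [qy0]) hx]
    congr 3; field_simp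
  have k := mul_mem tm' (inv_mem tm)
  have Tu : T u = (s * s) • u := by rw [Tx u (h.diag0 qu), fu]; module
  have uw' : B u (T w) = 0 := by simp [Tx w uw, uw, h.diag0 qu]
  rw [show ∀ E a b : V ≃ₗ[F] V, E * a * E⁻¹ * (E * b * E⁻¹) * (a * b)⁻¹ =
    E * (a * b * E * (a * b)⁻¹)⁻¹ from fun E a b => by group, ← hT,
    h.conj_eich (hN (hT ▸ tm)), Tu, h.eich_smul_left qu uw', h.eich_inv qu (by simp [uw']),
    h.eich_mul qu uw (by simp [uw'])] at k
  have k1 := hU _ ((h.mem_ar qu).mpr ⟨by simp [uw, uw'], _, by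
    simp only [AddMonoidHom.id_apply, RingHom.id_apply, hQ.add', ← neg_smul, hQ.smul', hQ.diag',
      (hN (hT ▸ tm)).2]
    ring, k⟩)
  have k2 : w ∈ U := by
    have := U.smul_mem (1 - s * s)⁻¹ (add_mem k1 (U.smul_mem (s * s * ((s * s - 1) * B f w)) uU))
    convert this using 1
    have : 1 - s ^ 2 ≠ 0 := by rw [sq]; exact sub_ne_zero.mpr s1.symm
    rw [Tx w uw, RingHom.id_apply, ← sq]; match_scalars <;> field_simp <;> ring
  refine (Submodule.span_le.mpr ?_ : _ ≤ _) mb
  rintro _ (rfl | rfl)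
  · exact uU
  · rw [← ew, h.eich_apply qu uw]
    exact sub_mem (sub_mem (add_mem hf (U.smul_mem _ uU)) (U.smul_mem _ k2)) (U.smul_mem _ uU)

include h in
theorem exists_y {U : Submodule F V} (hU : NondegOn B U) (h3 : 3 ≤ finrank F U) {e f : V} (he : e ∈ U)
    (hf : f ∈ U) (qe : Q e = 0) (qf : Q f = 0) (ef : B e f = 1) :
    ∃ y ∈ U, B e y = 0 ∧ B f y = 0 ∧ Q y ≠ 0 := by
  have hQ : IsQuad B Q := h.form
  obtain ⟨y, hy, a, b⟩ : ∃ y ∈ U, B e y = 0 ∧ Q y ≠ 0 := by
    obtain ⟨w, hw, w', hw', a, b, c⟩ := h.exists_pair_perp hU h3 he qe (by rintro rfl; simp at ef) 1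
    by_contra k
    push Not at k
    have := k _ (add_mem hw hw') (by simp [a, b])
    simp [hQ.add', k w hw a, k w' hw' b, c] at this
  exact ⟨y - B f y • e, sub_mem hy (U.smul_mem _ he), by simp [a, h.diag0 qe],
    by simp [hQ.comm f e, ef], by simpa [hQ.sub', hQ.smul', qe, hQ.comm y e, a] using b⟩

theorem plane5 (t2 : (2 : F) ≠ 0) (hn : finrank F V = 5) (h4 : 4 ≤ Fintype.card F) {P : Submodule F V}
    (hP : NondegOn B P) (h2 : finrank F P = 2) (hN : N ≤ Isom B Q)
    (hO : stabS F (P : Set V) ⊓ h.Om ≤ N) (re : ∀ b ∈ perp B P, Q b = 1 → r h b ∈ N) {g : V ≃ₗ[F] V}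
    (hg : g ∈ N) (hg' : g ∉ stabS F (P : Set V)) : h.Om ≤ N := by
  classical
  have hQ : IsQuad B Q := h.form
  have hU : NondegOn B (perp B P) := h.form.nondegOn_perp h.sep hP
  have h3 : finrank F (perp B P) = 3 := by have := h.form.finrank_perp h.sep P; omega
  have hb : h.Big (perp B P) := Or.inl h3.ge
  have pp := h.form.perp_perp h.sep P
  have hc' := h.form.isCompl_perp h.sep hP
  have st : ∀ a, a ∈ P ∨ a ∈ perp B P → r h a ∈ stabS F (P : Set V) := fun a ha =>
    mem_stabS_of_le fun v hv => by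
      rcases ha with ha | ha
      · rw [r_apply]; exact sub_mem hv (P.smul_mem _ ha)
      · rwa [rf_fix h _ _ (h.refl (ha v hv))]
  have rr : ∀ a b, a ∈ P ∨ a ∈ perp B P → b ∈ P ∨ b ∈ perp B P → Q a ≠ 0 → Q b ≠ 0 →
      IsSquare (Q a * Q b) → r h a * r h b ∈ N := fun a b ha hb qa qb k =>
    hO ⟨mul_mem (st a ha) (st b hb), r_mul_mem h hn.ge qa qb k⟩
  have qq : ∀ {e f : V}, Q e = 0 → Q f = 0 → B e f = 1 → ∀ c : F, Q (e + c • f) = c :=
    fun qe qf ef c => by simp [hQ.add', hQ.smul', qe, qf, ef]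
  by_contra hc
  have A : ∀ e ∈ perp B P, e ≠ 0 → Q e = 0 → ∀ w ∈ h.Ar N e, w ∈ perp B P := fun e he e0 qe w hw => by
    obtain ⟨f, hf, qf, ef⟩ := h.exists_partner_in' hU he qe e0
    obtain ⟨y, hy, ey, fy, qy⟩ := exists_y h hU h3.ge he hf qe qf ef
    have m : ∀ c : F, e + c • f ∈ perp B P := fun c => add_mem he (Submodule.smul_mem _ _ hf)
    have hw' := arm_of_torus h t2 hN qe qf ef (fun s s0 => rr _ _ (Or.inr (m _)) (Or.inr (m _))
      (by rw [qq qe qf ef]; exact one_ne_zero) (by simp [qq qe qf ef, s0])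
      ⟨s, by rw [qq qe qf ef, qq qe qf ef, one_mul]⟩) hw
    have hUa := fun y => h.arm_of_stab hO (y := y) he qe
    have hdec : ∀ x, B e x = 0 → ∃ a ∈ P, ∃ b ∈ perp B P, B e b = 0 ∧ a + b = x := fun x hx => by
      obtain ⟨a, ha, b, hb, rfl⟩ := Submodule.mem_sup.mp (hc'.sup_eq_top ▸ Submodule.mem_top (x := x))
      exact ⟨a, ha, b, hb, by simpa [h.refl (he a ha)] using hx, rfl⟩
    obtain ⟨a, ha, b, hb', heb, rfl⟩ := hdec _ hw.1
    have a1 : a ∈ h.Arm N e := by simpa using (h.Arm N e).sub_mem hw' (hUa b hb' heb)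
    by_contra hw''
    have a0 : a ≠ 0 := by rintro rfl; exact hw'' (by simpa using hb')
    have k1 : ∀ z ∈ P, Q z ≠ 0 → B z a ≠ 0 → z ∈ h.Arm N e := fun z hz qz za => by
      have m1 := mul_mem (rr _ _ (Or.inl hz) (Or.inr (m (Q z))) qz (by rwa [qq qe qf ef])
        ⟨Q z, by rw [qq qe qf ef]⟩) (rr _ _ (Or.inr (m (Q y))) (Or.inr hy) (by rwa [qq qe qf ef]) qy
        ⟨Q y, by rw [qq qe qf ef]⟩)
      have m2 := h.map_mem_arm' hN m1 a1
      rw [mul_assoc, ← mul_assoc _ _ (r h y)] at m2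
      simp only [LinearEquiv.mul_apply (r h z), LinearEquiv.mul_apply _ (r h y)] at m2
      rw [rf_fix h y _ (h.refl ey), rf_fix h y _ (h.refl (hy a ha)),
        rr_apply h qe qf ef qz qy (h.diag0 qe), rr_apply h qe qf ef qz qy (h.refl (he a ha)),
        h.refl (hf a ha), (hQ.comm f e).trans ef, mul_zero, zero_smul, add_zero,
        show e + ((Q y / Q z - 1) * 1) • e = (Q y / Q z) • e by module,
        rf_fix h z _ (by simp [he z hz])] at m2
      have := sub_mem a1 (arm_smul h qe (div_ne_zero qy qz) m2)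
      rwa [r_apply, sub_sub_cancel, Submodule.smul_mem_iff _ (mul_ne_zero (inv_ne_zero qz) za)] at this
    have k2 : P ≤ h.Arm N e := by
      obtain ⟨z, hz, z1, z2⟩ : ∃ z ∈ P, z ∉ Submodule.span F {a} ∧ B z a ≠ 0 := by
        obtain ⟨z, hz, z1⟩ := exists_mem_notMem (W := P) (Z := Submodule.span F {a})
          (by have := finrank_span_one_le (F := F) a; omega)
        obtain ⟨x, hx, x1⟩ : ∃ x ∈ P, B x a ≠ 0 := by
          by_contra k; push Not at k; exact a0 (hP a ha fun x hx => h.refl (k x hx))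
        by_cases z2 : B z a = 0
        · by_cases x2 : x ∈ Submodule.span F {a}
          · exact ⟨z + x, add_mem hz hx, fun k => z1 (by simpa using sub_mem k x2), by simpa [z2]⟩
          · exact ⟨x, hx, x2, x1⟩
        · exact ⟨z, hz, z1, z2⟩
      obtain ⟨s, hs⟩ := exists_not_root
        ((Polynomial.C (Q z) + Polynomial.C (B z a) * Polynomial.X + Polynomial.C (Q a) * Polynomial.X ^ 2) *
          (Polynomial.C (B z a) + Polynomial.C (2 * Q a) * Polynomial.X))
        (mul_ne_zero (fun k => z2 (by simpa using congrArg (Polynomial.coeff · 1) k))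
          fun k => z2 (by simpa using congrArg (Polynomial.coeff · 0) k))
        (lt_of_le_of_lt (by compute_degree!) (show 3 < Nat.card F by rw [Nat.card_eq_fintype_card]; omega))
      simp only [Polynomial.eval_mul, Polynomial.eval_add, Polynomial.eval_C, Polynomial.eval_X,
        Polynomial.eval_pow, mul_ne_zero_iff] at hs
      have := sub_mem (k1 (z + s • a) (add_mem hz (P.smul_mem _ ha))
        (by convert hs.1 using 1; simp [hQ.add', hQ.smul']; ring)
        (by convert hs.2 using 1; simp [hQ.diag']; ring)) ((h.Arm N e).smul_mem s a1)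
      rw [add_sub_cancel_right] at this
      have e2 : Submodule.span F {a, z} = P := Submodule.eq_of_le_of_finrank_le
        (by simp [Submodule.span_le, Set.insert_subset_iff, ha, hz]) (by
          have := Submodule.finrank_lt_finrank_of_lt (lt_of_le_of_ne (Submodule.span_mono (by simp) :
            Submodule.span F {a} ≤ Submodule.span F {a, z}) fun e => z1 (e ▸ Submodule.subset_span (by simp)))
          rw [finrank_span_singleton a0] at this
          omega)
      rw [← e2]; simp [Submodule.span_le, Set.insert_subset_iff, a1, this]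
    refine hc (h.om_le_of_full_mem hU hb (h.eich_of_stab hO) hN he e0 (h.full_of_ar qe
      (fun x hx => ?_) fun c hc => by rw [show c = 0 from hc, h.eich_zero]; exact one_mem _))
    obtain ⟨a, ha, b, hb', heb, rfl⟩ := hdec x hx
    exact h.ar_of_arm ((h.Arm N e).add_mem (k2 ha) (hUa b hb' heb))
  have C : ∀ b, Lam h N b → b ∈ perp B P ∨ b ∈ P := fun b hb' => by
    by_cases k : ∃ y ∈ perp B P, B y b ≠ 0
    · obtain ⟨e, he, qe, eb⟩ := h.exists_sing_not_perp hU hb k
      have e0 : e ≠ 0 := by rintro rfl; simp at eb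
      obtain ⟨f, hf, qf, ef⟩ := h.exists_partner_in' hU he qe e0
      obtain ⟨y, hy, ey, fy, qy⟩ := exists_y h hU h3.ge he hf qe qf ef
      exact Or.inl (key h h4 hN qe qf ef (h.arm_of_stab hO he qe hy ey) (h.arm_of_stab hO hf qf hy fy) qy
        (A e he e0 qe) hf hb' (h.refl_ne eb))
    · push Not at k
      exact Or.inr (pp ▸ k)
  obtain ⟨e, he, e0, qe⟩ := h.exists_sing hb
  obtain ⟨f, hf, qf, ef⟩ := h.exists_partner_in' hU he qe e0
  obtain ⟨y, hy, ey, fy, qy⟩ := exists_y h hU h3.ge he hf qe qf ef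
  have fe := (hQ.comm f e).trans ef
  obtain ⟨s, s0, s1⟩ : ∃ s : F, s ≠ 0 ∧ 2 - s * s * Q y ≠ 0 := by
    obtain ⟨s, s0, s1⟩ := exists_sq_ne h4
    by_cases k : 2 - Q y = 0
    · exact ⟨s, s0, fun c => s1 (mul_right_cancel₀ qy (by linear_combination k - c))⟩
    · exact ⟨1, one_ne_zero, by simpa using k⟩
  have L : ∀ s : F, Lam h N (g (e + f - s • y - (s * s * Q y) • e)) := fun s => by
    have q : Q (e + f - s • y - (s * s * Q y) • e) = 1 := by
      simp [hQ.add', hQ.sub', hQ.smul', qe, qf, ef, fe, ey, fy, h.diag0 qe, h.refl ey]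
    exact (lam_r h (by simp [q]) (re _ (sub_mem (sub_mem (add_mem he hf) (Submodule.smul_mem _ _ hy))
      (Submodule.smul_mem _ _ he)) q)).map hN hg
  have no : ∀ t : F, t * t = s * s → B (g (e + f - (0 : F) • y - (0 * 0 * Q y) • e))
      (g (e + f - t • y - (t * t * Q y) • e)) ≠ 0 := fun t ht => by
    rw [(hN hg).1]
    convert s1 using 1
    simp [ef, fe, ey, fy, h.diag0 qe, h.diag0 qf, ht]; ring
  have sp : Submodule.span F (Set.range ![e, f, y]) = perp B P := Submodule.eq_of_le_of_finrank_eq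
    (by simp [Submodule.span_le, Set.insert_subset_iff, he, hf, hy]) (by
      rw [finrank_span_eq_card, h3, Fintype.card_fin]
      refine Fintype.linearIndependent_iff.2 fun c k => ?_
      have k1 := congrArg (B f) k
      have k2 := congrArg (B e) k
      have k3 := congrArg (B y) k
      simp [Fin.sum_univ_three, ef, fe, ey, fy, h.diag0 qe, h.diag0 qf, h.refl ey, h.refl fy,
        hQ.diag', t2, qy] at k1 k2 k3
      intro i; fin_cases i <;> assumption)
  have fin : ∀ X : Submodule F V, (∀ t : F, t = 0 ∨ t * t = s * s →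
      g (e + f - t • y - (t * t * Q y) • e) ∈ X) → (perp B P).map (g : V →ₗ[F] V) ≤ X := fun X hX => by
    have x0 := hX 0 (Or.inl rfl)
    have x1 := hX s (Or.inr rfl)
    have x2 := hX (-s) (Or.inr (by ring))
    simp only [map_add, map_sub, map_smul] at x0 x1 x2
    have y1 : g y ∈ X := by
      convert X.smul_mem (2 * s)⁻¹ (sub_mem x2 x1) using 1
      match_scalars <;> field_simp <;> ring
    have y2 : g e ∈ X := by
      convert X.smul_mem (s * s * Q y)⁻¹ (sub_mem (sub_mem x0 x1) (X.smul_mem s y1)) using 1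
      match_scalars <;> field_simp <;> ring
    rw [← sp, Submodule.map_span_le]
    rintro _ ⟨i, rfl⟩
    fin_cases i
    · exact y2
    · simpa using sub_mem x0 y2
    · exact y1
  rcases C _ (L 0) with k | k
  · refine hg' ?_
    have := h.stab_perp (hN hg) (mem_stabS_of_le (W := perp B P) fun v hv => fin _ (fun t ht => ?_) ⟨v, hv, rfl⟩)
    · rwa [pp] at this
    rcases ht with rfl | ht
    · exact k
    · exact (C _ (L t)).resolve_right fun c => no t ht (h.refl (k _ c))
  · refine not_map_le_of_lt (by omega) g (fin P fun t ht => ?_)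
    rcases ht with rfl | ht
    · exact k
    · exact (C _ (L t)).resolve_left fun c => no t ht (c _ k)

end Cfsg.Agent.H26.S4
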