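import Mathlib
import Cfsg.Agent.H26.NM3
import Cfsg.Agent.H26.Cs1

/-! Small exceptional overgroups: stabilisers of relations, transport to model fields. -/

set_option autoImplicit false
set_option maxHeartbeats 400000

namespace Cfsg.Agent.H26

open Matrix Cfsg.Geo Module

variable {ι κ : Type} [Fintype ι] [DecidableEq ι] [Fintype κ] [DecidableEq κ]
  {F F₀ : Type*} [Field F] [Field F₀] {σ : F →+* F} {σ₀ : F₀ →+* F₀} {G : Matrix ι ι F}

/-- the stabiliser of a relation on vectors -/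
def relStab [Finite F] (R : (ι → F) → (ι → F) → Prop) : Subgroup (GL ι F) where
  carrier := {g | ∀ x y, R x y → R (g.val *ᵥ x) (g.val *ᵥ y)}
  one_mem' x y h := by simpa using h
  mul_mem' {a b} ha hb x y h := by simpa using ha _ _ (hb _ _ h)
  inv_mem' {g} hg := by
    have h1 : ∀ n : ℕ, ∀ x y, R x y → R ((g ^ n).val *ᵥ x) ((g ^ n).val *ᵥ y) := fun n => by
      induction n with
      | zero => intro x y h; simpa using h
      | succ n ih => intro x y h; simpa [pow_succ'] using hg _ _ (ih x y h)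
    have h2 : g⁻¹ = g ^ (orderOf g - 1) := by
      rw [inv_eq_iff_mul_eq_one, ← pow_succ', Nat.sub_add_cancel (orderOf_pos g), pow_orderOf_eq_one]
    rw [h2]
    exact h1 _

theorem btw_of_rel [Finite F] {A X : Subgroup (GL ι F)} (R : (ι → F) → (ι → F) → Prop)
    (h1 : ∀ g ∈ A, g ∈ X → ∀ x y, R x y → R (g.val *ᵥ x) (g.val *ᵥ y))
    (h2 : ∃ g ∈ X, ∃ x y, R x y ∧ ¬ R (g.val *ᵥ x) (g.val *ᵥ y))
    (h3 : ∃ g ∈ X, g ∉ A ∧ ∀ x y, R x y → R (g.val *ᵥ x) (g.val *ᵥ y)) : Btw A X := by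
  refine exists_between (B := relStab R) (fun g hg => h1 g hg.1 hg.2) (fun h => ?_) ?_
  · obtain ⟨g, hg, x, y, h4, h5⟩ := h2
    exact h5 (h hg x y h4)
  · obtain ⟨g, hg, h4, h5⟩ := h3
    exact ⟨g, hg, h5, h4⟩

theorem btw_of_set [Finite F] {A X : Subgroup (GL ι F)} (S : (ι → F) → Prop)
    (h1 : ∀ g ∈ A, g ∈ X → ∀ x, S x → S (g.val *ᵥ x))
    (h2 : ∃ g ∈ X, ∃ x, S x ∧ ¬ S (g.val *ᵥ x))
    (h3 : ∃ g ∈ X, g ∉ A ∧ ∀ x, S x → S (g.val *ᵥ x)) : Btw A X := by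
  refine btw_of_rel (fun x _ => S x) (fun g h h' x _ => h1 g h h' x) ?_ ?_
  · obtain ⟨g, hg, x, h⟩ := h2
    exact ⟨g, hg, x, x, h⟩
  · obtain ⟨g, hg, h4, h5⟩ := h3
    exact ⟨g, hg, h4, fun x _ => h5 x⟩

theorem Btw.of_comap {Γ Γ' : Type*} [Group Γ] [Group Γ'] (Φ : Γ' ≃* Γ) {A X : Subgroup Γ}
    (h : Btw (A.comap Φ.toMonoidHom) (X.comap Φ.toMonoidHom)) : Btw A X := by
  obtain ⟨K, h1, h2⟩ := h
  have h3 : ∀ Y : Subgroup Γ, (Y.comap Φ.toMonoidHom).map Φ.toMonoidHom = Y := fun Y =>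
    Subgroup.map_comap_eq_self_of_surjective Φ.surjective Y
  refine ⟨K.map Φ.toMonoidHom, ?_, ?_⟩
  · rw [← h3 (A ⊓ X), Subgroup.comap_inf]
    exact (Subgroup.map_lt_map_iff_of_injective Φ.injective).2 h1
  · rw [← h3 X]
    exact (Subgroup.map_lt_map_iff_of_injective Φ.injective).2 h2

/-- transport from a model field -/
def trM (φ : F₀ ≃+* F) (e : ι ≃ κ) (P : GL ι F) : GL κ F₀ ≃* GL ι F :=
  (Units.mapEquiv (φ.mapMatrix (m := κ)).toMulEquiv).trans (trG e P)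

theorem coe_trM (φ : F₀ ≃+* F) (e : ι ≃ κ) (P : GL ι F) (g : GL κ F₀) :
    (trM φ e P g).val = trA e P (g.val.map φ) := rfl

theorem trM_mem_sl {φ : F₀ ≃+* F} {e : ι ≃ κ} {P : GL ι F} {g : GL κ F₀} :
    trM φ e P g ∈ specialLinear ι F ↔ g.val.det = 1 := by
  rw [mem_specialLinear, coe_trM, det_trA]
  erw [← RingHom.map_det (φ : F₀ →+* F)]
  exact map_eq_one_iff _ φ.injective

theorem trM_mem_isom {φ : F₀ ≃+* F} {e : ι ≃ κ} {P : GL ι F} (hσ : ∀ a, σ (φ a) = φ (σ₀ a))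
    {G₀ : Matrix κ κ F₀} (hG : unF σ e P G = G₀.map φ) {g : GL κ F₀} :
    trM φ e P g ∈ isom σ G ↔ pull σ₀ G₀ g.val = G₀ := by
  rw [mem_isom, ← (unF_injective σ e P).eq_iff, coe_trM, ← pull_unF, hG]
  have : pull σ (G₀.map φ) (g.val.map φ) = (pull σ₀ G₀ g.val).map φ := by
    ext i j
    simp [pull, Matrix.mul_apply, hσ]
  rw [this]
  exact (Matrix.map_injective φ.injective).eq_iff

theorem btw_tr [Finite F₀] (Φ : GL κ F₀ ≃* GL ι F) {A X : Subgroup (GL ι F)}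
    {A₀ X₀ : Matrix κ κ F₀ → Prop} (hA : ∀ g, Φ g ∈ A → A₀ g.val) (hX : ∀ g, Φ g ∈ X ↔ X₀ g.val)
    (R : (κ → F₀) → (κ → F₀) → Prop)
    (h1 : ∀ g, g.det ≠ 0 → A₀ g → X₀ g → ∀ x y, R x y → R (g *ᵥ x) (g *ᵥ y))
    (h2 : ∃ g, g.det ≠ 0 ∧ X₀ g ∧ ∃ x y, R x y ∧ ¬ R (g *ᵥ x) (g *ᵥ y))
    (h3 : ∃ g, g.det ≠ 0 ∧ X₀ g ∧ ¬ A₀ g ∧ ∀ x y, R x y → R (g *ᵥ x) (g *ᵥ y)) : Btw A X := by
  refine Btw.of_comap Φ (btw_of_rel R (fun g h h' =>
    h1 _ (Matrix.isUnits_det_units g).ne_zero (hA g h) ((hX g).1 h')) ?_ ?_)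
  · obtain ⟨g, h0, h4, h5⟩ := h2
    exact ⟨Matrix.GeneralLinearGroup.mkOfDetNeZero g h0, (hX _).2 h4, h5⟩
  · obtain ⟨g, h0, h4, h5, h6⟩ := h3
    exact ⟨Matrix.GeneralLinearGroup.mkOfDetNeZero g h0, (hX _).2 h4, fun h => h5 (hA _ h), h6⟩

theorem btw_trS [Finite F₀] (Φ : GL κ F₀ ≃* GL ι F) {A X : Subgroup (GL ι F)}
    {A₀ X₀ : Matrix κ κ F₀ → Prop} (hA : ∀ g, Φ g ∈ A → A₀ g.val) (hX : ∀ g, Φ g ∈ X ↔ X₀ g.val)
    (S : (κ → F₀) → Prop) (h1 : ∀ g, g.det ≠ 0 → A₀ g → X₀ g → ∀ x, S x → S (g *ᵥ x))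
    (h2 : ∃ g, g.det ≠ 0 ∧ X₀ g ∧ ∃ x, S x ∧ ¬ S (g *ᵥ x))
    (h3 : ∃ g, g.det ≠ 0 ∧ X₀ g ∧ ¬ A₀ g ∧ ∀ x, S x → S (g *ᵥ x)) : Btw A X := by
  refine btw_tr Φ hA hX (fun x _ => S x) (fun g h0 h h' x _ => h1 g h0 h h' x) ?_ ?_
  · obtain ⟨g, h0, hg, x, h⟩ := h2
    exact ⟨g, h0, hg, x, x, h⟩
  · obtain ⟨g, h0, hg, h4, h5⟩ := h3
    exact ⟨g, h0, hg, h4, fun x _ => h5 x⟩

theorem Blk.trM_blk {t k : ℕ} {D : Fin t → Submodule F (ι → F)} {e : ι ≃ Fin k × Fin t} {P : GL ι F}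
    (h : Blk D e P) (φ : F₀ ≃+* F) {g : GL (Fin k × Fin t) F₀}
    (hg : trM φ e P g ∈ decompositionStabilizer D) : ∃ τ a, g.val = blk τ a := by
  obtain ⟨τ, a, ha⟩ := h.stab _ hg
  rw [coe_trM, (trA e P).injective.eq_iff] at ha
  refine ⟨τ, fun j => (a j).val.map φ.symm, ?_⟩
  ext p q
  apply φ.injective
  have := congrFun (congrFun ha p) q
  simp only [Matrix.map_apply, blk_apply] at this ⊢
  rw [this]
  split_ifs <;> simp

/-! ### monomial matrices -/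

section mono
variable {T : Type} [Fintype T] [DecidableEq T]

/-- monomial matrices -/
def mono (τ : Equiv.Perm T) (a : T → F) : Matrix T T F :=
  Matrix.of fun i j => if i = τ j then a j else 0

theorem mono_mulVec (τ : Equiv.Perm T) (a x : T → F) (j : T) :
    (mono τ a *ᵥ x) (τ j) = a j * x j := by
  simp [mono, Matrix.mulVec, dotProduct]

theorem det_mono (τ : Equiv.Perm T) (a : T → F) :
    (mono τ a).det = ((Equiv.Perm.sign τ : ℤ) : F) * ∏ j, a j := by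
  have : mono τ a = (τ⁻¹.permMatrix F) * Matrix.diagonal a := by
    ext i j
    simp [mono, PEquiv.toMatrix_apply, Equiv.symm_apply_eq]
  rw [this, Matrix.det_mul, Matrix.det_permutation, Equiv.Perm.sign_inv, Matrix.det_diagonal]

theorem norm_of_mono {τ : Equiv.Perm T} {a : T → F} (h : pull σ 1 (mono τ a) = 1) (j : T) :
    a j * σ (a j) = 1 := by
  simpa [pull, Matrix.mul_apply, mono, apply_ite σ] using congrFun (congrFun h j) j

theorem ne_zero_of_mono {τ : Equiv.Perm T} {a : T → F} (h : (mono τ a).det ≠ 0) (j : T) : a j ≠ 0 := by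
  rw [det_mono] at h
  exact Finset.prod_ne_zero_iff.1 (right_ne_zero_of_mul h) j (Finset.mem_univ j)

theorem sq_prod_of_mono {τ : Equiv.Perm T} {a : T → F} (h : (mono τ a).det = 1) :
    (∏ j, a j) * ∏ j, a j = 1 := by
  rw [det_mono] at h
  rcases Int.units_eq_one_or (Equiv.Perm.sign τ) with h1 | h1 <;> rw [h1] at h <;> push_cast at h
  · rw [one_mul] at h; rw [h, one_mul]
  · linear_combination (1 - ∏ j, a j) * h

theorem prod_mono (τ : Equiv.Perm T) (a x : T → F) :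
    ∏ i, (mono τ a *ᵥ x) i = (∏ i, a i) * ∏ i, x i := by
  rw [← Equiv.prod_comp τ, ← Finset.prod_mul_distrib]
  simp only [mono_mulVec]

/-- the weight of a scalar -/
def wt0 {R : Type*} [Zero R] [DecidableEq R] (x : R) : ℕ := if x = 0 then 0 else 1

theorem wt_mono [DecidableEq F] (τ : Equiv.Perm T) {a : T → F} (ha : ∀ j, a j ≠ 0) (x : T → F) :
    ∑ i, wt0 ((mono τ a *ᵥ x) i) = ∑ i, wt0 (x i) := by
  rw [← Equiv.sum_comp τ]
  simp [mono_mulVec, wt0, ha]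

theorem not_mono {g : Matrix T T F} {i i' j : T} (h : i ≠ i') (h1 : g i j ≠ 0) (h2 : g i' j ≠ 0) :
    ¬ ∃ τ a, g = mono τ a := by
  rintro ⟨τ, a, rfl⟩
  simp only [mono, Matrix.of_apply, ne_eq, ite_eq_right_iff, Classical.not_imp] at h1 h2
  exact h (h1.1.trans h2.1.symm)

end mono

theorem Blk.trM_mono {t : ℕ} {D : Fin t → Submodule F (ι → F)} {e : ι ≃ Fin 1 × Fin t} {P : GL ι F}
    (h : Blk D e P) (φ : F₀ ≃+* F) {g : GL (Fin t) F₀}
    (hg : trM φ (e.trans (Equiv.uniqueProd _ _)) P g ∈ decompositionStabilizer D) :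
    ∃ τ a, g.val = mono τ a := by
  obtain ⟨τ, a, ha⟩ := h.stab _ hg
  rw [coe_trM, trA_apply, trA_apply, (cj P).injective.eq_iff] at ha
  refine ⟨τ, fun j => φ.symm ((a j).val 0 0), ?_⟩
  ext p q
  apply φ.injective
  have := congrFun (congrFun ha (e.symm (0, p))) (e.symm (0, q))
  simp only [Matrix.map_apply, blk_apply, Matrix.submatrix_apply, Equiv.trans_apply,
    Equiv.apply_symm_apply, Equiv.uniqueProd_apply] at this
  rw [this, mono, Matrix.of_apply]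
  split_ifs <;> simp

theorem unF_trans_one {κ' : Type} [Fintype κ'] [DecidableEq κ'] {e : ι ≃ κ} {P : GL ι F}
    (h : unF σ e P G = 1) (e' : κ ≃ κ') (φ : F₀ ≃+* F) :
    unF σ (e.trans e') P G = (1 : Matrix κ' κ' F₀).map φ := by
  rw [Matrix.map_one _ (map_zero φ) (map_one φ), ← Matrix.submatrix_one_equiv e'.symm, ← h]
  rfl

/-! ### model fields -/

instance fact_five : Fact (Nat.Prime 5) := ⟨by norm_num⟩
instance fact_F4 : Fact (∀ r : ZMod 2, r ^ 2 ≠ 1 + 1 * r) := ⟨by decide⟩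
instance fact_F9 : Fact (∀ r : ZMod 3, r ^ 2 ≠ -1 + 0 * r) := ⟨by decide⟩
instance fact_F25 : Fact (∀ r : ZMod 5, r ^ 2 ≠ -1 + -1 * r) := ⟨by decide⟩

/-- the field with four elements -/
abbrev F4 := QuadraticAlgebra (ZMod 2) 1 1
/-- the field with nine elements -/
abbrev F9 := QuadraticAlgebra (ZMod 3) (-1) 0
/-- the field with twenty-five elements -/
abbrev F25 := QuadraticAlgebra (ZMod 5) (-1) (-1)

instance fintypeQ {R : Type*} [Fintype R] (a b : R) : Fintype (QuadraticAlgebra R a b) :=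
  Fintype.ofEquiv _ (QuadraticAlgebra.equivProd _ _).symm

theorem exists_model [Fintype F] [Fintype F₀] {q : ℕ} (h : Fintype.card F₀ = Fintype.card F)
    (hσ : (fun x : F => x ^ q) = σ) (hσ₀ : ∀ y, σ₀ y = y ^ q) :
    ∃ φ : F₀ ≃+* F, ∀ a, σ (φ a) = φ (σ₀ a) :=
  ⟨FiniteField.ringEquivOfCardEq h, fun a => by rw [← hσ, hσ₀, map_pow]⟩

theorem conj_F4 : ∀ y : F4, starRingEnd F4 y = y ^ 2 := by decide +kernel
theorem conj_F9 : ∀ y : F9, starRingEnd F9 y = y ^ 3 := by decide +kernel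
theorem conj_F25 : ∀ y : F25, starRingEnd F25 y = y ^ 5 := by decide +kernel
theorem card_F4 : Fintype.card F4 = 4 := by decide +kernel
theorem card_F9 : Fintype.card F9 = 9 := by decide +kernel
theorem card_F25 : Fintype.card F25 = 25 := by decide +kernel

end Cfsg.Agent.H26
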