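import Mathlib
import Cfsg.Agent.H26.Ex1

/-! The tensor product `Sp₂ ⊗ O₄⁺` is not maximal in `Sp₈`. -/

set_option autoImplicit false
set_option maxHeartbeats 400000

namespace Cfsg.Agent.H26

open Matrix Cfsg.Geo Module
open scoped Kronecker

variable {ι κ β : Type} [Fintype ι] [DecidableEq ι] [Fintype κ] [DecidableEq κ] [Fintype β]
  [DecidableEq β] {F : Type*} [Field F] {G : Matrix ι ι F}

omit [DecidableEq κ] [DecidableEq β] in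
theorem kron_mulVec_pure (a : Matrix κ κ F) (b : Matrix β β F) (x : κ → F) (y : β → F) :
    (a ⊗ₖ b) *ᵥ (fun p => x p.1 * y p.2) = fun p => (a *ᵥ x) p.1 * (b *ᵥ y) p.2 := by
  ext p
  simp only [Matrix.mulVec, dotProduct, Fintype.sum_prod_type, Finset.sum_mul_sum,
    Matrix.kroneckerMap_apply]
  exact Finset.sum_congr rfl fun _ _ => Finset.sum_congr rfl fun _ _ => by ring

/-- exchange of the last two factors -/
def sw3 : Equiv.Perm ((Fin 2 × Fin 2) × Fin 2) where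
  toFun p := ((p.1.1, p.2), p.1.2)
  invFun p := ((p.1.1, p.2), p.1.2)
  left_inv _ := rfl
  right_inv _ := rfl

theorem nm_sp8_ten [Finite F] (h2 : (2 : F) ≠ 0) {e : ι ≃ Fin 2 × Fin 4} {P : GL ι F}
    {G₁ : Matrix (Fin 2) (Fin 2) F} {G₂ : Matrix (Fin 4) (Fin 4) F} (h1 : Alt G₁)
    (h : Ten (RingHom.id F) G ⊥ e P G₁ G₂ (-1) 1)
    (hp : IsPlusTypeOn (fun v => fm (RingHom.id F) G₂ v v) ⊤) :
    Btw (tensorProductSubgroup 2 4 e P) (isom (RingHom.id F) G) := by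
  obtain ⟨ψ⟩ : Nonempty (Fin 4 ≃ Fin 2 × Fin 2) := ⟨Fintype.equivOfCardEq (by simp)⟩
  obtain ⟨T, hT⟩ := exists_pull_JJ h2 h.hf₂ ψ hp
  have h3 := ((show Ten (RingHom.id F) G (tenG e P) e P G₁ G₂ (-1) 1 from
    ⟨h.hf₁, h.hf₂, h.eq, le_rfl⟩).swap.change T).reindex ψ
  rw [hT, Matrix.submatrix_submatrix, Equiv.self_comp_symm, Matrix.submatrix_id_id] at h3
  obtain ⟨c, rfl⟩ : ∃ c : F, G₁ = c • J₂ F := ⟨_, h1.eq_smul_J₂⟩
  have hc : c ≠ 0 := by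
    rintro rfl
    exact not_isUnit_zero (zero_smul F (J₂ F) ▸ h.hf₁.unit)
  have hf := h3.hf₁.kronecker h3.hf₂
  have h4 : ∀ v, fm (RingHom.id F) ((J₂ F ⊗ₖ J₂ F) ⊗ₖ (c • J₂ F)) v v = 0 :=
    (HF.alt (by simpa using hf) h2).fm_self
  let g : Matrix ((Fin 2 × Fin 2) × Fin 2) ((Fin 2 × Fin 2) × Fin 2) F := sw3.permMatrix F
  have h5 : ∀ v, g *ᵥ v = v ∘ sw3 := fun v => by simp [g, Matrix.permMatrix_mulVec]
  refine btw_trS (trM (RingEquiv.refl F) _ _)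
    (A₀ := fun g => ∃ (a : GL (Fin 2 × Fin 2) F) (b : GL (Fin 2) F), g = a.val ⊗ₖ b.val)
    (fun g hg => ?_) (X₀ := fun g => pull (RingHom.id F) ((J₂ F ⊗ₖ J₂ F) ⊗ₖ (c • J₂ F)) g = _)
    (fun g => trM_mem_isom (fun _ => rfl) h3.eq)
    (fun v => ∃ x y z : Fin 2 → F, v = fun p => x p.1.1 * y p.1.2 * z p.2) ?_
    ⟨_, (Matrix.isUnits_det_units _).ne_zero,
      mem_isom.1 (hf.tvf_mem (h4 (Pi.single ((1, 1), 1) 1)) (c := 1) (by simp)),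
      Pi.single ((0, 0), 0) 1, ⟨Pi.single 0 1, Pi.single 0 1, Pi.single 0 1, ?_⟩, ?_⟩
    ⟨g, by rcases Int.units_eq_one_or (Equiv.Perm.sign sw3) with h | h <;> simp [g, h], ?_, ?_, ?_⟩
  · obtain ⟨a, b, hab⟩ := mem_tenG.1 (h3.le (tenG_eq e P ▸ hg))
    exact ⟨a, b, (trA _ _).injective hab⟩
  · rintro _ - ⟨a, b, rfl⟩ h6 _ ⟨x, y, z, rfl⟩
    obtain ⟨d, hd, h7, -⟩ := sim_of_kronecker h3.hf₁.unit h3.hf₂.unit one_ne_zero
      (h6.trans (one_smul _ _).symm)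
    rw [kron_mulVec_pure a.val b.val (fun p => x p.1 * y p.2) z]
    obtain ⟨a₁, a₂, rfl | rfl⟩ := sim_JJ h2 (mem_similarityGroup_fm.2 ⟨d, hd, h7⟩)
    · exact ⟨_, _, _, by rw [coe_kronG, kron_mulVec_pure]⟩
    · refine ⟨a₂.val *ᵥ y, a₁.val *ᵥ x, b.val *ᵥ z, ?_⟩
      rw [Units.val_mul, ← Matrix.mulVec_mulVec, coe_kronG, kron_mulVec_pure]
      ext p
      simp [Matrix.mulVec, dotProduct, sw_apply, mul_comm]
  · ext ⟨⟨i, j⟩, k⟩
    fin_cases i <;> fin_cases j <;> fin_cases k <;> simp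
  · rintro ⟨x, y, z, h6⟩
    have a1 := congrFun h6 ((0, 0), 0)
    have a2 := congrFun h6 ((1, 1), 1)
    have a3 := congrFun h6 ((0, 0), 1)
    simp only [tvf_mulVec, fm_single] at a1 a2 a3
    simp [J₂] at a1 a2 a3
    grind
  · refine eq_of_fm_eq (σ := RingHom.id F) fun u v => ?_
    rw [← fm_pull, h5, h5, fm_comp_equiv]
    congr 1
    ext ⟨⟨i, j⟩, k⟩ ⟨⟨i', j'⟩, k'⟩
    simp [sw3]
    ring
  · rintro ⟨a, b, h6⟩
    have a1 := congrFun (congrFun h6 ((0, 0), 0)) ((0, 0), 0)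
    have a2 := congrFun (congrFun h6 ((0, 0), 1)) ((0, 1), 0)
    have a3 := congrFun (congrFun h6 ((0, 0), 1)) ((0, 0), 0)
    simp [g, sw3, PEquiv.toMatrix_apply] at a1 a2 a3
    grind
  · rintro _ ⟨x, y, z, rfl⟩
    exact ⟨x, z, y, by rw [h5]; ext p; simp [sw3]; ring⟩

end Cfsg.Agent.H26
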