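import Mathlib
import Cfsg.Agent.H26.Ex1
import Cfsg.Agent.H26.MXa

/-! The unitary field extension subgroup of `Sp₄(3)` is not maximal. -/

set_option autoImplicit false
set_option maxHeartbeats 400000

namespace Cfsg.Agent.H26

open Matrix Cfsg.Geo Module

variable {ι κ : Type} [Fintype ι] [DecidableEq ι] [Fintype κ] [DecidableEq κ] {F : Type*} [Field F]
  {σ : F →+* F} {G : Matrix ι ι F} {ε : F}

theorem exists_coords_of_gram (e : ι ≃ κ) (b : κ → ι → F) {G₀ : Matrix κ κ F} (hG₀ : IsUnit G₀)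
    (h : ∀ k l, fm σ G (b k) (b l) = G₀ k l) :
    ∃ P : GL ι F, (∀ y, P.val *ᵥ (y ∘ e) = ∑ k, y k • b k) ∧ unF σ e P G = G₀ := by
  let P : Matrix ι ι F := Matrix.of fun i i' => b (e i') i
  have h1 : ∀ y : κ → F, P *ᵥ (y ∘ e) = ∑ k, y k • b k := fun y => by
    ext i
    simp only [Matrix.mulVec, dotProduct, P, Matrix.of_apply, Function.comp]
    rw [e.sum_comp (fun k => b k i * y k)]
    simp [mul_comm]
  have h2 : pull σ G P = G₀.submatrix e e := by
    ext i j
    rw [← fm_single σ (pull σ G P), ← fm_pull, Matrix.mulVec_single_one, Matrix.mulVec_single_one]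
    exact h _ _
  have h3 : IsUnit P := by
    have h4 : IsUnit (pull σ G P).det := by
      rw [h2, Matrix.det_submatrix_equiv_self]; exact (Matrix.isUnit_iff_isUnit_det _).1 hG₀
    rw [pull, Matrix.det_mul, Matrix.det_mul, Matrix.det_transpose] at h4
    exact (Matrix.isUnit_iff_isUnit_det _).2 (isUnit_of_mul_isUnit_left (isUnit_of_mul_isUnit_left h4))
  exact ⟨h3.unit, h1, by simp [unF, h2]⟩

theorem eq_trA_of_cols {e : ι ≃ κ} {P : GL ι F} {b : κ → ι → F}
    (hP : ∀ y, P.val *ᵥ (y ∘ e) = ∑ k, y k • b k) {x : Matrix ι ι F} {x₀ : Matrix κ κ F}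
    (h : ∀ l, x *ᵥ b l = ∑ k, x₀ k l • b k) : x = trA e P x₀ := by
  refine Matrix.toLin'.injective (LinearMap.ext fun v => ?_)
  obtain ⟨y, rfl⟩ := exists_crd e P v
  rw [Matrix.toLin'_apply, Matrix.toLin'_apply, trA_mulVec, hP, hP, Matrix.mulVec_sum]
  simp only [Matrix.mulVec_smul, h, Finset.smul_sum, Matrix.mulVec, dotProduct, Finset.sum_smul]
  rw [Finset.sum_comm]
  simp only [smul_smul, mul_comm]

theorem exists_skew_root [Fintype F] [Nonempty ι] (hq : Fintype.card F = 3)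
    (hG : HF (RingHom.id F) G ε) {K : Subalgebra F (Matrix ι ι F)} (hK : IsFieldSubalgebra 2 K)
    (h1 : IsAdjointClosedFor (fm (RingHom.id F) G) K)
    (h2 : ¬ IsSelfAdjointFor (fm (RingHom.id F) G) K) : ∃ I : Matrix ι ι F, I * I = -1 ∧
      adj (RingHom.id F) G I = -I ∧ ∀ g ∈ subalgebraNormalizer K,
        g.val * I = I * g.val ∨ g.val * I = -(I * g.val) := by
  have h3 : (2 : F) ≠ 0 := two_ne_zero_iff_odd.2 (by rw [hq]; decide)
  rw [hG.isSelfAdjointFor_iff] at h2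
  push Not at h2
  obtain ⟨k, hk, h2⟩ := h2
  obtain ⟨k', hk', h4⟩ := h1 k hk
  obtain ⟨I, hI, h5, h6⟩ : ∃ I ∈ K, I ≠ 0 ∧ adj (RingHom.id F) G I = -I :=
    ⟨k - k', sub_mem hk hk', sub_ne_zero.2 (hG.adj_eq h4 ▸ h2.symm), by
      rw [← hG.adj_eq h4, adj_sub, hG.adj_adj, neg_sub]⟩
  have h7 : ∀ a b : F, a • (1 : Matrix ι ι F) + b • I = 0 → a = 0 ∧ b = 0 := fun a b h => by
    have h8 := congrArg (adj (RingHom.id F) G) h
    rw [adj_add, adj_smul, adj_smul, h6, hG.adj_one, adj_zero] at h8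
    have h9 : (2 * a) • (1 : Matrix ι ι F) = 0 := by
      simp only [RingHom.id_apply] at h8; linear_combination (norm := module) h + h8
    have h10 : a = 0 := by simpa [h3] using h9
    exact ⟨h10, by simpa [h10, h5] using h⟩
  have h8 : ∀ x ∈ K, ∃ a b : F, x = a • 1 + b • I := fun x hx => by
    have h9 : LinearIndependent F ![(⟨1, K.one_mem⟩ : K), ⟨I, hI⟩] :=
      LinearIndependent.pair_iff.2 fun a b h => h7 a b (congrArg Subtype.val h)
    have h10 := h9.span_eq_top_of_card_eq_finrank (by simp [hK.finrank_eq])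
    have h11 : (⟨x, hx⟩ : K) ∈ Submodule.span F (Set.range ![(⟨1, K.one_mem⟩ : K), ⟨I, hI⟩]) :=
      h10 ▸ trivial
    rw [Matrix.range_cons, Matrix.range_cons, Matrix.range_empty, Set.union_empty,
      Set.singleton_union, Submodule.mem_span_pair] at h11
    obtain ⟨a, b, h⟩ := h11
    exact ⟨a, b, (congrArg Subtype.val h).symm⟩
  have h9 : ∀ x ∈ K, ∀ y ∈ K, x * x = y * y → x = y ∨ x = -y := fun x hx y hy h => by
    by_contra! h'
    have h10 := isUnit_of_mem_field hK (sub_mem hx hy) (sub_ne_zero.2 h'.1)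
    refine h'.2 (eq_neg_of_add_eq_zero_left (h10.mul_right_eq_zero.1 ?_))
    rw [sub_mul, mul_add, mul_add, h, hK.comm x hx y hy]; abel
  have h10 : I * I = -1 := by
    obtain ⟨a, b, h⟩ := h8 _ (mul_mem hI hI)
    have h11 := congrArg (adj (RingHom.id F) G) h
    rw [hG.adj_mul, adj_add, adj_smul, adj_smul, h6, hG.adj_one, neg_mul_neg, h] at h11
    obtain ⟨-, h12⟩ := h7 0 (2 * b) (by
      simp only [RingHom.id_apply] at h11; linear_combination (norm := module) h11)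
    obtain rfl : b = 0 := by simpa [h3] using h12
    have h13 : a ≠ 0 := fun h0 => h5 ((isUnit_of_mem_field hK hI h5).mul_right_eq_zero.1 (by
      simp [h, h0]))
    rcases sq_eq_one_iff.1 (sq_eq_of_card h13 hq) with rfl | rfl
    · rcases h9 I hI 1 K.one_mem (by simp [h]) with h14 | h14
      · exact absurd (h7 (-1) 1 (by simp [h14])).2 one_ne_zero
      · exact absurd (h7 1 1 (by simp [h14])).2 one_ne_zero
    · simp [h]
  refine ⟨I, h10, h6, fun g hg => (h9 (cj g I) ((hg I).1 hI) I hI (by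
    rw [← map_mul, h10, map_neg, map_one])).imp (fun h => ?_) fun h => ?_⟩
  · rw [← cj_mul_coe, h]
  · rw [← cj_mul_coe, h, neg_mul]

/-- the Gram matrix of the model -/
def G43 (R : Type*) [Ring R] : Matrix (Fin 4) (Fin 4) R :=
  !![0, 1, 0, 0; -1, 0, 0, 0; 0, 0, 0, 1; 0, 0, -1, 0]

/-- the square root of `-1` of the model -/
def I43 (R : Type*) [Ring R] : Matrix (Fin 4) (Fin 4) R :=
  !![0, -1, 0, 0; 1, 0, 0, 0; 0, 0, 0, -1; 0, 0, 1, 0]

theorem exists_ufld_coords [Fintype F] (hq : Fintype.card F = 3) (hn : Fintype.card ι = 4)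
    (hG : Alt G) (hu : IsUnit G) {I : Matrix ι ι F} (h1 : I * I = -1)
    (h2 : adj (RingHom.id F) G I = -I) :
    ∃ (e : ι ≃ Fin 4) (P : GL ι F), unF (RingHom.id F) e P G = G43 F ∧ I = trA e P (I43 F) := by
  have hf := hf_alt hG hu
  have h3 : (3 : F) = 0 := by simpa [hq] using FiniteField.cast_card_eq_zero F
  have h2' : (2 : F) ≠ 0 := two_ne_zero_iff_odd.2 (by rw [hq]; decide)
  set f := fm (RingHom.id F) G with hfd
  have a0 : ∀ x, f x x = 0 := hG.fm_self
  have a1 : ∀ x y, f y x = -f x y := fun x y => by simpa using hf.swap x y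
  have a2 : ∀ x y, f (I *ᵥ x) y = -f x (I *ᵥ y) := fun x y => by
    rw [hfd, hf.fm_adj, h2, Matrix.neg_mulVec, fm_neg_right]
  have a3 : ∀ x, I *ᵥ I *ᵥ x = -x := fun x => by
    rw [Matrix.mulVec_mulVec, h1, Matrix.neg_mulVec, Matrix.one_mulVec]
  have a4 : ∀ x y, f (I *ᵥ x) (I *ᵥ y) = f x y := fun x y => by
    rw [a2, a3, hfd, fm_neg_right, neg_neg]
  have key : ∀ U : Submodule F (ι → F), (∀ x ∈ U, I *ᵥ x ∈ U) → (∃ x ∈ U, ∃ y ∈ U, f x y ≠ 0) →
      ∃ x ∈ U, f x (I *ᵥ x) = 1 := fun U hU ⟨x, hx, y, hy, hxy⟩ => by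
    obtain ⟨z, hz, h4⟩ : ∃ z ∈ U, f z (I *ᵥ z) ≠ 0 := by
      by_contra! h
      have h4 := h _ (add_mem hx (hU y hy))
      have h5 := h _ (hU y hy)
      rw [Matrix.mulVec_add, hfd, fm_add_left, fm_add_right, fm_add_right, ← hfd, h x hx, h5, a4, a3,
        hfd, fm_neg_right, ← hfd, a1 x y] at h4
      exact hxy (mul_left_cancel₀ h2' (by linear_combination -h4))
    rcases sq_eq_one_iff.1 (sq_eq_of_card h4 hq) with h | h
    · exact ⟨z, hz, h⟩
    · refine ⟨z + I *ᵥ z, add_mem hz (hU z hz), ?_⟩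
      rw [Matrix.mulVec_add, hfd, fm_add_left, fm_add_right, fm_add_right, ← hfd, a4, a4, a3, hfd,
        fm_neg_right, ← hfd, a0, h]
      linear_combination -h3
  have : Nonempty ι := Fintype.card_pos_iff.1 (by omega)
  obtain ⟨u, -, hu1⟩ := key ⊤ (by simp) (by
    obtain ⟨v, hv⟩ := exists_ne (0 : ι → F)
    obtain ⟨x, hx⟩ := exists_fm_ne_zero_left (σ := RingHom.id F) hu hv
    exact ⟨x, trivial, v, trivial, hx⟩)
  let U : Submodule F (ι → F) :=
    { carrier := {x | f x u = 0 ∧ f x (I *ᵥ u) = 0}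
      add_mem' := fun hx hy => by
        simp only [Set.mem_setOf_eq, hfd, fm_add_left] at *; simp [hx.1, hx.2, hy.1, hy.2]
      zero_mem' := by simp [hfd, fm]
      smul_mem' := fun c x hx => by
        simp only [Set.mem_setOf_eq, hfd, fm_smul_left] at *; simp [hx.1, hx.2] }
  have hU : ∀ v, v - f v (I *ᵥ u) • u + f v u • I *ᵥ u ∈ U := fun v => by
    constructor
    · rw [hfd, fm_add_left, fm_sub_left, fm_smul_left, fm_smul_left, ← hfd, a0, a1 u (I *ᵥ u), hu1]
      ring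
    · rw [hfd, fm_add_left, fm_sub_left, fm_smul_left, fm_smul_left, ← hfd, a0, hu1]
      ring
  obtain ⟨w, ⟨hw1, hw2⟩, hw⟩ := key U (fun x hx => ⟨by rw [a2, hx.2, neg_zero], by rw [a4, hx.1]⟩) (by
    by_contra! h
    have h4 : ∀ x ∈ U, x = 0 := fun x hx => hf.eq_zero_left fun v => by
      have := h x hx _ (hU v)
      rw [hfd, fm_add_right, fm_sub_right, fm_smul_right, fm_smul_right, ← hfd, hx.1, hx.2] at this
      simpa using this
    have h5 : (⊤ : Submodule F (ι → F)) ≤ Submodule.span F {u, I *ᵥ u} := fun v _ =>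
      Submodule.mem_span_pair.2 ⟨f v (I *ᵥ u), -f v u, by
        linear_combination (norm := module) -h4 _ (hU v)⟩
    have h6 := (Submodule.finrank_mono h5).trans (MX.finrank_span_pair_le _ _)
    rw [finrank_top, finrank_fintype_fun_eq_card] at h6
    omega)
  have b1 : f u w = 0 := by rw [a1, hw1, neg_zero]
  have b2 : f u (I *ᵥ w) = 0 := by rw [a1, a2, hw2, neg_zero, neg_zero]
  obtain ⟨P, hP, h4⟩ := exists_coords_of_gram (σ := RingHom.id F) (G := G)
    (Fintype.equivFinOfCardEq hn) ![u, I *ᵥ u, w, I *ᵥ w] (G₀ := G43 F)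
    (IsUnit.of_mul_eq_one (I43 F) (by
      ext i j; fin_cases i <;> fin_cases j <;> simp [G43, I43, Matrix.mul_apply, Fin.sum_univ_four]))
    fun k l => by
      rw [← hfd]
      fin_cases k <;> fin_cases l <;> simp [G43, a0, a2, a3, a4, hu1, hw, hw1, hw2, b1, b2] <;>
        simp [hfd, fm_neg_right, a0] <;> simp [← hfd, a0, b1, hw1]
  refine ⟨_, P, h4, eq_trA_of_cols hP fun l => ?_⟩
  fin_cases l <;> simp [I43, Fin.sum_univ_four, a3, -Matrix.mulVec_mulVec]

/-- lying in the same plane of the derived spread -/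
def R43 (I : Matrix ι ι F) (f : (ι → F) → (ι → F) → F) (x y : ι → F) : Prop :=
  f x y ≠ 0 ∧ (f x (I *ᵥ x) ≠ 0 ∧ y = (f x (I *ᵥ x) * f x (I *ᵥ y)) • x +
    (f x (I *ᵥ x) * f x y) • I *ᵥ x ∨ f x (I *ᵥ x) = 0 ∧ f y (I *ᵥ y) = 0 ∧ f x (I *ᵥ y) = 0)

/-- explicit form, core -/
def R43c (f q s a b c d a' b' c' d' : ZMod 3) : Prop :=
  f ≠ 0 ∧ (q ≠ 0 ∧ (a' = q * s * a - q * f * b ∧ b' = q * s * b + q * f * a ∧
    c' = q * s * c - q * f * d ∧ d' = q * s * d + q * f * c) ∨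
    q = 0 ∧ a' * a' + b' * b' + c' * c' + d' * d' = 0 ∧ s = 0)

/-- explicit form -/
def R43' (a b c d a' b' c' d' : ZMod 3) : Prop :=
  R43c (a * b' - b * a' + c * d' - d * c') (a * a + b * b + c * c + d * d)
    (a * a' + b * b' + c * c' + d * d') a b c d a' b' c' d'

instance decR43c (f q s a b c d a' b' c' d' : ZMod 3) : Decidable (R43c f q s a b c d a' b' c' d') := by
  unfold R43c; infer_instance

instance decR43' (a b c d a' b' c' d' : ZMod 3) : Decidable (R43' a b c d a' b' c' d') :=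
  decR43c ..

theorem R43_iff (x y : Fin 4 → ZMod 3) : R43 (I43 _) (fm (RingHom.id _) (G43 _)) x y ↔
    R43' (x 0) (x 1) (x 2) (x 3) (y 0) (y 1) (y 2) (y 3) := by
  have h1 : ∀ x y : Fin 4 → ZMod 3, fm (RingHom.id _) (G43 _) x y =
      x 0 * y 1 - x 1 * y 0 + x 2 * y 3 - x 3 * y 2 := fun x y => by
    simp [fm_eq_sum, G43, Fin.sum_univ_four]; ring
  have h2 : ∀ x y : Fin 4 → ZMod 3, fm (RingHom.id _) (G43 _) x (I43 _ *ᵥ y) =
      x 0 * y 0 + x 1 * y 1 + x 2 * y 2 + x 3 * y 3 := fun x y => by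
    simp [h1, I43, Matrix.mulVec, dotProduct, Fin.sum_univ_four]
  simp only [R43, R43', R43c, h2]
  simp only [h1, funext_iff, Fin.forall_fin_succ]
  simp [I43, Matrix.mulVec, dotProduct, Fin.sum_univ_four, sub_eq_add_neg]

set_option maxRecDepth 100000 in
theorem R43'_key : ∀ a b c d a' b' c' d' : ZMod 3, R43' a b c d a' b' c' d' →
    R43' a (a + b) c (c + d) a' (a' + b') c' (c' + d') := by
  decide +kernel

theorem nm_sp4_ufld [Fintype F] (hq : Fintype.card F = 3) (hn : Fintype.card ι = 4) (hG : Alt G)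
    (hu : IsUnit G) {K : Subalgebra F (Matrix ι ι F)} (hK : IsFieldSubalgebra 2 K)
    (h1 : IsAdjointClosedFor (fm (RingHom.id F) G) K)
    (h2 : ¬ IsSelfAdjointFor (fm (RingHom.id F) G) K) :
    Btw (subalgebraNormalizer K) (isom (RingHom.id F) G) := by
  have : Nonempty ι := Fintype.card_pos_iff.1 (by omega)
  obtain ⟨I, h3, h4, h5⟩ := exists_skew_root hq (hf_alt hG hu) hK h1 h2
  obtain ⟨e, P, h6, rfl⟩ := exists_ufld_coords hq hn hG hu h3 h4
  let φ := ZMod.ringEquivOfPrime F (by norm_num) hq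
  have h7 : I43 F = (I43 (ZMod 3)).map φ := by
    ext i j; fin_cases i <;> fin_cases j <;> simp [I43]
  have h8 : G43 F = (G43 (ZMod 3)).map φ := by
    ext i j; fin_cases i <;> fin_cases j <;> simp [G43]
  refine btw_tr (trM φ e P) (A₀ := fun g => g * I43 _ = I43 _ * g ∨ g * I43 _ = -(I43 _ * g))
    (fun g hg => ?_) (X₀ := fun g => pull (RingHom.id _) (G43 _) g = G43 _)
    (fun g => trM_mem_isom (fun _ => rfl) (h6.trans h8)) (R43 (I43 _) (fm (RingHom.id _) (G43 _))) ?_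
    ⟨!![1, 2, 0, 0; 0, 1, 0, 0; 0, 0, 1, 0; 0, 0, 0, 1], by decide +kernel,
      by unfold pull; decide +kernel, ![0, 1, 0, 1], ![1, 0, 1, 0], by rw [R43_iff]; decide +kernel,
      by rw [R43_iff]; decide +kernel⟩
    ⟨!![1, 0, 0, 0; 1, 1, 0, 0; 0, 0, 1, 0; 0, 0, 1, 1], by decide +kernel,
      by unfold pull; decide +kernel, by decide +kernel, fun x y h => ?_⟩
  · have h9 := h5 _ hg
    simp only [coe_trM, h7, ← map_mul, ← map_neg, (trA e P).injective.eq_iff] at h9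
    refine h9.imp (fun h => Matrix.map_injective φ.injective ?_)
      fun h => Matrix.map_injective φ.injective ?_
    · simpa [Matrix.map_mul] using h
    · simpa [Matrix.map_mul, Matrix.map_neg] using h
  · rintro g - hA hX x y h
    have h9 : ∀ u v, fm (RingHom.id _) (G43 _) (g *ᵥ u) (g *ᵥ v) = fm (RingHom.id _) (G43 _) u v :=
      fun u v => by rw [fm_pull, hX]
    obtain ⟨c, hc, h10⟩ : ∃ c : ZMod 3, c * c = 1 ∧ ∀ v, I43 _ *ᵥ g *ᵥ v = c • g *ᵥ I43 _ *ᵥ v := by
      rcases hA with h | h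
      · exact ⟨1, by simp, fun v => by simp [h]⟩
      · exact ⟨-1, by simp, fun v => by simp [h, Matrix.neg_mulVec]⟩
    have hc0 : c ≠ 0 := left_ne_zero_of_mul_eq_one hc
    unfold R43 at h ⊢
    simp only [h10, fm_smul_right, h9, RingHom.id_apply, ne_eq, mul_eq_zero, hc0, false_or]
    refine ⟨h.1, h.2.imp_left fun h => ⟨h.1, ?_⟩⟩
    conv_lhs => rw [h.2]
    rw [Matrix.mulVec_add, Matrix.mulVec_smul, Matrix.mulVec_smul, smul_smul]
    congr 2
    · linear_combination -(fm (RingHom.id _) (G43 _) x (I43 _ *ᵥ x) *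
        fm (RingHom.id _) (G43 _) x (I43 _ *ᵥ y)) * hc
    · linear_combination -(fm (RingHom.id _) (G43 _) x (I43 _ *ᵥ x) *
        fm (RingHom.id _) (G43 _) x y) * hc
  · rw [R43_iff] at h ⊢
    simpa [Matrix.mulVec, dotProduct, Fin.sum_univ_four] using R43'_key _ _ _ _ _ _ _ _ h

end Cfsg.Agent.H26
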