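import Mathlib
import Cfsg.Agent.H26.Ex1

/-! Unitary field extension coordinates; the field extension subgroup of `SU₆(2)`. -/

set_option autoImplicit false
set_option maxHeartbeats 400000

namespace Cfsg.Agent.H26

open Matrix Cfsg.Geo Module

variable {ι β : Type} [Fintype ι] [DecidableEq ι] [Fintype β] [DecidableEq β] {F : Type*} [Field F]
  {σ : F →+* F} {G : Matrix ι ι F} {E : Type*} [Field E] [Algebra F E]

/-- coordinates over an extension field, in which the form is the trace of the standard form -/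
structure UCrd (σ : F →+* F) (G : Matrix ι ι F) (φ : E →ₐ[F] Matrix ι ι F) (τ : E →+* E)
    (e : (β → E) ≃ₗ[F] (ι → F)) : Prop where
  crd : Crd φ e
  inv : ∀ k, τ (τ k) = k
  ne : ∃ k, τ k ≠ k
  alg : ∀ c, τ (algebraMap F E c) = algebraMap F E (σ c)
  eq : ∀ x y, fm σ G (e x) (e y) = Algebra.trace F E (fm τ 1 x y)

theorem trace_hom [Finite E] {τ : E →+* E} (h : ∀ c, τ (algebraMap F E c) = algebraMap F E (σ c))
    (k : E) : Algebra.trace F E (τ k) = σ (Algebra.trace F E k) := by
  have := Finite.of_injective _ (algebraMap F E).injective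
  apply (algebraMap F E).injective
  rw [← h, FiniteField.algebraMap_trace_eq_sum_pow, FiniteField.algebraMap_trace_eq_sum_pow]
  simp

theorem eq_of_trace [Finite E] {a b : E}
    (h : ∀ k, Algebra.trace F E (k * a) = Algebra.trace F E (k * b)) : a = b := by
  have := Finite.of_injective _ (algebraMap F E).injective
  refine sub_eq_zero.1 ((traceForm_nondegenerate F E).1 _ fun k => ?_)
  rw [Algebra.traceForm_apply, mul_comm, mul_sub, map_sub, h, sub_self]

theorem exists_ucrd [Finite E] [Nonempty ι] (hG : HF σ G 1) (hne : ∃ a, σ a ≠ a)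
    (φ : E →ₐ[F] Matrix ι ι F) (ha : IsAdjointClosedFor (fm σ G) φ.range) {m : ℕ}
    (hm : Fintype.card ι = finrank F E * m) :
    ∃ (τ : E →+* E) (e : (Fin m → E) ≃ₗ[F] (ι → F)), UCrd σ G φ τ e := by
  have := Finite.of_injective _ (algebraMap F E).injective
  have h1 : ∀ k, ∃ k', φ k' = adj σ G (φ k) := fun k => by
    obtain ⟨_, ⟨k', rfl⟩, h⟩ := ha _ ⟨k, rfl⟩
    exact ⟨k', (hG.adj_eq h).symm⟩
  choose t ht using h1
  let τ : E →+* E :=
    { toFun := t
      map_one' := φ.injective (by simp [ht, hG.adj_one])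
      map_mul' := fun a b => φ.injective (by
        simp only [AlgHom.toRingHom_eq_coe, RingHom.coe_coe]
        rw [ht, mul_comm a, map_mul, hG.adj_mul, map_mul, ht, ht])
      map_zero' := φ.injective (by simp [ht, adj_zero])
      map_add' := fun a b => φ.injective (by simp [ht, adj_add]) }
  have h2 : ∀ k, φ (τ k) = adj σ G (φ k) := ht
  have h3 : ∀ k, τ (τ k) = k := fun k => φ.injective (by
    simp only [AlgHom.toRingHom_eq_coe, RingHom.coe_coe]; rw [h2, h2, hG.adj_adj])
  have h4 : ∀ c, τ (algebraMap F E c) = algebraMap F E (σ c) := fun c => φ.injective (by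
    simp only [AlgHom.toRingHom_eq_coe, RingHom.coe_coe]
    rw [h2, AlgHom.commutes, AlgHom.commutes, Algebra.algebraMap_eq_smul_one, adj_smul, hG.adj_one,
      Algebra.algebraMap_eq_smul_one])
  have h5 : ∃ k, τ k ≠ k := by
    obtain ⟨a, h⟩ := hne
    exact ⟨algebraMap F E a, by rw [h4]; exact (algebraMap F E).injective.ne h⟩
  obtain ⟨e, he⟩ := exists_crdE φ hm
  have h6 : ∀ x y, ∃ a, ∀ k, fm σ G (e (k • x)) (e y) = Algebra.trace F E (a * k) := fun x y => by
    let L : Dual F E :=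
      { toFun := fun k => fm σ G (e (k • x)) (e y)
        map_add' := fun a b => by rw [add_smul, map_add, fm_add_left]
        map_smul' := fun c a => by rw [smul_assoc, map_smul, fm_smul_left]; rfl }
    obtain ⟨a, h⟩ := ((Algebra.traceForm F E).toDual (traceForm_nondegenerate F E)).surjective L
    exact ⟨a, fun k => by
      simpa [LinearMap.BilinForm.toDual_def, L] using (LinearMap.congr_fun h k).symm⟩
  choose A hA using fun i j : Fin m => h6 (Pi.single i 1) (Pi.single j 1)
  have h7 : ∀ k x y, fm σ G (e x) (e (k • y)) = fm σ G (e (τ k • x)) (e y) := fun k x y => by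
    rw [he, he, h2, hG.fm_adj']
  have h8 : ∀ x y, fm σ G (e x) (e y) = Algebra.trace F E (fm τ (Matrix.of A) x y) := fun x y => by
    rw [fm_eq_sum τ, map_sum, pi_eq_sum_univ' x, map_sum, fm_sum_left]
    refine Finset.sum_congr rfl fun i _ => ?_
    rw [map_sum, pi_eq_sum_univ' y, map_sum, fm_sum_right]
    refine Finset.sum_congr rfl fun j _ => ?_
    rw [h7, smul_smul, hA]
    congr 1
    simp [Pi.single_apply]
    ring
  have h9 : HF τ (Matrix.of A) 1 := by
    refine ⟨h3, isUnit_of_fm_right (Function.Involutive.surjective h3) fun v hv => ?_, ?_⟩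
    · obtain ⟨x, hx⟩ := exists_fm_ne_zero_left (σ := σ) hG.unit (v := e v) (by simpa)
      obtain ⟨x, rfl⟩ := e.surjective x
      exact ⟨x, fun h => hx (by rw [h8, h, map_zero])⟩
    · ext i j
      refine eq_of_trace (F := F) fun k => ?_
      have h10 := hG.swap (e (Pi.single i 1)) (e (τ k • Pi.single j 1))
      rw [hA, h7, h3, hA, ← trace_hom h4, map_mul, h3] at h10
      simpa [mul_comm] using h10
  obtain ⟨T, hT⟩ := h9.exists_pull_eq_one h5
  refine ⟨τ, ((Matrix.GeneralLinearGroup.toLin T).toLinearEquiv.restrictScalars F).trans e,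
    fun k y => ?_, h3, h5, h4, fun x y => ?_⟩
  · exact (congrArg e (Matrix.mulVec_smul T.val k y)).trans (he _ _)
  · exact (h8 _ _).trans (congrArg _ (hT ▸ fm_pull τ _ T.val x y))

variable {φ : E →ₐ[F] Matrix ι ι F} {τ : E →+* E} {e : (β → E) ≃ₗ[F] (ι → F)}

theorem UCrd.pow [Finite E] (h : UCrd σ G φ τ e) {s : ℕ} (hs : Nat.card E = s ^ 2) (x : E) :
    τ x = x ^ s := by
  rw [invol_eq_pow h.inv x h.ne, Nat.pow_left_injective two_ne_zero
    ((card_eq_sq_of_invol h.inv h.ne).symm.trans hs)]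

theorem UCrd.exists_mat [Finite E] [Nonempty ι] (h : UCrd σ G φ τ e) {g : GL ι F}
    (hg : ∀ k, cj g (φ k) ∈ φ.range) (hi : g ∈ isom σ G) : ∃ (ρ : E ≃ₐ[F] E) (M : Matrix β β E),
      pull τ 1 M = 1 ∧ (∀ x, ρ (τ x) = τ (ρ x)) ∧ ∀ y, g.val *ᵥ e y = e (M *ᵥ (ρ ∘ y)) := by
  obtain ⟨ρ, hρ⟩ := exists_aut φ hg
  obtain ⟨M, hM⟩ := h.crd.exists_mat (ρ := (ρ : E →+* E)) hρ
  have h1 : ∀ x, ρ (τ x) = τ (ρ x) := fun x => by
    simp only [invol_eq_pow h.inv _ h.ne, map_pow]
  refine ⟨ρ, M, eq_of_fm_eq (σ := τ) fun x y => eq_of_trace (F := F) fun k => ?_, h1, hM⟩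
  have h2 := fm_isom hi (e (ρ.symm ∘ (k • x))) (e (ρ.symm ∘ y))
  rw [hM, hM, h.eq, h.eq, fm_pull, ← Algebra.trace_eq_of_algEquiv ρ (fm τ 1 _ _)] at h2
  have h3 : ∀ z : β → E, (ρ : E →+* E) ∘ ρ.symm ∘ z = z := fun z => by ext; simp
  rw [h3, h3, fm_smul_left] at h2
  rw [h2]
  simp [fm_one, h1, Finset.mul_sum, mul_assoc]

theorem nm_su6_fld_aux [Fintype F] (hq : Fintype.card F = 4) (hG : HF σ G 1) (hne : ∃ a, σ a ≠ a)
    (hn : Fintype.card ι = 6) [Finite E] (hr : finrank F E = 3) (φ : E →ₐ[F] Matrix ι ι F)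
    (hK : IsFieldSubalgebra 3 φ.range) (ha : IsAdjointClosedFor (fm σ G) φ.range) :
    Btw (subalgebraNormalizer φ.range) (isom σ G ⊓ specialLinear ι F) := by
  have : Nonempty ι := Fintype.card_pos_iff.1 (by omega)
  obtain ⟨τ, e, h⟩ := exists_ucrd hG hne φ ha (m := 2) (by omega)
  have hE : Nat.card E = 8 ^ 2 := by
    rw [Module.natCard_eq_pow_finrank (K := F), hr, Nat.card_eq_fintype_card, hq]; rfl
  have h0 : (2 : F) = 0 := by_contra fun h2 => absurd (hq ▸ two_ne_zero_iff_odd.1 h2) (by decide)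
  have h0' : (2 : E) = 0 := by simpa [map_ofNat] using congrArg (algebraMap F E) h0
  have h1 : ∀ y, semiE e τ !![0, 1; 1, 0] (e y) = e ![τ (y 1), τ (y 0)] := fun y => by
    rw [semiE_apply]; congr 1; ext i; fin_cases i <;> simp [Matrix.mulVec, dotProduct]
  obtain ⟨P, hP⟩ := exists_semi_basis hG.inv hne (θ := semiE e τ !![0, 1; 1, 0])
    (semiE_smul h.alg _) fun x => by
    obtain ⟨y, rfl⟩ := e.surjective x
    rw [h1, h1]
    congr 1; ext i; fin_cases i <;> simp [h.inv]
  have h2 : fm σ G (e ![1, 1]) (e ![1, 1]) = 0 := by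
    simp [h.eq, fm_one, one_add_one_eq_two, h0']
  have h3 : (1 : F) + σ 1 * 1 = 0 := by simp [one_add_one_eq_two, h0]
  have h4 : e ![1, 1] ≠ 0 := by simp
  refine exists_between (B := subfieldSubgroup (fixF σ) P) (fun g hg => ?_)
    (su_not_le_sub hG hne (by omega) (fixF_ne_top hne) P) ⟨tvf σ G _ 1 h2,
      (tvG_su hG hne (by omega)).mem _ _ _ h3, semi_mem hG.surj hP (c := 1) fun x => ?_,
      tv_not_mem_normalizer_field hK (by norm_num) (by omega) _ h4 (hG.smul_mulVec_ne h4 one_ne_zero)⟩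
  · obtain ⟨ρ, M, h5, h6, hM⟩ := h.exists_mat (fun k => (hg.1 _).1 ⟨k, rfl⟩) hg.2.1
    have h7 := congrArg Matrix.det h5
    rw [pull, mul_one, Matrix.det_mul, Matrix.det_transpose, Matrix.det_one] at h7
    erw [← RingHom.map_det] at h7
    have h8 : ∀ x, semiE e τ !![0, 1; 1, 0] (g.val *ᵥ x) =
        φ (τ M.det) *ᵥ g.val *ᵥ semiE e τ !![0, 1; 1, 0] x := fun x => by
      obtain ⟨y, rfl⟩ := e.surjective x
      rw [hM, h1, h1, hM, ← h.crd]
      have h00 := congrFun (congrFun h5 0) 0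
      have h01 := congrFun (congrFun h5 0) 1
      have h10 := congrFun (congrFun h5 1) 0
      have h11 := congrFun (congrFun h5 1) 1
      simp [pull, Matrix.mul_apply] at h00 h01 h10 h11
      congr 1; ext i
      fin_cases i <;> simp [Matrix.mulVec, dotProduct, Matrix.det_fin_two, h6] <;> grind
    have h9 := semi_det hG.surj hP h8
    rw [mem_specialLinear.1 hg.2.2, map_one, mul_one, det_of_crd (e := e) (N := τ M.det • 1) fun y => by
      rw [← h.crd, Matrix.smul_mulVec, one_mulVec]] at h9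
    have h10 := congrArg (algebraMap F E) h9
    rw [FiniteField.algebraMap_norm_eq_pow, hE, Nat.card_eq_fintype_card, hq, map_one,
      Matrix.det_smul, Matrix.det_one, Fintype.card_fin] at h10
    obtain ⟨c, hc⟩ : τ M.det ∈ (algebraMap F E).fieldRange := by
      rw [mem_subfield_iff_pow_card, ← Nat.card_congr (algebraMap F E).rangeRestrictFieldEquiv.toEquiv,
        Nat.card_eq_fintype_card, hq]
      rw [h.pow hE] at *
      generalize M.det = d at *
      grind
    exact semi_mem hG.surj hP (c := c) fun x => by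
      rw [h8, ← hc, AlgHom.commutes, Algebra.algebraMap_eq_smul_one, Matrix.smul_mulVec, one_mulVec]
  · obtain ⟨y, rfl⟩ := e.surjective x
    rw [tvf_mulVec, map_add, semiE_smul h.alg, one_smul, tvf_mulVec, h1, h1, h.eq, h.eq, one_mul,
      one_mul, ← trace_hom h.alg]
    simp [fm_one, add_comm]

theorem nm_su6_fld [Fintype F] (hq : Fintype.card F = 4) (hG : HF σ G 1) (hne : ∃ a, σ a ≠ a)
    (hn : Fintype.card ι = 6) {K : Subalgebra F (Matrix ι ι F)} (hK : IsFieldSubalgebra 3 K)
    (ha : IsAdjointClosedFor (fm σ G) K) :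
    Btw (subalgebraNormalizer K) (isom σ G ⊓ specialLinear ι F) := by
  have : Nonempty ι := Fintype.card_pos_iff.1 (by omega)
  letI := (isField_of_isFieldSubalgebra hK).toField
  have := nm_su6_fld_aux (E := K) hq hG hne hn hK.finrank_eq K.val
  rw [Subalgebra.range_val] at this
  exact this hK ha

end Cfsg.Agent.H26
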