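import Mathlib
import Cfsg.Agent.H26.Ex4
import Cfsg.Agent.H26.Ex6

/-! Singer cycle normalisers in small unitary groups. -/

set_option autoImplicit false
set_option maxHeartbeats 400000

namespace Cfsg.Agent.H26

open Matrix Cfsg.Geo Module

variable {ι κ : Type} [Fintype ι] [DecidableEq ι] [Fintype κ] [DecidableEq κ] {F F₀ : Type*}
  [Field F] [Field F₀] {σ : F →+* F} {σ₀ : F₀ →+* F₀} {G : Matrix ι ι F} {E : Type*} [Field E]
  [Algebra F E] {φ : E →ₐ[F] Matrix ι ι F} {τ : E →+* E} {e : (Fin 1 → E) ≃ₗ[F] (ι → F)}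

theorem UCrd.singer_elt [Finite F] [Finite E] [Nonempty ι] (h : UCrd σ G φ τ e) (hG : HF σ G 1)
    (hne : ∃ a, σ a ≠ a) {s Q p : ℕ} (hE : Nat.card E = s ^ 2) (hQ : Nat.card F = Q + 1)
    [NeZero p] {ζ : E} (hζ : IsPrimitiveRoot ζ p) (hco : Q.Coprime p)
    (hnum : (s + 1).gcd ((s ^ 2 - 1) / Q * 2) ∣ Q * p) {g : GL ι F}
    (hg : ∀ k, cj g (φ k) ∈ φ.range) (hi : g ∈ isom σ G) (hd : g.val.det = 1) :
    ∃ (c : F) (k i : ℕ), ∀ y : E, g.val *ᵥ e (fun _ => y) =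
      c • e fun _ => ζ ^ k * y ^ (Q + 1) ^ i := by
  obtain ⟨ρ, M, h5, h6, hM⟩ := h.exists_mat hg hi
  obtain ⟨a, ha⟩ : ∃ a, a = M 0 0 := ⟨_, rfl⟩
  have h1 : a * τ a = 1 := by simpa [pull, Matrix.mul_apply, ha] using congrFun₂ h5 0 0
  have h2 : ∀ y, g.val *ᵥ e y = e fun _ => a * ρ (y 0) := fun y => by
    rw [hM]; congr 1; ext i; simp [Matrix.mulVec, dotProduct, ha, Subsingleton.elim i 0]
  have h3 : ∀ y, semiE e τ 1 (e y) = e (τ ∘ y) := fun y => by rw [semiE_apply, one_mulVec]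
  obtain ⟨P, hP⟩ := exists_semi_basis hG.inv hne (θ := semiE e τ 1) (semiE_smul h.alg _) fun x => by
    obtain ⟨y, rfl⟩ := e.surjective x
    rw [h3, h3]
    congr 1; ext i; simp [h.inv]
  have h8 : ∀ x, semiE e τ 1 (g.val *ᵥ x) = φ (τ a * τ a) *ᵥ g.val *ᵥ semiE e τ 1 x := fun x => by
    obtain ⟨y, rfl⟩ := e.surjective x
    rw [h2, h3, h3, h2, ← h.crd]
    congr 1; ext i
    simp only [Function.comp, map_mul, Pi.smul_apply, smul_eq_mul, h6]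
    linear_combination -(τ a * τ (ρ (y 0))) * h1
  have h9 := semi_det hG.surj hP h8
  rw [hd, map_one, mul_one, det_of_crd (e := e) (N := (τ a * τ a) • 1) fun y => by
    rw [← h.crd, Matrix.smul_mulVec, one_mulVec]] at h9
  have h10 := congrArg (τ ∘ algebraMap F E) h9
  simp only [Function.comp, FiniteField.algebraMap_norm_eq_pow, hE, hQ, map_one, Matrix.det_smul,
    Matrix.det_one, Fintype.card_fin, pow_one, mul_one, map_pow, map_mul, h.inv,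
    Nat.add_sub_cancel] at h10
  rw [← sq, ← pow_mul] at h10
  rw [h.pow hE, ← pow_succ'] at h1
  have h11 : (a ^ Q) ^ p = 1 := by
    obtain ⟨d, hd⟩ := hnum
    rw [← pow_mul, hd, pow_mul, pow_gcd_eq_one.2 ⟨h1, h10.symm⟩, one_pow]
  obtain ⟨k, -, hk⟩ := (hζ.pow_of_coprime Q hco).eq_pow_of_pow_eq_one h11
  have h12 : ζ ^ k ≠ 0 := pow_ne_zero _ (hζ.ne_zero (NeZero.ne p))
  obtain ⟨c, hc⟩ : a / ζ ^ k ∈ (algebraMap F E).fieldRange := by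
    rw [mem_subfield_iff_pow_card, ← Nat.card_congr (algebraMap F E).rangeRestrictFieldEquiv.toEquiv,
      hQ, pow_succ, div_pow, ← hk, pow_right_comm, div_self (pow_ne_zero _ h12), one_mul]
  obtain ⟨q, hq⟩ := CharP.exists F
  have : Fact q.Prime := ⟨CharP.char_is_prime F q⟩
  obtain ⟨i, hi⟩ := FiniteField.exists_forall_apply_eq_pow F q E ρ
  refine ⟨c, k, i, fun y => ?_⟩
  rw [h2, ← map_smul, hi, hQ]
  congr 1; ext
  rw [Pi.smul_apply, Algebra.smul_def, hc, ← mul_assoc, div_mul_cancel₀ _ h12]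

/-- model data for a Singer cycle -/
structure SgD (σ₀ : F₀ →+* F₀) {p : ℕ} (Q : ZMod p) (t : κ → ZMod p) (tr : ZMod p → F₀)
    (u : ZMod p → κ → F₀) (G₀ C Fr : Matrix κ κ F₀) (c : ℕ) : Prop where
  tr0 : tr 0 = Fintype.card κ
  trQ : ∀ j, tr (Q * j) = tr j
  trn : ∀ j, tr (-j) = σ₀ (tr j)
  gen : ∀ j : ZMod p, j = 0 ∨ ∃ i < Fintype.card κ, j = Q ^ i ∨ j = -Q ^ i
  gram' : (Matrix.of fun k l => tr (t k - t l)) = G₀
  unit : G₀.det ≠ 0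
  hu : ∀ m l, tr (m - t l) = ∑ k, u m k * G₀ k l
  ut : ∀ l, u (t l) = Pi.single l 1
  hC : ∀ m, C *ᵥ u m = u (1 + m)
  hF : ∀ m, Fr *ᵥ u m = u (Q * m)
  root : ∀ a : F₀, a * a + a + c = 0 → a = tr 1 ∨ a = tr (-1)

variable {p : ℕ} {t : κ → ZMod p} {tr : ZMod p → F₀} {u : ZMod p → κ → F₀}
  {G₀ C Fr : Matrix κ κ F₀} {c : ℕ}

theorem SgD.gram {Q : ZMod p} (d : SgD σ₀ Q t tr u G₀ C Fr c) (k l : κ) :
    tr (t k - t l) = G₀ k l := congrFun₂ d.gram' k l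

theorem SgD.eq {Q : ZMod p} (d : SgD σ₀ Q t tr u G₀ C Fr c) {g : Matrix κ κ F₀} {a : F₀} {k i : ℕ}
    (h : ∀ m, g *ᵥ u m = a • u (k + Q ^ i * m)) : g = a • (C ^ k * Fr ^ i) := by
  have h1 : ∀ (k : ℕ) m, (C ^ k) *ᵥ u m = u (k + m) := fun k m => by
    induction k with
    | zero => simp
    | succ k ih => rw [pow_succ', ← Matrix.mulVec_mulVec, ih, d.hC]; congr 1; push_cast; ring
  have h2 : ∀ (i : ℕ) m, (Fr ^ i) *ᵥ u m = u (Q ^ i * m) := fun i m => by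
    induction i with
    | zero => simp
    | succ k ih => rw [pow_succ', ← Matrix.mulVec_mulVec, ih, d.hF]; congr 1; ring
  ext j l
  have h3 := h (t l)
  rw [← h1, ← h2, d.ut, Matrix.mulVec_mulVec, ← Matrix.smul_mulVec, Matrix.mulVec_single_one,
    Matrix.mulVec_single_one] at h3
  exact congrFun h3 j

theorem btw_singer_aux [Fintype F] [Finite F₀] [Finite E] [Nonempty ι] (h : UCrd σ G φ τ e)
    (hG : HF σ G 1) (hne : ∃ a, σ a ≠ a) {s Q : ℕ} (hE : Nat.card E = s ^ 2)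
    (hQ : Nat.card F = Q + 1) [NeZero p] {ζ : E} (hζ : IsPrimitiveRoot ζ p) (hco : Q.Coprime p)
    (hnum : (s + 1).gcd ((s ^ 2 - 1) / Q * 2) ∣ Q * p) (hs : (s : ZMod p) = -1)
    (hn : finrank F E = Fintype.card κ) (e' : ι ≃ κ) (φ₀ : F₀ ≃+* F)
    (hφ : ∀ a, σ (φ₀ a) = φ₀ (σ₀ a)) (d : SgD σ₀ (Q + 1 : ℕ) t tr u G₀ C Fr c)
    (hα : Algebra.trace F E ζ = φ₀ (tr 1)) (S : (κ → F₀) → Prop)
    (hS : ∀ (a : F₀) x, S x → S (a • x))
    (hC : ∀ x, S x → S (C *ᵥ x)) (hF : ∀ x, S x → S (Fr *ᵥ x))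
    (h2 : ∃ g, g.det ≠ 0 ∧ (pull σ₀ G₀ g = G₀ ∧ g.det = 1) ∧ ∃ x, S x ∧ ¬ S (g *ᵥ x))
    (h3 : ∃ g, g.det ≠ 0 ∧ (pull σ₀ G₀ g = G₀ ∧ g.det = 1) ∧ (∀ m (a : F₀), g *ᵥ u 1 ≠ a • u m) ∧
      ∀ x, S x → S (g *ᵥ x)) :
    Btw (subalgebraNormalizer φ.range) (isom σ G ⊓ specialLinear ι F) := by
  let ψ := AddChar.zmodChar p hζ.pow_eq_one
  have a1 : ∀ (n : ℕ) j, ψ j ^ n = ψ (n * j) := fun n j => by
    rw [← AddChar.map_nsmul_eq_pow, nsmul_eq_mul]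
  have a2 : ∀ j, τ (ψ j) = ψ (-j) := fun j => by rw [h.pow hE, a1, hs, neg_one_mul]
  have a3 : ∀ (i : ℕ), Algebra.trace F E (ψ (((Q + 1 : ℕ) : ZMod p) ^ i)) =
      φ₀ (tr (((Q + 1 : ℕ) : ZMod p) ^ i)) := fun i => by
    induction i with
    | zero => rw [pow_zero, ← hα, ← Nat.cast_one, AddChar.zmodChar_apply', pow_one]
    | succ i ih =>
      rw [pow_succ', d.trQ, ← ih, ← a1, ← hQ, Nat.card_eq_fintype_card]
      exact Algebra.trace_eq_of_algEquiv (FiniteField.frobeniusAlgEquivOfAlgebraic F E) _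
  have a4 : ∀ j, Algebra.trace F E (ψ j) = φ₀ (tr j) := fun j => by
    rcases d.gen j with rfl | ⟨i, -, rfl | rfl⟩
    · rw [AddChar.map_zero_eq_one, ← map_one (algebraMap F E), Algebra.trace_algebraMap, d.tr0, hn]
      simp
    · exact a3 i
    · rw [← a2, trace_hom h.alg, a3, hφ, d.trn]
  have a5 : ∀ j k, fm σ G (e fun _ => ψ j) (e fun _ => ψ k) = φ₀ (tr (j - k)) := fun j k => by
    rw [h.eq, fm_one, Fin.sum_univ_one, a2, ← AddChar.map_add_eq_mul, a4, sub_eq_add_neg]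
  obtain ⟨P, hP, a6⟩ := exists_coords_of_gram (σ := σ) (G := G) e' (fun k => e fun _ => ψ (t k))
    (G₀ := G₀.map φ₀) (((Matrix.isUnit_iff_isUnit_det _).2 d.unit.isUnit).map φ₀.mapMatrix)
    fun k l => by rw [a5, d.gram]; rfl
  have a7 : ∀ m, P.val *ᵥ ((φ₀ ∘ u m) ∘ e') = e fun _ => ψ m := fun m => by
    refine sub_eq_zero.1 (hG.eq_zero_left fun v => ?_)
    obtain ⟨y, rfl⟩ := exists_crd e' P v
    rw [hP y, fm_sum_right]
    refine Finset.sum_eq_zero fun l _ => ?_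
    rw [fm_smul_right, fm_sub_left, hP, fm_sum_left, a5, d.hu]
    simp [fm_smul_left, a5, d.gram]
  refine btw_trS (trM φ₀ e' P)
    (A₀ := fun g => ∃ (a : F₀) (k i : ℕ), g.det = 1 → pull σ₀ G₀ g = G₀ →
      ∀ m, g *ᵥ u m = a • u (k + ((Q + 1 : ℕ) : ZMod p) ^ i * m))
    (fun g hg => ?_) (X₀ := fun g => pull σ₀ G₀ g = G₀ ∧ g.det = 1)
    (fun g => (trM_mem_isom hφ a6).and trM_mem_sl) S ?_ h2 ?_
  · by_cases b1 : g.val.det = 1 ∧ pull σ₀ G₀ g.val = G₀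
    swap
    · exact ⟨0, 0, 0, fun b2 b3 => absurd ⟨b2, b3⟩ b1⟩
    obtain ⟨a, k, i, b2⟩ := h.singer_elt hG hne hE hQ hζ hco hnum (fun k => (hg _).1 ⟨k, rfl⟩)
      ((trM_mem_isom hφ a6).2 b1.2) (mem_specialLinear.1 (trM_mem_sl.2 b1.1))
    refine ⟨φ₀.symm a, k, i, fun _ _ m => ?_⟩
    have b3 := b2 (ψ m)
    rw [a1, ← AddChar.zmodChar_apply' hζ.pow_eq_one, ← AddChar.map_add_eq_mul, ← a7, ← a7, coe_trM,
      trA_mulVec, ← Matrix.mulVec_smul] at b3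
    have b4 := crd_injective e' P (z := a • _) b3
    ext j
    apply φ₀.injective
    have b5 := congrFun b4 j
    simpa [Matrix.mulVec, dotProduct] using b5
  · rintro g - ⟨a, k, i, b1⟩ b2 x hx
    have b3 : ∀ (M : Matrix κ κ F₀), (∀ x, S x → S (M *ᵥ x)) → ∀ (n : ℕ) x, S x → S ((M ^ n) *ᵥ x) :=
      fun M hM n x hx => by
        induction n with
        | zero => simpa
        | succ n ih => rw [pow_succ', ← Matrix.mulVec_mulVec]; exact hM _ ih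
    rw [d.eq (b1 b2.2 b2.1), Matrix.smul_mulVec, ← Matrix.mulVec_mulVec]
    exact hS _ _ (b3 _ hC _ _ (b3 _ hF _ _ hx))
  · obtain ⟨g, b1, b2, b3, b4⟩ := h3
    exact ⟨g, b1, b2, fun ⟨a, k, i, b5⟩ => b3 _ _ (b5 b2.2 b2.1 1), b4⟩

theorem btw_singer.{v} {F : Type v} [Field F] {σ : F →+* F} {G : Matrix ι ι F} [Fintype F] [Finite F₀]
    (hG : HF σ G 1) (hne : ∃ a, σ a ≠ a) {s Q : ℕ}
    (hQ : Fintype.card F = Q + 1) (hE : (Q + 1) ^ Fintype.card κ = s ^ 2) (hp : p.Prime)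
    (hco : Q.Coprime p) (hnum : (s + 1).gcd ((s ^ 2 - 1) / Q * 2) ∣ Q * p) (hs : (s : ZMod p) = -1)
    (hd : p ∣ s ^ 2 - 1) (e' : ι ≃ κ) [Nonempty κ] (φ₀ : F₀ ≃+* F)
    (hφ : ∀ a, σ (φ₀ a) = φ₀ (σ₀ a)) (d : SgD σ₀ (Q + 1 : ℕ) t tr u G₀ C Fr c)
    {K : Subalgebra F (Matrix ι ι F)} (hK : IsFieldSubalgebra (Fintype.card κ) K)
    (ha : IsAdjointClosedFor (fm σ G) K)
    (hq : ∀ (R : Type v) [CommRing R] (x A : R), x ^ p = 1 →
      A = ∑ i ∈ Finset.range (Fintype.card κ), x ^ (Q + 1) ^ i → (x - 1) * (A * A + A + c) = 0)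
    (S : (κ → F₀) → Prop) (hS : ∀ (a : F₀) x, S x → S (a • x))
    (hC : ∀ x, S x → S (C *ᵥ x)) (hF : ∀ x, S x → S (Fr *ᵥ x))
    (h2 : ∃ g, g.det ≠ 0 ∧ (pull σ₀ G₀ g = G₀ ∧ g.det = 1) ∧ ∃ x, S x ∧ ¬ S (g *ᵥ x))
    (h3 : ∃ g, g.det ≠ 0 ∧ (pull σ₀ G₀ g = G₀ ∧ g.det = 1) ∧ (∀ m (a : F₀), g *ᵥ u 1 ≠ a • u m) ∧
      ∀ x, S x → S (g *ᵥ x)) :
    Btw (subalgebraNormalizer K) (isom σ G ⊓ specialLinear ι F) := by
  have : Nonempty ι := e'.nonempty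
  letI := (isField_of_isFieldSubalgebra hK).toField
  have : NeZero p := ⟨hp.ne_zero⟩
  have : Fact p.Prime := ⟨hp⟩
  rw [← Nat.card_eq_fintype_card] at hQ
  have a1 : Nat.card K = s ^ 2 := by
    rw [Module.natCard_eq_pow_finrank (K := F), hK.finrank_eq, hQ, hE]
  obtain ⟨τ, e, h⟩ := exists_ucrd hG hne K.val (by rwa [Subalgebra.range_val]) (m := 1)
    (by rw [hK.finrank_eq, mul_one, Fintype.card_congr e'])
  obtain ⟨z, hz⟩ := exists_prime_orderOf_dvd_card' (G := Kˣ) p (by rwa [Nat.card_units, a1])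
  have hζ : IsPrimitiveRoot (z : K) p := by
    rw [IsPrimitiveRoot.coe_units_iff, ← hz]; exact IsPrimitiveRoot.orderOf z
  have a2 := (mul_eq_zero.1 (hq K z _ hζ.pow_eq_one rfl)).resolve_left
    (sub_ne_zero.2 (hζ.ne_one hp.one_lt))
  rw [← hQ, ← hK.finrank_eq, ← FiniteField.algebraMap_trace_eq_sum_pow] at a2
  have a3 := d.root (φ₀.symm (Algebra.trace F K z)) (φ₀.injective ((algebraMap F K).injective (by
    simpa using a2)))
  rw [← Subalgebra.range_val K]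
  rcases a3 with a3 | a3
  · exact btw_singer_aux h hG hne a1 hQ hζ hco hnum hs hK.finrank_eq e' φ₀ hφ d
      (by rw [← a3]; simp) S hS hC hF h2 h3
  · refine btw_singer_aux h hG hne a1 hQ (hζ.map_of_injective τ.injective) hco hnum hs hK.finrank_eq
      e' φ₀ hφ d ?_ S hS hC hF h2 h3
    rw [trace_hom h.alg, ← neg_neg (1 : ZMod p), d.trn, ← hφ, ← a3]
    simp

/-- a list of projective points -/
def Pts (L : List (κ → F₀)) (x : κ → F₀) : Prop := ∃ v ∈ L, ∃ c : F₀, x = c • v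

theorem Pts.smul {L : List (κ → F₀)} (a : F₀) (x : κ → F₀) (h : Pts L x) : Pts L (a • x) := by
  obtain ⟨v, hv, c, rfl⟩ := h
  exact ⟨v, hv, a * c, smul_smul _ _ _⟩

theorem Pts.pres {L : List (κ → F₀)} {g : Matrix κ κ F₀} (cs : List (ℕ × F₀))
    (h : L.map (g *ᵥ ·) = cs.map fun c => c.2 • L.getD c.1 0) (x : κ → F₀) (hx : Pts L x) :
    Pts L (g *ᵥ x) := by
  obtain ⟨v, hv, c, rfl⟩ := hx
  have h1 := List.mem_map_of_mem (f := (g *ᵥ ·)) hv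
  rw [h] at h1
  obtain ⟨d, -, hd⟩ := List.mem_map.1 h1
  rw [Matrix.mulVec_smul, ← hd]
  by_cases h2 : d.1 < L.length
  · rw [List.getD_eq_getElem _ _ h2]
    exact ⟨_, List.getElem_mem h2, c * d.2, smul_smul _ _ _⟩
  · rw [List.getD_eq_default _ _ (not_lt.1 h2)]
    exact ⟨v, hv, 0, by simp⟩

theorem Pts.mem {L : List (κ → F₀)} {x : κ → F₀} (h : x ∈ L) : Pts L x := ⟨x, h, 1, by simp⟩

instance decPts [DecidableEq F₀] [Fintype F₀] (L : List (κ → F₀)) (x : κ → F₀) :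
    Decidable (Pts L x) := by unfold Pts; infer_instance

end Cfsg.Agent.H26
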