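import Mathlib
import Cfsg.Agent.H26.Ex8

/-! Frames and orthogonal subfield subgroups of `SU₃(3)`, `SU₃(5)` that are not maximal. -/

set_option autoImplicit false
set_option maxHeartbeats 400000
set_option maxRecDepth 100000
set_option synthInstance.maxSize 2048

namespace Cfsg.Agent.H26

open Matrix Cfsg.Geo Module

variable {ι κ : Type} [Fintype ι] [DecidableEq ι] [Fintype κ] [DecidableEq κ] {F F₀ : Type*}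
  [Field F] [Field F₀] {σ : F →+* F} {σ₀ : F₀ →+* F₀} {G : Matrix ι ι F}

/-- matrices preserving a set of vectors -/
def presM (S : (κ → F₀) → Prop) : Submonoid (Matrix κ κ F₀) where
  carrier := {g | ∀ x, S x → S (g *ᵥ x)}
  one_mem' x h := by simpa using h
  mul_mem' {a b} ha hb x h := by simpa using ha _ (hb _ h)

theorem smul_mem_presM {L : List (κ → F₀)} {g : Matrix κ κ F₀} (h : g ∈ presM (Pts L)) (c : F₀) :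
    c • g ∈ presM (Pts L) := fun x hx => by
  rw [Matrix.smul_mulVec]; exact Pts.smul _ _ (h x hx)

theorem pres_of_proj {S : (Fin 3 → F₀) → Prop} (hS : ∀ (c : F₀) x, c ≠ 0 → S x → S (c • x))
    {g : Matrix (Fin 3) (Fin 3) F₀} (h0 : ¬ S 0)
    (h1 : ∀ y z, S ![1, y, z] → S (g *ᵥ ![1, y, z])) (h2 : ∀ z, S ![0, 1, z] → S (g *ᵥ ![0, 1, z]))
    (h3 : S ![0, 0, 1] → S (g *ᵥ ![0, 0, 1])) (x : Fin 3 → F₀) (hx : S x) : S (g *ᵥ x) := by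
  have key : ∀ (c : F₀) y, c ≠ 0 → x = c • y → (S y → S (g *ᵥ y)) → S (g *ᵥ x) :=
    fun c y hc h h' => by
      rw [h, Matrix.mulVec_smul]
      exact hS _ _ hc (h' (by simpa [h, smul_smul, hc] using hS c⁻¹ x (inv_ne_zero hc) hx))
  by_cases a0 : x 0 = 0
  · by_cases a1 : x 1 = 0
    · by_cases a2 : x 2 = 0
      · exact absurd (by rwa [show x = 0 by ext i; fin_cases i <;> simp [*]] at hx) h0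
      · exact key _ _ a2 (by ext i; fin_cases i <;> simp [*]) h3
    · exact key _ _ a1 (by ext i; fin_cases i <;> simp [*, mul_div_cancel₀]) (h2 (x 2 / x 1))
  · exact key _ _ a0 (by ext i; fin_cases i <;> simp [*, mul_div_cancel₀]) (h1 (x 1 / x 0) (x 2 / x 0))

/-- model data -/
def LF : List (Fin 3 → F25) := [![1, 0, 0], ![0, 1, 0], ![1, ⟨3, 0⟩, ⟨3, 0⟩], ![0, 0, 1], ![1,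
    ⟨2, 0⟩, 1], ![1, ⟨2, 2⟩, ⟨0, 2⟩], ![1, ⟨2, 0⟩, ⟨3, 0⟩], ![1, 1, ⟨2, 0⟩], ![1, ⟨3, 3⟩, ⟨0,
    4⟩], ![1, ⟨3, 0⟩, 1], ![1, ⟨0, 3⟩, ⟨2, 2⟩], ![1, ⟨3, 3⟩, ⟨0, 2⟩], ![1, ⟨2, 2⟩, ⟨0, 4⟩], ![1,
    ⟨0, 2⟩, ⟨1, 1⟩], ![1, ⟨4, 4⟩, ⟨4, 2⟩], ![1, ⟨2, 0⟩, ⟨4, 0⟩], ![1, ⟨3, 0⟩, ⟨4, 0⟩], ![1, ⟨4,
    0⟩, ⟨2, 0⟩], ![1, ⟨4, 4⟩, ⟨0, 3⟩], ![1, ⟨0, 2⟩, ⟨4, 4⟩], ![1, ⟨1, 1⟩, ⟨0, 3⟩], ![1, ⟨0, 3⟩,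
    ⟨3, 3⟩], ![1, ⟨4, 4⟩, ⟨1, 3⟩], ![1, 1, ⟨3, 0⟩], ![1, ⟨2, 0⟩, ⟨2, 0⟩], ![1, ⟨3, 0⟩, ⟨2, 0⟩],
    ![1, ⟨0, 2⟩, ⟨2, 2⟩], ![1, ⟨3, 3⟩, ⟨0, 1⟩], ![1, ⟨2, 2⟩, ⟨0, 3⟩], ![1, ⟨2, 2⟩, ⟨0, 1⟩], ![1,
    ⟨0, 3⟩, ⟨4, 4⟩], ![0, 1, ⟨1, 1⟩], ![1, ⟨1, 1⟩, ⟨0, 2⟩], ![1, ⟨1, 4⟩, ⟨3, 4⟩], ![1, ⟨0, 3⟩,
    ⟨1, 1⟩], ![1, ⟨0, 4⟩, ⟨2, 2⟩], ![1, ⟨0, 1⟩, ⟨3, 2⟩], ![1, ⟨0, 1⟩, ⟨2, 3⟩], ![1, ⟨1, 1⟩, ⟨4,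
    2⟩], ![1, ⟨4, 0⟩, ⟨3, 0⟩], ![1, ⟨0, 1⟩, ⟨3, 3⟩], ![1, ⟨0, 1⟩, ⟨2, 2⟩], ![1, ⟨1, 1⟩, 0], ![1,
    ⟨0, 4⟩, ⟨3, 3⟩], ![1, ⟨3, 3⟩, ⟨0, 3⟩], ![1, ⟨4, 1⟩, ⟨2, 1⟩], ![1, ⟨0, 2⟩, ⟨3, 3⟩], ![1, ⟨1,
    1⟩, ⟨1, 3⟩], ![1, ⟨4, 4⟩, ⟨0, 2⟩], ![1, ⟨4, 2⟩, ⟨4, 4⟩], ![1, 0, ⟨0, 4⟩], ![1, 0, ⟨1, 1⟩],
    ![0, 1, ⟨0, 1⟩], ![0, 1, ⟨4, 4⟩], ![1, ⟨3, 2⟩, ⟨0, 1⟩], ![1, ⟨3, 4⟩, ⟨4, 1⟩], ![1, ⟨4, 1⟩,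
    ⟨3, 4⟩], ![1, ⟨2, 1⟩, ⟨4, 1⟩], ![1, ⟨3, 4⟩, ⟨1, 4⟩], ![1, 1, ⟨2, 4⟩], ![1, ⟨0, 4⟩, ⟨3, 2⟩],
    ![1, 1, ⟨3, 1⟩], ![1, ⟨0, 4⟩, ⟨2, 3⟩], ![1, ⟨1, 4⟩, ⟨2, 1⟩], ![1, ⟨0, 1⟩, 0], ![1, ⟨0, 4⟩,
    0], ![1, ⟨4, 4⟩, 0], ![1, ⟨1, 3⟩, ⟨4, 4⟩], ![1, ⟨2, 3⟩, ⟨0, 1⟩], ![1, ⟨2, 1⟩, ⟨1, 4⟩], ![0,
    1, ⟨0, 4⟩], ![1, ⟨3, 1⟩, ⟨4, 0⟩], ![1, 0, ⟨4, 4⟩], ![1, 0, 1], ![0, 1, ⟨4, 0⟩], ![1, 0, ⟨0,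
    1⟩], ![1, ⟨4, 2⟩, ⟨1, 1⟩], ![1, ⟨1, 2⟩, ⟨1, 2⟩], ![1, ⟨1, 3⟩, ⟨1, 1⟩], ![1, ⟨3, 2⟩, ⟨0, 4⟩],
    ![1, ⟨4, 3⟩, ⟨1, 2⟩], ![1, ⟨1, 2⟩, ⟨4, 3⟩], ![1, ⟨4, 0⟩, ⟨2, 4⟩], ![1, ⟨4, 3⟩, ⟨4, 3⟩], ![1,
    ⟨4, 0⟩, ⟨3, 1⟩], ![1, ⟨2, 3⟩, ⟨0, 4⟩], ![1, 1, 0], ![1, ⟨4, 0⟩, 0], ![1, ⟨2, 4⟩, ⟨4, 0⟩],
    ![0, 1, 1], ![1, ⟨0, 4⟩, ⟨4, 4⟩], ![1, 0, ⟨4, 0⟩], ![1, ⟨4, 0⟩, 1], ![1, ⟨3, 1⟩, 1], ![1, ⟨2,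
    4⟩, 1], ![1, ⟨0, 4⟩, ⟨1, 1⟩], ![1, ⟨1, 1⟩, ⟨0, 4⟩], ![1, ⟨0, 1⟩, ⟨1, 1⟩], ![1, ⟨4, 4⟩, ⟨0,
    4⟩], ![1, 1, ⟨4, 0⟩], ![1, ⟨1, 1⟩, ⟨0, 1⟩], ![1, ⟨4, 0⟩, ⟨4, 0⟩], ![1, ⟨0, 1⟩, ⟨4, 4⟩], ![1,
    1, 1], ![1, ⟨4, 4⟩, ⟨0, 1⟩]]
/-- model data -/
def cFD1 : List (ℕ × F25) := [(0, ⟨1, 1⟩), (1, ⟨0, 4⟩), (5, ⟨1, 1⟩), (3, 1), (8, ⟨1, 1⟩), (10,
    ⟨1, 1⟩), (11, ⟨1, 1⟩), (18, ⟨1, 1⟩), (19, ⟨1, 1⟩), (12, ⟨1, 1⟩), (25, ⟨1, 1⟩), (26, ⟨1, 1⟩),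
    (30, ⟨1, 1⟩), (4, ⟨1, 1⟩), (37, ⟨1, 1⟩), (27, ⟨1, 1⟩), (29, ⟨1, 1⟩), (20, ⟨1, 1⟩), (40, ⟨1,
    1⟩), (15, ⟨1, 1⟩), (43, ⟨1, 1⟩), (2, ⟨1, 1⟩), (36, ⟨1, 1⟩), (48, ⟨1, 1⟩), (44, ⟨1, 1⟩), (28,
    ⟨1, 1⟩), (24, ⟨1, 1⟩), (13, ⟨1, 1⟩), (21, ⟨1, 1⟩), (34, ⟨1, 1⟩), (16, ⟨1, 1⟩), (52, ⟨0, 4⟩),
    (35, ⟨1, 1⟩), (55, ⟨1, 1⟩), (9, ⟨1, 1⟩), (17, ⟨1, 1⟩), (59, ⟨1, 1⟩), (61, ⟨1, 1⟩), (62, ⟨1,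
    1⟩), (32, ⟨1, 1⟩), (23, ⟨1, 1⟩), (7, ⟨1, 1⟩), (65, ⟨1, 1⟩), (39, ⟨1, 1⟩), (46, ⟨1, 1⟩), (69,
    ⟨1, 1⟩), (6, ⟨1, 1⟩), (60, ⟨1, 1⟩), (41, ⟨1, 1⟩), (71, ⟨1, 1⟩), (72, ⟨1, 1⟩), (73, ⟨1, 1⟩),
    (74, ⟨0, 4⟩), (70, ⟨0, 4⟩), (76, ⟨1, 1⟩), (77, ⟨1, 1⟩), (57, ⟨1, 1⟩), (80, ⟨1, 1⟩), (81, ⟨1,
    1⟩), (14, ⟨1, 1⟩), (82, ⟨1, 1⟩), (22, ⟨1, 1⟩), (84, ⟨1, 1⟩), (58, ⟨1, 1⟩), (86, ⟨1, 1⟩), (87,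
    ⟨1, 1⟩), (64, ⟨1, 1⟩), (88, ⟨1, 1⟩), (78, ⟨1, 1⟩), (83, ⟨1, 1⟩), (89, ⟨0, 4⟩), (54, ⟨1, 1⟩),
    (91, ⟨1, 1⟩), (50, ⟨1, 1⟩), (53, ⟨0, 4⟩), (51, ⟨1, 1⟩), (93, ⟨1, 1⟩), (63, ⟨1, 1⟩), (94, ⟨1,
    1⟩), (49, ⟨1, 1⟩), (45, ⟨1, 1⟩), (33, ⟨1, 1⟩), (38, ⟨1, 1⟩), (56, ⟨1, 1⟩), (47, ⟨1, 1⟩), (67,
    ⟨1, 1⟩), (66, ⟨1, 1⟩), (42, ⟨1, 1⟩), (68, ⟨1, 1⟩), (31, ⟨0, 4⟩), (101, ⟨1, 1⟩), (75, ⟨1, 1⟩),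
    (96, ⟨1, 1⟩), (79, ⟨1, 1⟩), (85, ⟨1, 1⟩), (92, ⟨1, 1⟩), (90, ⟨1, 1⟩), (103, ⟨1, 1⟩), (102,
    ⟨1, 1⟩), (104, ⟨1, 1⟩), (95, ⟨1, 1⟩), (100, ⟨1, 1⟩), (99, ⟨1, 1⟩), (98, ⟨1, 1⟩), (97, ⟨1,
    1⟩)]
/-- model data -/
def cFD2 : List (ℕ × F25) := [(0, 1), (1, ⟨4, 0⟩), (6, 1), (3, 1), (9, 1), (11, 1), (2, 1), (17,
    1), (12, 1), (4, 1), (26, 1), (5, 1), (8, 1), (34, 1), (38, 1), (16, 1), (15, 1), (7, 1),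
    (20, 1), (30, 1), (18, 1), (46, 1), (47, 1), (39, 1), (25, 1), (24, 1), (10, 1), (29, 1),
    (44, 1), (27, 1), (19, 1), (53, ⟨4, 0⟩), (48, 1), (56, 1), (13, 1), (41, 1), (60, 1), (62,
    1), (14, 1), (23, 1), (43, 1), (35, 1), (66, 1), (40, 1), (28, 1), (63, 1), (21, 1), (22, 1),
    (32, 1), (67, 1), (50, 1), (51, 1), (70, ⟨4, 0⟩), (31, ⟨4, 0⟩), (68, 1), (57, 1), (33, 1),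
    (55, 1), (69, 1), (82, 1), (36, 1), (84, 1), (37, 1), (45, 1), (65, 1), (64, 1), (42, 1),
    (49, 1), (54, 1), (58, 1), (52, ⟨4, 0⟩), (88, 1), (72, 1), (73, 1), (89, ⟨4, 0⟩), (75, 1),
    (78, 1), (80, 1), (76, 1), (85, 1), (77, 1), (83, 1), (59, 1), (81, 1), (61, 1), (79, 1),
    (87, 1), (86, 1), (71, 1), (74, ⟨4, 0⟩), (102, 1), (91, 1), (103, 1), (94, 1), (93, 1), (97,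
    1), (98, 1), (95, 1), (96, 1), (101, 1), (104, 1), (99, 1), (90, 1), (92, 1), (100, 1)]
/-- model data -/
def cFcyc : List (ℕ × F25) := [(1, 1), (3, 1), (4, ⟨3, 0⟩), (0, 1), (7, 1), (12, ⟨0, 2⟩), (15,
    ⟨3, 0⟩), (2, ⟨2, 0⟩), (20, ⟨0, 4⟩), (23, 1), (19, ⟨2, 2⟩), (29, ⟨0, 2⟩), (32, ⟨0, 4⟩), (35,
    ⟨1, 1⟩), (33, ⟨4, 2⟩), (39, ⟨4, 0⟩), (17, ⟨4, 0⟩), (25, ⟨2, 0⟩), (11, ⟨0, 3⟩), (40, ⟨4, 4⟩),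
    (44, ⟨0, 3⟩), (34, ⟨3, 3⟩), (45, ⟨1, 3⟩), (24, ⟨3, 0⟩), (9, ⟨2, 0⟩), (16, ⟨2, 0⟩), (13, ⟨2,
    2⟩), (48, ⟨0, 1⟩), (27, ⟨0, 3⟩), (18, ⟨0, 1⟩), (41, ⟨4, 4⟩), (50, ⟨1, 1⟩), (5, ⟨0, 2⟩), (54,
    ⟨3, 4⟩), (43, ⟨1, 1⟩), (26, ⟨2, 2⟩), (58, ⟨3, 2⟩), (57, ⟨2, 3⟩), (63, ⟨4, 2⟩), (6, ⟨3, 0⟩),
    (10, ⟨3, 3⟩), (46, ⟨2, 2⟩), (31, 1), (21, ⟨3, 3⟩), (8, ⟨0, 3⟩), (68, ⟨2, 1⟩), (30, ⟨3, 3⟩),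
    (56, ⟨1, 3⟩), (28, ⟨0, 2⟩), (36, ⟨4, 4⟩), (42, ⟨0, 4⟩), (65, ⟨1, 1⟩), (72, ⟨0, 1⟩), (75, ⟨4,
    4⟩), (14, ⟨0, 1⟩), (78, ⟨4, 1⟩), (79, ⟨3, 4⟩), (67, ⟨4, 1⟩), (49, ⟨1, 4⟩), (83, ⟨2, 4⟩), (55,
    ⟨3, 2⟩), (77, ⟨3, 1⟩), (69, ⟨2, 3⟩), (85, ⟨2, 1⟩), (52, 1), (70, 1), (53, 1), (37, ⟨4, 4⟩),
    (22, ⟨0, 1⟩), (76, ⟨1, 4⟩), (51, ⟨0, 4⟩), (82, ⟨4, 0⟩), (64, ⟨4, 4⟩), (86, 1), (91, ⟨4, 0⟩),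
    (66, ⟨0, 1⟩), (62, ⟨1, 1⟩), (93, ⟨1, 2⟩), (60, ⟨1, 1⟩), (47, ⟨0, 4⟩), (71, ⟨1, 2⟩), (88, ⟨4,
    3⟩), (80, ⟨2, 4⟩), (94, ⟨4, 3⟩), (81, ⟨3, 1⟩), (38, ⟨0, 4⟩), (89, 1), (74, 1), (84, ⟨4, 0⟩),
    (73, 1), (97, ⟨4, 4⟩), (87, ⟨4, 0⟩), (99, 1), (61, 1), (59, 1), (90, ⟨1, 1⟩), (100, ⟨0, 4⟩),
    (95, ⟨1, 1⟩), (96, ⟨0, 4⟩), (101, ⟨4, 0⟩), (98, ⟨0, 1⟩), (92, ⟨4, 0⟩), (102, ⟨4, 4⟩), (103,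
    1), (104, ⟨0, 1⟩)]
/-- model data -/
def cFsw : List (ℕ × F25) := [(1, 1), (0, 1), (4, ⟨3, 0⟩), (3, 1), (2, ⟨2, 0⟩), (13, ⟨2, 2⟩),
    (16, ⟨2, 0⟩), (7, 1), (21, ⟨3, 3⟩), (24, ⟨3, 0⟩), (27, ⟨0, 3⟩), (30, ⟨3, 3⟩), (26, ⟨2, 2⟩),
    (5, ⟨0, 2⟩), (36, ⟨4, 4⟩), (25, ⟨2, 0⟩), (6, ⟨3, 0⟩), (39, ⟨4, 0⟩), (41, ⟨4, 4⟩), (28, ⟨0,
    2⟩), (43, ⟨1, 1⟩), (8, ⟨0, 3⟩), (37, ⟨4, 4⟩), (23, 1), (9, ⟨2, 0⟩), (15, ⟨3, 0⟩), (12, ⟨0,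
    2⟩), (10, ⟨3, 3⟩), (19, ⟨2, 2⟩), (46, ⟨2, 2⟩), (11, ⟨0, 3⟩), (51, 1), (35, ⟨1, 1⟩), (49, ⟨1,
    4⟩), (44, ⟨0, 3⟩), (32, ⟨0, 4⟩), (14, ⟨0, 1⟩), (22, ⟨0, 1⟩), (62, ⟨1, 1⟩), (17, ⟨4, 0⟩), (48,
    ⟨0, 1⟩), (18, ⟨0, 1⟩), (65, ⟨1, 1⟩), (20, ⟨0, 4⟩), (34, ⟨3, 3⟩), (67, ⟨4, 1⟩), (29, ⟨0, 2⟩),
    (60, ⟨1, 1⟩), (40, ⟨4, 4⟩), (33, ⟨4, 2⟩), (70, 1), (31, 1), (75, 1), (72, 1), (58, ⟨3, 2⟩),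
    (79, ⟨3, 4⟩), (78, ⟨4, 1⟩), (68, ⟨2, 1⟩), (54, ⟨3, 4⟩), (59, 1), (47, ⟨0, 4⟩), (61, 1), (38,
    ⟨0, 4⟩), (76, ⟨1, 4⟩), (66, ⟨0, 1⟩), (42, ⟨0, 4⟩), (64, ⟨4, 4⟩), (45, ⟨1, 3⟩), (57, ⟨2, 3⟩),
    (85, ⟨2, 1⟩), (50, 1), (81, ⟨3, 1⟩), (53, 1), (89, 1), (91, 1), (52, 1), (63, ⟨4, 2⟩), (93,
    ⟨1, 2⟩), (56, ⟨1, 3⟩), (55, ⟨3, 2⟩), (88, ⟨4, 3⟩), (71, ⟨1, 2⟩), (84, ⟨4, 0⟩), (94, ⟨4, 3⟩),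
    (82, ⟨4, 0⟩), (69, ⟨2, 3⟩), (86, 1), (87, ⟨4, 0⟩), (80, ⟨2, 4⟩), (73, 1), (96, ⟨0, 4⟩), (74,
    1), (101, ⟨4, 0⟩), (77, ⟨3, 1⟩), (83, ⟨2, 4⟩), (100, ⟨0, 4⟩), (90, ⟨1, 1⟩), (98, ⟨0, 1⟩),
    (97, ⟨4, 4⟩), (99, 1), (95, ⟨1, 1⟩), (92, ⟨4, 0⟩), (104, ⟨0, 1⟩), (103, 1), (102, ⟨4, 4⟩)]
/-- model data -/
def cFw : List (ℕ × F25) := [(2, ⟨3, 0⟩), (4, ⟨4, 0⟩), (0, ⟨2, 0⟩), (7, ⟨4, 0⟩), (1, ⟨4, 0⟩),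
    (14, ⟨1, 1⟩), (17, ⟨3, 0⟩), (3, ⟨4, 0⟩), (22, ⟨0, 3⟩), (9, ⟨4, 0⟩), (28, 1), (31, ⟨3, 2⟩),
    (33, ⟨1, 4⟩), (36, ⟨2, 2⟩), (5, ⟨0, 4⟩), (25, ⟨2, 0⟩), (39, 1), (6, ⟨2, 0⟩), (42, ⟨4, 3⟩),
    (27, ⟨4, 4⟩), (45, ⟨2, 1⟩), (37, ⟨0, 4⟩), (8, ⟨3, 3⟩), (23, ⟨4, 0⟩), (24, ⟨4, 0⟩), (15, ⟨3,
    0⟩), (49, ⟨1, 1⟩), (19, ⟨0, 1⟩), (10, 1), (50, ⟨1, 2⟩), (51, ⟨4, 3⟩), (11, ⟨3, 4⟩), (54, ⟨2,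
    2⟩), (12, ⟨4, 2⟩), (57, ⟨2, 1⟩), (58, ⟨1, 4⟩), (13, ⟨0, 2⟩), (21, ⟨1, 1⟩), (64, ⟨3, 2⟩), (16,
    1), (48, ⟨0, 1⟩), (65, ⟨1, 2⟩), (18, ⟨2, 4⟩), (67, ⟨0, 3⟩), (68, ⟨0, 4⟩), (20, ⟨2, 3⟩), (70,
    ⟨1, 3⟩), (60, ⟨1, 1⟩), (40, ⟨4, 4⟩), (26, ⟨0, 4⟩), (29, ⟨3, 1⟩), (30, ⟨2, 4⟩), (63, ⟨4, 4⟩),
    (69, ⟨0, 1⟩), (32, ⟨0, 2⟩), (56, 1), (55, 1), (34, ⟨2, 3⟩), (35, ⟨4, 2⟩), (61, ⟨0, 1⟩), (47,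
    ⟨0, 4⟩), (59, ⟨4, 4⟩), (66, ⟨1, 3⟩), (52, ⟨0, 1⟩), (38, ⟨3, 4⟩), (41, ⟨3, 1⟩), (62, ⟨4, 1⟩),
    (43, ⟨3, 3⟩), (44, ⟨1, 1⟩), (53, ⟨4, 4⟩), (46, ⟨4, 1⟩), (90, ⟨1, 4⟩), (85, ⟨4, 1⟩), (92, ⟨2,
    0⟩), (74, ⟨4, 0⟩), (76, ⟨3, 4⟩), (75, ⟨3, 2⟩), (83, ⟨1, 1⟩), (79, ⟨1, 1⟩), (78, ⟨0, 4⟩), (95,
    ⟨3, 0⟩), (96, ⟨3, 0⟩), (97, ⟨2, 1⟩), (77, ⟨0, 4⟩), (98, ⟨1, 4⟩), (72, ⟨1, 3⟩), (99, ⟨2, 0⟩),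
    (87, ⟨4, 0⟩), (100, ⟨2, 1⟩), (101, ⟨3, 0⟩), (71, ⟨4, 2⟩), (91, ⟨4, 0⟩), (73, ⟨3, 0⟩), (94,
    ⟨4, 4⟩), (93, ⟨0, 1⟩), (80, ⟨2, 0⟩), (81, ⟨2, 0⟩), (82, ⟨2, 3⟩), (84, ⟨4, 2⟩), (86, ⟨3, 0⟩),
    (88, ⟨2, 3⟩), (89, ⟨2, 0⟩), (102, ⟨4, 0⟩), (103, 1), (104, ⟨4, 0⟩)]

/-- a transvection -/
def T25 : Matrix (Fin 3) (Fin 3) F25 := !![⟨4, 1⟩, 0, ⟨1, 2⟩; 0, 1, 0; ⟨1, 2⟩, 0, ⟨3, 4⟩]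

theorem nm_su35_frame [Fintype F] (hq : Fintype.card F = 25) (hσ : (fun x : F => x ^ 5) = σ)
    (hG : HF σ G 1) (hne : ∃ a, σ a ≠ a) {D : Fin 3 → Submodule F (ι → F)}
    (hD : IsNondegenerateMDecomposition (fm σ G) 1 D) :
    Btw (decompositionStabilizer D) (isom σ G ⊓ specialLinear ι F) := by
  obtain ⟨e, P, hB, h1⟩ := exists_blk_one hG hne hD
  obtain ⟨φ, hφ⟩ := exists_model (card_F25.trans hq.symm) hσ conj_F25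
  refine btw_trS (trM φ (e.trans (Equiv.uniqueProd _ _)) P)
    (A₀ := fun g => ∃ τ a, g = mono τ a) (fun g => hB.trM_mono φ)
    (X₀ := fun g => pull (starRingEnd F25) 1 g = 1 ∧ g.det = 1)
    (fun g => (trM_mem_isom hφ (unF_trans_one h1 _ φ)).and trM_mem_sl) (Pts LF) ?_
    ⟨T25, by decide +kernel, by unfold pull; decide +kernel,
      ![1, 0, 1], .mem (by decide +kernel), by decide +kernel⟩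
    ⟨!![3, 4, 4; 4, 3, 4; 4, 4, 3], by decide +kernel, by unfold pull; decide +kernel,
      not_mono (i := 0) (i' := 2) (j := 0) (by decide) (by decide +kernel) (by decide +kernel),
      Pts.pres cFw (by decide +kernel)⟩
  rintro _ h0 ⟨τ, a, rfl⟩ h1
  change _ ∈ presM _
  have a1 : (!![0, 0, 1; 1, 0, 0; 0, 1, 0] : Matrix _ _ F25) ∈ presM (Pts LF) :=
    Pts.pres cFcyc (by decide +kernel)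
  have a2 : (!![0, 1, 0; 1, 0, 0; 0, 0, 1] : Matrix _ _ F25) ∈ presM (Pts LF) :=
    Pts.pres cFsw (by decide +kernel)
  have a3 : (diagonal ![⟨1, 1⟩, ⟨0, 4⟩, 1] : Matrix _ _ F25) ∈ presM (Pts LF) :=
    Pts.pres cFD1 (by decide +kernel)
  have a4 : (diagonal ![1, -1, 1] : Matrix _ _ F25) ∈ presM (Pts LF) :=
    Pts.pres cFD2 (by decide +kernel)
  have a5 : mono τ a = mono τ 1 * diagonal a := Matrix.ext fun i j => by simp [mono]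
  have a6 := sq_prod_of_mono h1.2
  rw [Fin.prod_univ_three] at a6
  obtain ⟨i, -, j, -, a7, a8⟩ := (by decide +kernel : ∀ a : F25, a * starRingEnd F25 a = 1 →
    ∀ b : F25, b * starRingEnd F25 b = 1 → ∀ c : F25, c * starRingEnd F25 c = 1 →
    a * b * c * (a * b * c) = 1 → ∃ i < 6, ∃ j < 2, a = c * (⟨1, 1⟩ : F25) ^ i ∧
      b = c * ((⟨0, 4⟩ : F25) ^ i * (-1) ^ j)) _ (norm_of_mono h1.1 0) _ (norm_of_mono h1.1 1) _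
      (norm_of_mono h1.1 2) a6
  obtain ⟨k, -, l, -, a9⟩ := (by decide +kernel : ∀ τ : Equiv.Perm (Fin 3), ∃ k < 3, ∃ l < 2,
    mono τ (1 : Fin 3 → F25) = !![0, 0, 1; 1, 0, 0; 0, 1, 0] ^ k * !![0, 1, 0; 1, 0, 0; 0, 0, 1] ^ l) τ
  have a10 : diagonal a = a 2 • ((diagonal ![⟨1, 1⟩, ⟨0, 4⟩, 1] : Matrix _ _ F25) ^ i *
      diagonal ![1, -1, 1] ^ j) := by
    rw [diagonal_pow, diagonal_pow, diagonal_mul_diagonal, ← diagonal_smul]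
    congr 1; funext m
    fin_cases m
    · simpa using a7
    · simpa using a8
    · simp
  rw [a5, a9, a10]
  exact mul_mem (mul_mem (pow_mem a1 _) (pow_mem a2 _))
    (smul_mem_presM (mul_mem (pow_mem a3 _) (pow_mem a4 _)) _)

theorem exists_orth_coords [Fintype F] (hG : HF σ G 1) (hne : ∃ a, σ a ≠ a)
    (ho : Odd (Fintype.card F)) (hn : Odd (Fintype.card ι)) {K : Subfield F} {P : GL ι F}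
    (hc : Fintype.card F = Nat.card K ^ 2) (h1 : IsFormRationalStructure (fm σ G) K 1 P) :
    ∃ P' : GL ι F, pull σ G P' = 1 ∧ ∀ g ∈ subfieldSubgroup K P,
      ∃ c : F, (cj P'⁻¹ g.val).map σ = c • cj P'⁻¹ g.val := by
  have : Nonempty ι := Fintype.card_pos_iff.1 hn.pos
  obtain rfl : K = fixF σ := subfield_eq_of_card (Nat.pow_left_injective two_ne_zero
    (hc.symm.trans (Nat.card_eq_fintype_card.symm.trans (card_eq_sq_of_invol hG.inv hne))))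
  have h2 : ∀ i j, pull σ G P.val i j ∈ fixF σ := fun i j => by
    have := h1 (Pi.single i 1) (Pi.single j 1) (fun k => by by_cases h : k = i <;> simp [h])
      (fun k => by by_cases h : k = j <;> simp [h])
    rwa [one_mul, fm_pull, fm_single] at this
  let G₁ : Matrix ι ι (fixF σ) := Matrix.of fun i j => ⟨_, h2 i j⟩
  have h3 : G₁.map (fixF σ).subtype = pull σ G P.val := rfl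
  have h4 := hG.pull P.isUnit
  have h5 : HF (RingHom.id _) G₁ 1 := by
    refine ⟨fun _ => rfl, (Matrix.isUnit_iff_isUnit_det _).2 (Ne.isUnit fun h => ?_), ?_⟩
    · refine ((Matrix.isUnit_iff_isUnit_det _).1 h4.unit).ne_zero ?_
      rw [← h3]
      erw [← RingHom.map_det, h, map_zero]
    · ext i j
      have := congrFun₂ h4.herm i j
      simp only [transpose_apply, map_apply, mem_fixF.1 (h2 _ _), one_smul] at this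
      simpa [G₁] using this
  have h6 : (2 : fixF σ) ≠ 0 := fun h => two_ne_zero_iff_odd.2 ho (by
    simpa [map_ofNat] using congrArg (fixF σ).subtype h)
  obtain ⟨c, T, hc0, hT⟩ := h5.exists_pull_eq_smul h6 (G' := 1) ⟨fun _ => rfl, isUnit_one, by simp⟩ hn
  obtain ⟨s, hs⟩ := H11.exists_norm_eq (by rintro rfl; simp at hne) hG.inv (mem_fixF.1 (c⁻¹).2)
  have hc1 : (c : F) ≠ 0 := by simpa using hc0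
  have hs0 : s ≠ 0 := by rintro rfl; exact hc1 (by simpa using hs.symm)
  let T' := Matrix.GeneralLinearGroup.map (fixF σ).subtype T
  have h7 : ∀ U : GL ι (fixF σ), (Matrix.GeneralLinearGroup.map (fixF σ).subtype U).val.map σ =
      (Matrix.GeneralLinearGroup.map (fixF σ).subtype U).val := fun U => by
    ext i j; exact mem_fixF.1 (U.val i j).2
  refine ⟨Units.mk0 s hs0 • (P * T'), ?_, fun g hg => ?_⟩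
  · rw [pull_units_smul, Units.val_mul, pull_mul, ← h3, pull, h7]
    have h8 := congrArg (fun x => x.map (fixF σ).subtype) hT
    simp only [pull, Matrix.map_mul, Matrix.transpose_map] at h8
    erw [h8]
    ext i j
    by_cases h : i = j <;> simp [h, mul_comm s, hs, hc1, Matrix.one_apply]
  · obtain ⟨d, hd, h8⟩ := (mem_subfieldSubgroup_iff _ _ _).1 hg
    have h9 : (cj P⁻¹ g.val).map σ = (d / σ d) • cj P⁻¹ g.val := by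
      ext i j
      have := mem_fixF.1 (h8 i j)
      have h10 : σ d ≠ 0 := by simpa
      simp only [map_mul, map_apply, Matrix.smul_apply, smul_eq_mul] at this ⊢
      field_simp
      rw [mul_comm, this]
    refine ⟨d / σ d, ?_⟩
    have h10 : ∀ (Q : GL ι F) x, cj (Units.mk0 s hs0 • Q)⁻¹ x = cj Q⁻¹ x := fun Q x => by
      rw [← cj_cj_inv Q x, cj_inv_cj, ← cj_smul (Units.mk0 s hs0) Q, cj_inv_cj]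
    rw [h10, _root_.mul_inv_rev, cj_mul, ← map_smul, ← h9, cj_apply T'⁻¹,
      cj_apply T'⁻¹, Matrix.map_mul, Matrix.map_mul, inv_inv, ← map_inv, h7, h7]

theorem btw_subO [Fintype F] [Finite F₀] (hG : HF σ G 1) (hne : ∃ a, σ a ≠ a)
    (ho : Odd (Fintype.card F)) (hn : Odd (Fintype.card ι)) {K : Subfield F} {P : GL ι F}
    (hc : Fintype.card F = Nat.card K ^ 2) (h1 : IsFormRationalStructure (fm σ G) K 1 P)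
    (φ : F₀ ≃+* F) (hφ : ∀ a, σ (φ a) = φ (σ₀ a)) (S : (ι → F₀) → Prop)
    (h2 : ∀ (g : Matrix ι ι F₀) (c : F₀), g.map σ₀ = c • g → c ^ Fintype.card ι = 1 →
      (∀ x, (g *ᵥ x) ⬝ᵥ (g *ᵥ x) * c = x ⬝ᵥ x) →
      (∀ x, fm σ₀ 1 (g *ᵥ x) (g *ᵥ x) = fm σ₀ 1 x x) → ∀ x, S x → S (g *ᵥ x))
    (h3 : ∃ g : Matrix ι ι F₀, g.det ≠ 0 ∧ (pull σ₀ 1 g = 1 ∧ g.det = 1) ∧ ∃ x, S x ∧ ¬ S (g *ᵥ x))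
    (h4 : ∃ g : Matrix ι ι F₀, g.det ≠ 0 ∧ (pull σ₀ 1 g = 1 ∧ g.det = 1) ∧
      (¬ ∃ c : F₀, g.map σ₀ = c • g) ∧ ∀ x, S x → S (g *ᵥ x)) :
    Btw (subfieldSubgroup K P) (isom σ G ⊓ specialLinear ι F) := by
  obtain ⟨P', h5, h6⟩ := exists_orth_coords hG hne ho hn hc h1
  refine btw_trS (trM φ (Equiv.refl ι) P') (A₀ := fun g => ∃ c : F₀, g.map σ₀ = c • g)
    (fun g hg => ?_) (X₀ := fun g => pull σ₀ 1 g = 1 ∧ g.det = 1)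
    (fun g => (trM_mem_isom hφ (by simp [unF, h5])).and trM_mem_sl) S ?_ h3 h4
  · obtain ⟨c, h7⟩ := h6 _ hg
    rw [coe_trM, trA_apply, cj_inv_cj] at h7
    refine ⟨φ.symm c, Matrix.ext fun i j => φ.injective ?_⟩
    simpa [hφ] using congrFun₂ h7 i j
  · rintro g - ⟨c, h7⟩ ⟨h8, h9⟩
    refine h2 g c h7 ?_ (fun x => ?_) fun x => by rw [fm_pull, h8]
    · have := congrArg Matrix.det h7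
      erw [← RingHom.map_det] at this
      simpa [h9] using this.symm
    · rw [pull, mul_one, h7, Matrix.mul_smul] at h8
      rw [Matrix.dotProduct_mulVec, Matrix.vecMul_mulVec, ← Matrix.dotProduct_mulVec, mul_comm,
        ← smul_eq_mul, ← dotProduct_smul, ← Matrix.smul_mulVec, h8, one_mulVec]

/-- real vectors -/
def RealV (σ : F₀ →+* F₀) (x : κ → F₀) : Prop := ∃ c : F₀, σ ∘ x = c • x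

theorem RealV.map {g : Matrix κ κ F₀} {c : F₀} (h : g.map σ₀ = c • g) {x : κ → F₀}
    (hx : RealV σ₀ x) : RealV σ₀ (g *ᵥ x) := by
  obtain ⟨d, hd⟩ := hx
  exact ⟨c * d, by rw [comp_mulVec, h, hd, Matrix.smul_mulVec, Matrix.mulVec_smul, smul_smul]⟩

theorem RealV.smul {c : F₀} (hc : c ≠ 0) {x : κ → F₀} (hx : RealV σ₀ x) : RealV σ₀ (c • x) := by
  obtain ⟨d, hd⟩ := hx
  refine ⟨σ₀ c * d / c, funext fun i => ?_⟩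
  have := congrFun hd i
  simp only [Function.comp, Pi.smul_apply, smul_eq_mul, map_mul] at this ⊢
  rw [this]; field_simp

/-- the frame -/
def SO3 (x : Fin 3 → F9) : Prop :=
  x ⬝ᵥ x ≠ 0 ∧ x ⬝ᵥ x * x ⬝ᵥ x = ∑ i, x i * starRingEnd F9 (x i) ∧ RealV (starRingEnd F9) x

instance decSO3 (x : Fin 3 → F9) : Decidable (SO3 x) := by
  unfold SO3 RealV; infer_instance

theorem nm_su33_orth [Fintype F] (hq : Fintype.card F = 9) (hσ : (fun x : F => x ^ 3) = σ)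
    {G : Matrix (Fin 3) (Fin 3) F} (hG : HF σ G 1) (hne : ∃ a, σ a ≠ a) {K : Subfield F}
    {P : GL (Fin 3) F} (hc : Fintype.card F = Nat.card K ^ 2)
    (h1 : IsFormRationalStructure (fm σ G) K 1 P) :
    Btw (subfieldSubgroup K P) (isom σ G ⊓ specialLinear (Fin 3) F) := by
  obtain ⟨φ, hφ⟩ := exists_model (card_F9.trans hq.symm) hσ conj_F9
  refine btw_subO hG hne (by rw [hq]; decide) (by decide) hc h1 φ hφ SO3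
    (fun g c h2 h3 h4 h5 x hx => ?_)
    ⟨!![⟨1, 1⟩, 0, ⟨1, 1⟩; 0, 1, 0; ⟨2, 1⟩, 0, ⟨1, 2⟩], by decide +kernel,
      by unfold pull; decide +kernel, ![1, 0, 0], by decide +kernel, by decide +kernel⟩
    ⟨diagonal ![⟨0, 1⟩, 1, ⟨0, 2⟩], by decide +kernel, by unfold pull; decide +kernel,
      by decide +kernel, pres_of_proj (fun c x hc hx => ⟨?_, ?_, hx.2.2.smul hc⟩) (by decide +kernel)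
        (by decide +kernel) (by decide +kernel) (by decide +kernel)⟩
  · obtain rfl := (by decide +kernel : ∀ c : F9, c ^ 3 = 1 → c = 1) c h3
    simp only [mul_one] at h4
    exact ⟨by rw [h4]; exact hx.1, by rw [h4, ← fm_one, h5, fm_one]; exact hx.2.1, hx.2.2.map h2⟩
  · simpa [hc] using hx.1
  · rw [← fm_one, fm_smul_left, fm_smul_right, conj_F9 c, fm_one, ← hx.2.1]
    simp only [smul_dotProduct, dotProduct_smul, smul_eq_mul]; ring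

/-- the 105 points -/
def SO5' (Q h : F25) (r : Prop) : Prop :=
  h ≠ 0 ∧ (Q * Q * Q = 4 * h ∨ Q * Q * Q = 2 * h ∨ Q * Q * Q = 0 * h ∨ Q * Q * Q = h ∧ r)

/-- the 105 points -/
def SO5 (x : Fin 3 → F25) : Prop :=
  SO5' (x ⬝ᵥ x) (∑ i, x i * starRingEnd F25 (x i)) (RealV (starRingEnd F25) x)

instance decSO5 (x : Fin 3 → F25) : Decidable (SO5 x) := by
  unfold SO5 SO5' RealV; infer_instance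

theorem SO5'.imp {Q h Q' h' c : F25} {r r' : Prop} (h0 : SO5' Q h r) (hc : c ≠ 0)
    (h1 : Q' * Q' * Q' = c * (Q * Q * Q)) (h2 : h' = c * h) (h3 : r → r') : SO5' Q' h' r' := by
  unfold SO5' at *
  rw [h1, h2]
  refine ⟨mul_ne_zero hc h0.1, h0.2.imp ?_ (Or.imp ?_ (Or.imp ?_ (And.imp ?_ h3)))⟩ <;>
    intro h <;> rw [h] <;> ring

theorem nm_su35_orth [Fintype F] (hq : Fintype.card F = 25) (hσ : (fun x : F => x ^ 5) = σ)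
    {G : Matrix (Fin 3) (Fin 3) F} (hG : HF σ G 1) (hne : ∃ a, σ a ≠ a) {K : Subfield F}
    {P : GL (Fin 3) F} (hc : Fintype.card F = Nat.card K ^ 2)
    (h1 : IsFormRationalStructure (fm σ G) K 1 P) :
    Btw (subfieldSubgroup K P) (isom σ G ⊓ specialLinear (Fin 3) F) := by
  obtain ⟨φ, hφ⟩ := exists_model (card_F25.trans hq.symm) hσ conj_F25
  refine btw_subO hG hne (by rw [hq]; decide) (by decide) hc h1 φ hφ SO5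
    (fun g c h2 h3 h4 h5 x hx => ?_)
    ⟨T25, by decide +kernel, by unfold pull; decide +kernel, ![1, 0, 1], by decide +kernel,
      by decide +kernel⟩
    ⟨diagonal ![⟨0, 1⟩, 1, ⟨4, 4⟩], by decide +kernel, by unfold pull; decide +kernel,
      by decide +kernel, pres_of_proj (fun c x hc hx => ?_) (by decide +kernel) (by decide +kernel)
        (by decide +kernel) (by decide +kernel)⟩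
  · refine SO5'.imp hx one_ne_zero ?_ (by rw [← fm_one, ← fm_one, h5, one_mul]) (RealV.map h2)
    rw [← h4 x, Fintype.card_fin] at *
    linear_combination -(g *ᵥ x ⬝ᵥ g *ᵥ x) ^ 3 * h3
  · refine SO5'.imp hx (pow_ne_zero 6 hc) ?_ ?_ (RealV.smul hc)
    · simp only [smul_dotProduct, dotProduct_smul, smul_eq_mul]; ring
    · rw [← fm_one, ← fm_one, fm_smul_left, fm_smul_right, conj_F25 c]; ring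

end Cfsg.Agent.H26
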