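import Mathlib
import Cfsg.Agent.H26.Ex10

/-! The normaliser of `3^{1+2}` in `SU₃(5)` is not maximal. -/

set_option autoImplicit false
set_option maxHeartbeats 400000
set_option maxRecDepth 100000
set_option synthInstance.maxSize 2048

namespace Cfsg.Agent.H26

open Matrix Cfsg.Geo Module

variable {ι : Type} [Fintype ι] [DecidableEq ι] {F : Type*} [Field F] {σ : F →+* F}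
  {G : Matrix ι ι F}

/-- the standard elements of `3^{1+2}` -/
def MW {R : Type*} [Ring R] (b : R) : Fin 3 → Matrix (Fin 3) (Fin 3) R :=
  ![!![1, 0, 0; 0, b, 0; 0, 0, b * b], !![0, 0, 1; b, 0, 0; 0, b * b, 0],
    !![0, 1, 0; 0, 0, b; b * b, 0, 0]]

theorem exists_heis_coords [Finite F] (hG : HF σ G 1) (hne : ∃ a, σ a ≠ a)
    (hn : Fintype.card ι = 3) {ω : F} (hω : ω * ω + ω + 1 = 0) (h3 : (3 : F) ≠ 0)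
    (hσ : σ ω = ω * ω) {x y : GL ι F} (hx : x ∈ isom σ G) (hy : y ∈ isom σ G) (hx3 : x ^ 3 = 1)
    (hy3 : y ^ 3 = 1) (h : x.val * y.val = ω • (y.val * x.val)) :
    ∃ (e : ι ≃ Fin 3) (P : GL ι F), unF σ e P G = 1 ∧ x.val = trA e P (MW ω 0) ∧
      y.val = trA e P (MW 1 1) := by
  have a0 : ∀ {z : GL ι F}, z ^ 3 = 1 → ∀ u, z.val *ᵥ z.val *ᵥ z.val *ᵥ u = u := fun {z} hz u => by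
    rw [Matrix.mulVec_mulVec, Matrix.mulVec_mulVec, ← Units.val_mul, ← Units.val_mul, ← pow_three',
      hz, Units.val_one, one_mulVec]
  have a1 : ∀ u, x.val *ᵥ y.val *ᵥ u = ω • y.val *ᵥ x.val *ᵥ u := fun u => by
    rw [Matrix.mulVec_mulVec, h, Matrix.smul_mulVec, Matrix.mulVec_mulVec]
  obtain ⟨v, hv, hv'⟩ : ∃ v, x.val *ᵥ v = v ∧ fm σ G v v ≠ 0 := by
    by_contra! h0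
    have b1 : ∀ u, x.val *ᵥ (u + x.val *ᵥ u + x.val *ᵥ x.val *ᵥ u) =
        u + x.val *ᵥ u + x.val *ᵥ x.val *ᵥ u := fun u => by
      simp only [Matrix.mulVec_add, a0 hx3]; abel
    have b2 : ∀ u w, x.val *ᵥ u = u → x.val *ᵥ w = w → fm σ G u w = 0 := fun u w hu hw => by
      obtain ⟨c, hc⟩ := hne
      have c1 := fun c : F => h0 (u + c • w) (by rw [Matrix.mulVec_add, Matrix.mulVec_smul, hu, hw])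
      simp only [fm_add_left, fm_add_right, fm_smul_left, fm_smul_right, h0 u hu, h0 w hw] at c1
      have c2 := c1 1
      rw [map_one] at c2
      exact mul_left_cancel₀ (sub_ne_zero.2 hc) (by linear_combination c1 c - c * c2)
    have b3 : ∀ u, u + x.val *ᵥ u + x.val *ᵥ x.val *ᵥ u = 0 := fun u => hG.eq_zero_left fun w => by
      have c1 := b2 _ _ (b1 u) (b1 w)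
      have c2 := fun w => fm_isom hx (u + x.val *ᵥ u + x.val *ᵥ x.val *ᵥ u) w
      simp only [b1] at c2
      simp only [fm_add_right, c2] at c1
      exact mul_left_cancel₀ h3 (by linear_combination c1)
    have : Nonempty ι := Fintype.card_pos_iff.1 (by omega)
    obtain ⟨u, hu⟩ := exists_ne (0 : ι → F)
    have c1 := congrArg (fun w => y.val *ᵥ y.val *ᵥ w) (b3 (y.val *ᵥ u))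
    have c2 := congrArg (fun w => y.val *ᵥ w) (b3 (y.val *ᵥ y.val *ᵥ u))
    simp only [a1, Matrix.mulVec_add, Matrix.mulVec_smul, a0 hy3, Matrix.mulVec_zero] at c1 c2
    refine hu ((smul_eq_zero_iff_right h3).1 ?_)
    linear_combination (norm := module) b3 u + c1 + c2 - hω • (x.val *ᵥ u) -
      (congrArg (fun t => (ω * ω - ω + 1) * t) hω) • x.val *ᵥ x.val *ᵥ u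
  obtain ⟨s, hs⟩ := H11.exists_norm_eq (by rintro rfl; simp at hne) hG.inv
    (a := (fm σ G v v)⁻¹) (by rw [map_inv₀, hG.swap, one_mul])
  obtain ⟨v, hv, hv'⟩ : ∃ v, x.val *ᵥ v = v ∧ fm σ G v v = 1 :=
    ⟨s • v, by rw [Matrix.mulVec_smul, hv], by
      rw [fm_smul_left, fm_smul_right, ← mul_assoc, mul_comm s, hs, inv_mul_cancel₀ hv']⟩
  have b1 : fm σ G v (y.val *ᵥ v) = 0 := by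
    have c1 := fm_isom hx v (y.val *ᵥ v)
    rw [a1, hv, fm_smul_right, hσ] at c1
    exact mul_left_cancel₀ h3 (by
      linear_combination (ω - 1) * c1 + (2 - ω) * fm σ G v (y.val *ᵥ v) * hω)
  have b2 : fm σ G (y.val *ᵥ y.val *ᵥ v) v = 0 := by
    rw [← fm_isom hy, a0 hy3, b1]
  obtain ⟨P, hP, h4⟩ := exists_coords_of_gram (σ := σ) (G := G) (Fintype.equivFinOfCardEq hn)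
    ![v, y.val *ᵥ v, y.val *ᵥ y.val *ᵥ v] (G₀ := 1) isUnit_one fun k l => by
      fin_cases k <;> fin_cases l <;>
        simp [hv', fm_isom hy, b1, b2, hG.refl b1, hG.refl b2, -Matrix.mulVec_mulVec]
  refine ⟨_, P, h4, eq_trA_of_cols hP fun l => ?_, eq_trA_of_cols hP fun l => ?_⟩ <;> fin_cases l <;>
    simp [MW, Fin.sum_univ_three, a0 hy3, a1, hv, Matrix.mulVec_smul, smul_smul,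
      -Matrix.mulVec_mulVec]

/-- commuting with the standard generators up to scalars -/
def RR (ω : F) (r : Matrix (Fin 3) (Fin 3) F) : Prop :=
  (∃ a : F, r * MW ω 0 = a • (MW ω 0 * r)) ∧ ∃ b : F, r * MW 1 1 = b • (MW 1 1 * r)

theorem RR.eq {ω : F} (hω : ω * ω + ω + 1 = 0) (h3 : (3 : F) ≠ 0) {r : Matrix (Fin 3) (Fin 3) F}
    (h : RR ω r) (hr : r.det ≠ 0) :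
    ∃ b ∈ [1, ω, ω * ω], ∃ (k : Fin 3) (c : F), r = c • MW b k := by
  obtain ⟨⟨a, ha⟩, b, hb⟩ := h
  have h1 : ∀ {z : Matrix (Fin 3) (Fin 3) F} {c : F}, z.det = 1 → r * z = c • (z * r) →
      c = 1 ∨ c = ω ∨ c = ω * ω := fun {z c} hz h => by
    have h2 := congrArg Matrix.det h
    simp only [det_mul, det_smul, hz, Fintype.card_fin, mul_one, one_mul] at h2
    have h4 : c ^ 3 = 1 := mul_right_cancel₀ hr (by rw [← h2, one_mul])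
    grind
  have h2 := h1 (by simp [MW, det_fin_three]; grind) ha
  have h4 := h1 (by simp [MW, det_fin_three]) hb
  refine ⟨b, by simpa using h4, ?_⟩
  rw [Matrix.eta_fin_three r] at ha hb ⊢
  simp [MW] at ha hb
  rcases h2 with rfl | rfl | rfl
  · refine ⟨0, r 0 0, ?_⟩
    simp [MW]
    grind
  · refine ⟨2, r 0 1, ?_⟩
    simp [MW]
    grind
  · refine ⟨1, r 0 2, ?_⟩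
    simp [MW]
    grind

/-- model data -/
def LE : List (Fin 3 → F25) := [![1, 1, ⟨2, 1⟩], ![1, ⟨2, 1⟩, 1], ![1, ⟨2, 3⟩, ⟨2, 3⟩], ![1, ⟨3,
    2⟩, ⟨4, 2⟩], ![1, ⟨2, 4⟩, ⟨1, 3⟩], ![1, ⟨4, 4⟩, ⟨3, 4⟩], ![1, ⟨4, 2⟩, ⟨3, 2⟩], ![1, ⟨0, 1⟩,
    ⟨4, 3⟩], ![1, 1, ⟨4, 3⟩], ![1, ⟨4, 3⟩, ⟨0, 1⟩], ![1, ⟨1, 2⟩, 1], ![1, ⟨3, 4⟩, ⟨4, 4⟩], ![1,
    ⟨4, 1⟩, ⟨4, 4⟩], ![1, ⟨0, 1⟩, ⟨1, 4⟩], ![1, ⟨3, 1⟩, ⟨3, 1⟩], ![1, 1, ⟨1, 2⟩], ![1, ⟨1, 3⟩,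
    ⟨2, 4⟩], ![1, ⟨1, 4⟩, ⟨0, 1⟩], ![1, ⟨4, 4⟩, ⟨4, 1⟩], ![1, ⟨2, 4⟩, ⟨2, 4⟩], ![1, ⟨3, 4⟩, ⟨0,
    1⟩], ![1, ⟨4, 3⟩, 1], ![1, ⟨3, 1⟩, ⟨3, 2⟩], ![1, ⟨3, 2⟩, ⟨3, 1⟩], ![1, ⟨4, 4⟩, ⟨2, 1⟩], ![1,
    ⟨2, 3⟩, ⟨1, 3⟩], ![1, ⟨0, 1⟩, ⟨3, 4⟩], ![1, ⟨0, 1⟩, ⟨4, 1⟩], ![1, ⟨2, 1⟩, ⟨4, 4⟩], ![1, ⟨4,
    4⟩, ⟨1, 2⟩], ![1, 1, ⟨1, 4⟩], ![1, ⟨4, 2⟩, ⟨4, 2⟩], ![1, ⟨1, 3⟩, ⟨2, 3⟩], ![1, ⟨1, 2⟩, ⟨4,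
    4⟩], ![1, ⟨1, 4⟩, 1], ![1, ⟨4, 1⟩, ⟨0, 1⟩]]
/-- model data -/
def QE : List (Matrix (Fin 3) (Fin 3) F25 × List (ℕ × F25)) := [(!![0, 1, 0; 0, 0, 1; 1, 0, 0],
    [(1, 1), (2, ⟨2, 1⟩), (0, ⟨2, 3⟩), (5, ⟨3, 2⟩), (7, ⟨2, 4⟩), (17, ⟨4, 4⟩), (13, ⟨4, 2⟩), (12,
    ⟨0, 1⟩), (21, 1), (16, ⟨4, 3⟩), (14, ⟨1, 2⟩), (6, ⟨3, 4⟩), (4, ⟨4, 1⟩), (11, ⟨0, 1⟩), (15,
    ⟨3, 1⟩), (10, 1), (18, ⟨1, 3⟩), (3, ⟨1, 4⟩), (9, ⟨4, 4⟩), (8, ⟨2, 4⟩), (22, ⟨3, 4⟩), (19, ⟨4,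
    3⟩), (29, ⟨3, 1⟩), (26, ⟨3, 2⟩), (35, ⟨4, 4⟩), (24, ⟨2, 3⟩), (33, ⟨0, 1⟩), (28, ⟨0, 1⟩), (32,
    ⟨2, 1⟩), (20, ⟨4, 4⟩), (34, 1), (30, ⟨4, 2⟩), (27, ⟨1, 3⟩), (23, ⟨1, 2⟩), (31, ⟨1, 4⟩), (25,
    ⟨4, 1⟩)]), (!![0, 0, ⟨4, 0⟩; 0, ⟨4, 0⟩, 0; ⟨4, 0⟩, 0, 0], [(2, ⟨3, 4⟩), (1, ⟨4, 0⟩), (0, ⟨3,
    2⟩), (13, ⟨1, 3⟩), (18, ⟨4, 2⟩), (6, ⟨2, 1⟩), (5, ⟨2, 3⟩), (16, ⟨1, 2⟩), (19, ⟨1, 2⟩), (12,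
    ⟨0, 4⟩), (10, ⟨4, 0⟩), (17, ⟨1, 1⟩), (9, ⟨1, 1⟩), (3, ⟨4, 1⟩), (15, ⟨2, 4⟩), (14, ⟨4, 3⟩),
    (7, ⟨3, 1⟩), (11, ⟨0, 4⟩), (4, ⟨1, 4⟩), (8, ⟨3, 1⟩), (33, ⟨0, 4⟩), (21, ⟨4, 0⟩), (26, ⟨2,
    3⟩), (29, ⟨2, 4⟩), (32, ⟨3, 4⟩), (27, ⟨4, 2⟩), (22, ⟨2, 1⟩), (25, ⟨1, 4⟩), (35, ⟨1, 1⟩), (23,
    ⟨4, 3⟩), (31, ⟨4, 1⟩), (30, ⟨1, 3⟩), (24, ⟨3, 2⟩), (20, ⟨1, 1⟩), (34, ⟨4, 0⟩), (28, ⟨0,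
    4⟩)]), (!![⟨3, 1⟩, ⟨3, 1⟩, ⟨3, 1⟩; ⟨3, 1⟩, ⟨4, 2⟩, ⟨3, 2⟩; ⟨3, 1⟩, ⟨3, 2⟩, ⟨4, 2⟩], [(3, ⟨1,
    1⟩), (6, ⟨1, 1⟩), (14, ⟨4, 2⟩), (1, ⟨0, 1⟩), (15, ⟨0, 3⟩), (9, ⟨1, 4⟩), (0, ⟨0, 1⟩), (5, ⟨1,
    3⟩), (22, ⟨0, 2⟩), (11, ⟨1, 3⟩), (4, ⟨2, 2⟩), (7, ⟨1, 4⟩), (13, ⟨2, 4⟩), (18, ⟨1, 2⟩), (2,
    ⟨4, 1⟩), (16, ⟨2, 2⟩), (10, ⟨0, 3⟩), (12, ⟨1, 2⟩), (17, ⟨2, 4⟩), (31, ⟨2, 1⟩), (28, ⟨2, 4⟩),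
    (23, ⟨0, 2⟩), (21, ⟨3, 3⟩), (8, ⟨3, 3⟩), (20, ⟨1, 2⟩), (34, ⟨1, 1⟩), (24, ⟨2, 4⟩), (29, ⟨3,
    4⟩), (26, ⟨1, 2⟩), (35, ⟨2, 3⟩), (25, ⟨0, 1⟩), (19, ⟨3, 2⟩), (30, ⟨1, 1⟩), (27, ⟨2, 3⟩), (32,
    ⟨0, 1⟩), (33, ⟨3, 4⟩)]), (!![⟨3, 1⟩, ⟨3, 1⟩, ⟨4, 2⟩; ⟨3, 1⟩, ⟨4, 2⟩, ⟨3, 1⟩; ⟨3, 2⟩, ⟨4, 2⟩,
    ⟨4, 2⟩], [(4, ⟨2, 3⟩), (9, ⟨2, 2⟩), (0, ⟨3, 4⟩), (3, ⟨2, 0⟩), (12, ⟨3, 4⟩), (10, ⟨0, 2⟩),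
    (11, ⟨1, 4⟩), (18, ⟨2, 2⟩), (23, ⟨1, 1⟩), (7, ⟨0, 3⟩), (17, ⟨3, 3⟩), (14, ⟨1, 3⟩), (2, ⟨2,
    3⟩), (5, ⟨3, 3⟩), (15, ⟨1, 4⟩), (6, ⟨1, 3⟩), (16, ⟨3, 0⟩), (13, ⟨0, 2⟩), (1, ⟨0, 3⟩), (30,
    ⟨0, 3⟩), (27, ⟨1, 4⟩), (20, ⟨1, 3⟩), (25, ⟨4, 1⟩), (28, ⟨0, 1⟩), (34, ⟨2, 4⟩), (22, ⟨4, 2⟩),
    (24, ⟨1, 2⟩), (29, ⟨1, 3⟩), (31, ⟨1, 1⟩), (21, ⟨1, 4⟩), (32, ⟨2, 2⟩), (8, ⟨0, 1⟩), (33, ⟨0,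
    3⟩), (19, ⟨2, 2⟩), (35, ⟨1, 2⟩), (26, ⟨2, 4⟩)]), (!![⟨3, 1⟩, ⟨4, 2⟩, ⟨4, 2⟩; ⟨3, 1⟩, ⟨3, 2⟩,
    ⟨3, 1⟩; ⟨4, 2⟩, ⟨4, 2⟩, ⟨3, 1⟩], [(5, ⟨3, 4⟩), (10, ⟨3, 4⟩), (6, ⟨2, 1⟩), (9, ⟨3, 3⟩), (15,
    ⟨1, 1⟩), (2, ⟨0, 1⟩), (0, ⟨3, 3⟩), (11, ⟨1, 2⟩), (24, ⟨2, 2⟩), (13, ⟨1, 2⟩), (1, ⟨2, 4⟩),
    (16, ⟨0, 1⟩), (3, ⟨0, 2⟩), (12, ⟨2, 3⟩), (4, ⟨3, 2⟩), (18, ⟨2, 4⟩), (17, ⟨1, 1⟩), (7, ⟨2,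
    3⟩), (14, ⟨0, 2⟩), (32, ⟨3, 0⟩), (26, ⟨0, 2⟩), (21, ⟨2, 2⟩), (20, ⟨1, 4⟩), (30, ⟨1, 4⟩), (19,
    ⟨2, 3⟩), (35, ⟨3, 4⟩), (33, ⟨0, 2⟩), (28, ⟨0, 3⟩), (25, ⟨2, 3⟩), (31, ⟨1, 3⟩), (29, ⟨3, 3⟩),
    (23, ⟨2, 0⟩), (8, ⟨3, 4⟩), (22, ⟨1, 3⟩), (34, ⟨3, 3⟩), (27, ⟨0, 3⟩)]), (!![⟨1, 3⟩, ⟨1, 3⟩,
    ⟨1, 3⟩; ⟨1, 3⟩, ⟨2, 4⟩, ⟨2, 3⟩; ⟨1, 3⟩, ⟨2, 3⟩, ⟨2, 4⟩], [(6, 1), (3, 1), (14, ⟨2, 3⟩), (0,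
    ⟨1, 1⟩), (10, ⟨3, 3⟩), (7, ⟨4, 3⟩), (1, ⟨1, 1⟩), (11, ⟨3, 2⟩), (23, ⟨2, 2⟩), (5, ⟨3, 2⟩),
    (16, ⟨2, 0⟩), (9, ⟨4, 3⟩), (17, ⟨4, 2⟩), (12, ⟨2, 1⟩), (2, ⟨1, 2⟩), (4, ⟨2, 0⟩), (15, ⟨3,
    3⟩), (18, ⟨2, 1⟩), (13, ⟨4, 2⟩), (31, ⟨1, 4⟩), (24, ⟨4, 2⟩), (22, ⟨2, 2⟩), (8, ⟨3, 0⟩), (21,
    ⟨3, 0⟩), (26, ⟨2, 1⟩), (30, 1), (28, ⟨4, 2⟩), (33, ⟨4, 1⟩), (20, ⟨2, 1⟩), (27, ⟨3, 1⟩), (32,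
    ⟨1, 1⟩), (19, ⟨2, 4⟩), (34, 1), (35, ⟨3, 1⟩), (25, ⟨1, 1⟩), (29, ⟨4, 1⟩)]), (!![⟨1, 3⟩, ⟨1,
    3⟩, ⟨2, 4⟩; ⟨1, 3⟩, ⟨2, 4⟩, ⟨1, 3⟩; ⟨2, 3⟩, ⟨2, 4⟩, ⟨2, 4⟩], [(3, ⟨2, 2⟩), (11, ⟨2, 1⟩), (15,
    1), (9, ⟨3, 0⟩), (6, ⟨1, 4⟩), (7, ⟨3, 1⟩), (4, ⟨2, 4⟩), (10, ⟨4, 1⟩), (25, ⟨3, 1⟩), (14, ⟨2,
    2⟩), (12, ⟨3, 1⟩), (18, ⟨4, 2⟩), (5, ⟨4, 1⟩), (1, ⟨4, 2⟩), (0, ⟨3, 0⟩), (16, ⟨1, 1⟩), (17,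
    1), (2, ⟨1, 1⟩), (13, ⟨2, 1⟩), (8, ⟨4, 1⟩), (31, ⟨3, 2⟩), (28, ⟨3, 3⟩), (20, ⟨4, 3⟩), (23,
    ⟨0, 3⟩), (27, ⟨3, 3⟩), (35, ⟨4, 1⟩), (34, ⟨3, 0⟩), (21, ⟨2, 0⟩), (24, ⟨2, 0⟩), (26, ⟨2, 2⟩),
    (22, ⟨3, 2⟩), (30, ⟨4, 3⟩), (32, ⟨0, 2⟩), (29, ⟨3, 0⟩), (33, ⟨2, 2⟩), (19, ⟨3, 1⟩)]), (!![⟨1,
    3⟩, ⟨2, 4⟩, ⟨2, 4⟩; ⟨1, 3⟩, ⟨2, 3⟩, ⟨1, 3⟩; ⟨2, 4⟩, ⟨2, 4⟩, ⟨1, 3⟩], [(7, ⟨3, 3⟩), (1, ⟨3,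
    3⟩), (16, ⟨0, 2⟩), (15, ⟨4, 3⟩), (12, ⟨4, 1⟩), (17, ⟨3, 0⟩), (11, ⟨4, 3⟩), (2, ⟨3, 1⟩), (26,
    ⟨4, 2⟩), (4, ⟨3, 1⟩), (10, ⟨2, 2⟩), (5, ⟨3, 0⟩), (18, ⟨2, 0⟩), (14, ⟨3, 2⟩), (3, ⟨0, 3⟩),
    (13, ⟨2, 2⟩), (0, ⟨4, 1⟩), (6, ⟨3, 2⟩), (9, ⟨2, 0⟩), (22, ⟨2, 3⟩), (32, ⟨2, 0⟩), (34, ⟨4,
    2⟩), (8, ⟨1, 1⟩), (28, ⟨1, 1⟩), (20, ⟨3, 2⟩), (30, ⟨3, 3⟩), (19, ⟨2, 0⟩), (31, 1), (29, ⟨3,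
    2⟩), (35, ⟨2, 1⟩), (27, ⟨4, 3⟩), (25, ⟨1, 2⟩), (33, ⟨3, 3⟩), (24, ⟨2, 1⟩), (21, ⟨4, 3⟩), (23,
    1)])]
/-- model data -/
def QB : List (Matrix (Fin 3) (Fin 3) F25 × ℕ) := [(!![0, 1, 0; 0, 0, ⟨0, 1⟩; 1, 0, 0], 0), (!![0, 1, 0; 0,
    0, ⟨4, 4⟩; 1, 0, 0], 0), (!![0, 0, ⟨4, 0⟩; 0, ⟨1, 1⟩, 0; ⟨4, 0⟩, 0, 0], 0), (!![0, 0, ⟨0, 4⟩; 0, ⟨4,
    0⟩, 0; ⟨4, 0⟩, 0, 0], 0), (!![⟨3, 1⟩, ⟨3, 1⟩, ⟨3, 2⟩; ⟨3, 1⟩, ⟨4, 2⟩, ⟨4, 2⟩; ⟨3, 1⟩, ⟨3, 2⟩, ⟨3,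
    1⟩], 0), (!![⟨3, 1⟩, ⟨3, 1⟩, ⟨4, 2⟩; ⟨3, 1⟩, ⟨4, 2⟩, ⟨3, 1⟩; ⟨3, 1⟩, ⟨3, 2⟩, ⟨3, 2⟩], 0), (!![⟨3, 1⟩,
    ⟨3, 2⟩, ⟨3, 1⟩; ⟨3, 1⟩, ⟨3, 1⟩, ⟨3, 2⟩; ⟨3, 2⟩, ⟨3, 1⟩, ⟨3, 1⟩], 0), (!![⟨3, 1⟩, ⟨3, 1⟩, ⟨3, 1⟩;
    ⟨3, 1⟩, ⟨4, 2⟩, ⟨3, 2⟩; ⟨3, 2⟩, ⟨4, 2⟩, ⟨3, 1⟩], 0), (!![⟨3, 1⟩, ⟨3, 1⟩, ⟨4, 2⟩; ⟨3, 1⟩, ⟨4, 2⟩,
    ⟨3, 1⟩; ⟨4, 2⟩, ⟨3, 1⟩, ⟨3, 1⟩], 0), (!![⟨3, 1⟩, ⟨3, 1⟩, ⟨3, 1⟩; ⟨3, 1⟩, ⟨4, 2⟩, ⟨3, 2⟩; ⟨4, 2⟩,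
    ⟨3, 1⟩, ⟨3, 2⟩], 0), (!![⟨1, 3⟩, ⟨1, 3⟩, ⟨2, 3⟩; ⟨1, 3⟩, ⟨2, 4⟩, ⟨2, 4⟩; ⟨1, 3⟩, ⟨2, 3⟩, ⟨1, 3⟩], 0),
    (!![⟨1, 3⟩, ⟨1, 3⟩, ⟨2, 4⟩; ⟨1, 3⟩, ⟨2, 4⟩, ⟨1, 3⟩; ⟨1, 3⟩, ⟨2, 3⟩, ⟨2, 3⟩], 0), (!![⟨1, 3⟩, ⟨2,
    3⟩, ⟨1, 3⟩; ⟨1, 3⟩, ⟨1, 3⟩, ⟨2, 3⟩; ⟨2, 3⟩, ⟨1, 3⟩, ⟨1, 3⟩], 0), (!![⟨1, 3⟩, ⟨1, 3⟩, ⟨1, 3⟩; ⟨1,
    3⟩, ⟨2, 4⟩, ⟨2, 3⟩; ⟨2, 3⟩, ⟨2, 4⟩, ⟨1, 3⟩], 0), (!![⟨1, 3⟩, ⟨1, 3⟩, ⟨2, 4⟩; ⟨1, 3⟩, ⟨2, 4⟩, ⟨1,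
    3⟩; ⟨2, 4⟩, ⟨1, 3⟩, ⟨1, 3⟩], 0), (!![⟨1, 3⟩, ⟨1, 3⟩, ⟨1, 3⟩; ⟨1, 3⟩, ⟨2, 4⟩, ⟨2, 3⟩; ⟨2, 4⟩, ⟨1,
    3⟩, ⟨2, 3⟩], 0)]
/-- model data -/
def cEX : List (ℕ × F25) := [(7, 1), (12, 1), (4, 1), (14, 1), (16, 1), (15, 1), (3, 1), (18, 1),
    (27, 1), (1, 1), (11, 1), (17, 1), (9, 1), (5, 1), (6, 1), (13, 1), (2, 1), (10, 1), (0, 1),
    (32, 1), (34, 1), (28, 1), (31, 1), (22, 1), (8, 1), (19, 1), (29, 1), (24, 1), (35, 1), (30,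
    1), (26, 1), (23, 1), (25, 1), (20, 1), (33, 1), (21, 1)]
/-- model data -/
def cEY : List (ℕ × F25) := [(2, ⟨2, 1⟩), (0, 1), (1, ⟨2, 3⟩), (17, ⟨4, 2⟩), (12, ⟨1, 3⟩), (3,
    ⟨3, 4⟩), (11, ⟨3, 2⟩), (4, ⟨4, 3⟩), (19, ⟨4, 3⟩), (18, ⟨0, 1⟩), (15, 1), (13, ⟨4, 4⟩), (7,
    ⟨4, 4⟩), (6, ⟨1, 4⟩), (10, ⟨3, 1⟩), (14, ⟨1, 2⟩), (9, ⟨2, 4⟩), (5, ⟨0, 1⟩), (16, ⟨4, 1⟩),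
    (21, ⟨2, 4⟩), (29, ⟨0, 1⟩), (8, 1), (20, ⟨3, 2⟩), (33, ⟨3, 1⟩), (25, ⟨2, 1⟩), (35, ⟨1, 3⟩),
    (23, ⟨3, 4⟩), (32, ⟨4, 1⟩), (27, ⟨4, 4⟩), (22, ⟨1, 2⟩), (31, ⟨1, 4⟩), (34, ⟨4, 2⟩), (28, ⟨2,
    3⟩), (26, ⟨4, 4⟩), (30, 1), (24, ⟨0, 1⟩)]
/-- model data -/
def cEw : List (ℕ × F25) := [(8, ⟨4, 1⟩), (13, ⟨2, 4⟩), (5, ⟨3, 0⟩), (3, ⟨4, 0⟩), (9, ⟨2, 4⟩),
    (2, ⟨2, 0⟩), (19, ⟨2, 0⟩), (20, ⟨2, 2⟩), (0, ⟨1, 3⟩), (4, ⟨4, 3⟩), (28, ⟨3, 3⟩), (11, ⟨4,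
    0⟩), (29, ⟨3, 3⟩), (1, ⟨4, 3⟩), (25, ⟨3, 0⟩), (30, ⟨3, 2⟩), (26, ⟨4, 1⟩), (21, ⟨2, 2⟩), (23,
    ⟨3, 2⟩), (6, ⟨3, 0⟩), (7, ⟨0, 2⟩), (17, ⟨0, 2⟩), (33, ⟨3, 1⟩), (18, ⟨3, 4⟩), (34, ⟨1, 2⟩),
    (14, ⟨2, 0⟩), (16, ⟨1, 3⟩), (31, ⟨2, 0⟩), (10, ⟨0, 3⟩), (12, ⟨0, 3⟩), (15, ⟨3, 4⟩), (27, ⟨3,
    0⟩), (32, ⟨4, 0⟩), (22, ⟨1, 2⟩), (24, ⟨3, 1⟩), (35, ⟨4, 0⟩)]

/-- a primitive cube root of unity -/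
def w25 : F25 := ⟨0, 1⟩

/-- acting in a given way -/
def ActE (m m' q : Matrix (Fin 3) (Fin 3) F25) : Prop :=
  (∃ a ∈ [1, w25, w25 * w25], m * q = a • (q * MW w25 0)) ∧
    ∃ a ∈ [1, w25, w25 * w25], m' * q = a • (q * MW 1 1)

instance decActE (m m' q : Matrix (Fin 3) (Fin 3) F25) : Decidable (ActE m m' q) := by
  unfold ActE; infer_instance

theorem tabE : ∀ b ∈ [1, w25, w25 * w25], ∀ k, ∀ b' ∈ [1, w25, w25 * w25], ∀ k',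
    MW b k * MW b' k' = w25 • (MW b' k' * MW b k) →
    (∃ q ∈ QE, ActE (MW b k) (MW b' k') q.1) ∨ ∃ q ∈ QB, ActE (MW b k) (MW b' k') q.1 := by
  decide +kernel

theorem presE {g r r' : Matrix (Fin 3) (Fin 3) F25} (hd : g.det = 1) (h1 : g * MW w25 0 = r * g)
    (h2 : g * MW 1 1 = r' * g) (h3 : RR w25 r) (h4 : RR w25 r') : g ∈ presM (Pts LE) := by
  have hω : w25 * w25 + w25 + 1 = 0 := by decide +kernel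
  have h0 : (3 : F25) ≠ 0 := by decide +kernel
  have a0 : ∀ b ∈ [1, w25, w25 * w25], ∀ k, (MW b k).det = 1 := by decide +kernel
  have a1 : ∀ {z r : Matrix (Fin 3) (Fin 3) F25}, z.det = 1 → g * z = r * g → r.det ≠ 0 :=
    fun {z r} hz h h' => by simpa [hd, hz, h'] using congrArg Matrix.det h
  have a2 := a1 (a0 _ (by simp) _) h1
  have a3 := a1 (a0 _ (by simp) _) h2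
  obtain ⟨b, hb, k, c, rfl⟩ := h3.eq hω h0 a2
  obtain ⟨b', hb', k', c', rfl⟩ := h4.eq hω h0 a3
  have hc : c ≠ 0 := by rintro rfl; simp at a2
  have hc' : c' ≠ 0 := by rintro rfl; simp at a3
  have hg : IsUnit g := (Matrix.isUnit_iff_isUnit_det _).2 (by simp [hd])
  have a4 : MW b k * MW b' k' = w25 • (MW b' k' * MW b k) := by
    have a5 : g * (MW w25 0 * MW 1 1) = g * (w25 • (MW 1 1 * MW w25 0)) := by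
      congr 1; decide +kernel
    rw [Matrix.mul_smul, ← mul_assoc, ← mul_assoc, h1, h2, mul_assoc, mul_assoc, h1, h2, ← mul_assoc,
      ← mul_assoc, ← Matrix.smul_mul, hg.mul_left_inj] at a5
    refine smul_right_injective _ (mul_ne_zero hc hc') ?_
    simp only [Matrix.smul_mul, Matrix.mul_smul] at a5
    linear_combination (norm := module) a5
  have a5 : ∀ q, q.det ≠ 0 → ActE (MW b k) (MW b' k') q →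
      ∃ d ∈ [1, w25, w25 * w25], ∃ (l : Fin 3) (e : F25), g = e • (q * MW d l) := by
    rintro q hq ⟨⟨a, -, ha⟩, a', -, ha'⟩
    obtain ⟨g', rfl⟩ : ∃ g', g = q * g' :=
      ⟨q⁻¹ * g, (Matrix.mul_nonsing_inv_cancel_left _ _ hq.isUnit).symm⟩
    have hu : IsUnit q := (Matrix.isUnit_iff_isUnit_det _).2 hq.isUnit
    obtain ⟨d, hd', l, e, rfl⟩ := RR.eq hω h0 (r := g') ⟨⟨c * a, hu.mul_left_cancel (by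
      rw [← mul_assoc, h1, ← mul_assoc, Matrix.smul_mul, ha]; simp [mul_assoc, smul_smul])⟩,
      c' * a', hu.mul_left_cancel (by
      rw [← mul_assoc, h2, ← mul_assoc, Matrix.smul_mul, ha']; simp [mul_assoc, smul_smul])⟩
      fun h => by simp [h] at hd
    exact ⟨d, hd', l, e, Matrix.mul_smul _ _ _⟩
  rcases tabE b hb k b' hb' k' a4 with ⟨q, hq, h⟩ | ⟨q, hq, h⟩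
  · obtain ⟨a6, a7⟩ := (by decide +kernel : ∀ q ∈ QE, q.1.det ≠ 0 ∧
      LE.map (q.1 *ᵥ ·) = q.2.map fun c => c.2 • LE.getD c.1 0) q hq
    obtain ⟨d, hd', l, e, rfl⟩ := a5 _ a6 h
    obtain ⟨i, -, j, -, a8⟩ := (by decide +kernel : ∀ d ∈ [1, w25, w25 * w25], ∀ l, ∃ i < 3, ∃ j < 3,
      MW d l = MW w25 0 ^ i * MW 1 1 ^ j) d hd' l
    have a9 : MW w25 0 ∈ presM (Pts LE) := Pts.pres cEX (by decide +kernel)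
    have a10 : MW 1 1 ∈ presM (Pts LE) := Pts.pres cEY (by decide +kernel)
    rw [a8]
    exact smul_mem_presM (mul_mem (Pts.pres _ a7) (mul_mem (pow_mem a9 _) (pow_mem a10 _))) _
  · obtain ⟨a6, a7⟩ := (by decide +kernel : ∀ q ∈ QB, q.1.det ≠ 0 ∧
      ∀ e : F25, e ^ 3 * q.1.det ≠ 1) q hq
    obtain ⟨d, hd', l, e, rfl⟩ := a5 _ a6 h
    exact absurd (by simpa [a0 d hd'] using hd) (a7 e)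

theorem nm_su35_ext [Fintype F] (hq : Fintype.card F = 25) (hσ : (fun x : F => x ^ 5) = σ)
    (hG : HF σ G 1) (hne : ∃ a, σ a ≠ a) (hn : Fintype.card ι = 3) {R : Subgroup (GL ι F)}
    (hR : PreR 3 R) (h1 : R ≤ isom σ G) :
    Btw (subgroupNormalizer R) (isom σ G ⊓ specialLinear ι F) := by
  have : Nonempty ι := Fintype.card_pos_iff.1 (by omega)
  obtain ⟨φ, hφ⟩ := exists_model (card_F25.trans hq.symm) hσ conj_F25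
  have hc : ∀ x ∈ R, ∀ y ∈ R, ∃ c : F, c ^ 3 = 1 ∧ y.val * x.val = c • (x.val * y.val) :=
    fun x hx y hy => by
      obtain ⟨z, hz, h⟩ := hR.comm x hx y hy
      obtain ⟨c, hc⟩ := (mem_scalars_iff z).1 hz
      refine ⟨c, (pow_eq_one_of_scalar hc).1 (hR.comm_pow hy hz h), ?_⟩
      rw [← Units.val_mul, h, Units.val_mul, hc, Matrix.smul_mul, one_mul, Units.val_mul]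
  obtain ⟨x, hx, y, hy, h⟩ : ∃ x ∈ R, ∃ y ∈ R, x.val * y.val = φ w25 • (y.val * x.val) := by
    obtain ⟨x, hx, h2⟩ := SetLike.not_le_iff_exists.1 hR.nonscalar
    obtain ⟨y, hy, h3⟩ := hR.exists_not_comm h2
    obtain ⟨c, h4, h5⟩ := hc x hx y hy
    obtain ⟨c, rfl⟩ := φ.surjective c
    rcases (by decide +kernel : ∀ c : F25, c ^ 3 = 1 → c = 1 ∨ c = w25 ∨ w25 * c = 1) c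
      (φ.injective (by simpa using h4)) with rfl | rfl | h6
    · exact absurd (Units.ext (by simpa using h5)) h3
    · exact ⟨y, hy, x, hx, h5⟩
    · exact ⟨x, hx, y, hy, by rw [h5, smul_smul, ← map_mul, h6, map_one, one_smul]⟩
  obtain ⟨e, P, h2, h3, h4⟩ := exists_heis_coords hG hne hn (ω := φ w25)
    (by simpa using congrArg φ (show w25 * w25 + w25 + 1 = 0 by decide +kernel))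
    (fun h => (by decide +kernel : (3 : F25) ≠ 0) (φ.injective (by simpa [map_ofNat] using h)))
    (by rw [hφ, ← map_mul]; congr 1) (h1 hx) (h1 hy) (hR.pow_eq x hx) (hR.pow_eq y hy) h
  have h5 : ∀ b k, MW (φ b) k = (MW b k).map φ := fun b k => by
    ext i j; fin_cases k <;> fin_cases i <;> fin_cases j <;> simp [MW]
  rw [h5] at h3
  rw [← map_one φ, h5] at h4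
  let Ψ := φ.mapMatrix.trans (trA e P).toRingEquiv
  have h6 : ∀ (c : F) (m : Matrix (Fin 3) (Fin 3) F25), c • Ψ m = Ψ (φ.symm c • m) := fun c m => by
    change _ = trA e P ((φ.symm c • m).map φ)
    rw [show (φ.symm c • m).map φ = c • m.map φ by ext i j; simp, map_smul]; rfl
  have h7 : ∀ r ∈ R, RR w25 (Ψ.symm r.val) := fun r hr => by
    obtain ⟨a, -, ha⟩ := hc x hx r hr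
    obtain ⟨b, -, hb⟩ := hc y hy r hr
    refine ⟨⟨φ.symm a, Ψ.injective ?_⟩, φ.symm b, Ψ.injective ?_⟩ <;>
      rw [← h6, map_mul, map_mul, Ψ.apply_symm_apply]
    · exact h3 ▸ ha
    · exact h4 ▸ hb
  refine btw_trS (trM φ e P) (A₀ := fun g => ∃ r r', g * MW w25 0 = r * g ∧ g * MW 1 1 = r' * g ∧
      RR w25 r ∧ RR w25 r') (fun g hg => ?_)
    (X₀ := fun g => pull (starRingEnd F25) 1 g = 1 ∧ g.det = 1)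
    (fun g => (trM_mem_isom hφ (by simp [h2])).and trM_mem_sl) (Pts LE)
    (fun g _ ⟨r, r', a1, a2, a3, a4⟩ h => presE h.2 a1 a2 a3 a4)
    ⟨T25, by decide +kernel, by unfold pull; decide +kernel,
      ![1, ⟨2, 1⟩, 1], .mem (by decide +kernel), by decide +kernel⟩
    ⟨!![3, 4, 1; 4, 3, 1; 1, 1, 3], by decide +kernel, by unfold pull; decide +kernel,
      fun ⟨r, r', a1, _, a3, _⟩ => ?_, Pts.pres cEw (by decide +kernel)⟩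
  · refine ⟨_, _, Ψ.injective ?_, Ψ.injective ?_, h7 _ ((Subgroup.mem_normalizer_iff.1 hg x).1 hx),
      h7 _ ((Subgroup.mem_normalizer_iff.1 hg y).1 hy)⟩ <;>
      rw [map_mul, map_mul, Ψ.apply_symm_apply, ← cj_coe]
    · exact (congrArg _ h3.symm).trans (cj_mul_coe (trM φ e P g) _).symm
    · exact (congrArg _ h4.symm).trans (cj_mul_coe (trM φ e P g) _).symm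
  · have a2 := congrArg (· * !![3, 4, 1; 4, 3, 1; 1, 1, 3]) a1
    simp only [mul_assoc r] at a2
    rw [show (!![3, 4, 1; 4, 3, 1; 1, 1, 3] * !![3, 4, 1; 4, 3, 1; 1, 1, 3] : Matrix _ _ F25) = 1 by
      decide +kernel, mul_one] at a2
    subst a2
    exact absurd a3.1 (by decide +kernel)

end Cfsg.Agent.H26
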