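import Mathlib
import Cfsg.Agent.H26.Ex1

/-! Frames that are not maximal: `SL₄(5)`, `SU₄(3)`, `SU₆(2)`; planes in `SL₄(3)`. -/

set_option autoImplicit false
set_option maxHeartbeats 400000

namespace Cfsg.Agent.H26

open Matrix Cfsg.Geo Module

variable {ι : Type} [Fintype ι] [DecidableEq ι] {F : Type*} [Field F] {σ : F →+* F}
  {G : Matrix ι ι F}

/-- equal fourth powers -/
def r4 {R : Type*} [Mul R] [Zero R] (x y : R) : Prop :=
  x = 0 ∨ y = 0 ∨ x * x * (x * x) = y * y * (y * y)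

instance decR4 {R : Type*} [Mul R] [Zero R] [DecidableEq R] (x y : R) : Decidable (r4 x y) := by
  unfold r4; infer_instance

/-- the sixty points, explicit form -/
def S60' {R : Type*} [Mul R] [Zero R] [One R] [DecidableEq R] (a b c d : R) : Prop :=
  wt0 a + wt0 b + wt0 c + wt0 d ≠ 3 ∧ (a * b * c * d = 0 ∨ (a * b * c * d) * (a * b * c * d) = 1) ∧
    r4 a b ∧ r4 a c ∧ r4 a d ∧ r4 b c ∧ r4 b d ∧ r4 c d

instance decS60' {R : Type*} [Mul R] [Zero R] [One R] [DecidableEq R] (a b c d : R) :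
    Decidable (S60' a b c d) := by
  unfold S60'; infer_instance

/-- the sixty points -/
def S60 [DecidableEq F] (x : Fin 4 → F) : Prop :=
  ∑ i, wt0 (x i) ≠ 3 ∧ (∏ i, x i = 0 ∨ (∏ i, x i) * (∏ i, x i) = 1) ∧ ∀ i j, r4 (x i) (x j)

theorem S60_iff [DecidableEq F] (x : Fin 4 → F) : S60 x ↔ S60' (x 0) (x 1) (x 2) (x 3) := by
  have h1 : ∀ a : F, r4 a a := fun a => .inr (.inr rfl)
  have h2 : ∀ a b : F, r4 a b → r4 b a := fun a b h => by unfold r4 at *; tauto
  simp only [S60, S60', Fin.sum_univ_four, Fin.prod_univ_four]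
  refine and_congr_right fun _ => and_congr_right fun _ => ⟨fun h => ⟨h _ _, h _ _, h _ _, h _ _,
    h _ _, h _ _⟩, fun ⟨a, b, c, d, e, f⟩ i j => ?_⟩
  fin_cases i <;> fin_cases j <;> first | exact h1 _ | assumption | exact h2 _ _ (by assumption)

theorem S60.mono [DecidableEq F] {τ : Equiv.Perm (Fin 4)} {a : Fin 4 → F}
    (h1 : ∀ j, a j * a j * (a j * a j) = 1) (h2 : (mono τ a).det = 1) {x : Fin 4 → F} (h : S60 x) :
    S60 (mono τ a *ᵥ x) := by
  have h0 : ∀ j, a j ≠ 0 := fun j h => by simpa [h] using h1 j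
  refine ⟨by rw [wt_mono τ h0]; exact h.1, ?_, fun i j => ?_⟩
  · rw [prod_mono]
    refine h.2.1.imp (fun h => by rw [h, mul_zero]) fun h => ?_
    rw [mul_mul_mul_comm, h, sq_prod_of_mono h2, one_mul]
  · obtain ⟨i, rfl⟩ := τ.surjective i
    obtain ⟨j, rfl⟩ := τ.surjective j
    rw [mono_mulVec, mono_mulVec]
    refine (h.2.2 i j).imp (fun h => by rw [h, mul_zero]) (Or.imp (fun h => by rw [h, mul_zero])
      fun h => ?_)
    linear_combination (x i * x i * (x i * x i)) * h1 i - (x j * x j * (x j * x j)) * h1 j + h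

set_option maxRecDepth 100000 in
theorem S60'_five : ∀ a b c d : ZMod 5, S60' a b c d → S60' (-a - c) (b + d) (a - c) (b - d) := by
  decide +kernel

theorem nm_sl4_lines [Fintype F] (hq : Fintype.card F = 5) {D : Fin 4 → Submodule F (ι → F)}
    (hD : IsMDecomposition 1 D) : Btw (decompositionStabilizer D) (specialLinear ι F) := by
  obtain ⟨e, P, hB⟩ := exists_blk hD
  let φ := ZMod.ringEquivOfPrime F (by norm_num) hq
  refine btw_trS (trM φ (e.trans (Equiv.uniqueProd _ _)) P)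
    (A₀ := fun g => ∃ τ a, g = mono τ a) (fun g => hB.trM_mono φ)
    (X₀ := fun g => g.det = 1) (fun g => trM_mem_sl) S60 ?_
    ⟨!![1, 0, 0, 0; 0, 1, 0, 0; 1, 0, 1, 0; 0, 0, 0, 1], by decide +kernel, by decide +kernel,
      ![1, 1, 0, 0], by rw [S60_iff]; decide +kernel, by rw [S60_iff]; decide +kernel⟩
    ⟨!![-1, 0, -1, 0; 0, 1, 0, 1; 1, 0, -1, 0; 0, 1, 0, -1], by decide +kernel, by decide +kernel,
      not_mono (i := 0) (i' := 2) (j := 0) (by decide) (by decide) (by decide), fun x hx => ?_⟩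
  · rintro _ h0 ⟨τ, a, rfl⟩ h1 x
    exact S60.mono (fun j => (by decide : ∀ c : ZMod 5, c ≠ 0 → c * c * (c * c) = 1) _
      (ne_zero_of_mono h0 j)) h1
  · rw [S60_iff] at hx ⊢
    convert S60'_five _ _ _ _ hx using 1 <;> simp [Matrix.mulVec, dotProduct, Fin.sum_univ_four] <;>
      ring

/-- an element of order eight -/
def c9 : F9 := ⟨1, 1⟩

set_option maxRecDepth 100000 in
theorem S60'_nine : ∀ a b c d : F9, S60' a b c d →
    S60' (c9 * (-a - c)) (c9 * (b + d)) (c9 * (a - c)) (c9 * (b - d)) := by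
  decide +kernel

theorem nm_su4_frame [Fintype F] (hq : Fintype.card F = 9) (hσ : (fun x : F => x ^ 3) = σ)
    (hG : HF σ G 1) (hne : ∃ a, σ a ≠ a) {D : Fin 4 → Submodule F (ι → F)}
    (hD : IsNondegenerateMDecomposition (fm σ G) 1 D) :
    Btw (decompositionStabilizer D) (isom σ G ⊓ specialLinear ι F) := by
  obtain ⟨e, P, hB, h1⟩ := exists_blk_one hG hne hD
  obtain ⟨φ, hφ⟩ := exists_model (card_F9.trans hq.symm) hσ conj_F9
  refine btw_trS (trM φ (e.trans (Equiv.uniqueProd _ _)) P)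
    (A₀ := fun g => ∃ τ a, g = mono τ a) (fun g => hB.trM_mono φ)
    (X₀ := fun g => pull (starRingEnd F9) 1 g = 1 ∧ g.det = 1)
    (fun g => (trM_mem_isom hφ (unF_trans_one h1 _ φ)).and trM_mem_sl) S60 ?_
    ⟨!![⟨1, 1⟩, ⟨0, 1⟩, ⟨0, 1⟩, 0; ⟨0, 1⟩, ⟨1, 1⟩, ⟨0, 1⟩, 0; ⟨0, 1⟩, ⟨0, 1⟩, ⟨1, 1⟩, 0; 0, 0, 0, 1],
      by decide +kernel, by unfold pull; decide +kernel,
      ![1, 0, 0, 0], by rw [S60_iff]; decide +kernel, by rw [S60_iff]; decide +kernel⟩
    ⟨!![-c9, 0, -c9, 0; 0, c9, 0, c9; c9, 0, -c9, 0; 0, c9, 0, -c9], by decide +kernel,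
      by unfold pull; decide +kernel,
      not_mono (i := 0) (i' := 2) (j := 0) (by decide) (by decide) (by decide), fun x hx => ?_⟩
  · rintro _ h0 ⟨τ, a, rfl⟩ h1 x
    exact S60.mono (fun j => (by decide +kernel : ∀ c : F9, c * starRingEnd F9 c = 1 →
      c * c * (c * c) = 1) _ (norm_of_mono h1.1 j)) h1.2
  · rw [S60_iff] at hx ⊢
    have := S60'_nine _ _ _ _ hx
    simp only [mul_sub, mul_add, mul_neg] at this
    simpa [Matrix.mulVec, dotProduct, Fin.sum_univ_four, sub_eq_add_neg] using this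

/-- the 126 points -/
def S126 [DecidableEq F] (x : Fin 6 → F) : Prop :=
  (∑ i, wt0 (x i) = 2 ∨ ∏ i, x i = 1)

set_option maxRecDepth 100000 in
theorem S126_four : ∀ a b c d e f : F4,
    (wt0 a + wt0 b + wt0 c + wt0 d + wt0 e + wt0 f = 2 ∨ a * b * c * d * e * f = 1) →
    ∀ s, s = a + b + c + d + e + f →
    (wt0 (a + s) + wt0 (b + s) + wt0 (c + s) + wt0 (d + s) + wt0 (e + s) + wt0 (f + s) = 2 ∨
      (a + s) * (b + s) * (c + s) * (d + s) * (e + s) * (f + s) = 1) := by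
  decide +kernel

theorem nm_su6_frame [Fintype F] (hq : Fintype.card F = 4) (hσ : (fun x : F => x ^ 2) = σ)
    (hG : HF σ G 1) (hne : ∃ a, σ a ≠ a) {D : Fin 6 → Submodule F (ι → F)}
    (hD : IsNondegenerateMDecomposition (fm σ G) 1 D) :
    Btw (decompositionStabilizer D) (isom σ G ⊓ specialLinear ι F) := by
  obtain ⟨e, P, hB, h1⟩ := exists_blk_one hG hne hD
  obtain ⟨φ, hφ⟩ := exists_model (card_F4.trans hq.symm) hσ conj_F4
  have hf : HF (starRingEnd F4) (1 : Matrix (Fin 6) (Fin 6) F4) 1 :=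
    ⟨by decide +kernel, isUnit_one, by simp⟩
  have key : ∀ (v : Fin 6 → F4) (hv : fm (starRingEnd F4) 1 v v = 0),
      (tvf _ 1 v 1 hv).val.det ≠ 0 ∧ pull (starRingEnd F4) 1 (tvf _ 1 v 1 hv).val = 1 ∧
        (tvf _ 1 v 1 hv).val.det = 1 := fun v hv =>
    ⟨(Matrix.isUnits_det_units _).ne_zero, mem_isom.1 (hf.tvf_mem hv (by decide +kernel)),
      det_tv _ _ _⟩
  have h4 : fm (starRingEnd F4) 1 ![1, 1, 1, 1, 0, 0] ![1, 1, 1, 1, 0, 0] = 0 := by
    rw [fm_one]; decide +kernel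
  have h6 : fm (starRingEnd F4) 1 (fun _ : Fin 6 => 1) (fun _ => 1) = 0 := by
    rw [fm_one]; decide +kernel
  refine btw_trS (trM φ (e.trans (Equiv.uniqueProd _ _)) P)
    (A₀ := fun g => ∃ τ a, g = mono τ a) (fun g => hB.trM_mono φ)
    (X₀ := fun g => pull (starRingEnd F4) 1 g = 1 ∧ g.det = 1)
    (fun g => (trM_mem_isom hφ (unF_trans_one h1 _ φ)).and trM_mem_sl) S126 ?_
    ⟨_, (key _ h4).1, (key _ h4).2, ![1, 0, 0, 0, 1, 0], by unfold S126; decide +kernel,
      by rw [tvf_mulVec, fm_one]; unfold S126; decide +kernel⟩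
    ⟨_, (key _ h6).1, (key _ h6).2,
      not_mono (i := 1) (i' := 2) (j := 0) (by decide) ?_ ?_, fun x hx => ?_⟩
  · rintro _ h0 ⟨τ, a, rfl⟩ h1 x hx
    unfold S126 at *
    rw [wt_mono τ (ne_zero_of_mono h0), prod_mono]
    refine hx.imp_right fun h => ?_
    have h2 := h1.2
    rw [det_mono] at h2
    rcases Int.units_eq_one_or (Equiv.Perm.sign τ) with h3 | h3 <;> rw [h3] at h2 <;>
      push_cast at h2
    · rw [h, mul_one, ← h2, one_mul]
    · rw [h, mul_one, ← h2, show (-1 : F4) = 1 by decide +kernel, one_mul]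
  · rw [tvf, coe_tv]; decide +kernel
  · rw [tvf, coe_tv]; decide +kernel
  · unfold S126 at *
    rw [tvf_mulVec, fm_one]
    simp only [Fin.sum_univ_six, Fin.prod_univ_six, map_one, mul_one, one_mul, Pi.add_apply,
      Pi.smul_apply, smul_eq_mul] at hx ⊢
    exact S126_four _ _ _ _ _ _ hx _ rfl

theorem sl4_planes [Fintype F] (hq : Fintype.card F = 3) {D : Fin 2 → Submodule F (ι → F)}
    (hD : IsMDecomposition 2 D) : ∃ G : Matrix ι ι F, Alt G ∧ IsUnit G ∧
      decompositionStabilizer D ⊓ specialLinear ι F ≤ similarityGroup (fm (RingHom.id F) G) := by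
  obtain ⟨G, e, P, h1, hB, h2, -⟩ := exists_isom_of_decomp' hD (hf_alt alt_J₂ isUnit_J₂)
  have h3 : (2 : F) ≠ 0 := two_ne_zero_iff_odd.2 (by rw [hq]; decide)
  refine ⟨G, h1.alt h3, h1.unit, fun g hg => ?_⟩
  obtain ⟨τ, a, ha⟩ := hB.stab g hg.1
  have h4 := mem_specialLinear.1 hg.2
  rw [ha, det_trA, det_blk, Fin.prod_univ_two, Fintype.card_fin] at h4
  have h5 : ((Equiv.Perm.sign τ : ℤ) : F) ^ 2 = 1 := by
    rcases Int.units_eq_one_or (Equiv.Perm.sign τ) with h | h <;> simp [h]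
  have h6 := sq_eq_of_card (Matrix.isUnits_det_units (a 0)).ne_zero (k := 2) hq
  have h7 : ∀ j, (a j).val.det = (a 0).val.det := fun j => by
    fin_cases j
    · rfl
    · rw [h5, one_mul] at h4
      change (a 1).val.det = _
      linear_combination (a 0).val.det * h4 - (a 1).val.det * h6
  refine mem_similarityGroup_fm.2 ⟨_, (Matrix.isUnits_det_units (a 0)).ne_zero, ?_⟩
  apply unF_injective _ e P
  rw [ha, ← pull_unF, unF_smul, h2, pull_blk, ← Matrix.blockDiagonal_smul]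
  congr 1
  ext1 j
  rw [pull_J₂, h7]
  rfl

end Cfsg.Agent.H26
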