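import Mathlib
import Cfsg.Agent.H26.Ex1

/-! Pairs of totally isotropic planes over very small fields are not maximal. -/

set_option autoImplicit false
set_option maxHeartbeats 400000

namespace Cfsg.Agent.H26

open Matrix Cfsg.Geo Module

variable {ι κ : Type} [Fintype ι] [DecidableEq ι] [Fintype κ] [DecidableEq κ] {F : Type*} [Field F]
  {σ : F →+* F} {G : Matrix ι ι F} {ε : F}

/-- the hyperbolic Gram matrix -/
def hypG (κ : Type) [DecidableEq κ] (ε : F) : Matrix (κ × Fin 2) (κ × Fin 2) F :=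
  blk (Equiv.swap 0 1) ![ε • 1, 1]

theorem Blk.diag_zero {t m : ℕ} {D : Fin t → Submodule F (ι → F)} {e : ι ≃ Fin m × Fin t}
    {P : GL ι F} (h : Blk D e P) (h1 : ∀ i, IsTotallySingularFor (fm σ G) (D i)) (i : Fin t)
    (k l : Fin m) : unF σ e P G (k, i) (l, i) = 0 := by
  rw [← fm_single σ (unF σ e P G), ← fm_unF, ← blkVec_single, ← blkVec_single]
  exact h1 i _ ((h.mem _ _).2 ⟨_, rfl⟩) _ ((h.mem _ _).2 ⟨_, rfl⟩)

section
variable {T : Type} [Fintype T] [DecidableEq T]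

theorem pull_blk_blk (ρ τ : Equiv.Perm T) (Gs a : T → Matrix κ κ F) :
    pull σ (blk ρ Gs) (blk τ a) =
      blk (τ⁻¹ * ρ * τ) fun j => (a ((τ⁻¹ * ρ * τ) j))ᵀ * Gs (τ j) * (a j).map σ := by
  have h1 : (blk τ a)ᵀ = blk τ⁻¹ fun j => (a (τ⁻¹ j))ᵀ := by
    ext ⟨k, i⟩ ⟨l, j⟩
    simp only [Matrix.transpose_apply, blk_apply]
    by_cases h : j = τ i
    · subst h; simp
    · rw [if_neg h, if_neg fun h' => h (by simp [h'])]
  have h2 : (blk τ a).map σ = blk τ fun j => (a j).map σ := by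
    ext ⟨k, i⟩ ⟨l, j⟩
    simp [blk_apply, apply_ite σ]
  rw [pull, h1, h2, blk_mul, blk_mul]
  rfl

omit [Fintype κ] [DecidableEq κ] [Fintype T] in
theorem blk_inj {τ : Equiv.Perm T} {a b : T → Matrix κ κ F} (h : blk τ a = blk τ b) (j : T) :
    a j = b j := by
  ext k l
  simpa [blk_apply] using congrFun (congrFun h (k, τ j)) (l, j)

end

theorem exists_pair_coords (hG : HF σ G ε) (hε : ε * ε = 1) {m : ℕ}
    {D : Fin 2 → Submodule F (ι → F)} (hD : IsMDecomposition m D)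
    (h1 : ∀ i, IsTotallySingularFor (fm σ G) (D i)) :
    ∃ (e : ι ≃ Fin m × Fin 2) (P : GL ι F), Blk D e P ∧ unF σ e P G = hypG (Fin m) ε := by
  obtain ⟨e, P, hB⟩ := exists_blk hD
  obtain ⟨A, B, h2⟩ : ∃ A B, unF σ e P G = blk (Equiv.swap 0 1) ![B, A] := by
    refine ⟨Matrix.of fun k l => unF σ e P G (k, 0) (l, 1),
      Matrix.of fun k l => unF σ e P G (k, 1) (l, 0), ?_⟩
    ext ⟨k, i⟩ ⟨l, j⟩
    have := hB.diag_zero h1
    fin_cases i <;> fin_cases j <;> simp [blk_apply, this]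
  have h3 := ((Matrix.isUnit_iff_isUnit_det _).1 (hG.unF e P).unit).ne_zero
  rw [h2, det_blk, Fin.prod_univ_two] at h3
  have hA : IsUnit A := (Matrix.isUnit_iff_isUnit_det _).2
    (isUnit_iff_ne_zero.2 (right_ne_zero_of_mul (right_ne_zero_of_mul h3)))
  have h4 : unF σ e (trG e P (blkG ![1, (isUnit_map σ hA.unit⁻¹.isUnit).unit]) * P) G =
      blk (Equiv.swap 0 1) ![(A⁻¹.map σ)ᵀ * B, 1] := by
    rw [unF_trG_mul, h2, coe_blkG, pull_blk_blk]
    simp only [inv_one, one_mul, mul_one]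
    congr 1
    ext1 j
    fin_cases j <;> simp [hG.map_map, Matrix.mul_nonsing_inv _ ((Matrix.isUnit_iff_isUnit_det _).1 hA)]
  refine ⟨e, _, hB.change _, h4.trans ?_⟩
  have h5 := (h4 ▸ hG.unF e _ : HF σ _ ε).herm
  rw [hypG]
  congr 2
  ext k l
  have := congrFun (congrFun h5 (k, 1)) (l, 0)
  simp only [Matrix.transpose_apply, Matrix.map_apply, blk_apply, Matrix.smul_apply,
    Equiv.swap_apply_left, Equiv.swap_apply_right, if_true, Matrix.cons_val_one, Matrix.cons_val_zero,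
    Matrix.one_apply, smul_eq_mul, apply_ite σ, map_one, map_zero] at this ⊢
  by_cases h : k = l
  · simp only [h, if_true] at this ⊢
    linear_combination -ε * this - ((A⁻¹.map σ)ᵀ * B) l l * hε
  · simp only [h, Ne.symm h, if_false] at this ⊢
    linear_combination -ε * this - ((A⁻¹.map σ)ᵀ * B) k l * hε

/-- eigenvectors of the semilinear involution -/
def SP (σ : F →+* F) (v : Fin 2 × Fin 2 → F) : Prop :=
  ∃ l, σ (v (1, 1)) = l * v (0, 0) ∧ -σ (v (0, 1)) = l * v (1, 0) ∧ -σ (v (1, 0)) = l * v (0, 1) ∧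
    σ (v (0, 0)) = l * v (1, 1)

theorem entries_of_mul {a b : Matrix (Fin 2) (Fin 2) F} {c : F} (h : aᵀ * b.map σ = c • 1)
    (hd : a.det * a.det = 1) : σ (b 0 0) = c * a.det * a 1 1 ∧ σ (b 0 1) = -(c * a.det * a 1 0) ∧
      σ (b 1 0) = -(c * a.det * a 0 1) ∧ σ (b 1 1) = c * a.det * a 0 0 := by
  have h00 := congrFun (congrFun h 0) 0
  have h01 := congrFun (congrFun h 0) 1
  have h10 := congrFun (congrFun h 1) 0
  have h11 := congrFun (congrFun h 1) 1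
  simp [Matrix.mul_apply] at h00 h01 h10 h11
  have h2 := Matrix.det_fin_two a
  generalize a.det = d at *
  refine ⟨?_, ?_, ?_, ?_⟩
  · linear_combination d * a 1 1 * h00 - d * a 1 0 * h10 - σ (b 0 0) * hd + d * σ (b 0 0) * h2
  · linear_combination d * a 1 1 * h01 - d * a 1 0 * h11 - σ (b 0 1) * hd + d * σ (b 0 1) * h2
  · linear_combination d * a 0 0 * h10 - d * a 0 1 * h00 - σ (b 1 0) * hd + d * σ (b 1 0) * h2
  · linear_combination d * a 0 0 * h11 - d * a 0 1 * h01 - σ (b 1 1) * hd + d * σ (b 1 1) * h2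

theorem SP.blk (hε : ε * ε = 1) (hd : ∀ d : F, d ≠ 0 → σ d = d → d * d = 1)
    {τ : Equiv.Perm (Fin 2)} {a : Fin 2 → Matrix (Fin 2) (Fin 2) F}
    (h1 : pull σ (hypG (Fin 2) ε) (blk τ a) = hypG (Fin 2) ε)
    (h2 : (∀ x, σ x = x) ∨ (blk τ a).det = 1) {v : Fin 2 × Fin 2 → F} (hv : SP σ v) :
    SP σ (blk τ a *ᵥ v) := by
  have hε0 : ε ≠ 0 := by rintro rfl; simp at hε
  obtain ⟨c, hc, h3, h4⟩ : ∃ c : F, (τ = 1 ∧ c = 1 ∨ τ = Equiv.swap 0 1 ∧ c = ε) ∧
      (a 0)ᵀ * (a 1).map σ = c • 1 ∧ (a 1)ᵀ * (a 0).map σ = c • 1 := by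
    rw [hypG, pull_blk_blk] at h1
    rcases (by decide : ∀ τ : Equiv.Perm (Fin 2), τ = 1 ∨ τ = Equiv.swap 0 1) τ with rfl | rfl
    · simp only [inv_one, one_mul, mul_one] at h1
      exact ⟨1, .inl ⟨rfl, rfl⟩, by simpa using blk_inj h1 1,
        smul_right_injective _ hε0 (by simpa using blk_inj h1 0)⟩
    · simp only [Equiv.swap_inv, Equiv.swap_mul_self, one_mul] at h1
      refine ⟨ε, .inr ⟨rfl, rfl⟩, smul_right_injective _ hε0 ?_, by simpa using blk_inj h1 0⟩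
      simpa [smul_smul, hε] using blk_inj h1 1
  have hc2 : c ^ 2 = 1 := by rcases hc with ⟨-, rfl⟩ | ⟨-, rfl⟩ <;> simp [sq, hε]
  have h5 := congrArg Matrix.det h3
  rw [Matrix.det_mul, Matrix.det_transpose, Matrix.det_smul, Fintype.card_fin, hc2, Matrix.det_one,
    one_mul] at h5
  erw [← RingHom.map_det] at h5
  have h6 : (a 0).det ≠ 0 := left_ne_zero_of_mul_eq_one h5
  have h7 : (a 1).det ≠ 0 := fun h => by simp [h] at h5
  have h8 : σ (a 1).det = (a 1).det := by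
    refine h2.elim (fun h => h _) fun h => mul_left_cancel₀ h6 ?_
    rw [det_blk, Fin.prod_univ_two, Fintype.card_fin] at h
    rcases Int.units_eq_one_or (Equiv.Perm.sign τ) with h9 | h9 <;> simpa [h9, h5] using h.symm
  have h9 := hd _ h7 h8
  have h10 : (a 0).det = (a 1).det := mul_right_cancel₀ h7 (by rw [h9, ← h5, h8])
  obtain ⟨p1, p2, p3, p4⟩ := entries_of_mul h3 (h10 ▸ h9)
  obtain ⟨q1, q2, q3, q4⟩ := entries_of_mul h4 h9
  rw [h10] at p1 p2 p3 p4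
  generalize (a 1).det = d at *
  obtain ⟨l, v1, v2, v3, v4⟩ := hv
  rw [neg_eq_iff_eq_neg] at v2 v3
  rcases hc with ⟨rfl, rfl⟩ | ⟨rfl, rfl⟩
  · refine ⟨d * l, ?_, ?_, ?_, ?_⟩ <;>
      simp [Matrix.mulVec, dotProduct, Fintype.sum_prod_type, blk_apply, *] <;> ring
  · refine ⟨-(c * d * l), ?_, ?_, ?_, ?_⟩ <;>
      simp [Matrix.mulVec, dotProduct, Fintype.sum_prod_type, blk_apply, *] <;> ring

theorem fm_hypG (u v : Fin 2 × Fin 2 → F) : fm σ (hypG (Fin 2) ε) u v =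
    u (0, 0) * σ (v (0, 1)) + u (1, 0) * σ (v (1, 1)) +
      ε * (u (0, 1) * σ (v (0, 0)) + u (1, 1) * σ (v (1, 0))) := by
  simp [fm_eq_sum, hypG, Fintype.sum_prod_type, blk_apply, Matrix.one_apply]
  ring

theorem nm_pair [Finite F] (hG : HF σ G ε) (hε : ε = 1 ∨ ε = -1)
    (hd : ∀ d : F, d ≠ 0 → σ d = d → d * d = 1) {X : Subgroup (GL ι F)} {b : Prop}
    (hX : ∀ g, g ∈ X ↔ g ∈ isom σ G ∧ (b → g ∈ specialLinear ι F)) (hb : ¬ b → ∀ x, σ x = x)
    {c : F} (hc0 : c ≠ 0) (hc : c + σ c * ε = 0)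
    {D : Fin 2 → Submodule F (ι → F)} (hD : IsMDecomposition 2 D)
    (h1 : ∀ i, IsTotallySingularFor (fm σ G) (D i)) : Btw (decompositionStabilizer D) X := by
  have hε2 : ε * ε = 1 := by rcases hε with rfl | rfl <;> simp
  have hε0 : ε ≠ 0 := by rintro rfl; simp at hε2
  obtain ⟨e, P, hB, h2⟩ := exists_pair_coords hG hε2 hD h1
  have hf : HF σ (hypG (Fin 2) ε) ε := h2 ▸ hG.unF e P
  have key : ∀ (v : Fin 2 × Fin 2 → F) (hv : fm σ (hypG (Fin 2) ε) v v = 0),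
      (tvf σ _ v c hv).val.det ≠ 0 ∧ pull σ (hypG (Fin 2) ε) (tvf σ _ v c hv).val = hypG (Fin 2) ε ∧
        (b → (tvf σ _ v c hv).val.det = 1) := fun v hv =>
    ⟨(Matrix.isUnits_det_units _).ne_zero, mem_isom.1 (hf.tvf_mem hv hc), fun _ => det_tv _ _ _⟩
  have h3 : fm σ (hypG (Fin 2) ε) (fun p => !![0, 0; 1, 0] p.1 p.2)
    (fun p => !![0, 0; 1, 0] p.1 p.2) = 0 := by simp [fm_hypG]
  have h4 : fm σ (hypG (Fin 2) ε) (fun p => !![1, 0; 0, 1] p.1 p.2)
    (fun p => !![1, 0; 0, 1] p.1 p.2) = 0 := by simp [fm_hypG]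
  have h5 : σ c = -(ε * c) := by linear_combination ε * hc - σ c * hε2
  have h6 : σ ε = ε := by rcases hε with rfl | rfl <;> simp
  refine btw_trS (trM (RingEquiv.refl F) e P) (A₀ := fun g => ∃ τ a, g = blk τ a)
    (fun g => hB.trM_blk _)
    (X₀ := fun g => pull σ (hypG (Fin 2) ε) g = hypG (Fin 2) ε ∧ (b → g.det = 1))
    (fun g => (hX _).trans ((trM_mem_isom (fun _ => rfl) h2).and (imp_congr_right fun _ => trM_mem_sl)))
    (SP σ) ?_ ⟨_, (key _ h3).1, (key _ h3).2, fun p => !![1, 0; 0, 1] p.1 p.2, ⟨1, by simp⟩, ?_⟩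
    ⟨_, (key _ h4).1, (key _ h4).2, ?_, ?_⟩
  · rintro _ - ⟨τ, a, rfl⟩ ⟨h7, h8⟩ v
    exact SP.blk hε2 hd h7 (by by_cases h : b; exacts [.inr (h8 h), .inl (hb h)])
  · rintro ⟨l, -, -, h7, -⟩
    simp [tvf_mulVec, fm_hypG, hc0, hε0] at h7
  · rintro ⟨τ, a, h7⟩
    have h8 := congrFun (congrArg (· *ᵥ Pi.single (1, 0) 1) h7)
    have h9 := h8 (1, 0)
    have h10 := h8 (1, 1)
    simp only [tvf_mulVec] at h9 h10
    rcases (by decide : ∀ τ : Equiv.Perm (Fin 2), τ = 1 ∨ τ = Equiv.swap 0 1) τ with rfl | rfl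
    · simp [fm_hypG, blk_apply, hc0] at h10
    · simp [fm_hypG, blk_apply] at h9
  · rintro v ⟨l, v1, v2, v3, v4⟩
    rw [neg_eq_iff_eq_neg] at v2 v3
    refine ⟨l, ?_, ?_, ?_, ?_⟩ <;> simp [tvf_mulVec, fm_hypG, *]
    · linear_combination (c * l * v (1, 0)) * hε2
    · linear_combination (c * l * v (1, 0)) * hε2

theorem nm_sp4_pair [Fintype F] (hq : Fintype.card F = 3) (hG : Alt G) (hu : IsUnit G)
    {D : Fin 2 → Submodule F (ι → F)} (hD : IsMDecomposition 2 D)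
    (h1 : ∀ i, IsTotallySingularFor (fm (RingHom.id F) G) (D i)) :
    Btw (decompositionStabilizer D) (isom (RingHom.id F) G) :=
  nm_pair (hf_alt hG hu) (.inr rfl) (fun d hd _ => by rw [← sq, sq_eq_of_card hd hq]) (b := False)
    (by simp) (fun _ _ => rfl) one_ne_zero (by simp) hD h1

theorem nm_su4_pair [Fintype F] {q : ℕ} (hq : q ≤ 3) (hσ : (fun x : F => x ^ q) = σ)
    (hG : HF σ G 1) (hne : ∃ a, σ a ≠ a) {D : Fin 2 → Submodule F (ι → F)}
    (hD : IsMDecomposition 2 D) (h1 : ∀ i, IsTotallySingularFor (fm σ G) (D i)) :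
    Btw (decompositionStabilizer D) (isom σ G ⊓ specialLinear ι F) := by
  obtain ⟨c, hc0, hc⟩ := (tvG_su hG hne (by rw [← hD.h26_card]; norm_num)).coef
  refine nm_pair hG (.inl rfl) (fun d hd h => ?_) (b := True) (by simp) (by simp) hc0 hc hD h1
  have h2 : d ^ q = d := (congrFun hσ d).trans h
  have h3 : (0 : F) ^ q = 0 := (congrFun hσ 0).trans (map_zero σ)
  interval_cases q
  · simp at h3
  · obtain ⟨a, ha⟩ := hne
    exact absurd ((congrFun hσ a).symm.trans (pow_one a)) ha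
  · rw [mul_left_cancel₀ hd (show d * d = d * 1 by rw [← sq, h2, mul_one]), one_mul]
  · exact mul_left_cancel₀ hd (by rw [mul_one]; linear_combination h2)

end Cfsg.Agent.H26
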