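import Mathlib
import Cfsg.Agent.H26.Ex1

/-! Maximal subgroups of `SU₃` and `SU₄`: the geometric cases. -/

set_option autoImplicit false
set_option maxHeartbeats 400000

namespace Cfsg.Agent.H26

open Matrix Cfsg.Geo Module

variable {ι : Type} [Fintype ι] [DecidableEq ι] {F : Type*} [Field F] {σ : F →+* F}
  {G : Matrix ι ι F}

theorem exists_ker_two (hn : 3 ≤ Fintype.card ι) (φ ψ : ι → F) :
    ∃ u : ι → F, u ≠ 0 ∧ φ ⬝ᵥ u = 0 ∧ ψ ⬝ᵥ u = 0 := by
  let L : (ι → F) →ₗ[F] (Fin 2 → F) := Matrix.toLin' (Matrix.of ![φ, ψ])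
  obtain ⟨u, hu, h0⟩ := (Submodule.ne_bot_iff _).1 (LinearMap.ker_ne_bot_of_finrank_lt (f := L)
    (by simp; omega))
  exact ⟨u, h0, congrFun hu 0, congrFun hu 1⟩

theorem RType.not_tv_two {R : Subgroup (GL ι F)} (h : RType 2 R) (h' : PreR 2 R)
    (hn : 3 ≤ Fintype.card ι) {v φ : ι → F} (hφv : φ ⬝ᵥ v = 0) (hv : v ≠ 0) (hφ : φ ≠ 0)
    (h1 : tv v φ hφv ∈ subgroupNormalizer R) : False := by
  have : Nonempty ι := Fintype.card_pos_iff.1 (by omega)
  have h2 : (2 : F) ≠ 0 := by simpa using h'.ne_char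
  refine h.not_mem_of_comm hφv hv hφ fun x hx => ?_
  have h3 : tv v φ hφv * x * (tv v φ hφv)⁻¹ * x⁻¹ ∈ R :=
    mul_mem ((Subgroup.mem_normalizer_iff.1 h1 x).1 hx) (inv_mem hx)
  obtain ⟨w, hw⟩ : ∃ w, w = x.val *ᵥ v := ⟨_, rfl⟩
  obtain ⟨ψ, hψ⟩ : ∃ ψ, ψ = φ ᵥ* (x⁻¹).val := ⟨_, rfl⟩
  have h4 : ∀ u, (tv v φ hφv * x * (tv v φ hφv)⁻¹ * x⁻¹).val *ᵥ u =
      u - (ψ ⬝ᵥ u) • w + (φ ⬝ᵥ u - (ψ ⬝ᵥ u) * (φ ⬝ᵥ w)) • v := fun u => by
    simp only [Units.val_mul, ← Matrix.mulVec_mulVec, tv_inv, tv_mulVec, Matrix.mulVec_add,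
      Matrix.mulVec_smul, mulVec_inv_mulVec, ← hw, dotProduct_mulVec, neg_dotProduct, ← hψ,
      Matrix.neg_vecMul, dotProduct_add, dotProduct_smul, smul_eq_mul]
    module
  have h5 : ψ ⬝ᵥ w = 0 := by rw [hψ, hw, ← dotProduct_mulVec, inv_mulVec_mulVec, hφv]
  have hw0 : w ≠ 0 := fun h0 => hv (by simpa [← hw, h0] using (inv_mulVec_mulVec x v).symm)
  generalize tv v φ hφv * x * (tv v φ hφv)⁻¹ * x⁻¹ = y at h3 h4 ⊢
  have h6 : ∀ u, y.val *ᵥ y.val *ᵥ u = u := by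
    rcases h'.sq_cases h3 with h6 | h6
    · intro u; rw [Matrix.mulVec_mulVec, h6, Matrix.one_mulVec]
    · obtain ⟨u, hu, h7, h8⟩ := exists_ker_two hn φ ψ
      have h9 : y.val *ᵥ u = u := by simp [h4, h7, h8]
      have h10 := congrArg (· *ᵥ u) h6
      simp only [← Matrix.mulVec_mulVec, h9, Matrix.neg_mulVec, Matrix.one_mulVec] at h10
      exact absurd ((smul_eq_zero.1 (show (2 : F) • u = 0 by
        linear_combination (norm := module) h10)).resolve_left h2) hu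
  have h7 := h6 w
  have h8 := h6 v
  simp only [h4, h5, hφv, dotProduct_add, dotProduct_sub, dotProduct_smul, smul_eq_mul] at h7 h8
  have h9 : ψ ⬝ᵥ v * (φ ⬝ᵥ w) = 0 := by
    have a1 := congrArg (φ ⬝ᵥ ·) h7
    have a2 := congrArg (ψ ⬝ᵥ ·) h7
    simp only [h5, hφv, dotProduct_add, dotProduct_sub, dotProduct_smul, smul_eq_mul] at a1 a2
    exact mul_left_cancel₀ h2 (by linear_combination a2 - ψ ⬝ᵥ v * a1)
  have h10 : φ ⬝ᵥ w = 0 := by
    have : (2 * φ ⬝ᵥ w) • v = 0 := by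
      linear_combination (norm := skip) h7 + h9 • w + (φ ⬝ᵥ w * h9) • v
      module
    simpa [h2, hv] using this
  have h11 : ψ ⬝ᵥ v = 0 := by
    rw [h10] at h8
    have : (2 * ψ ⬝ᵥ v) • w = 0 := by linear_combination (norm := module) -h8
    simpa [h2, hw0] using this
  have h12 : ∀ u, (ψ ⬝ᵥ u) • w = (φ ⬝ᵥ u) • v := fun u => by
    have a1 := h6 u
    simp only [h4, h5, hφv, h10, h11, dotProduct_add, dotProduct_sub, dotProduct_smul,
      smul_eq_mul] at a1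
    exact smul_right_injective _ h2 (by linear_combination (norm := module) -a1)
  refine Units.ext (Matrix.toLin'.injective (LinearMap.ext fun u => ?_))
  simp only [Matrix.toLin'_apply, Units.val_mul, ← Matrix.mulVec_mulVec, tv_mulVec, Matrix.mulVec_add,
    Matrix.mulVec_smul, ← hw]
  rw [← h12 (x.val *ᵥ u), hψ, ← dotProduct_mulVec, inv_mulVec_mulVec]

theorem su_not_le_ext [Fintype F] (hG : HF σ G 1) (hne : ∃ a, σ a ≠ a)
    (hn : Fintype.card ι = 4 ∨ Fintype.card ι = 3 ∧ 4 < Fintype.card F) {r p e : ℕ}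
    {R : Subgroup (GL ι F)} (hR : RType r R) (hR' : PreR r R)
    (hm : IsMinimalFieldFor (Nat.card (Subgroup.center R)) p e F)
    (h2 : (Odd r ∧ Nat.card (Subgroup.center R) = r) ∨
      (r = 2 ∧ e = 2 ∧ Nat.card (Subgroup.center R) = 4)) :
    ¬ isom σ G ⊓ specialLinear ι F ≤ subgroupNormalizer R := by
  intro hle
  have : Nonempty ι := Fintype.card_pos_iff.1 (by omega)
  have hT := tvG_su hG hne (by omega)
  obtain ⟨c, hc0, hc⟩ := hT.coef
  obtain ⟨v, hv, h0⟩ := hT.span ⊥ bot_ne_top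
  have h3 := hG.smul_mulVec_ne (v := v) hv hc0
  rcases hn with hn | ⟨hn, hq⟩
  · obtain rfl := hR.eq_of_card (s := 2) (j := 2) Nat.prime_two hn
    exact hR.not_tv_two hR' (by omega) _ hv h3 (hle (hT.mem v c h0 hc))
  obtain rfl := hR.eq_of_card (s := 3) (j := 1) Nat.prime_three hn
  have h4 : (2 : F) ≠ 0 := fun h4 => by
    obtain ⟨h5, h6, h7, h8, h9⟩ := hm
    obtain rfl : p = 2 := ((Nat.prime_dvd_prime_iff_eq h5 Nat.prime_two).1
      ((CharP.cast_eq_zero_iff F p 2).1 (by simpa using h4)))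
    rw [(h2.resolve_right fun h => by omega).2] at h9
    have h10 : e ≤ 2 := by
      by_contra h10
      exact h9 2 two_pos (by omega) (by norm_num)
    have := Nat.pow_le_pow_right two_pos h10
    omega
  refine hR.not_two_tv (by omega) _ hv h3 h4 (fun h => hR'.ne_char (by
    push_cast; linear_combination h)) (hle (hT.mem v c h0 hc)) ?_
  simpa [tvf, smul_smul] using hle (hT.mem v (2 * c) h0 (by
    rw [map_mul, map_ofNat]; linear_combination 2 * hc))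

theorem su3_not_le_dec [Fintype F] {q : ℕ} (hq : 3 ≤ q) (hF : Fintype.card F = q ^ 2)
    (hσ : (fun x : F => x ^ q) = σ) (hG : HF σ G 1) (hne : ∃ a, σ a ≠ a) (hn : Fintype.card ι = 3)
    {t k : ℕ} {D : Fin t → Submodule F (ι → F)} (hD : IsNondegenerateMDecomposition (fm σ G) k D) :
    ¬ isom σ G ⊓ specialLinear ι F ≤ decompositionStabilizer D := by
  have h1 := hD.decomp.h26_card
  have h2 := hD.decomp.two_le
  obtain ⟨rfl, rfl⟩ : k = 1 ∧ t = 3 := by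
    have : k < 3 := by nlinarith
    interval_cases k <;> omega
  obtain ⟨a, ha, h3⟩ : ∃ a : F, a ≠ 0 ∧ a * σ a ≠ -1 := by
    by_contra! h
    have h3 : ∀ a : Fˣ, a ^ (q + 1) = 1 := fun a => Units.ext (by
      have h4 := h 1 one_ne_zero
      rw [map_one, mul_one] at h4
      rw [Units.val_pow_eq_pow_val, pow_succ', show a.val ^ q = σ a from congrFun hσ _, h a a.ne_zero,
        ← h4, Units.val_one])
    have h4 := Nat.le_of_dvd (by omega) (Monoid.exponent_dvd_of_forall_pow_eq_one h3)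
    rw [IsCyclic.exponent_eq_card, Nat.card_units, Nat.card_eq_fintype_card, hF] at h4
    have : q * 3 ≤ q ^ 2 := by nlinarith
    omega
  obtain ⟨a', ha'⟩ := hne
  obtain ⟨b, hb⟩ := H11.exists_norm_eq (fun h0 => ha' (by rw [h0]; rfl)) hG.inv
    (a := -1 - a * σ a) (by simp [hG.inv, mul_comm])
  refine su_not_le_frame_of hG ⟨a', ha'⟩ hD ⟨![1, a, b], 0, 1, 2, by decide, by decide, by decide,
    one_ne_zero, ha, ?_, ?_⟩
  · rintro (rfl : b = 0)
    exact h3 (by linear_combination hb)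
  · simp only [Fin.sum_univ_three, Matrix.cons_val_zero, Matrix.cons_val_one, Matrix.cons_val,
      map_one]
    linear_combination hb

theorem su_max' [Fintype F] {q n : ℕ} (hF : Fintype.card F = q ^ 2) (hn : n = 4 ∨ n = 3 ∧ 3 ≤ q)
    {H : Subgroup (GL (Fin n) F)} (hH : IsMaximalIn (GU n F q ⊓ specialLinear (Fin n) F) H) :
    ∃ σ : F →+* F, (fun x : F => x ^ q) = σ ∧ (∃ a, σ a ≠ a) ∧
      HF σ (1 : Matrix (Fin n) (Fin n) F) 1 ∧ hermForm n F q = fm σ 1 ∧ GU n F q = isom σ 1 ∧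
      ((SuCase σ 1 fun M => H = M ⊓ (GU n F q ⊓ specialLinear (Fin n) F)) ∨
        InUnitaryResidualClass H) := by
  obtain ⟨σ, hσ, hne, hG, hf, hI⟩ := exists_std_unitary hF n
  refine ⟨σ, hσ, hne, hG, hf, hI, ?_⟩
  rw [hI] at hH ⊢
  have hc : Fintype.card (Fin n) = n := Fintype.card_fin n
  refine (su_cases hG hne (by omega) (hH.1.le.trans inf_le_left)).imp_left fun h => ?_
  have hT := tvG_su hG hne (by omega)
  rcases h with ⟨W, h1, h2, h⟩ | ⟨W, h1, h2, h3, h⟩ | ⟨t, k, D, hD, h1, h⟩ | ⟨m, D, hD, h1, h⟩ |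
    ⟨r, K, hr, ho, hK, h1, h⟩ | ⟨n₁, n₂, e, P, G₁, G₂, h1, h2, h3, h4, h⟩ |
    ⟨F₀, r, P, hr, ho, hc, h1, h⟩ | ⟨F₀, P, hq, hc, h1, h⟩ | ⟨F₀, P, ζ, he, hc, h0, h1, h2, h3, h⟩ |
    ⟨r, R, p, e, hR, hR', h1, hp, hm, h2, h⟩ | ⟨k, t, e, P, c, G₀, h1, h2, h3, hW, h⟩
  · exact .ts W h1 h2 (eq_inf_of_isMaximalIn hH h (hT.not_le_stab h1 (ne_top_of_ts hG h1 h2)))
  · exact .nd W h1 h2 h3 (eq_inf_of_isMaximalIn hH h (hT.not_le_stab h1 (ne_top_of_finrank h3)))
  · refine .dec t k D hD h1 (eq_inf_of_isMaximalIn hH h ?_)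
    rcases hn with rfl | ⟨rfl, hq⟩
    · exact su_not_le_dec hG hne (by omega) hD
    · exact su3_not_le_dec hq hF hσ hG hne hc hD
  · exact .pair m D hD h1 (eq_inf_of_isMaximalIn hH h (hT.not_le_dec hD
      (by have := hD.h26_card; omega)))
  · exact .fld r K hr ho hK h1 (eq_inf_of_isMaximalIn hH h (hT.not_le_field (by omega) hK hr.ne_one))
  · exact .ten n₁ n₂ e P G₁ G₂ h1 h2 h3 h4
      (eq_inf_of_isMaximalIn hH h (hT.not_le_ten h1 (by omega) e P))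
  · exact .sub F₀ r P hr ho hc h1 (eq_inf_of_isMaximalIn hH h
      (su_not_le_sub hG hne (by omega) (subfield_ne_top hr hc) P))
  · exact .subO F₀ P hq hc h1 (eq_inf_of_isMaximalIn hH h
      (su_not_le_sub hG hne (by omega) (subfield_ne_top Nat.prime_two hc) P))
  · exact .subS F₀ P ζ he hc h0 h1 h2 h3 (eq_inf_of_isMaximalIn hH h
      (su_not_le_sub hG hne (by omega) (subfield_ne_top Nat.prime_two hc) P))
  · refine .ext r R p e hR hR' h1 hp hm h2 (eq_inf_of_isMaximalIn hH h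
      (su_not_le_ext hG hne (hn.imp hc.trans fun h => ⟨hc.trans h.1, ?_⟩) hR hR' hm h2))
    nlinarith [h.2]
  · obtain ⟨rfl, rfl, h4⟩ := wr_numerics e h1 h2 (by omega)
    omega

end Cfsg.Agent.H26
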