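import Cfsg.Agent.H10.Ag5
import Cfsg.Agent.H26.C2a

/-!
The classical subgroups of the four-dimensional special linear group.
-/

set_option autoImplicit false
set_option linter.unusedSectionVars false

namespace Cfsg.Agent.H26.L4

open Module H10 H11 Cfsg.Geo

variable {F : Type*} [Field F] {V : Type*} [AddCommGroup V] [Module F V] {σ : F →+* F}
  {ε κ : F} {τ : F →+ F} {B B' : V →ₛₗ[σ] V →ₗ[F] F} {Q Q' : V → F}
  [FiniteDimensional F V] [Finite F]

theorem eq_dtv {ψ : Dual F V} {a : V} (ha : ψ a = 1) {k : V ≃ₗ[F] V} (h1 : ∀ y, ψ y = 0 → k y = y)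
    (h2 : ∀ x, ψ (k x) = ψ x) : ∃ z, ψ z = 0 ∧ k = dtv z ψ := by
  have z : ψ (k a - a) = 0 := by simp [h2]
  refine ⟨_, z, LinearEquiv.ext fun x => ?_⟩
  have := h1 (x - ψ x • a) (by simp [ha])
  rw [map_sub, map_smul, sub_eq_iff_eq_add] at this
  rw [dtv_apply z, this]; module

/-- Every non-degenerate subspace contains an anisotropic vector. -/
def Ns (B : V →ₛₗ[σ] V →ₗ[F] F) : Prop := ∀ W, NondegOn B W → 1 ≤ finrank F W → ∃ x ∈ W, B x x ≠ 0

theorem sl_of_nt (h : Cl ε κ τ B Q) (h' : Cl ε κ τ B' Q') (hn : 4 ≤ finrank F V)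
    (hq : NQ τ ∨ (2 : F) ≠ 0 ∧ Ns B)
    {M : Subgroup (V ≃ₗ[F] V)} (hM : h.Om ≤ M) (hM' : h'.Om ≤ M)
    {u a : V} (u0 : u ≠ 0) (hu : Q u = 0) (ha : B' a = B u) (aa : B' a a ≠ 0) : SLv F V ≤ M := by
  have hU := h'.form.nondegOn_perp h'.sep (IsForm.nondegOn_span_singleton aa)
  have d5 := h'.form.finrank_perp h'.sep (Submodule.span F {a})
  have d4 := finrank_span_one_le (F := F) a
  have hm : ∀ x, x ∈ perp B' (Submodule.span F {a}) ↔ B u x = 0 := fun x => by
    rw [mem_perp_span]; simp [ha]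
  generalize perp B' (Submodule.span F {a}) = U at hU d5 hm
  let R : Subgroup (U ≃ₗ[F] U) :=
    { carrier := {n | ∃ m ∈ M, (∀ x, B u (m x) = B u x) ∧ ∀ y : U, m y = n y}
      one_mem' := ⟨1, one_mem _, fun _ => rfl, fun _ => rfl⟩
      mul_mem' := by
        rintro _ _ ⟨m, a1, a2, a3⟩ ⟨m', b1, b2, b3⟩
        exact ⟨m * m', mul_mem a1 b1, fun x => by rw [LinearEquiv.mul_apply, a2, b2],
          fun y => by rw [LinearEquiv.mul_apply, b3, a3]; rfl⟩
      inv_mem' := by
        rintro n ⟨m, a1, a2, a3⟩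
        exact ⟨m⁻¹, inv_mem a1, fun x => by rw [← a2, MX.app_inv],
          fun y => MX.inv_eq_of (by rw [a3, MX.app_inv])⟩ }
  have uu := h.diag0 hu
  let u' : U := ⟨u, (hm u).2 uu⟩
  have hR : SLv F U ≤ R := by
    refine SLv_le_of_full (fun S hS => (h'.restrict hU).irr_top (by omega) fun g hg => hS g
      ((h'.restrict hU).om_le (M := R) (fun v w c a1 a2 a3 => ⟨_, hM' (h'.eich_mem_om a1 a2 a3), fun x => ?_,
        fun y => ?_⟩) hg)) (w := u') (fun c => u0 (congrArg Subtype.val c)) fun φ hφ => ?_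
    · rw [h'.eich_apply a1 a2]; simp [(hm _).1 v.2, (hm _).1 w.2]
    · rw [h'.eich_apply a1 a2, (h'.restrict hU).eich_apply a1 a2]; simp
    obtain ⟨φ', e⟩ := LinearMap.exists_extend φ
    obtain ⟨x, rfl⟩ := h.exists_B φ'
    have ux : B u x = 0 := h.refl (by rw [← hφ, ← e]; rfl)
    obtain ⟨c, hc⟩ := h.exists_tau x
    refine ⟨_, hM (h.eich_mem_om hu ux hc), fun z => by rw [h.eich_apply hu ux]; simp [uu, ux], fun y => ?_⟩
    rw [h.eich_of_perp hu ux c ((hm _).1 y.2), dtv_apply hφ, ← e]; rfl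
  obtain ⟨f, hf, uf⟩ := h.form.exists_partner h.sep hu u0
  obtain ⟨z, z0, z1, z2⟩ : ∃ z, z ≠ 0 ∧ B u z = 0 ∧ dtv z (B u) ∈ M := by
    rcases hq with ⟨c, c0, hc⟩ | ⟨t2, an⟩
    · refine ⟨(-c) • u, by simp [c0, u0], by simp [uu], ?_⟩
      rw [dtv_smul, ← h.eich_eq_dtv hu]
      exact hM (h.eich_mem_om hu (by simp) (by rw [hc, h.Q_zero]))
    have hP := h.form.nondegOn_perp h.sep (h.form.nondegOn_span_pair hu hf (by simp [uf]))
    have d5 := h.form.finrank_perp h.sep (Submodule.span F {u, f})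
    have d6 := finrank_span_pair_le (F := F) u f
    obtain ⟨x, hx, qx⟩ := an _ hP (by omega)
    rw [mem_perp_span] at hx
    simp only [Set.mem_insert_iff, Set.mem_singleton_iff, forall_eq_or_imp, forall_eq] at hx
    obtain ⟨ux, fx⟩ := hx
    obtain ⟨c, hc⟩ := h.exists_tau x
    have E := hM (h.eich_mem_om hu ux hc)
    let x' : U := ⟨x, (hm x).2 ux⟩
    have p1 : 1 + (((-2 / B x x) • B x) ∘ₗ U.subtype) x' = -1 := by simp [x']; field_simp; ring
    have p2 : 1 + (((-2 * ε) • B f) ∘ₗ U.subtype) u' = -1 := by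
      simp [u', h.flip_one uf]; linear_combination (-2) * h.eps_mul
    have n1 : (-1 : F) ≠ 0 := by simp
    obtain ⟨m, m1, m2, m3⟩ := hR (mem_SLv.2 (show LinearMap.det ((dtv x' (((-2 / B x x) • B x) ∘ₗ U.subtype) *
        dtv u' (((-2 * ε) • B f) ∘ₗ U.subtype) : U ≃ₗ[F] U) : U →ₗ[F] U) = 1 by
      rw [LinearEquiv.coe_toLinearMap_mul, map_mul, det_dtv (p1 ▸ n1), det_dtv (p2 ▸ n1), p1, p2]; simp))
    have m4 : ∀ y, B u y = 0 → m y = y - (2 / B x x * B x y) • x - (2 * ε * B f y) • u := fun y hy => by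
      rw [m3 ⟨y, (hm y).2 hy⟩, LinearEquiv.mul_apply, dtv_apply' (p1 ▸ n1), dtv_apply' (p2 ▸ n1)]
      simp [x', u', h.refl ux]; module
    have e1 := h.eich_apply hu ux c
    generalize h.eich u x c = E' at E e1
    have e2 : ∀ y, B u (E' y) = B u y := fun y => by simp [e1, uu, ux]
    obtain ⟨z, z1, z2⟩ := eq_dtv uf (k := (m * E')⁻¹ * (E' * m)) (fun y hy => MX.inv_eq_of (by
      change m (E' y) = E' (m y)
      rw [m4 _ (by rwa [e2]), m4 _ hy]
      simp [e1, hy, ux, uu, h.refl ux, h.flip_one uf]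
      match_scalars <;> field_simp
      linear_combination (-2 * B x y) * h.eps_mul)) fun y => by
        rw [LinearEquiv.mul_apply, ← e2, ← m2, ← LinearEquiv.mul_apply m, MX.app_inv, LinearEquiv.mul_apply, e2, m2]
    refine ⟨z, ?_, z1, z2 ▸ mul_mem (inv_mem (mul_mem m1 E)) (mul_mem E m1)⟩
    rintro rfl
    rw [dtv_zero_left, inv_mul_eq_one] at z2
    have := congrArg (fun k : V ≃ₗ[F] V => B x (k f)) z2
    simp only [LinearEquiv.mul_apply, e1, map_add, map_sub, map_smul, m2, m4 x ux, m4 u uu] at this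
    simp [uf, h.refl ux, qx, fx] at this
    exact this.elim t2 h.eps_ne
  have all : ∀ z, B u z = 0 → dtv z (B u) ∈ M := fun y hy => by
    refine MX.forall_of_not_mem_span (F := F) (A := U) (by omega) (P := fun y => dtv y.1 (B u) ∈ M)
      (fun a b p q => ?_) (x := ⟨z, (hm z).2 z1⟩) (fun y hy => ?_) ⟨y, (hm y).2 hy⟩
    · rw [Submodule.coe_sub, sub_eq_add_neg, dtv_add_left ((hm _).1 a.2) (by simp [(hm _).1 b.2]), ← neg_one_smul F,
        dtv_smul, show (-1 : F) • B u = -B u by ext; simp, dtv_neg ((hm _).1 b.2)]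
      exact mul_mem p (inv_mem q)
    obtain ⟨φ, p1, p2⟩ := MX.exists_dual_pair (F := F) (u := y - ⟨z, (hm z).2 z1⟩) (x := ⟨z, (hm z).2 z1⟩)
      fun c hc => hy (Submodule.mem_span_singleton.2 (by
        have c0 : c ≠ 0 := by rintro rfl; exact z0 (by simpa using congrArg Subtype.val hc)
        exact ⟨1 + c⁻¹, by rw [add_smul, one_smul, hc, inv_smul_smul₀ c0, ← hc]; abel⟩))
    obtain ⟨m, m1, m2, m3⟩ := hR (dtv_mem_SLv p2)
    have := mul_mem (mul_mem m1 z2) (inv_mem m1)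
    rw [conj_dtv, m3 ⟨z, (hm z).2 z1⟩, dtv_apply p2, p1] at this
    convert this using 2
    · simp
    · ext v; rw [LinearMap.comp_apply, LinearEquiv.coe_coe, ← m2 (m⁻¹ v), MX.app_inv]
  refine SLv_le_of_full (fun S hS => h.irr_top (by omega) fun g hg => hS g (hM hg)) u0 fun φ hφ => ?_
  obtain ⟨m, m1, m2, m3⟩ := hR (dtv_mem_SLv (v := u') (φ := φ ∘ₗ U.subtype) hφ)
  obtain ⟨z, z1, z2⟩ := eq_dtv uf (k := m⁻¹ * dtv u φ) (fun y hy => MX.inv_eq_of (by
    change m y = dtv u φ y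
    rw [m3 ⟨y, (hm y).2 hy⟩, dtv_apply hφ, dtv_apply (by exact hφ)]; rfl)) fun y => by
      rw [LinearEquiv.mul_apply, ← m2, MX.app_inv, dtv_apply hφ]; simp [uu]
  have := mul_mem m1 (z2 ▸ all z z1)
  rwa [mul_inv_cancel_left] at this

theorem prop_of (h : Cl 1 κ τ B Q) (hn : 3 ≤ finrank F V) {s : F} (hs : s + σ s ≠ 0) {C : V →ₛₗ[σ] V →ₗ[F] F}
    (sy : ∀ x y, C y x = σ (C x y)) (hz : ∀ x, Q x = 0 → C x x = 0)
    (k : ∀ e f, Q e = 0 → Q f = 0 → B e f = 1 → σ (C e f) = C e f ∧ ∀ y, B e y = 0 → B f y = 0 → C f y = 0) :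
    ∃ l, ∀ x y, C x y = l * B x y := by
  obtain ⟨e, -, e0, he⟩ := h.exists_sing3 (W := ⊤) (by simpa)
  obtain ⟨f, hf, ef⟩ := h.form.exists_partner h.sep he e0
  have fe := h.flip_one ef
  obtain ⟨k1, k2⟩ := k e f he hf ef
  obtain ⟨-, k3⟩ := k f e hf he fe
  have sB : ∀ x y, B y x = σ (B x y) := fun x y => by rw [h.symm, one_mul]
  have d : ∀ x, C x x = C e f * B x x := fun x => by
    obtain ⟨y, hy⟩ : ∃ y, y = x - B f x • e - B e x • f := ⟨_, rfl⟩
    have y1 : B e y = 0 := by simp [hy, ef, h.diag0 he]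
    have y2 : B f y = 0 := by simp [hy, fe, h.diag0 hf]
    obtain ⟨c, hc⟩ := h.exists_tau y
    have a := hz (e - c • f + y) (by
      rw [h.Q_add, sub_eq_add_neg, h.Q_add, he, ← neg_smul, h.sing_smul hf]; simp [ef, y1, y2, hc])
    have b := h.tr c
    rw [hc, ← h.form.diag] at b
    rw [show x = B f x • e + B e x • f + y by rw [hy]; abel]
    generalize B f x = α
    generalize B e x = β
    simp [hz e he, hz f hf, k2 y y1 y2, k3 y y2 y1, sy e y, sy f y, sy e f, k1, y1, y2, h.refl y1, h.refl y2,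
      h.diag0 he, h.diag0 hf, ef, fe] at a ⊢
    linear_combination a - C e f * b
  refine ⟨C e f, fun x y => ?_⟩
  by_contra c
  have := d (x + (s / (C x y - C e f * B x y)) • y)
  have c' := sub_ne_zero.2 c
  have c2 : σ (C x y) - C e f * σ (B x y) ≠ 0 := fun k => h.sigma_ne c' (by simp [k1, k])
  simp [d x, d y, sy x y, sB x y, k1] at this
  field_simp at this
  exact mul_ne_zero (mul_ne_zero hs c') c2 (by linear_combination this)

theorem max_of (h : Cl ε κ τ B Q) (hn : 4 ≤ finrank F V) {S : Subgroup (V ≃ₗ[F] V)} (h1 : S ≤ simG B)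
    (h2 : Isom B Q ≤ S) (k : ∀ M, h.Om ≤ M → ¬ SLv F V ≤ M → ∀ g ∈ M, g ∈ S) :
    IsMaximalIn (SLv F V) (S ⊓ SLv F V) := by
  refine isMaximalIn_inf (fun hc => ?_) fun M hHM _ g hg hgS => by_contra fun c =>
    hgS (k M ((le_inf (h.om_le_isom.trans h2) h.om_le_SLv).trans hHM) c g hg)
  obtain ⟨y, -, hy0⟩ := exists_ne_zero_of_finrank (W := (⊤ : Submodule F V)) (by simp; omega)
  obtain ⟨x, hx⟩ := h.exists_ne hy0
  have d1 := finrank_le_inf_ker ⊤ (B y)
  have d2 := finrank_span_pair_le (F := F) x y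
  rw [finrank_top] at d1
  obtain ⟨v, ⟨-, v1⟩, v2⟩ := exists_mem_notMem (W := ⊤ ⊓ LinearMap.ker (B y))
    (Z := Submodule.span F {x, y}) (by omega)
  obtain ⟨z, z1, z2⟩ := h.form.exists_perp_not h.sep v2
  obtain ⟨c, -, hc'⟩ := h1 (hc (dtv_mem_SLv (v := v) (φ := B y) v1))
  have := hc' x z
  rw [dtv_fix v (z1 y (Submodule.subset_span (by simp))), dtv_apply v1] at this
  simp [z1 x (Submodule.subset_span (by simp)), z2, h.sigma_ne hx] at this

theorem mem_simG (h : Cl 1 κ τ B Q) (hn : 4 ≤ finrank F V) (hq : NQ τ ∨ (2 : F) ≠ 0 ∧ Ns B)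
    (pr : ∀ C : V →ₛₗ[σ] V →ₗ[F] F, (∀ x y, C y x = σ (C x y)) → (∀ x, Q x = 0 → C x x = 0) →
      ∃ l, ∀ x y, C x y = l * B x y) {M : Subgroup (V ≃ₗ[F] V)} (hM : h.Om ≤ M) (hc : ¬ SLv F V ≤ M)
    {g : V ≃ₗ[F] V} (hg : g ∈ M) : g ∈ simG B := by
  have hM' := h.om_pull_le hM hg
  obtain ⟨B', Q', h', hM', hB⟩ : ∃ (B' : V →ₛₗ[σ] V →ₗ[F] F) (Q' : V → F) (h' : Cl 1 κ τ B' Q'), h'.Om ≤ M ∧
      ∀ x y, B' (g x) (g y) = B x y := ⟨_, _, _, hM', fun x y => by simp⟩
  choose L hL using fun u => h'.exists_B (B u)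
  have inj : ∀ {a b}, B' a = B' b → a = b := fun e =>
    sub_eq_zero.1 (h'.sep _ fun y => by rw [map_sub, e, sub_self]; rfl)
  let L' : V →ₗ[F] V := ⟨⟨L, fun a b => inj (by rw [map_add, hL, hL, hL, map_add])⟩,
    fun c a => inj (by simp only [RingHom.id_apply, map_smulₛₗ, hL])⟩
  obtain ⟨l, hl⟩ := pr (B.compl₂ L') (fun x y => by
      change B y (L x) = σ (B x (L y))
      rw [← hL y, ← hL x, h'.symm, one_mul]) fun u hu => by
    by_contra c
    exact hc (sl_of_nt h h' hn hq hM hM' (by rintro rfl; simp at c) hu (hL u) (by rw [hL]; exact c))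
  have e : ∀ y, L y = l • y := fun y => sub_eq_zero.1 (h.sep _ fun x => h.refl (by
    rw [map_sub, map_smul, smul_eq_mul, ← hl]; exact sub_self _))
  have e2 : ∀ x y, B (g x) (g y) = σ l * B x y := fun x y => by rw [← hL, e, ← hB]; simp
  obtain ⟨y, -, y0⟩ := exists_ne_zero_of_finrank (W := (⊤ : Submodule F V)) (by simp; omega)
  obtain ⟨x, hx⟩ := h.exists_ne y0
  refine ⟨_, fun c => hx ?_, e2⟩
  rw [← MX.app_inv g y, ← MX.app_inv g x, e2, c, zero_mul]

theorem max_herm (hH : IsHerm B) (h : Cl 1 1 (trHom σ) B fun x => B x x) (hn : 4 ≤ finrank F V) :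
    IsMaximalIn (SLv F V) (simG B ⊓ SLv F V) := by
  obtain ⟨s, hs⟩ := H11.exists_trace_eq hH.1 hH.2 (map_one σ)
  obtain ⟨c, c0, hc⟩ := IsHerm.nq hH
  refine max_of h hn le_rfl h.isom_le_simG fun M hM hc' g => mem_simG h hn (Or.inl ⟨c, c0, hc⟩)
    (fun C sy hz => prop_of h (by omega) (s := s) (by simp [hs]) sy hz fun e f he hf ef => ?_) hM hc'
  have sc : σ c = -c := by simpa [add_eq_zero_iff_eq_neg'] using hc
  have fe := h.flip_one ef
  have k : ∀ y d, B e y = 0 → B f y = 0 → d + σ d = B y y →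
      C y y + C e y + σ (C e y) - d * (C e f + σ (C f y)) - σ d * (σ (C e f) + C f y) = 0 := fun y d a b m => by
    have := hz (e - d • f + y) (by simp [he, hf, ef, fe, a, b, h.refl a, h.refl b]; linear_combination -m)
    simp [hz e he, hz f hf, sy e y, sy f y, sy e f] at this
    linear_combination this
  have k1 := k 0 c (by simp) (by simp) (by simp [sc])
  simp only [map_zero, LinearMap.zero_apply, sc] at k1
  refine ⟨mul_left_cancel₀ c0 (by linear_combination k1), fun y a b => ?_⟩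
  have k2 : ∀ y, B e y = 0 → B f y = 0 → σ (C f y) = C f y := fun y a b => by
    obtain ⟨d, hd⟩ := h.exists_tau y
    have k3 := k y d a b hd
    have k4 := k y (d + c) a b (by simp [sc]; linear_combination (id hd : d + σ d = B y y))
    simp only [map_add, sc] at k4
    exact mul_left_cancel₀ c0 (by linear_combination k3 - k4 + k1)
  obtain ⟨t, ht⟩ : ∃ t, σ t ≠ t := by
    by_contra k; push Not at k; exact hH.1 (RingHom.ext k)
  have := k2 (t • y) (by simp [a]) (by simp [b])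
  simp only [map_smul, smul_eq_mul, map_mul, k2 y a b] at this
  by_contra k; exact ht (mul_right_cancel₀ k this)

section
variable {B : V →ₗ[F] V →ₗ[F] F}

theorem max_quad (h : Cl (σ := RingHom.id F) 1 2 (AddMonoidHom.id F) B Q) (t2 : (2 : F) ≠ 0)
    (hn : 4 ≤ finrank F V) : IsMaximalIn (SLv F V) (simQ F Q ⊓ SLv F V) := by
  have hQ : IsQuad B Q := h.form
  have ns : Ns B := fun W a b => by
    obtain ⟨w, c, d⟩ := hQ.exists_nonsingular a (Submodule.one_le_finrank_iff.1 b)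
    exact ⟨w, c, by simp [hQ.diag', d, t2]⟩
  refine max_of h hn (simQ_le_simG hQ) (fun g hg => ⟨1, one_ne_zero, by simp [hg.2]⟩) fun M hM hc' g hg =>
    (mem_simG h hn (Or.inr ⟨t2, ns⟩) (fun C sy hz => prop_of h (by omega) (s := 1)
    (by simpa [one_add_one_eq_two]) sy hz fun e f he hf ef => ⟨rfl, ?_⟩) hM hc' hg).imp fun c hc =>
      ⟨hc.1, fun x => mul_left_cancel₀ t2 (by simpa [hQ.diag', mul_left_comm] using hc.2 x x)⟩
  simp only [RingHom.id_apply] at sy
  have k : ∀ y, B e y = 0 → B f y = 0 → C y y + 2 * C e y - 2 * Q y * (C e f + C f y) = 0 := fun y a b => by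
    have := hz (e - Q y • f + y) (by simp [hQ.add', hQ.sub', hQ.smul', he, hf, ef, a, b])
    simp [hz e he, hz f hf, sy e y, sy f y, sy e f] at this
    linear_combination this
  have k1 : ∀ y, B e y = 0 → B f y = 0 → C e y = Q y * C f y := fun y a b => by
    have k2 := k y a b
    have k3 := k (-y) (by simp [a]) (by simp [b])
    simp [show Q (-y) = Q y by simpa using hQ.smul' (-1) y] at k3
    exact mul_left_cancel₀ (mul_ne_zero t2 t2) (by linear_combination k2 - k3)
  have k2 : ∀ y z, B e y = 0 → B f y = 0 → B e z = 0 → B f z = 0 → B z y = 0 → B z z ≠ 0 → C f y = 0 :=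
    fun y z a b a' b' o q => by
    have k3 := k1 (z + y) (by simp [a, a']) (by simp [b, b'])
    have k4 := k1 (z - y) (by simp [a, a']) (by simp [b, b'])
    simp only [hQ.add', hQ.sub', o, map_add, map_sub, k1 y a b, k1 z a' b'] at k3 k4
    exact mul_left_cancel₀ q (by rw [hQ.diag']; linear_combination k4 - k3)
  have hP := h.form.nondegOn_perp h.sep (h.form.nondegOn_span_pair he hf (by simp [ef]))
  have d5 := h.form.finrank_perp h.sep (Submodule.span F {e, f})
  have d6 := finrank_span_pair_le (F := F) e f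
  obtain ⟨x, hx, qx⟩ := ns _ hP (by omega)
  obtain ⟨z, hz', qz⟩ := ns (perp B (Submodule.span F {e, f}) ⊓ LinearMap.ker (B x)) (fun v hv k => hP v hv.1
    fun w hw => by
      have := k (w - (B x w / B x x) • x) ⟨sub_mem hw (Submodule.smul_mem _ _ hx), by simp [qx]⟩
      simpa [h.refl hv.2] using this) (by
    have := finrank_le_inf_ker (perp B (Submodule.span F {e, f})) (B x); omega)
  simp only [Submodule.mem_inf, mem_perp_span, Set.mem_insert_iff, Set.mem_singleton_iff, forall_eq_or_imp,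
    forall_eq, LinearMap.mem_ker] at hx hz'
  intro y a b
  have := k2 (y - (B x y / B x x) • x) x (by simp [a, hx]) (by simp [b, hx]) hx.1 hx.2 (by simp [qx]) qx
  simpa [k2 x z hx.1 hx.2 hz'.1.1 hz'.1.2 (h.refl hz'.2) qz] using this

theorem max_alt (h : Cl (σ := RingHom.id F) (-1) 0 0 B fun _ => 0) (hn : 4 ≤ finrank F V) :
    IsMaximalIn (SLv F V) (simG B ⊓ SLv F V) := by
  refine max_of h hn le_rfl h.isom_le_simG fun M hM hc g hg => h.mem_simG_of (by omega) nq_zero fun v _ => ?_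
  have tv : ∀ v, dtv v (B v) ∈ M := fun v => by
    simpa [h.eich_eq_dtv] using hM (h.eich_mem_om (u := v) (w := 0) (c := -1) rfl (by simp) rfl)
  by_cases v0 : v = 0
  · exact ⟨0, by simp [v0]⟩
  have k := mul_mem (mul_mem hg (tv v)) (inv_mem hg)
  rw [conj_dtv] at k
  obtain ⟨a, ha⟩ := h.exists_B (B v ∘ₗ ((g⁻¹ : V ≃ₗ[F] V) : V →ₗ[F] V))
  have ha' : ∀ y, B a (g y) = B v y := fun y => by simp [ha]
  rw [← ha] at k
  by_cases hm : a ∈ Submodule.span F {g v}
  · obtain ⟨t, rfl⟩ := Submodule.mem_span_singleton.mp hm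
    exact ⟨t, fun y => by simp [← ha']⟩
  have aw : B a (g v) = 0 := by rw [ha', h.diag0 rfl]
  have w0 := MX.app_ne_zero g v0
  generalize g v = w at k hm aw w0
  have k1 : ∀ y, B y w = 0 → B y a ≠ 0 → dtv w (B y) ∈ M := fun y p q => by
    have t := hM (h.eich_mem_om (u := y) (w := 0) (c := (B y a)⁻¹) rfl (by simp) rfl)
    have := mul_mem (mul_mem (inv_mem t) k) (inv_mem (inv_mem t))
    rw [conj_dtv, MX.inv_eq_of (h.eich_fix _ p (by simp)), inv_inv] at this
    have := mul_mem this (inv_mem k)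
    rw [← dtv_neg aw, ← dtv_add (by simp [h.eich_fix _ p, aw]) (by simp [aw])] at this
    convert this using 2
    ext x; simp [h.eich_apply, h.symm y a]; field_simp
  refine absurd (SLv_le_of_full (fun S hS => h.irr_top (by omega) fun g hg => hS g (hM hg)) w0 fun φ hφ => ?_) hc
  obtain ⟨y, rfl⟩ := h.exists_B φ
  by_cases q : B y a = 0
  swap
  · exact k1 y hφ q
  obtain ⟨z, z1, z2⟩ := h.form.exists_perp_not h.sep hm
  have z3 := h.refl (z1 w (Submodule.mem_span_singleton_self _))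
  have z4 := h.refl_ne (z2.trans_ne one_ne_zero)
  have := mul_mem (k1 (y + z) (by simp [hφ, z3]) (by simpa [q])) (inv_mem (k1 z z3 z4))
  rwa [map_add, dtv_add hφ z3, mul_inv_cancel_right] at this

end

section
variable {F : Type*} [Field F] [Fintype F] {n : ℕ}

theorem sl_sp (hn : 4 ≤ n) (f : (Fin n → F) → (Fin n → F) → F) (hf : IsSymplecticForm f) :
    IsMaximalIn (specialLinear (Fin n) F) (similarityGroup f ⊓ specialLinear (Fin n) F) := by
  have h := clAlt (B := (bilinOf hf.bilinear).flip) (fun x => hf.alternating x)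
    fun v hv => by
      by_contra h0
      obtain ⟨x, hx⟩ := (hf.nondegenerate v h0).1
      first | exact hx (hv x) | exact hx (by rw [hf.skew]; simpa using hv x)
  exact isMaximalIn_gl mem_specialLinear_iff'
    (fun g _ => mem_similarityGroup_iff (f := f) (B := (bilinOf hf.bilinear).flip) (fun _ _ => rfl) g)
    (max_alt h (by simpa))

theorem sl_su (hn : 4 ≤ n) (σ : F ≃+* F) (f : (Fin n → F) → (Fin n → F) → F) (hf : IsUnitaryForm σ f) :
    IsMaximalIn (specialLinear (Fin n) F) (similarityGroup f ⊓ specialLinear (Fin n) F) := by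
  let B : (Fin n → F) →ₛₗ[(σ : F →+* F)] (Fin n → F) →ₗ[F] F :=
    LinearMap.mk₂'ₛₗ (σ : F →+* F) (RingHom.id F) (fun x y => f y x)
      (fun a b y => by rw [hf.herm y, hf.add_left, map_add, ← hf.herm, ← hf.herm])
      (fun c a y => by
        rw [hf.herm y, hf.smul_left, map_mul, ← hf.herm]; rfl)
      (fun a b y => hf.add_left _ _ _) (fun c a y => hf.smul_left _ _ _)
  have hH : IsHerm B := ⟨fun hc => hf.ne_refl (RingEquiv.ext fun a => congrArg (fun t : F →+* F => t a) hc),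
    hf.involutive, fun x y => (hf.herm x y).symm⟩
  have h := clHerm hH fun v hv => by
    by_contra h0
    obtain ⟨x, hx⟩ := (hf.nondegenerate v h0).1
    first | exact hx (hv x) | exact hx (by rw [hf.herm]; simpa using hv x)
  exact isMaximalIn_gl mem_specialLinear_iff'
    (fun g _ => mem_similarityGroup_iff (f := f) (B := B) (fun _ _ => rfl) g) (max_herm hH h (by simpa))

theorem sl_o (hn : 4 ≤ n) (hodd : Odd (Fintype.card F)) (Q : (Fin n → F) → F)
    (hQ : IsNondegenerateQuadraticForm Q) :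
    IsMaximalIn (specialLinear (Fin n) F) (quadSimilarityGroup Q ⊓ specialLinear (Fin n) F) :=
  isMaximalIn_gl mem_specialLinear_iff' (fun g _ => mem_quadSimilarityGroup_iff Q g)
    (max_quad (clO hQ) (two_ne_zero_of_odd_card hodd) (by simpa))

end

end Cfsg.Agent.H26.L4
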