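import Cfsg.Agent.H26.L4a
import Cfsg.Agent.H10.Ag4

/-!
Imprimitive subgroups of the four-dimensional special linear group.
-/

set_option autoImplicit false
set_option linter.unusedSectionVars false

namespace Cfsg.Agent.H26.L4

open Module H26 H26.MX

section
variable {F : Type*} [Field F] {W : Type*} [AddCommGroup W] [Module F W] [FiniteDimensional F W]
  {M : Subgroup ((Fin 2 → W) ≃ₗ[F] (Fin 2 → W))}

theorem tv2 (h : OvM M) (hm : 2 ≤ finrank F W) {d : F} (d0 : d ≠ 0) (d1 : d * d ≠ 1) {i j : Fin 2}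
    (hij : i ≠ j) {u : Fin 2 → W} (hu : u j ≠ 0) {φ : Dual F (Fin 2 → W)} (h0 : cp i φ ≠ 0)
    (h2 : ∀ c : F, Tv M u (c • φ)) : SLv F (Fin 2 → W) ≤ M := by
  by_cases a : cp i φ (u i) = 0
  swap
  · obtain ⟨z, χ, h3, h4⟩ := exists_dual_vec hm (u i)
    refine h.sl_le_of_axis hm hu (φ := pj i χ) (fun h5 => ?_) (by ext; simp [hij]) fun c => ?_
    · simpa [h3] using LinearMap.congr_fun h5 (Pi.single i z)
    · convert (h2 (c / cp i φ (u i))).comm (h.tv i h4) (by simpa) using 2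
      exact (div_mul_cancel₀ c a).symm
  by_cases b : cp j φ = 0
  · exact h.sl_le_of_axis hm hu (by rintro rfl; exact h0 (by ext; simp [cp])) b h2
  have dec : ∀ x, φ x = cp i φ (x i) + cp j φ (x j) := fun x => by
    conv_lhs => rw [← sum_pj_cp φ, ← Finset.sum_subset (Finset.subset_univ {i, j}) fun k _ hk => by
      simp only [Finset.mem_insert, Finset.mem_singleton] at hk; omega, Finset.sum_pair hij]
    rfl
  have a' : cp j φ (u j) = 0 := by simpa [dec u, a] using (h2 1).zero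
  obtain ⟨y, hy⟩ := exists_apply_eq_one h0
  obtain ⟨z, hz⟩ := exists_apply_eq_one b
  have h9 : 1 + pj i ((d - 1) • cp i φ) (Pi.single i y) = d := by simp [hy]
  obtain ⟨g, hg, c, h8, h10⟩ := h.exists_comp (mono_of_rank_one (ψ := (d - 1) • cp i φ)
    (H10.dtv_apply' (h9.trans_ne d0))) j hz
  rw [H10.det_dtv (h9.trans_ne d0), h9] at h8
  simp only [H10.dtv_apply' (h9.trans_ne d0)] at h10
  have d2 : d * d - 1 ≠ 0 := sub_ne_zero.2 d1
  refine h.sl_le_of_axis hm hu (φ := pj i (cp i φ)) (fun h5 => ?_) (by ext; simp [hij]) fun e => ?_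
  · simpa [hy] using LinearMap.congr_fun h5 (Pi.single i y)
  · convert ((h2 (e * d / (d * d - 1))).fix hg (by simp [h10, a, a', hij.symm])).sub (h2 (e / (d * d - 1))) using 1
    refine LinearMap.ext fun x => ?_
    simp only [LinearMap.sub_apply, dc_apply, LinearMap.smul_apply, h10]
    rw [dec, dec x]
    generalize cp i φ = α at *
    generalize cp j φ = β at *
    simp [hij, hij.symm, hy, hz]
    generalize hD : d * d - 1 = D at d2
    field_simp
    linear_combination (-(e * β (x j))) * h8 - e * α (x i) * hD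

theorem big2 (h : OvM M) (hm2 : 2 ≤ finrank F W) {d : F} (d0 : d ≠ 0) (d1 : d * d ≠ 1)
    {g : (Fin 2 → W) ≃ₗ[F] (Fin 2 → W)} (hg : g ∈ M) (hg' : ¬ Mono g) : SLv F (Fin 2 → W) ≤ M := by
  have : Nontrivial W := Module.nontrivial_of_finrank_pos (R := F) (by omega)
  obtain ⟨i, w, j, j', h1, h2, h3⟩ := exists_two_of_not_mono hg'
  obtain ⟨z, χ, h4, h5⟩ := exists_dual_vec hm2 w
  have h6 : ∀ c : F, Tv M (g (Pi.single i w)) (c • dc (pj i χ) g⁻¹) := fun c => by
    convert (h.tv i (ψ := c • χ) (w := w) (by simp [h5])).conj hg using 1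
    exact LinearMap.ext fun _ => rfl
  obtain ⟨k, hk⟩ := exists_cp_ne (dc_ne_zero (φ := pj i χ) (fun h7 => by
    simpa [h4] using LinearMap.congr_fun h7 (Pi.single i z)) g⁻¹)
  by_cases hkj : k = j
  · exact tv2 h hm2 d0 d1 (hkj.trans_ne h1) h3 hk h6
  · exact tv2 h hm2 d0 d1 hkj h2 hk h6

end

section
variable {F : Type*} [Field F] {T : Type} [Fintype T] [DecidableEq T]
  {M : Subgroup ((T → F) ≃ₗ[F] (T → F))}

theorem fix4 [Finite F] (h : OvM M) (hq : 5 ≤ Nat.card F) (hT : 4 ≤ Fintype.card T)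
    {g : (T → F) ≃ₗ[F] (T → F)} (hg : g ∈ M) {o a j j' : T} {c : F} (h1 : g (eb o) = c • eb o)
    (hj : j ≠ j') (h2 : g (eb a) j ≠ 0) (h3 : g (eb a) j' ≠ 0) : SLv F (T → F) ≤ M := by
  classical
  obtain ⟨θ, hθ⟩ := exists_not_mem_card (F := F) (n := 3) (by omega) {0, 1, -1} Finset.card_le_three
  simp only [Finset.mem_insert, Finset.mem_singleton, not_or] at hθ
  suffices ∃ k ψ, ψ ≠ 0 ∧ Tv M (eb k) ψ by
    obtain ⟨k, ψ, h4, h5⟩ := this
    exact h.sl_le_of_te (by omega) hθ.1 hθ.2.1 h4 h5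
  have hH : ∀ i, Hm (Lf M o) (eb i) (pb i) := fun i => ⟨by simp, fun ε hε => by
    obtain ⟨t, ht, h4⟩ := h.tor i.2 hε
    have h5 : 1 + ((ε - 1) • pb (F := F) i) (eb i) ≠ 0 := by simpa
    refine ⟨_, ⟨t, ht, fun x => ?_⟩, H10.dtv_apply' h5⟩
    ext k; simp [h4, H10.dtv_apply' h5, Pi.single_apply, Subtype.ext_iff, k.2]⟩
  by_cases hn : ET (Lf M o)
  · obtain ⟨a, b, d, hd, h4, g, hg, h5⟩ := hn
    have hab : b.1 ≠ a.1 := fun h => by simp [Subtype.ext h, hd] at h4
    replace h5 : ∀ x i, i ≠ o → g x i = x i + d * x b * eb (F := F) a.1 i := fun x i hi => by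
      simpa [Pi.single_apply, Subtype.ext_iff] using congrFun (h5 x) ⟨i, hi⟩
    have h6 : g (eb o) = g (eb o) o • eb o := by
      ext i; by_cases hi : i = o <;> simp [hi, h5, b.2]
    by_cases h7 : ∀ k, k ≠ o → g (eb k) o = 0
    · obtain ⟨t, ht, h8⟩ := h.tor a.2 hθ.1
      have h9 := apply_eq_of_supp (φ := pb o ∘ₗ (g : (T → F) →ₗ[F] (T → F))) h7
      refine ⟨a, ((θ - 1) * d) • pb b.1, fun h => ?_, Tv.of_mul (mul_mem ht hg) (mul_mem hg ht)
        (by simp [hab]) fun x => ?_⟩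
      · simpa [hd, sub_eq_zero, hθ.2.1] using LinearMap.congr_fun h (eb b.1)
      ext i
      simp only [LinearMap.comp_apply, LinearEquiv.coe_coe, LinearMap.proj_apply] at h9
      simp only [mul_app, h8 (g x), Pi.add_apply, Pi.smul_apply, LinearMap.smul_apply, LinearMap.proj_apply,
        h5 _ _ a.2, h5 _ _ b.2]
      by_cases hi : i = o
      · simp only [hi, h9 x, h9 (t x)]; simp [h8, a.2.symm]; ring
      · simp only [h5 _ _ hi]; simp [h8, hi, hab, b.2]; ring
    push Not at h7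
    obtain ⟨k, hk, h7⟩ := h7
    obtain ⟨l, hl⟩ := exists_not_mem_idx {o, a.1, b.1} Finset.card_le_three (by omega)
    simp only [Finset.mem_insert, Finset.mem_singleton, not_or] at hl
    obtain ⟨t, ht, h8⟩ := h.tor (Ne.symm hl.1) hθ.1
    refine ⟨o, te_of_res (mul_mem ht hg) (mul_mem hg ht) (fun x i hi => ?_) ?_ (c := θ * g (eb o) o) ?_
      (x := eb k) ?_⟩
    · simp only [mul_app, h8 (g x), Pi.add_apply, Pi.smul_apply, h5 _ _ hi, h5 _ _ hl.1]
      simp [h8, hi, b.2, hl.2.1, Ne.symm hl.2.2]; ring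
    · rw [mul_app, mul_app, h6, map_smul]; simp [h8, hl.1]; rw [h6]; simp; module
    · rw [mul_app]; simp [h8, hl.1]; rw [h6]; simp; module
    · by_cases hkl : l = k
      · subst hkl
        simp [h8, hk.symm, h7]
        grind
      · simp [h8, hk.symm, hkl, hl.1, Ne.symm hl.1, h7, sub_eq_zero, hθ.2.1]
  have hS : ∀ j k, pm F F (Equiv.swap j k) ∈ Lf M o := fun j k => by
    obtain ⟨s, hs, e, -, h4⟩ := h.comp (Equiv.swap j.1 k.1) (d := 1) o (by simp)
    exact ⟨s, hs, fun x => by ext i; simp [h4, i.2, Subtype.val_injective.map_swap]⟩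
  have hao : a ≠ o := by rintro rfl; simp_all [Pi.single_apply]
  obtain ⟨n, h4⟩ := exists_bar h1
  have h5 := (hH ⟨a, hao⟩).conj (φ' := dc (pb ⟨a, hao⟩) n⁻¹) ⟨g, hg, h4⟩ (by simp [← inv_app])
  rw [← res_eb, ← h4] at h5
  have h6 := fun i j => h5.single (i := i) (j := j) hq (by simp; omega) hH hS hn
  obtain ⟨b, hb, h7, h8⟩ : ∃ b, b ≠ o ∧ g (eb a) b ≠ 0 ∧ g (eb a) o ≠ 0 := by
    by_cases h7 : j = o
    · exact ⟨j', h7 ▸ hj.symm, h3, h7 ▸ h2⟩
    by_cases h8 : j' = o
    · exact ⟨j, h7, h2, h8 ▸ h3⟩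
    exact absurd (h6 ⟨j, h7⟩ ⟨j', h8⟩ (by simpa) h2) h3
  have h9 : ∀ i, i ≠ o → i ≠ b → g (eb a) i = 0 := fun i hi hib =>
    h6 ⟨b, hb⟩ ⟨i, hi⟩ (by simpa using hib.symm) h7
  have h10 := apply_eq_of_supp (b := ⟨b, hb⟩) fun i hi =>
    (h5.supp hH hθ.1 hθ.2.1 hn i).1 (h9 i i.2 fun h => hi (Subtype.ext h))
  have h11 : ∀ x, g x b = x a * g (eb a) b := fun x => by
    have h11 := h10 (res F o (g x))
    have h12 := h10 (res F o (g (eb a)))
    rw [h5.1] at h12
    rw [h4, dc_apply, inv_app, ← h4] at h11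
    simp only [res_apply, LinearMap.proj_apply] at h11 h12
    grind
  obtain ⟨t, ht, h12⟩ := h.tor hao hθ.1
  obtain ⟨t', ht', h13⟩ := h.tor hb hθ.1
  refine ⟨o, te_of_res (mul_mem ht' hg) (mul_mem hg ht) (fun x i hi => ?_) ?_ (c := θ⁻¹ * c) ?_
    (x := eb a) ?_⟩
  · by_cases hib : i = b <;> simp [h12, h13, h1, hi, hib, hb, h11 x, h9]
    ring
  · simp [h12, h13, h1, hao, hb]; module
  · simp [h12, h1, hao]; module
  · simp [h12, h13, h1, hao, hao.symm, hb.symm, h8]
    grind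

end

variable {F : Type*} [Field F]

local notation "T" => Fin 4

section np
variable {M : Subgroup ((Fin 4 → F) ≃ₗ[F] (Fin 4 → F))} [Finite F] (h : OvM M) (hq : 7 ≤ Nat.card F)
  (hn : ¬ SLv F (Fin 4 → F) ≤ M) {g : (Fin 4 → F) ≃ₗ[F] (Fin 4 → F)} (hg : g ∈ M)
include h hq hn hg

theorem np_S1 {k : T} (hk : S1 (g (eb k))) (a : T) : S1 (g (eb a)) := by
  by_contra ha
  obtain ⟨l, hl⟩ := hk
  obtain ⟨j, j', h1, h2, h3⟩ := exists_two_of_not_S1 k ha
  obtain ⟨s, hs, c, hc, h4⟩ := h.comp (Equiv.swap k l) (d := 1) k (by simp)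
  refine hn (fix4 h (by omega) (by simp) (mul_mem hs hg) (o := k) (a := a) (c := s (g (eb k)) k) ?_
    ((Equiv.swap k l).injective.ne h1) ?_ ?_)
  · ext i
    by_cases hi : i = k
    · simp [hi]
    · simp [h4, hi, hl _ ((Equiv.swap k l).injective.ne hi |>.trans_eq (Equiv.swap_apply_left k l))]
  all_goals simp only [mul_app, h4, Equiv.swap_apply_self]; split_ifs <;> simp [*]

theorem np_frame {t : (T → F) ≃ₗ[F] (T → F)} (ht : t ∈ M) {k : T} (hk : t (g (eb k)) = g (eb k))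
    (a : T) : (∃ c : F, t (g (eb a)) = c • g (eb a)) ∨ g⁻¹ (t (g (eb a))) a = 0 := by
  obtain ⟨b, hb⟩ := np_S1 h hq hn (mul_mem (inv_mem hg) (mul_mem ht hg)) (k := k)
    ⟨k, fun i hi => by rw [mul_app, mul_app, hk, inv_app]; exact Pi.single_eq_of_ne hi _⟩ a
  by_cases hab : a = b
  · subst hab
    refine Or.inl ⟨g⁻¹ (t (g (eb a))) a, ?_⟩
    rw [← map_smul, ← Pi.single_smul, smul_eq_mul, mul_one]
    exact (app_inv g _).symm.trans (congrArg g (eq_single_of hb))
  · exact Or.inr (hb a hab)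

theorem np_two {k i j a l : T} (hij : i ≠ j) (hi : g (eb k) i = 0) (hj : g (eb k) j = 0)
    (ha : g (eb a) i ≠ 0) (hli : l ≠ i) (hlj : l ≠ j) : g (eb a) l = 0 := by
  classical
  by_contra hl
  have key : ∀ θ : F, θ ≠ 0 → θ ≠ 1 → 1 + (θ - 1) * (g (eb a) i * g⁻¹ (eb i) a) +
      (θ⁻¹ - 1) * (g (eb a) j * g⁻¹ (eb j) a) = 0 := fun θ h0 h1 => by
    obtain ⟨t, ht, h2⟩ := h.tor hij h0
    rcases np_frame h hq hn hg ht (k := k) (by simp [h2, hi, hj]) a with ⟨c, hc⟩ | h3
    · have h3 := congrFun hc l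
      have h4 := congrFun hc i
      simp [h2, hli, hlj, hij] at h3 h4
      grind
    · simpa [h2, mul_assoc, ← inv_app] using h3
  obtain ⟨a, ha⟩ := exists_not_mem_card (F := F) (n := 2) (by omega) {0, 1} Finset.card_le_two
  obtain ⟨b, hb⟩ := exists_not_mem_card (F := F) (n := 3) (by omega) {0, 1, a} Finset.card_le_three
  obtain ⟨c, hc⟩ := exists_not_mem_card (F := F) (n := 4) (by omega) {0, 1, a, b} Finset.card_le_four
  simp only [Finset.mem_insert, Finset.mem_singleton, not_or] at ha hb hc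
  have := key a ha.1 ha.2
  have := key b hb.1 hb.2.1
  have := key c hc.1 hc.2.1
  grind


theorem np_line {t : (T → F) ≃ₗ[F] (T → F)} (ht : t ∈ M) {k : T} {c : F} (hk : t (g (eb k)) = c • g (eb k))
    (a : T) : ∃ (b : T) (c : F), t (g (eb a)) = c • g (eb b) := by
  obtain ⟨b, hb⟩ := np_S1 h hq hn (mul_mem (inv_mem hg) (mul_mem ht hg)) (k := k)
    ⟨k, fun i hi => by rw [mul_app, mul_app, hk, map_smul, inv_app]; simp [hi]⟩ a
  refine ⟨b, g⁻¹ (t (g (eb a))) b, ?_⟩
  rw [← map_smul, ← Pi.single_smul, smul_eq_mul, mul_one]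
  exact (app_inv g _).symm.trans (congrArg g (eq_single_of hb))

variable (hS : ∀ a, ¬ S1 (g (eb a)))
include hS

theorem np_inv (i : T) : ¬ S1 (g⁻¹ (eb i)) := fun ⟨b, hb⟩ => hS b ⟨i, fun l hl => by
  have hu := app_inv g (eb i)
  rw [eq_single_of hb, ← mul_one (g⁻¹ (eb i) b), ← smul_eq_mul, Pi.single_smul, map_smul] at hu
  have h5 : g⁻¹ (eb i) b ≠ 0 := fun h => by simpa [h] using congrFun hu i
  simpa [hl, h5, -LinearEquiv.coe_inv] using congrFun hu l⟩

theorem np_zero {k i j : T} (hij : i ≠ j) (hi : g (eb k) i = 0) : g (eb k) j ≠ 0 := fun hj => by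
  classical
  obtain ⟨a, ha⟩ := exists_col g i
  have h1 := fun l => np_two h hq hn hg (l := l) hij hi hj ha
  have h2 : g (eb a) j ≠ 0 := fun c => hS a ⟨i, fun l hl => if e : l = j then e ▸ c else h1 l hl e⟩
  have h3 : g (eb a) i * g⁻¹ (eb i) a + g (eb a) j * g⁻¹ (eb j) a = 1 := by
    have : g (eb a) = g (eb a) i • eb i + g (eb a) j • eb j := by
      ext l
      by_cases e : l = i
      · simp [e, hij]
      by_cases e' : l = j
      · simp [e', hij.symm]
      simp [e, e', h1 l e e']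
    simpa using (congrArg (fun v => g⁻¹ v a) this).symm
  have key : ∀ θ : F, θ ≠ 0 → θ * θ ≠ 1 → 1 + (θ - 1) * (g (eb a) i * g⁻¹ (eb i) a) +
      (θ⁻¹ - 1) * (g (eb a) j * g⁻¹ (eb j) a) = 0 := fun θ h0 h1 => by
    obtain ⟨t, ht, h2⟩ := h.tor hij h0
    rcases np_frame h hq hn hg ht (k := k) (by simp [h2, hi, hj]) a with ⟨c, hc⟩ | h3
    · have h3 := congrFun hc j
      have h4 := congrFun hc i
      simp [h2, hij, hij.symm] at h3 h4
      grind
    · simpa [h2, mul_assoc, ← inv_app] using h3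
  obtain ⟨a, ha⟩ := exists_not_mem_card (F := F) (n := 3) (by omega) {0, 1, -1} Finset.card_le_three
  obtain ⟨b, hb⟩ := exists_not_mem_card (F := F) (n := 5) (by omega) {0, 1, -1, a, -a} Finset.card_le_five
  simp only [Finset.mem_insert, Finset.mem_singleton, not_or] at ha hb
  have := key a ha.1 (by grind)
  have := key b hb.1 (by grind)
  grind

theorem np_full (k i : T) : g (eb k) i ≠ 0 := fun hi => by
  classical
  obtain ⟨s, s0, s1⟩ : ∃ s : F, s ≠ 0 ∧ s ^ 4 ≠ 1 := by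
    obtain ⟨s, hs⟩ := exists_not_mem_card (F := F) (n := 5) (by omega)
      (insert 0 (Polynomial.nthRootsFinset 4 1)) ((Finset.card_insert_le _ _).trans (by
        have := (Multiset.toFinset_card_le _).trans (Polynomial.card_nthRoots 4 (1 : F))
        rw [Polynomial.nthRootsFinset_def]; omega))
    exact ⟨s, by simpa [Polynomial.mem_nthRootsFinset] using hs⟩
  obtain ⟨t, ht, h4⟩ := h.mono 1 (d := fun j => if j = i then s⁻¹ ^ 3 else s) (fun j => by
    split_ifs <;> simp [s0]) (by fin_cases i <;> simp [Fin.prod_univ_four] <;> field_simp)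
  obtain ⟨a, ha⟩ := exists_col g i
  obtain ⟨b, c, hb⟩ := np_line h hq hn hg ht (k := k) (c := s) (by
    ext j; by_cases e : j = i <;> simp [h4, e, hi]) a
  have s2 : s⁻¹ ^ 3 - s ≠ 0 := fun e => s1 (by field_simp at e; linear_combination -e)
  have e1 : ((s⁻¹ ^ 3 - s) * g (eb a) i) • g⁻¹ (eb i) = c • eb b - s • eb a := by
    rw [← map_smul, eq_comm, ← LinearEquiv.symm_apply_eq]
    change g _ = _
    rw [map_sub, map_smul, map_smul, ← hb]
    ext j; by_cases e : j = i <;> simp [h4, e, sub_mul]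
  obtain ⟨l, hl⟩ := exists_not_mem_idx {a, b} Finset.card_le_two (by simp)
  obtain ⟨l', hl'⟩ := exists_not_mem_idx {a, b, l} Finset.card_le_three (by simp)
  simp only [Finset.mem_insert, Finset.mem_singleton, not_or] at hl hl'
  exact np_zero h hq hn (inv_mem hg) (np_inv h hq hn hg hS) (k := i) hl'.2.2
    (by simpa [s2, ha, hl', -inv_pow] using congrFun e1 l') (by simpa [s2, ha, hl, -inv_pow] using congrFun e1 l)

end np

theorem one4 {M : Subgroup ((Fin 4 → F) ≃ₗ[F] (Fin 4 → F))} [Finite F] (h : OvM M) (hq : 7 ≤ Nat.card F)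
    {g : (T → F) ≃ₗ[F] (T → F)} (hg : g ∈ M) (hg' : ¬ Mono g) : SLv F (T → F) ≤ M := by
  classical
  by_contra hn
  have hS : ∀ a, ¬ S1 (g (eb a)) := fun a ha => hg' fun b =>
    (np_S1 h hq hn hg ha b).imp fun j hj w k hk => by
      rw [← mul_one w, ← smul_eq_mul, Pi.single_smul, map_smul, Pi.smul_apply, hj k hk, smul_zero]
  have hx := np_full h hq hn hg hS 0
  obtain ⟨α, hα⟩ : ∃ α : Dual F (T → F), ∀ x, α x = g⁻¹ x 0 := ⟨dc (pb 0) g⁻¹, fun _ => rfl⟩
  have key : ∀ σ : Equiv.Perm T, Equiv.Perm.sign σ = 1 → ∀ j,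
      g (eb 0) (σ j) * α (eb (σ j)) = g (eb 0) j * α (eb j) := fun σ h2 j => by
    obtain ⟨t, ht, h4⟩ := h.mono σ (d := fun j => g (eb 0) j / g (eb 0) (σ j))
      (fun j => div_ne_zero (hx _) (hx _)) (by
        rw [Finset.prod_div_distrib, Equiv.prod_comp σ (g (eb 0)), h2,
          div_self (Finset.prod_ne_zero_iff.2 fun j _ => hx j)]; simp)
    have hk : t (g (eb 0)) = g (eb 0) := by ext j; simp [h4, hx]
    have e : α ∘ₗ (t * g : (T → F) ≃ₗ[F] (T → F)) = α ∘ₗ (g : (T → F) →ₗ[F] (T → F)) := by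
      ext a
      obtain ⟨b, c, hb⟩ := np_line h hq hn hg ht (k := 0) (c := 1) (by simpa) a
      by_cases e : a = 0
      · simp [e, mul_app, hk]
      have : b ≠ 0 := by
        rintro rfl
        rw [← hk, ← map_smul, ← map_smul] at hb
        simpa [e] using congrFun (g.injective (t.injective hb)) a
      simp [mul_app, hb, hα, e, this, Ne.symm e, Ne.symm this]
    have := LinearMap.congr_fun e (g⁻¹ (eb (σ j)))
    simp only [LinearMap.comp_apply, LinearEquiv.coe_coe, mul_app, app_inv] at this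
    rw [← this, show t (eb (σ j)) = (g (eb 0) j / g (eb 0) (σ j)) • eb j by
      ext l; by_cases e : l = j <;> simp [h4, e], map_smul, smul_eq_mul]
    field_simp [hx]
  have k1 := key (Equiv.swap 0 1 * Equiv.swap 2 3) (by decide)
  obtain ⟨u, hu⟩ : ∃ u, u = g⁻¹ (g (eb 0) 0 • eb 0 - g (eb 0) 1 • eb 1) := ⟨_, rfl⟩
  obtain ⟨v, hv⟩ : ∃ v, v = g⁻¹ (g (eb 0) 2 • eb 2 - g (eb 0) 3 • eb 3) := ⟨_, rfl⟩
  have s1 : ∀ θ : F, θ ≠ 0 → S1 ((θ * θ) • u + v) := fun θ h0 => by
    obtain ⟨t, ht, h4⟩ := h.mono 1 (d := ![θ, -θ, θ⁻¹, -θ⁻¹]) (fun j => by fin_cases j <;> simp [h0])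
      (by simp [Fin.prod_univ_four]; field_simp)
    have e : (θ * θ) • u + v = θ • (g⁻¹ * t * g) (eb 0) := by
      rw [hu, hv, mul_app, mul_app, ← map_smul, ← map_smul, ← map_add]
      congr 1
      ext l; fin_cases l <;> simp [h4, h0, mul_assoc]
    have m := mul_mem (mul_mem (inv_mem hg) ht) hg
    by_contra c
    refine np_full h hq hn m (fun a ha => c ((np_S1 h hq hn m ha 0).imp fun b hb i hi => by
      rw [e, Pi.smul_apply, hb i hi, smul_zero])) 0 0 (mul_left_cancel₀ h0 ?_)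
    have a1 := k1 0
    have a2 := k1 2
    simp [Equiv.swap_apply_def] at a1 a2
    rw [← smul_eq_mul, ← Pi.smul_apply, ← e]
    simp [hu, hv, hα] at a1 a2 ⊢
    simp [a1, a2]
  obtain ⟨a, ha⟩ := exists_not_mem_card (F := F) (n := 3) (by omega) {0, 1, -1} Finset.card_le_three
  obtain ⟨b, hb⟩ := exists_not_mem_card (F := F) (n := 5) (by omega) {0, 1, -1, a, -a} Finset.card_le_five
  simp only [Finset.mem_insert, Finset.mem_singleton, not_or] at ha hb
  have li : ∀ x y : F, x • u + y • v = 0 → x = 0 ∧ y = 0 := fun x y e => by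
    have := congrArg g e
    rw [hu, hv] at this
    simpa [hx] using And.intro (congrFun this 0) (congrFun this 2)
  obtain ⟨i, hi⟩ := s1 1 one_ne_zero
  obtain ⟨j, hj⟩ := s1 a ha.1
  obtain ⟨l, hl⟩ := s1 b hb.1
  have two : ∀ (x y : F) i, x ≠ y → (∀ k, k ≠ i → (x • u + v) k = 0) → ¬ ∀ k, k ≠ i → (y • u + v) k = 0 :=
    fun x y i hxy p q => by
    have := li (v i * 0 + v i) (-u i) (funext fun k => by
      by_cases e : k = i
      · simp [e, mul_comm]
      have := p k e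
      have := q k e
      simp at *; grind)
    have := li 1 0 (funext fun k => by
      by_cases e : k = i
      · simpa [e] using this.2
      have := p k e
      have := q k e
      simp at *; grind)
    simp at this
  have ij : i ≠ j := by rintro rfl; exact two _ _ _ (by grind) hi hj
  have il : i ≠ l := by rintro rfl; exact two _ _ _ (by grind) hi hl
  have jl : j ≠ l := by rintro rfl; exact two _ _ _ (by grind) hj hl
  refine two _ _ i (show 1 * 1 ≠ a * a by grind) hi fun k hk => ?_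
  by_cases e : k = j
  · have := hi k hk
    have := hl k (e ▸ jl)
    simp at *; grind
  · exact hj k e

open Cfsg.Geo Matrix

theorem dec4 [Fintype F] {D : Fin 4 → Submodule F (Fin 4 → F)} (hD : IsMDecomposition 1 D)
    (h1 : 7 ≤ Fintype.card F) :
    IsMaximalIn (specialLinear (Fin 4) F) (decompositionStabilizer D ⊓ specialLinear (Fin 4) F) :=
  dec_max_of hD F (by simp) (sl_not_le_decompositionStabilizer hD) fun M hM g => one4 hM
    (by rwa [Nat.card_eq_fintype_card])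

theorem dec2 [Fintype F] {D : Fin 2 → Submodule F (Fin 4 → F)} (hD : IsMDecomposition 2 D)
    (h1 : 4 ≤ Fintype.card F) :
    IsMaximalIn (specialLinear (Fin 4) F) (decompositionStabilizer D ⊓ specialLinear (Fin 4) F) := by
  classical
  obtain ⟨a, ha⟩ := exists_not_mem_card (F := F) (n := 3) (by rw [Nat.card_eq_fintype_card]; omega) {0, 1, -1}
    Finset.card_le_three
  simp only [Finset.mem_insert, Finset.mem_singleton, not_or] at ha
  exact dec_max_of hD (Fin 2 → F) (by simp) (sl_not_le_decompositionStabilizer hD) fun M hM g =>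
    big2 hM (by simp) ha.1 (by grind)

end Cfsg.Agent.H26.L4
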