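import Cfsg.Agent.H26.S4b

/-!
Orthogonal frames in dimension six over prime fields.
-/

set_option autoImplicit false
set_option linter.unusedSectionVars false

namespace Cfsg.Agent.H26.L4

open Module H10 H11 H11.Im Cfsg.Geo

variable {F : Type*} [Field F] {V : Type*} [AddCommGroup V] [Module F V] [FiniteDimensional F V]
  {t : ℕ} {D : Fin t → Submodule F V} {p : Fin t → V →ₗ[F] V}
  {B : V →ₗ[F] V →ₗ[F] F} {Q : V → F} [Fintype F]
  {h : Cl (σ := RingHom.id F) 1 2 (AddMonoidHom.id F) B Q} (d : Dec B Q D p)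
  (h1 : ∀ i, finrank F (D i) ≤ 1) {e : Fin t → V} (he : ∀ i, e i ∈ D i)
  {c : F} (c0 : c ≠ 0) (ec : ∀ i, Q (e i) = c) (t2 : (2 : F) ≠ 0)
  (hn : 5 ≤ finrank F V) {N : Subgroup (V ≃ₗ[F] V)} (hO : Ov h D N) (hN : N ≤ Isom B Q)
  (re : ∀ i, r h (e i) ∈ N)
include h d h1 he c0 ec t2 hn hO

section
include hN re

theorem four6 (n3 : ∀ a, Lam h N a → (sp B e a).card ≠ 3) (n5 : ∀ a, Lam h N a → (sp B e a).card ≤ 4)
    {a : V} (ha : Lam h N a) {i j l o m : Fin t} (hij : i ≠ j) (hil : i ≠ l) (hio : i ≠ o) (hjl : j ≠ l)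
    (hjo : j ≠ o) (hlo : l ≠ o) (hs : sp B e a = {i, j, l, o}) (am : m ∉ sp B e a) :
    B (e l) a ^ 2 = -(2 * c * Q a) := by
  have hQ : IsQuad B Q := h.form
  have ee := Bee (h := h) d h1 he c0 ec t2
  have qa := ha.1
  have ai : B (e i) a ≠ 0 := mem_sp.mp (by simp [hs])
  have aj : B (e j) a ≠ 0 := mem_sp.mp (by simp [hs])
  have al : B (e l) a ≠ 0 := mem_sp.mp (by simp [hs])
  have ao : B (e o) a ≠ 0 := mem_sp.mp (by simp [hs])
  have am' : B (e m) a = 0 := by simpa [mem_sp] using am
  simp only [hs, Finset.mem_insert, Finset.mem_singleton, not_or] at am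
  obtain ⟨mi, mj, ml, mo⟩ := am
  have out : ∀ n, n ≠ i → n ≠ j → n ≠ l → n ≠ o → B (e n) a = 0 := fun n a b c d => by
    by_contra k
    simpa [hs, a, b, c, d] using mem_sp.mpr k
  obtain ⟨μ, hμ⟩ : ∃ μ, μ = B (e l) a ^ 2 / (2 * c * Q a) := ⟨_, rfl⟩
  have m0 : μ ≠ 0 := by simp [hμ, al, t2, c0, qa]
  have m1 : μ ≠ 1 := fun k => n3 _ ((lam_r h (show Q (e l) ≠ 0 by rwa [ec]) (re l)).map hN (ha.2 (Q a)⁻¹)) (by
    have k' : 2 * c - (Q a)⁻¹ * B (e l) a * B (e l) a = 0 := by
      rw [hμ] at k; field_simp at k ⊢; linear_combination -k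
    rw [show sp B e (r h a (e l)) = {i, j, o} from Finset.ext fun n => by
      by_cases c : n = i ∨ n = j ∨ n = l ∨ n = o
      · rcases c with rfl | rfl | rfl | rfl <;>
        simp [mem_sp, r_apply, ee, hQ.comm a, *, hil.symm, hjl.symm, hlo.symm]
      · push Not at c
        simp [mem_sp, r_apply, ee, out n c.1 c.2.1 c.2.2.1 c.2.2.2, c]]
    exact Finset.card_eq_three.mpr ⟨i, j, o, hij, hio, hjo, rfl⟩)
  obtain ⟨k, hk, k1⟩ := S4.dbl d h1 he c0 ec t2 hn hO hij (Ne.symm mo)
  have k2 : ∀ n, B (e (Equiv.swap o m (Equiv.swap i j n))) (k a) = B (e n) a := fun n => by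
    rw [← k1, (hN hk).1]
  have bi := k2 j
  have bj := k2 i
  have bl := k2 l
  have bo := k2 m
  have bm := k2 o
  simp only [Equiv.swap_apply_left, Equiv.swap_apply_right, Equiv.swap_apply_of_ne_of_ne hio (Ne.symm mi),
    Equiv.swap_apply_of_ne_of_ne hjo (Ne.symm mj), Equiv.swap_apply_of_ne_of_ne hlo (Ne.symm ml),
    Equiv.swap_apply_of_ne_of_ne hil.symm hjl.symm, Equiv.swap_apply_of_ne_of_ne hio.symm hjo.symm,
    Equiv.swap_apply_of_ne_of_ne mi mj] at bi bj bl bo bm
  have main : ∀ b, Lam h N b → B (e i) a * B (e i) b + B (e j) a * B (e j) b = 0 → B (e l) b = B (e l) a →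
      B (e o) b = 0 → B (e m) b ≠ 0 → B (e i) b = μ * B (e i) a ∨ B (e j) b = μ * B (e j) a :=
    fun b hb x1 x2 x3 x4 => by
    have y : (Q a)⁻¹ * B a b = μ := by
      have := Bs (h := h) d h1 he c0 ec t2 a b
      rw [← Finset.sum_subset (Finset.subset_univ (sp B e a)) fun n _ hn => by simp_all [mem_sp], hs,
        Finset.sum_insert (by simp [hij, hil, hio]), Finset.sum_insert (by simp [hjl, hjo]),
        Finset.sum_pair hlo, x2, x3] at this
      rw [hμ]; field_simp; linear_combination this + x1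
    by_contra k
    push Not at k
    have := n5 _ (hb.map hN (ha.2 (Q a)⁻¹))
    replace this := (Finset.card_le_card (show ({i, j, l, o, m} : Finset _) ⊆ sp B e (r h a b) from fun n this => by
      simp only [Finset.mem_insert, Finset.mem_singleton] at this
      rw [mem_sp, r_apply, y, map_sub, map_smul, smul_eq_mul]
      rcases this with rfl | rfl | rfl | rfl | rfl
      · exact sub_ne_zero.mpr k.1
      · exact sub_ne_zero.mpr k.2
      · rw [x2, ← one_sub_mul]; exact mul_ne_zero (sub_ne_zero.mpr m1.symm) al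
      · simp [x3, m0, ao]
      · simpa [am'] using x4)).trans this
    rw [Finset.card_insert_of_notMem (by simp [hij, hil, hio, Ne.symm mi]),
      Finset.card_insert_of_notMem (by simp [hjl, hjo, Ne.symm mj]),
      Finset.card_insert_of_notMem (by simp [hlo, Ne.symm ml]), Finset.card_pair (Ne.symm mo)] at this
    omega
  have z : ∀ n s, B (e n) (r h (e s) (k a)) = if n = s then -B (e n) (k a) else B (e n) (k a) := fun n s => by
    rw [r_apply, map_sub, map_smul, ee, ec]
    split_ifs with q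
    · subst q; simp; field_simp; ring
    · simp
  have w1 := main _ ((ha.map hN hk).map hN (re i)) (by simp [z, hij.symm, bi, bj]; ring)
    (by simp [z, hil.symm, bl]) (by simp [z, hio.symm, bo, am']) (by simp [z, mi, bm, ao])
  have w2 := main _ ((ha.map hN hk).map hN (re j)) (by simp [z, hij, bi, bj]; ring)
    (by simp [z, hjl.symm, bl]) (by simp [z, hjo.symm, bo, am']) (by simp [z, mj, bm, ao])
  simp only [z, if_true, if_neg hij, if_neg hij.symm, bi, bj] at w1 w2
  have m2 : μ * μ = 1 := by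
    rcases w1 with w1 | w1 <;> rcases w2 with w2 | w2
    · exact absurd (mul_left_cancel₀ t2 (by linear_combination w2 - w1)) aj
    · exact mul_right_cancel₀ ai (by linear_combination w2 - μ * w1)
    · exact mul_right_cancel₀ ai (by linear_combination -(μ * w2) - w1)
    · exact absurd (mul_left_cancel₀ t2 (by linear_combination w1 - w2)) ai
  have := (mul_self_eq_one_iff.mp m2).resolve_left m1
  rw [hμ] at this
  field_simp at this
  linear_combination this

theorem rt_frame6 (hp : (Fintype.card F).Prime) (ht : t = 6) {x : V ≃ₗ[F] V} (hx : x ∈ N)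
    (hx' : x ∉ dstab D) : h.Om ≤ N := by
  classical
  have hQ : IsQuad B Q := h.form
  have q0 : ∀ i, Q (e i) ≠ 0 := fun i => by rwa [ec]
  have z := pz (h := h) d h1 he c0 ec t2
  obtain ⟨-, -, -, ⟨j, rfl⟩, out⟩ := exists_out d (P := fun v => ∃ j, e j = v) (fun i => ⟨⟨_, he i,
    ne_zero_of_Q h (q0 i), i, rfl⟩, fun X a b c => absurd (Submodule.eq_of_le_of_finrank_le a
      ((h1 i).trans (Submodule.one_le_finrank_iff.mpr b))) c⟩) (hN hx) hx'
  have h2 := two_le_sp (h := h) d h1 he c0 ec t2 out (by omega)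
  have ha := (lam_r h (q0 j) (re j)).map hN hx
  have qa : Q (x (e j)) = c := by rw [(hN hx).2, ec]
  by_cases c3 : Fintype.card F = 3
  · have t3 : (3 : F) = 0 := by simpa [c3] using FiniteField.cast_card_eq_zero F
    generalize x (e j) = a at h2 ha qa
    have q1 : ∀ i ∈ sp B e a, Q (p i a) = c := fun i hi => by
      have := FiniteField.pow_card_sub_one_eq_one _ (div_ne_zero (mem_sp.mp hi) (mul_ne_zero t2 c0))
      rw [c3] at this
      rw [pe (h := h) d h1 he c0 ec t2, IsQuad.smul' h.form, ec, ← sq, this, one_mul]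
    have q2 := Q_sum h d a
    rw [← Finset.sum_subset (Finset.subset_univ (sp B e a)) fun i _ hi => by
      rw [(z i a).mpr (by simpa [mem_sp] using hi), h.Q_zero], Finset.sum_congr rfl q1,
      Finset.sum_const, nsmul_eq_mul, qa, eq_comm, mul_eq_right₀ c0] at q2
    have h4 : 4 ≤ (sp B e a).card := by
      by_contra k
      rcases (show (sp B e a).card = 2 ∨ (sp B e a).card = 3 by omega) with k | k <;> rw [k] at q2
      · exact t2 (by push_cast at q2; linear_combination t3 - q2)
      · exact t2 (by push_cast at q2; linear_combination q2)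
    obtain ⟨S, s1, s2⟩ := Finset.exists_subset_card_eq h4
    obtain ⟨i, j, l, o, hij, hil, hio, hjl, hjo, hlo, rfl⟩ := Finset.card_eq_four.mp s2
    simp only [Finset.insert_subset_iff, Finset.singleton_subset_iff] at s1
    have he' : ∀ m, (if m ∈ sp B e a then p m a else e m) ∈ D m := fun m => by
      split_ifs; exacts [d.mem m a, he m]
    have ec' : ∀ m, Q (if m ∈ sp B e a then p m a else e m) = c := fun m => by
      split_ifs with k; exacts [q1 m k, ec m]
    exact rt_three d h1 he' c0 ec' t2 hn hO hN (fun m => by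
      convert re m using 1
      ext v; rw [r_line d h1 he' c0 ec' t2, r_line d h1 he c0 ec t2]) hp t3 (by omega) ha
      hij hil hio hjl hjo hlo (by simp [s1]) (by simp [s1]) (by simp [s1])
      (mt (z o a).mp (mem_sp.mp s1.2.2.2))
  have : Fact (Fintype.card F).Prime := ⟨hp⟩
  have : CharP F (Fintype.card F) := charP_of_card_eq_prime rfl
  have h4 : 4 ≤ Fintype.card F := by
    have := hp.two_le
    have : Fintype.card F ≠ 2 := fun k => t2 (by simpa [k] using FiniteField.cast_card_eq_zero F)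
    omega
  have t3 : (3 : F) ≠ 0 := fun k => by
    have := Nat.le_of_dvd (by omega) ((CharP.cast_eq_zero_iff F (Fintype.card F) 3).mp (by simpa))
    omega
  refine stepC d h1 he c0 ec t2 hN re hp h4 ?_ fun i j => ?_
  · by_contra hE
    have bd := fun a => bound4 d h1 he c0 ec t2 hN re hp t3 hE (a := a)
    have sq : ∀ a (s : F), (∀ i ∈ sp B e a, B (e i) a ^ 2 = s * (2 * c * Q a)) → Q a ≠ 0 →
        (sp B e a).card * s = 2 := fun a s k qa => by
      have := Bs (h := h) d h1 he c0 ec t2 a a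
      rw [← Finset.sum_subset (Finset.subset_univ (sp B e a)) fun i _ hi => by
        simp_all [mem_sp], Finset.sum_congr rfl fun i hi => (sq _).symm.trans (k i hi),
        Finset.sum_const, nsmul_eq_mul, hQ.diag'] at this
      exact mul_right_cancel₀ (mul_ne_zero (mul_ne_zero t2 c0) qa) (by linear_combination -this)
    have n3 : ∀ a, Lam h N a → (sp B e a).card ≠ 3 := fun a ha k => by
      obtain ⟨i, hi, i1⟩ : ∃ i ∈ sp B e a, B (e i) a ^ 2 ≠ 2 * c * Q a := by
        by_contra k'
        push Not at k'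
        have := sq a 1 (by simpa using k') ha.1
        rw [k] at this
        exact one_ne_zero (by push_cast at this; linear_combination this : (1 : F) = 0)
      obtain ⟨b, hb, S, s1, s2, s3, s4⟩ := overlap d h1 he c0 ec t2 hn hO hN ha hi (by omega) (by omega)
      have := Finset.card_le_card (Finset.insert_subset (s4 i1) s1)
      rw [Finset.card_insert_of_notMem s2] at this
      have := bd b hb
      omega
    obtain ⟨a, ha, a3⟩ := three d h1 he c0 ec t2 hn hO hN re (by omega) hx h2
    have a4 : (sp B e a).card = 4 := by have := bd a ha; have := n3 a ha; omega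
    obtain ⟨m, -, hm⟩ := Finset.exists_mem_notMem_of_card_lt_card (s := sp B e a) (t := Finset.univ)
      (by simp; omega)
    have := sq a (-1) (fun l hl => by
      obtain ⟨i, j, o, hij, hio, hjo, k⟩ := Finset.card_eq_three.mp
        (show ((sp B e a).erase l).card = 3 by rw [Finset.card_erase_of_mem hl, a4])
      have n : ∀ s ∈ ({i, j, o} : Finset _), s ≠ l := fun s hs => (Finset.mem_erase.mp (k ▸ hs)).1
      rw [four6 d h1 he c0 ec t2 hn hO hN re n3 bd ha hij (n i (by simp)) hio (n j (by simp)) hjo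
        (n o (by simp)).symm (by
          rw [← Finset.insert_erase hl, k]; ext; simp; tauto) hm, neg_one_mul]) ha.1
    rw [a4] at this
    exact mul_ne_zero t2 t3 (by push_cast at this; linear_combination -this)
  by_cases hij : i = j
  · exact ⟨_, lam_r h (q0 j) (re j), by simp [hij, d.self j _ (he j), ne_zero_of_Q h (q0 j)]⟩
  obtain ⟨i', hi, j', hj, hij'⟩ := Finset.one_lt_card.mp h2
  obtain ⟨k, hk, -, π, k1, k2⟩ := frame_perm d h1 he c0 ec t2 hn hO
    (Equiv.swap (Equiv.swap i' i j') j * Equiv.swap i' i) {i', j'}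
    ((Nat.add_le_add_right Finset.card_le_two _).trans (by omega))
  have k3 : π i' = i := by
    rw [k2 i' (by simp), Equiv.Perm.mul_apply, Equiv.swap_apply_left, Equiv.swap_apply_of_ne_of_ne _ hij]
    rwa [Ne, eq_comm, Equiv.swap_apply_eq_iff, Equiv.swap_apply_right, eq_comm]
  have k4 : π j' = j := by rw [k2 j' (by simp), Equiv.Perm.mul_apply, Equiv.swap_apply_left]
  exact ⟨_, ha.map hN hk, by rw [Ne, z, ← k3, ← k1, (hN hk).1]; exact mem_sp.mp hi,
    by rw [Ne, z, ← k4, ← k1, (hN hk).1]; exact mem_sp.mp hj⟩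

end

variable (hp : (Fintype.card F).Prime) (ht : t = 6) (hM : N ≤ h.Om) (hc : ¬ h.Om ≤ N)
include hp ht hM hc

theorem star6 {x : V ≃ₗ[F] V} (hx : x ∈ N) {j l : Fin t} (hl : x (e j) ∈ D l) : x ∈ dstab D := by
  have q0 : ∀ i, Q (e i) ≠ 0 := fun i => by rwa [ec]
  obtain ⟨k, hk, -, π, k1, k2⟩ := frame_perm d h1 he c0 ec t2 hn hO (Equiv.swap l j) {l} (by simp; omega)
  have b := fun l => blk_of (h := h) d h1 he c0 ec t2 (g := k) (l := l) (k1 l ▸ he _)
  have k3 := b l _ hl
  rw [k2 l (by simp), Equiv.swap_apply_left] at k3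
  by_contra hx'
  refine hc (hO.om_le_of_ext d hM (le_refl (D j)) (rt_frame6 d h1 he c0 ec t2 hn (hO.ext d le_rfl)
    (ext_le_isom hM) (fun i => ?_) hp ht (hO.mem_ext_of_stab d hM le_rfl (mul_mem hk hx)
      (blk_of (h := h) d h1 he c0 ec t2 k3)) fun c => hx' ?_))
  · simpa using mul_mem (hO.ext d le_rfl _ (r_mul_mem h hn (q0 i) (q0 j) ⟨c, by rw [ec, ec]⟩) (mul_mem
      (rf_dstab h d (he i) _) (rf_dstab h d (he j) _))) (inv_mem (le_ext _ _ (rf_mem_loc h (he j) (Q (e j))⁻¹)))
  · simpa using mul_mem (inv_mem (perm_dstab d b)) c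

end Cfsg.Agent.H26.L4
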