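import Mathlib

/-!
Finite and algebraic lemmas on pairs of orthogonal frames in dimension six.
-/

set_option autoImplicit false
set_option linter.unusedSectionVars false

namespace Cfsg.Agent.H26.L4

theorem fin_x (x : Fin 6 → Fin 6) (h : ∀ l, x (x (x l)) = l) {a b : Fin 6} (h0 : x 0 = a) (h1 : x 1 = b)
    (c d : Fin 6) (hab : ∀ l, l = 0 ∨ l = 1 ∨ l = a ∨ l = b ∨ l = c ∨ l = d) (nd : [0, 1, a, b, c, d].Nodup) :
    (x a = c ∧ x b = d ∧ x c = 0 ∧ x d = 1) ∨ (x a = d ∧ x b = c ∧ x d = 0 ∧ x c = 1) := by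
  have k0 := h 0
  have k1 := h 1
  have k2 := h a
  have k3 := h b
  rw [h0] at k0
  rw [h1] at k1
  simp at nd
  rcases hab (x a) with p | p | p | p | p | p <;> rcases hab (x b) with q | q | q | q | q | q <;> grind

theorem fin_xy (x y z : Fin 6 → Fin 6) (hx : ∀ l, x (x (x l)) = l) (hy : ∀ l, y (y (y l)) = l)
    (hz : ∀ l, z (z (z l)) = l)
    (h1 : ∀ l, x (y (x (y (x (y l))))) = l) (h2 : ∀ l, x (x (y (x (x (y (x (x (y l)))))))) = l)
    (h3 : ∀ l, x (z (x (z (x (z l))))) = l) (h4 : ∀ l, x (x (z (x (x (z (x (x (z l)))))))) = l)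
    (a : x 0 = 2 ∧ x 1 = 3 ∨ x 0 = 3 ∧ x 1 = 2) (b : y 0 = 2 ∧ y 1 = 4 ∨ y 0 = 4 ∧ y 1 = 2)
    (c : z 0 = 3 ∧ z 1 = 4 ∨ z 0 = 4 ∧ z 1 = 3) : False := by
  have k1 : x 4 = 1 ∧ x 0 = 2 ∨ x 4 = 0 ∧ x 0 = 3 := by
    have k := And.intro (And.intro (h1 0) (h1 1)) (And.intro (h2 0) (h2 1))
    clear h1 h2 h3 h4 c hz
    rcases a with ⟨a, a'⟩ | ⟨a, a'⟩ <;> rcases b with ⟨b, b'⟩ | ⟨b, b'⟩ <;>
    rcases fin_x x hx a a' 4 5 (by decide) (by decide) with ⟨_, _, _, _⟩ | ⟨_, _, _, _⟩ <;>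
    rcases fin_x y hy b b' 3 5 (by decide) (by decide) with ⟨_, _, _, _⟩ | ⟨_, _, _, _⟩ <;> simp_all
  have k := And.intro (And.intro (h3 0) (h3 1)) (And.intro (h4 0) (h4 1))
  clear h1 h2 h3 h4 b hy
  rcases a with ⟨a, a'⟩ | ⟨a, a'⟩ <;> rcases c with ⟨b, b'⟩ | ⟨b, b'⟩ <;>
  rcases fin_x x hx a a' 4 5 (by decide) (by decide) with ⟨_, _, _, _⟩ | ⟨_, _, _, _⟩ <;>
  rcases fin_x z hz b b' 2 5 (by decide) (by decide) with ⟨_, _, _, _⟩ | ⟨_, _, _, _⟩ <;> simp_all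

theorem sd : ∀ i j i' j' : Fin 6, i ≠ j → i' ≠ j' → (∀ l, (l = i ∨ l = j) ↔ (l = i' ∨ l = j')) ∨
    ∃ a b, a ≠ b ∧ ((∀ l, ((l = i ∨ l = j) ↔ (l = i' ∨ l = j')) ↔ ¬ (l = a ∨ l = b)) ∨
      ∀ l, ((l = i ∨ l = j) ↔ (l = i' ∨ l = j')) ↔ (l = a ∨ l = b)) := by decide +kernel

theorem cube (π : Equiv.Perm (Fin 6)) {o : ℕ} (ho : Odd o) (h : π ^ o = 1) (a : Fin 6) (Z : Finset (Fin 6))
    (hZ : Z.card ≤ 4) (ha : a ∈ Z) (hi : ∀ l ∈ Z, π l ∈ Z) : π (π (π a)) = a := by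
  obtain ⟨i, hi, j, hj, hij, e⟩ := Finset.exists_ne_map_eq_of_card_lt_of_maps_to (s := Finset.range 5) (t := Z)
    (by simp; omega) (f := fun n => (π ^ n) a) fun n _ => by
      induction n with
      | zero => simpa
      | succ n ih => simpa [pow_succ'] using hi _ (ih (by simp at *; omega))
  wlog hlt : i < j generalizing i j
  · exact this j hj i hi hij.symm e.symm (by omega)
  obtain ⟨d, rfl⟩ := Nat.exists_eq_add_of_lt hlt
  have k : Function.IsPeriodicPt π (d + 1) a := by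
    rw [add_assoc, pow_add, Equiv.Perm.mul_apply] at e
    exact (Equiv.Perm.iterate_eq_pow π _ ▸ ((π ^ i).injective e).symm :)
  have k' : Function.IsPeriodicPt π o a := by
    rw [Function.IsPeriodicPt, Equiv.Perm.iterate_eq_pow, h]; rfl
  have k2 := (k.gcd k').trans_dvd (n := 3) (by
    have : d ≤ 3 := by simp at hj; omega
    have c := Nat.coprime_two_left.2 ho
    interval_cases d
    · simp
    · simp [Nat.Coprime.gcd_eq_one c]
    · exact Nat.gcd_dvd_left _ _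
    · simp [Nat.Coprime.gcd_eq_one (c.mul_left c)])
  exact k2

theorem all6 {P : Fin 6 → Prop} : (∀ l, P l) ↔ P 0 ∧ P 1 ∧ P 2 ∧ P 3 ∧ P 4 ∧ P 5 :=
  ⟨fun h => ⟨h _, h _, h _, h _, h _, h _⟩, fun h l => by fin_cases l <;> simp [h]⟩

variable {F : Type*} [Field F] {S : (Fin 6 → F) → (Fin 6 → Fin 6) → Prop} {x y : Fin 6 → F}

/-- The signed permutations available in the stabiliser of a frame. -/
structure SS (S : (Fin 6 → F) → (Fin 6 → Fin 6) → Prop) : Prop where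
  sg : ∀ i j, i ≠ j → S (fun l => if l = i ∨ l = j then -1 else 1) id
  rr : ∀ a b a' b' (ε δ : F), a ≠ b → a' ≠ b' → ε * ε = 1 → δ * δ = 1 →
    S (fun l => (if l = a ∨ l = b then ε else 1) *
      if Equiv.swap a b l = a' ∨ Equiv.swap a b l = b' then δ else 1) fun l => Equiv.swap a' b' (Equiv.swap a b l)
  r2 : IsSquare (2 : F) → ∀ a b j (ε : F), a ≠ b → ε * ε = 1 →
    S (fun l => (if l = a ∨ l = b then ε else 1) * if Equiv.swap a b l = j then -1 else 1) (Equiv.swap a b)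

/-- A signed permutation fixing `u` fixes, negates or moves `w` to a perpendicular vector. -/
def Pr (S : (Fin 6 → F) → (Fin 6 → Fin 6) → Prop) (u w : Fin 6 → F) : Prop :=
  ∀ s π, S s π → (∀ l, s l * u (π l) = u l) → (∀ l, s l * w (π l) = w l) ∨ (∀ l, s l * w (π l) = -w l) ∨
    ∑ l, w l * (s l * w (π l)) = 0

variable (hS : SS S) (t2 : (2 : F) ≠ 0) (p : Pr S x y) (sx : ∑ l, x l * x l = 1) (sy : ∑ l, y l * y l = 1)
include hS t2 p sy

theorem l2 (q : Pr S y x) (sx : ∑ l, x l * x l = 1) (xy : ∑ l, x l * y l = 0) (x0 : x 0 ≠ 0) (x1 : x 1 ≠ 0)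
    (x2 : x 2 = 0) (x3 : x 3 = 0) (x4 : x 4 = 0) (x5 : x 5 = 0) (y2 : y 2 ≠ 0) (hy : ∃ l, l ≠ 2 ∧ y l ≠ 0) :
    False := by
  have n2 : -y 2 ≠ y 2 := by grind
  have a3 := p _ _ (hS.sg 2 3 (by decide)) (by simp [all6, *])
  have a4 := p _ _ (hS.sg 2 4 (by decide)) (by simp [all6, *])
  have a5 := p _ _ (hS.sg 2 5 (by decide)) (by simp [all6, *])
  have a6 := p _ _ (hS.sg 3 4 (by decide)) (by simp [all6, *])
  have c3 := p _ _ (hS.rr 2 4 4 5 1 1 (by decide) (by decide) (by simp) (by simp))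
    (by simp [all6, Equiv.swap_apply_def, *])
  have c4 := p _ _ (hS.rr 2 3 3 5 1 1 (by decide) (by decide) (by simp) (by simp))
    (by simp [all6, Equiv.swap_apply_def, *])
  have c5 := p _ _ (hS.rr 2 3 3 4 1 1 (by decide) (by decide) (by simp) (by simp))
    (by simp [all6, Equiv.swap_apply_def, *])
  simp only [Fin.sum_univ_six, x2, x3, x4, x5] at sx sy xy
  have hy' : y 0 ≠ 0 ∨ y 1 ≠ 0 ∨ y 3 ≠ 0 ∨ y 4 ≠ 0 ∨ y 5 ≠ 0 := by
    obtain ⟨l, a, b⟩ := hy
    fin_cases l <;> simp_all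
  simp [all6, Equiv.swap_apply_def, Fin.sum_univ_six, n2, eq_neg_iff_add_eq_zero, ← two_mul, t2, y2]
    at a3 a4 a5 a6 c3 c4 c5
  have b3 : 2 * (y 2 * y 2 + y 3 * y 3) = 1 := by
    rcases a3 with ⟨a, b, c, d⟩ | a
    · simp [a, b, c, d, y2, y2.symm] at c3 hy'; exact absurd c3 hy'
    · linear_combination sy - a
  have b4 : 2 * (y 2 * y 2 + y 4 * y 4) = 1 := by
    rcases a4 with ⟨a, b, c, d⟩ | a
    · simp [a, b, c, d, y2, y2.symm] at c4 hy'; exact absurd c4 hy'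
    · linear_combination sy - a
  have b5 : 2 * (y 2 * y 2 + y 5 * y 5) = 1 := by
    rcases a5 with ⟨a, b, c, d⟩ | a
    · simp [a, b, c, d, y2, y2.symm] at c5 hy'; exact absurd c5 hy'
    · linear_combination sy - a
  have y3 : y 3 ≠ 0 := fun k => by
    have k4 : y 4 = 0 := mul_self_eq_zero.1 (mul_left_cancel₀ t2 (by linear_combination b4 - b3 + 2 * y 3 * k))
    have k5 : y 5 = 0 := mul_self_eq_zero.1 (mul_left_cancel₀ t2 (by linear_combination b5 - b3 + 2 * y 3 * k))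
    simp [k, k4, k5, y2, y2.symm] at c5 sy b3
    exact one_ne_zero (by linear_combination b3 - 2 * sy + 2 * c5 : (1 : F) = 0)
  have b6 : 4 * (y 3 * y 3) = 1 := by
    rcases a6 with ⟨a, -⟩ | a
    · exact absurd (mul_left_cancel₀ t2 (by linear_combination -a)) y3
    · linear_combination sy - a + b3 - b4
  have b2 : 4 * (y 2 * y 2) = 1 := by linear_combination 2 * b3 - b6
  clear a3 a4 a5 a6 c3 c4 c5 hy hy'
  have b7 : x 1 * y 0 - x 0 * y 1 = 0 := mul_self_eq_zero.1 (mul_left_cancel₀ t2 (by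
    linear_combination (2 * (y 0 * y 0 + y 1 * y 1)) * sx - (2 * (x 0 * y 0 + x 1 * y 1)) * xy + 2 * sy - b3 - b4 - b5 + b2))
  have y0 : y 0 = 0 := by linear_combination x 1 * b7 + x 0 * xy - y 0 * sx
  have y1 : y 1 = 0 := by linear_combination -x 0 * b7 + x 1 * xy - y 1 * sx
  have d := q _ _ (hS.rr 0 1 2 3 1 (4 * y 2 * y 3) (by decide) (by decide) (by simp)
    (by linear_combination (4 * y 3 * y 3) * b2 + b6))
    (by simp [all6, Equiv.swap_apply_def, y0, y1]; exact ⟨by linear_combination y 2 * b6, by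
      linear_combination y 3 * b2⟩)
  simp [all6, Equiv.swap_apply_def, Fin.sum_univ_six, x0, x1, x2, x3, x4, x5, mul_comm (x 1), ← two_mul, t2] at d
  have d0 : 2 * (x 0 * x 0) = 1 := by
    rcases d with ⟨d, -⟩ | ⟨d, -⟩ <;> rw [d] at sx <;> linear_combination sx
  have d1 : 2 * (x 1 * x 1) = 1 := by linear_combination 2 * sx - d0
  have e := p _ _ (hS.r2 ⟨2 * x 0, by linear_combination -2 * d0⟩ 0 1 2 (2 * x 0 * x 1) (by decide)
    (by linear_combination (2 * x 1 * x 1) * d0 + d1))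
    (by simp [all6, Equiv.swap_apply_def, x2]; exact ⟨by linear_combination x 0 * d1, by
      linear_combination x 1 * d0⟩)
  simp [all6, Equiv.swap_apply_def, Fin.sum_univ_six, y0, y1, n2, eq_neg_iff_add_eq_zero, ← two_mul, t2, y3] at e sy
  exact one_ne_zero (by linear_combination 2 * e - 2 * sy + b2 : (1 : F) = 0)

theorem l4a {ε : F} (hε : ε * ε = 1) (x0 : x 0 = ε * x 1) (x4 : x 4 = 0) (x5 : x 5 = 0) (y4 : y 4 ≠ 0)
    (y5 : y 5 ≠ 0) (hy : ∃ l, l ≠ 4 ∧ l ≠ 5 ∧ y l ≠ 0) : 4 * (y 4 * y 4) = 1 := by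
  have n4 : -y 4 ≠ y 4 := by grind
  have a := p _ _ (hS.sg 4 5 (by decide)) (by simp [all6, *])
  have c := fun δ h => p _ _ (hS.rr 0 1 4 5 ε δ (by decide) (by decide) hε h)
    (by simp [all6, Equiv.swap_apply_def, ← mul_assoc, *])
  have c1 := c 1 (by simp)
  have c2 := c (-1) (by simp)
  have hy' : y 0 ≠ 0 ∨ y 1 ≠ 0 ∨ y 2 ≠ 0 ∨ y 3 ≠ 0 := by
    obtain ⟨l, a, b⟩ := hy
    fin_cases l <;> simp_all
  simp only [Fin.sum_univ_six] at sy
  simp [all6, Equiv.swap_apply_def, Fin.sum_univ_six, n4, eq_neg_iff_add_eq_zero, ← two_mul, t2] at a c1 c2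
  have b : 2 * (y 4 * y 4 + y 5 * y 5) = 1 := by
    rcases a with a | a
    · simp [a] at hy'
    · linear_combination sy - a
  rcases c1 with ⟨-, -, k, -⟩ | ⟨-, -, -, -, k, -⟩ | c1
  · linear_combination b - 2 * (y 4 + y 5) * k
  · linear_combination b + 2 * (y 4 - y 5) * k
  rcases c2 with ⟨-, -, k, -⟩ | ⟨-, -, -, -, k, -⟩ | c2
  · linear_combination b - 2 * (y 4 - y 5) * k
  · linear_combination b + 2 * (y 4 + y 5) * k
  exact absurd (by linear_combination c1 - c2) (mul_ne_zero (mul_ne_zero t2 t2) (mul_ne_zero y4 y5))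

omit hS p sy in
theorem tri {a b c m α β γ μ u : F} (ha : 4 * (a * a) = 1) (hb : 4 * (b * b) = 1) (hc : 4 * (c * c) = 1)
    (hm : 4 * (m * m) = 1) (s1 : a * α + b * β + c * γ + m * μ = 0) (s2 : α * α + β * β + γ * γ + μ * μ + u = 1)
    (hu : 2 * u = 1) (h : (4 * a * b * α = β ∧ 4 * b * c * β = γ) ∨
      α * (4 * a * b * (4 * b * c) * γ) + β * (4 * a * b * α) + γ * (4 * b * c * β) + μ * μ + u = 0) :
    (a * α = b * β ∧ b * β = c * γ) ∨ 32 * (m * μ * (m * μ)) = -1 :=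
  h.imp (fun h => ⟨by linear_combination b * h.1 - a * α * hb, by linear_combination c * h.2 - b * β * hc⟩)
    fun h => by
    linear_combination 4 * h - 8 * (a * α + b * β + c * γ - m * μ) * s1 + 2 * s2 - 3 * hu
      - 16 * a * c * α * γ * hb + 2 * α * α * ha + 2 * β * β * hb + 2 * γ * γ * hc + 6 * μ * μ * hm

omit hS p sy in
theorem fin4 {a b c d : F} (s1 : a + b + c + d = 0) (s2 : 8 * (a * a + b * b + c * c + d * d) = 1)
    (d0 : (b = c ∧ c = d) ∨ 32 * (a * a) = -1) (d1 : (a = c ∧ c = d) ∨ 32 * (b * b) = -1)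
    (d2 : (a = b ∧ b = d) ∨ 32 * (c * c) = -1) (d3 : (a = b ∧ b = c) ∨ 32 * (d * d) = -1) : False := by
  rcases d0 with d0 | d0 <;> rcases d1 with d1 | d1 <;> rcases d2 with d2 | d2 <;> rcases d3 with d3 | d3 <;> grind

theorem l4 (xy : ∑ l, x l * y l = 0) (x0 : 4 * (x 0 * x 0) = 1) (x1 : 4 * (x 1 * x 1) = 1) (x2 : 4 * (x 2 * x 2) = 1)
    (x3 : 4 * (x 3 * x 3) = 1) (x4 : x 4 = 0) (x5 : x 5 = 0) (y4 : y 4 ≠ 0)
    (hy : ∃ l, l ≠ 4 ∧ l ≠ 5 ∧ y l ≠ 0) : False := by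
  have n4 : -y 4 ≠ y 4 := by grind
  have n4' : y 4 ≠ -y 4 := n4.symm
  have a := p _ _ (hS.sg 4 5 (by decide)) (by simp [all6, *])
  have hy' : y 0 ≠ 0 ∨ y 1 ≠ 0 ∨ y 2 ≠ 0 ∨ y 3 ≠ 0 := by
    obtain ⟨l, a, b⟩ := hy
    fin_cases l <;> simp_all
  simp only [Fin.sum_univ_six, x4, x5] at sy xy
  simp [all6, Fin.sum_univ_six, n4, eq_neg_iff_add_eq_zero, ← two_mul, t2] at a
  have b : 2 * (y 4 * y 4 + y 5 * y 5) = 1 := by
    rcases a with a | a
    · simp [a] at hy'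
    · linear_combination sy - a
  have e : ∀ i j, 4 * (x i * x i) = 1 → 4 * (x j * x j) = 1 → 4 * x i * x j * (4 * x i * x j) = 1 :=
    fun i j a b => by linear_combination (4 * x j * x j) * a + b
  have f : ∀ i j k, 4 * (x i * x i) = 1 → 4 * (x j * x j) = 1 → 4 * (x k * x k) = 1 →
      4 * x i * x j * (4 * x j * x k) * x k = x i ∧ 4 * x i * x j * x i = x j ∧ 4 * x j * x k * x j = x k :=
    fun i j k a b c => ⟨by linear_combination (4 * x i * x k * x k) * b + x i * c, by linear_combination x j * a,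
      by linear_combination x k * b⟩
  clear a hy hy'
  have c0 := p _ _ (hS.rr 1 2 2 3 _ _ (by decide) (by decide) (e 1 2 x1 x2) (e 2 3 x2 x3))
    (by simpa [all6, Equiv.swap_apply_def] using f 1 2 3 x1 x2 x3)
  have c1 := p _ _ (hS.rr 0 2 2 3 _ _ (by decide) (by decide) (e 0 2 x0 x2) (e 2 3 x2 x3))
    (by simpa [all6, Equiv.swap_apply_def] using f 0 2 3 x0 x2 x3)
  have c2 := p _ _ (hS.rr 0 1 1 3 _ _ (by decide) (by decide) (e 0 1 x0 x1) (e 1 3 x1 x3))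
    (by simpa [all6, Equiv.swap_apply_def] using f 0 1 3 x0 x1 x3)
  have c3 := p _ _ (hS.rr 0 1 1 2 _ _ (by decide) (by decide) (e 0 1 x0 x1) (e 1 2 x1 x2))
    (by simpa [all6, Equiv.swap_apply_def] using f 0 1 2 x0 x1 x2)
  simp [all6, Equiv.swap_apply_def, Fin.sum_univ_six, n4'] at c0 c1 c2 c3
  exact fin4 t2 (a := x 0 * y 0) (b := x 1 * y 1) (c := x 2 * y 2) (d := x 3 * y 3) (by linear_combination xy)
    (by linear_combination 2 * sy - b + 2 * y 0 * y 0 * x0 + 2 * y 1 * y 1 * x1 + 2 * y 2 * y 2 * x2 +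
      2 * y 3 * y 3 * x3)
    (tri t2 x1 x2 x3 x0 (by linear_combination xy) (by linear_combination sy) b
      (c0.imp And.right fun c => by linear_combination c))
    (tri t2 x0 x2 x3 x1 (by linear_combination xy) (by linear_combination sy) b
      (c1.imp And.right fun c => by linear_combination c))
    (tri t2 x0 x1 x3 x2 (by linear_combination xy) (by linear_combination sy) b
      (c2.imp And.right fun c => by linear_combination c))
    (tri t2 x0 x1 x2 x3 (by linear_combination xy) (by linear_combination sy) b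
      (c3.imp And.right fun c => by linear_combination c))

end Cfsg.Agent.H26.L4
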