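import Cfsg.Agent.H26.L4c
import Cfsg.Agent.H26.L4d

/-!
Vectors of conjugate frames in dimension six.
-/

set_option autoImplicit false
set_option linter.unusedSectionVars false

namespace Cfsg.Agent.H26.L4

open Module H10 H11 H11.Im Cfsg.Geo

variable {F : Type*} [Field F] {V : Type*} [AddCommGroup V] [Module F V] [FiniteDimensional F V]
  {D : Fin 6 → Submodule F V} {p : Fin 6 → V →ₗ[F] V}
  {B : V →ₗ[F] V →ₗ[F] F} {Q : V → F} [Fintype F]

/-- A frame together with an overgroup of its stabiliser in which points determine frames. -/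
structure Fr (h : Cl (σ := RingHom.id F) 1 2 (AddMonoidHom.id F) B Q) (D : Fin 6 → Submodule F V)
    (p : Fin 6 → V →ₗ[F] V) (e : Fin 6 → V) (c : F) (N : Subgroup (V ≃ₗ[F] V)) : Prop where
  d : Dec B Q D p
  h1 : ∀ i, finrank F (D i) ≤ 1
  he : ∀ i, e i ∈ D i
  c0 : c ≠ 0
  ec : ∀ i, Q (e i) = c
  t2 : (2 : F) ≠ 0
  hn : 5 ≤ finrank F V
  hO : Ov h D N
  hI : N ≤ Isom B Q
  star : ∀ {x}, x ∈ N → ∀ {j l}, x (e j) ∈ D l → x ∈ dstab D

/-- Coordinates in a frame. -/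
def co (B : V →ₗ[F] V →ₗ[F] F) (e : Fin 6 → V) (c : F) (l : Fin 6) : V →ₗ[F] F := (2 * c)⁻¹ • B (e l)

variable {h : Cl (σ := RingHom.id F) 1 2 (AddMonoidHom.id F) B Q} {e : Fin 6 → V} {c : F}
  {N : Subgroup (V ≃ₗ[F] V)} (f : Fr h D p e c N)

theorem co_apply (l : Fin 6) (v : V) : co B e c l v = (2 * c)⁻¹ * B (e l) v := rfl

include f

namespace Fr

theorem q0 (i : Fin 6) : Q (e i) ≠ 0 := by rw [f.ec]; exact f.c0

theorem co_e (i j : Fin 6) : co B e c i (e j) = if i = j then 1 else 0 := by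
  rw [co_apply, Bee (h := h) f.d f.h1 f.he f.c0 f.ec f.t2]
  split_ifs
  · exact inv_mul_cancel₀ (mul_ne_zero f.t2 f.c0)
  · simp

theorem co_sum (σ : Equiv.Perm (Fin 6)) (v w : V) :
    ∑ l, co B e c (σ l) v * co B e c (σ l) w = (2 * c)⁻¹ * B v w := by
  have := Bs (h := h) f.d f.h1 f.he f.c0 f.ec f.t2 v w
  have c2 := mul_ne_zero f.t2 f.c0
  rw [Equiv.sum_comp σ fun l => co B e c l v * co B e c l w]
  simp only [co_apply, mul_mul_mul_comm _ (B _ v), ← Finset.mul_sum, ← this]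
  field_simp

theorem eq_sum (v : V) : v = ∑ l, co B e c l v • e l := by
  conv_lhs => rw [← f.d.sum v]
  simp only [pe (h := h) f.d f.h1 f.he f.c0 f.ec f.t2, co_apply, div_eq_inv_mul]

theorem ext {v w : V} (σ : Equiv.Perm (Fin 6)) (k : ∀ l, co B e c (σ l) v = co B e c (σ l) w) : v = w := by
  rw [f.eq_sum v, f.eq_sum w]
  exact Finset.sum_congr rfl fun l _ => by obtain ⟨l, rfl⟩ := σ.surjective l; rw [k]

theorem memD {v : V} {j : Fin 6} (k : ∀ l, l ≠ j → co B e c l v = 0) : v ∈ D j := by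
  rw [f.eq_sum v, Finset.sum_eq_single j (fun l _ a => by simp [k l a]) (by simp)]
  exact (D j).smul_mem _ (f.he j)

theorem tr {g : V ≃ₗ[F] V} (hg : g ∈ N) (l k : Fin 6) : co B e c l (g (e k)) = co B e c k (g⁻¹ (e l)) := by
  have hQ : IsQuad B Q := h.form
  rw [co_apply, co_apply, ← (f.hI hg).1 (e k), hQ.comm]
  simp [LinearEquiv.coe_inv]

theorem sgn {g : V ≃ₗ[F] V} (hg : g ∈ N) {l k : Fin 6} (m : g (e k) ∈ D l) :
    ∃ ε : F, ε * ε = 1 ∧ g (e k) = ε • e l := by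
  have hQ : IsQuad B Q := h.form
  obtain ⟨s, hs⟩ := line_mem f.d (f.h1 l) (f.he l) (ne_zero_of_Q h (f.q0 l)) m
  have := congrArg Q hs
  rw [(f.hI hg).2, hQ.smul', f.ec, f.ec, mul_eq_right₀ f.c0] at this
  exact ⟨s, this, hs.symm⟩

theorem perm {g : V ≃ₗ[F] V} (hg : g ∈ N) (m : g ∈ dstab D) (k : Fin 6) :
    ∃ l, ∃ ε : F, ε * ε = 1 ∧ g (e k) = ε • e l := by
  obtain ⟨π, hπ⟩ := dstab_perm m
  exact ⟨_, f.sgn hg (hπ k _ (f.he k))⟩

theorem co_r (a v : V) (l : Fin 6) : co B e c l (r h a v) = (2 * c)⁻¹ * B (r h a (e l)) v := by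
  rw [co_apply, ← (r_isom h a).1, ← LinearEquiv.mul_apply, r_r]; rfl

theorem co_re (j l : Fin 6) (v : V) :
    co B e c l (r h (e j) v) = (if l = j then -1 else 1) * co B e c l v := by
  rw [f.co_r]
  split_ifs with k
  · rw [k, r_self h (f.q0 j)]; simp [co_apply]
  · rw [rf_fix h _ _ (by simp [Bee (h := h) f.d f.h1 f.he f.c0 f.ec f.t2, Ne.symm k]), one_mul, co_apply]

theorem co_root {a b : Fin 6} (hab : a ≠ b) {ε : F} (hε : ε * ε = 1) (l : Fin 6) (v : V) :
    co B e c l (r h (e a - ε • e b) v) =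
      (if l = a ∨ l = b then ε else 1) * co B e c (Equiv.swap a b l) v := by
  rw [f.co_r, r_root f.d f.h1 f.he f.c0 f.ec f.t2 hab hε, co_apply, map_smul, LinearMap.smul_apply,
    smul_eq_mul, mul_left_comm]

end Fr

/-- The product of the reflections in two frame vectors. -/
noncomputable def T (h : Cl (σ := RingHom.id F) 1 2 (AddMonoidHom.id F) B Q) (e : Fin 6 → V) (i j : Fin 6) :
    V ≃ₗ[F] V := r h (e i) * r h (e j)

namespace Fr

theorem T_H (i j : Fin 6) : T h e i j ∈ dstab D :=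
  mul_mem (rf_dstab h f.d (f.he i) _) (rf_dstab h f.d (f.he j) _)

theorem T_N (i j : Fin 6) : T h e i j ∈ N :=
  f.hO _ (r_mul_mem h f.hn (f.q0 i) (f.q0 j) ⟨c, by rw [f.ec, f.ec]⟩) (f.T_H i j)

theorem co_T {i j : Fin 6} (hij : i ≠ j) (l : Fin 6) (v : V) :
    co B e c l (T h e i j v) = (if l = i ∨ l = j then -1 else 1) * co B e c l v := by
  rw [T, LinearEquiv.mul_apply, f.co_re, f.co_re]
  by_cases a : l = i <;> by_cases b : l = j <;> simp_all

theorem ss (σ : Equiv.Perm (Fin 6)) : SS fun (s : Fin 6 → F) π =>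
    ∃ k ∈ N, ∀ v l, co B e c (σ l) (k v) = s l * co B e c (σ (π l)) v := by
  refine ⟨fun i j hij => ⟨_, f.T_N (σ i) (σ j), fun v l => ?_⟩, fun a b a' b' ε δ hab hab' hε hδ => ?_,
    fun ⟨s, hs⟩ a b j ε hab hε => ?_⟩
  · simp [f.co_T (σ.injective.ne hij)]
  · have n := σ.injective.ne hab
    have n' := σ.injective.ne hab'
    refine ⟨_, f.hO _ (root_pair f.d f.h1 f.he f.c0 f.ec f.t2 f.hn f.hO n n' hε hδ) (mul_mem
      (root_dstab f.d f.h1 f.he f.c0 f.ec f.t2 n hε) (root_dstab f.d f.h1 f.he f.c0 f.ec f.t2 n' hδ)),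
      fun v l => ?_⟩
    simp only [LinearEquiv.mul_apply, f.co_root n hε, f.co_root n' hδ, σ.injective.swap_apply,
      σ.injective.eq_iff, mul_assoc]
  · have n := σ.injective.ne hab
    have q := Q_root (h := h) f.d f.h1 f.he f.c0 f.ec f.t2 n hε
    refine ⟨_, f.hO _ (r_mul_mem h f.hn (q ▸ mul_ne_zero f.t2 f.c0) (f.q0 (σ j))
      ⟨s * c, by rw [q, f.ec, hs]; ring⟩) (mul_mem
      (root_dstab f.d f.h1 f.he f.c0 f.ec f.t2 n hε) (rf_dstab h f.d (f.he _) _)), fun v l => ?_⟩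
    simp only [LinearEquiv.mul_apply, f.co_root n hε, f.co_re, σ.injective.swap_apply,
      σ.injective.eq_iff, mul_assoc]

variable {g : V ≃ₗ[F] V} (hg : g ∈ N)
include hg

theorem fixH {k : V ≃ₗ[F] V} (hk : k ∈ N) {i : Fin 6} (a : k (g (e i)) = g (e i)) (j : Fin 6) :
    ∃ l, ∃ ε : F, ε * ε = 1 ∧ k (g (e j)) = ε • g (e l) := by
  have m := mul_mem (mul_mem (inv_mem hg) hk) hg
  obtain ⟨l, ε, a, b⟩ := f.perm m (f.star m (j := i) (l := i) (by
    simpa [a, LinearEquiv.coe_inv] using f.he i)) j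
  refine ⟨l, ε, a, ?_⟩
  rw [← map_smul, ← b]; simp [LinearEquiv.coe_inv]

theorem pr (σ : Equiv.Perm (Fin 6)) (i j : Fin 6) : Pr (fun (s : Fin 6 → F) π =>
    ∃ k ∈ N, ∀ v l, co B e c (σ l) (k v) = s l * co B e c (σ (π l)) v)
    (fun l => co B e c (σ l) (g (e i))) fun l => co B e c (σ l) (g (e j)) := by
  rintro s π ⟨k, hk, a⟩ b
  obtain ⟨l, ε, e1, e2⟩ := f.fixH hg hk (i := i) (f.ext σ fun l => by rw [a, b]) j
  simp only [← a, e2]
  by_cases n : j = l
  · subst n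
    rcases mul_self_eq_one_iff.1 e1 with rfl | rfl <;> simp
  · refine Or.inr (Or.inr ?_)
    rw [f.co_sum, map_smul, (f.hI hg).1, Bee (h := h) f.d f.h1 f.he f.c0 f.ec f.t2]
    simp [n]

theorem sum_e (σ : Equiv.Perm (Fin 6)) (i j : Fin 6) :
    ∑ l, co B e c (σ l) (g (e i)) * co B e c (σ l) (g (e j)) = if i = j then 1 else 0 := by
  rw [f.co_sum, (f.hI hg).1, ← co_apply, f.co_e]

variable (hg' : g ∉ dstab D)
include hg'

theorem one (k j : Fin 6) : ∃ l, l ≠ j ∧ co B e c l (g (e k)) ≠ 0 := by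
  by_contra a
  push Not at a
  exact hg' (f.star hg (f.memD a))

theorem col (l j : Fin 6) : ∃ k, k ≠ j ∧ co B e c l (g (e k)) ≠ 0 := by
  simp only [f.tr hg]
  exact f.one (inv_mem hg) (by simpa using hg') l j

omit f hg hg' in
theorem ex_perm {n : ℕ} (a b : Fin n → Fin 6) (ha : Function.Injective a) (hb : Function.Injective b) :
    ∃ σ : Equiv.Perm (Fin 6), ∀ i, σ (a i) = b i := Equiv.Perm.exists_extending_pair a b ha hb

theorem two (k a b : Fin 6) : ∃ l, l ≠ a ∧ l ≠ b ∧ co B e c l (g (e k)) ≠ 0 := by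
  by_contra n
  push Not at n
  have hab : a ≠ b := by
    rintro rfl
    obtain ⟨l, x, y⟩ := f.one hg hg' k a
    exact y (n l x x)
  have xa : co B e c a (g (e k)) ≠ 0 := fun x => by
    obtain ⟨l, y, z⟩ := f.one hg hg' k b
    exact z (if w : l = a then w ▸ x else n l w y)
  have xb : co B e c b (g (e k)) ≠ 0 := fun x => by
    obtain ⟨l, y, z⟩ := f.one hg hg' k a
    exact z (if w : l = b then w ▸ x else n l y w)
  obtain ⟨σ, hσ⟩ := ex_perm ![0, 1] ![a, b] (by decide) (by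
    intro i j; fin_cases i <;> fin_cases j <;> simp [hab, hab.symm])
  have s0 : σ 0 = a := hσ 0
  have s1 : σ 1 = b := hσ 1
  subst s0 s1
  obtain ⟨k', hk, y⟩ := f.col hg hg' (σ 2) k
  obtain ⟨l, l1, l2'⟩ := f.one hg hg' k' (σ 2)
  obtain ⟨l, rfl⟩ := σ.surjective l
  have z : ∀ l, l ≠ 0 → l ≠ 1 → co B e c (σ l) (g (e k)) = 0 := fun l a b =>
    n _ (σ.injective.ne a) (σ.injective.ne b)
  exact l2 (f.ss σ) f.t2 (f.pr hg σ k k') (by simp [f.sum_e hg]) (f.pr hg σ k' k) (by simp [f.sum_e hg])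
    (by simp [f.sum_e hg, hk.symm]) xa xb (z 2 (by decide) (by decide)) (z 3 (by decide) (by decide))
    (z 4 (by decide) (by decide)) (z 5 (by decide) (by decide)) y ⟨l, fun k => l1 (k ▸ rfl), l2'⟩

theorem two' (l a b : Fin 6) (α β : F) : e l ≠ α • g (e a) + β • g (e b) := fun k => by
  obtain ⟨m, x, y, z⟩ := f.two (inv_mem hg) (by simpa using hg') l a b
  rw [k] at z
  simp [LinearEquiv.coe_inv, f.co_e, x, y] at z

omit hg hg' in
theorem fix2 {s : V ≃ₗ[F] V} (hs : s ∈ dstab D) (s2 : s * s = 1) (rk : Rk s 2) :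
    ∃ a b, a ≠ b ∧ s (e a) = e a ∧ s (e b) = e b := by
  obtain ⟨π, hπ⟩ := dstab_perm hs
  obtain ⟨J, hJ, α, β, x, y, -⟩ := rk_count f.d rk s2 hπ (k := 1)
    fun i => Submodule.one_le_finrank_iff.mpr (f.d.ne i)
  obtain ⟨a, ha, b, hb, hab⟩ := Finset.one_lt_card.1 (show 1 < J.card by omega)
  exact ⟨a, b, hab, hJ a ha _ (f.he a), hJ b hb _ (f.he b)⟩

omit hg hg' in
theorem T_fix {i j : Fin 6} (hij : i ≠ j) {v : V} :
    T h e i j v = v ↔ co B e c i v = 0 ∧ co B e c j v = 0 := by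
  refine ⟨fun k => ?_, fun k => f.ext 1 fun l => ?_⟩
  · have a := f.co_T hij i v
    have b := f.co_T hij j v
    rw [k] at a b
    simp only [true_or, or_true, if_true] at a b
    exact ⟨mul_left_cancel₀ f.t2 (by linear_combination a), mul_left_cancel₀ f.t2 (by linear_combination b)⟩
  · rw [f.co_T hij]
    split_ifs with a
    · rcases a with a | a <;> simp at a <;> simp [a, k]
    · simp

omit hg hg' in
theorem T_T {i j : Fin 6} (hij : i ≠ j) : T h e i j * T h e i j = 1 :=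
  LinearEquiv.ext fun v => f.ext 1 fun l => by
    rw [LinearEquiv.mul_apply, f.co_T hij, f.co_T hij]; split_ifs <;> simp

omit hg hg' f in
theorem T_rk (i j : Fin 6) : Rk (T h e i j) 2 := (rk_rf h _ _).mul (rk_rf h _ _)

omit hg' in
theorem zz {i j : Fin 6} (hij : i ≠ j) (m : g⁻¹ * T h e i j * g ∈ dstab D) : ∃ a b, a ≠ b ∧
    (co B e c i (g (e a)) = 0 ∧ co B e c j (g (e a)) = 0) ∧
      co B e c i (g (e b)) = 0 ∧ co B e c j (g (e b)) = 0 := by
  obtain ⟨a, b, hab, x, y⟩ := f.fix2 m (by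
    rw [show ∀ x : V ≃ₗ[F] V, g⁻¹ * x * g * (g⁻¹ * x * g) = g⁻¹ * (x * x) * g from fun x => by group,
      f.T_T hij]; simp) (by simpa using (T_rk (h := h) (e := e) i j).conj g⁻¹)
  refine ⟨a, b, hab, (f.T_fix hij).1 ?_, (f.T_fix hij).1 ?_⟩
  · simpa [LinearEquiv.coe_inv, LinearEquiv.symm_apply_eq] using x
  · simpa [LinearEquiv.coe_inv, LinearEquiv.symm_apply_eq] using y

theorem half {i j k : Fin 6} (hij : i ≠ j) (xi : co B e c i (g (e k)) = 0) (xj : co B e c j (g (e k)) = 0) :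
    (∃ k', k' ≠ k ∧ co B e c i (g (e k')) = 0 ∧ co B e c j (g (e k')) = 0) ∧
      ∀ l, co B e c i (g (e l)) ≠ 0 → 4 * (co B e c i (g (e l)) * co B e c i (g (e l))) = 1 := by
  have hQ : IsQuad B Q := h.form
  have gI := f.hI hg
  have tk := (f.T_fix hij).2 ⟨xi, xj⟩
  have m := mul_mem (mul_mem (inv_mem hg) (f.T_N i j)) hg
  obtain ⟨a, b, hab, x, y⟩ := f.zz hg hij (f.star m (j := k) (l := k) (by
    simpa [tk, LinearEquiv.coe_inv] using f.he k))
  obtain ⟨k', hk, x'⟩ : ∃ k', k' ≠ k ∧ co B e c i (g (e k')) = 0 ∧ co B e c j (g (e k')) = 0 := by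
    by_cases w : a = k
    exacts [⟨b, w ▸ hab.symm, y⟩, ⟨a, w, x⟩]
  refine ⟨⟨k', hk, x'⟩, fun l yi => ?_⟩
  have yj : co B e c j (g (e l)) ≠ 0 := fun yj => by
    obtain ⟨l', ε, -, k2⟩ := f.fixH hg (f.T_N i j) tk l
    refine f.two' hg hg' i l l' (2 * co B e c i (g (e l)))⁻¹ (-ε * (2 * co B e c i (g (e l)))⁻¹)
      (f.ext 1 fun n => ?_)
    have := congrArg (co B e c n) k2
    rw [f.co_T hij, map_smul] at this
    have t2 := f.t2
    simp only [Equiv.Perm.one_apply, map_add, map_smul, smul_eq_mul, f.co_e] at this ⊢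
    rw [mul_right_comm, neg_mul, ← this]
    by_cases n1 : n = i
    · simp [n1]; field_simp; ring
    · by_cases n2 : n = j
      · simp [n2, yj, hij.symm]
      · simp [n1, n2]; ring
  obtain ⟨m, mi, mj, xm⟩ := f.two hg hg' k i j
  have c2 := mul_ne_zero f.t2 f.c0
  have u := mul_mem (mul_mem hg (f.T_N k k')) (inv_mem hg)
  have ua : ∀ v, (g * T h e k k' * g⁻¹) v = v - (2 * co B e c k (g⁻¹ v)) • g (e k) -
      (2 * co B e c k' (g⁻¹ v)) • g (e k') := fun v => by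
    obtain ⟨v, rfl⟩ := g.surjective v
    simp only [LinearEquiv.mul_apply, LinearEquiv.coe_inv, LinearEquiv.symm_apply_apply, ← map_smul, ← map_sub]
    refine congrArg g (f.ext 1 fun n => ?_)
    simp only [f.co_T hk.symm, map_sub, map_smul, smul_eq_mul, f.co_e, Equiv.Perm.one_apply]
    by_cases n1 : n = k
    · simp [n1, hk.symm]; ring
    · by_cases n2 : n = k'
      · simp [n2, hk]; ring
      · simp [n1, n2]
  obtain ⟨n, ε, hε, k2⟩ := f.perm u (f.star u (j := i) (l := i) (by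
    rw [ua, ← f.tr hg, ← f.tr hg, xi, x'.1]; simpa using f.he i)) m
  have k3 : co B e c m (g (e k)) = -ε * co B e c n (g (e k)) := by
    have := (f.hI u).1 (e m) (g (e k))
    rw [k2, ua] at this
    simp [LinearEquiv.coe_inv, f.co_e, hk] at this
    rw [co_apply, co_apply, ← this]; ring
  have mn : m ≠ n := by
    rintro rfl
    have : ε = -1 := mul_right_cancel₀ xm (by linear_combination k3)
    rw [ua, this] at k2
    refine f.two' hg hg' m k k' (co B e c k (g⁻¹ (e m))) (co B e c k' (g⁻¹ (e m))) ?_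
    refine smul_right_injective V f.t2 ?_
    simp only [smul_add, smul_smul]
    linear_combination (norm := module) k2
  have xn : co B e c n (g (e k)) ≠ 0 := fun w => xm (by simp [k3, w])
  have ni : n ≠ i := fun w => xn (w ▸ xi)
  have nj : n ≠ j := fun w => xn (w ▸ xj)
  obtain ⟨σ, hσ⟩ := ex_perm ![0, 1, 4, 5] ![m, n, i, j] (by decide) (by
    intro a b; fin_cases a <;> fin_cases b <;> simp [*, Ne.symm])
  have s0 : σ 0 = m := hσ 0
  have s1 : σ 1 = n := hσ 1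
  have s2 : σ 4 = i := hσ 2
  have s3 : σ 5 = j := hσ 3
  subst s0 s1 s2 s3
  obtain ⟨o, o1, o2, o3⟩ := f.two hg hg' l (σ 4) (σ 5)
  obtain ⟨o, rfl⟩ := σ.surjective o
  exact l4a (f.ss σ) f.t2 (f.pr hg σ k l) (by simp [f.sum_e hg]) (ε := -ε) (by simpa using hε) k3 xi xj yi yj
    ⟨o, fun k => o1 (k ▸ rfl), fun k => o2 (k ▸ rfl), o3⟩

theorem four {i j k : Fin 6} (hij : i ≠ j) (xi : co B e c i (g (e k)) = 0) (xj : co B e c j (g (e k)) = 0) :
    False := by
  obtain ⟨⟨k', hk, x1, -⟩, -⟩ := f.half hg hg' hij xi xj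
  have a := (f.half (inv_mem hg) (by simpa using hg') hk.symm (k := i) (f.tr hg i k ▸ xi) (f.tr hg i k' ▸ x1)).2
  simp only [← f.tr hg] at a
  obtain ⟨σ, hσ⟩ := ex_perm ![4, 5] ![i, j] (by decide) (by
    intro a b; fin_cases a <;> fin_cases b <;> simp [hij, hij.symm])
  have s2 : σ 4 = i := hσ 0
  have s3 : σ 5 = j := hσ 1
  subst s2 s3
  have s := f.sum_e hg σ k k
  have tw := f.two hg hg' k
  have nz : ∀ l, l ≠ 4 → l ≠ 5 → co B e c (σ l) (g (e k)) ≠ 0 := fun l l4 l5 z => by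
    have w : ∀ m, m ≠ l → m ≠ 4 → m ≠ 5 → 4 * (co B e c (σ m) (g (e k)) * co B e c (σ m) (g (e k))) = 1 :=
      fun m a1 a2 a3 => a _ fun z' => by
      obtain ⟨u, v, huv⟩ : ∃ u v, ∀ o, o = u ∨ o = v ∨ o = m ∨ o = l ∨ o = 4 ∨ o = 5 := by
        clear z z'; revert l m; decide
      obtain ⟨o, o1, o2, o3⟩ := tw (σ u) (σ v)
      obtain ⟨o, rfl⟩ := σ.surjective o
      rcases huv o with rfl | rfl | rfl | rfl | rfl | rfl <;> simp_all
    rw [Fin.sum_univ_six, xi, xj, if_pos rfl] at s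
    refine one_ne_zero (?_ : (1 : F) = 0)
    obtain rfl | rfl | rfl | rfl : l = 0 ∨ l = 1 ∨ l = 2 ∨ l = 3 := by clear z w; revert l; decide
    · linear_combination w 1 (by decide) (by decide) (by decide) + w 2 (by decide) (by decide) (by decide) +
        w 3 (by decide) (by decide) (by decide) - 4 * s + 4 * co B e c (σ 0) (g (e k)) * z
    · linear_combination w 0 (by decide) (by decide) (by decide) + w 2 (by decide) (by decide) (by decide) +
        w 3 (by decide) (by decide) (by decide) - 4 * s + 4 * co B e c (σ 1) (g (e k)) * z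
    · linear_combination w 1 (by decide) (by decide) (by decide) + w 0 (by decide) (by decide) (by decide) +
        w 3 (by decide) (by decide) (by decide) - 4 * s + 4 * co B e c (σ 2) (g (e k)) * z
    · linear_combination w 1 (by decide) (by decide) (by decide) + w 2 (by decide) (by decide) (by decide) +
        w 0 (by decide) (by decide) (by decide) - 4 * s + 4 * co B e c (σ 3) (g (e k)) * z
  obtain ⟨l, hl, y⟩ := f.col hg hg' (σ 4) k
  obtain ⟨o, o1, o2, o3⟩ := f.two hg hg' l (σ 4) (σ 5)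
  obtain ⟨o, rfl⟩ := σ.surjective o
  exact l4 (f.ss σ) f.t2 (f.pr hg σ k l) (by simp [f.sum_e hg]) (by simp [f.sum_e hg, hl.symm])
    (a _ (nz 0 (by decide) (by decide))) (a _ (nz 1 (by decide) (by decide)))
    (a _ (nz 2 (by decide) (by decide))) (a _ (nz 3 (by decide) (by decide))) xi xj y
    ⟨o, fun k => o1 (k ▸ rfl), fun k => o2 (k ▸ rfl), o3⟩

omit hg' in
theorem emb {i j : Fin 6} (hij : i ≠ j) (m : g * T h e i j * g⁻¹ ∈ dstab D) : g ∈ dstab D := by
  by_contra hg'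
  obtain ⟨a, -, -, x, -⟩ := f.zz (inv_mem hg) hij (by simpa using m)
  exact f.four (inv_mem hg) (by simpa using hg') hij x.1 x.2

end Fr

end Cfsg.Agent.H26.L4
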