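import Cfsg.Agent.H26.L4e

/-!
The stabiliser of an orthogonal frame in dimension six over a prime field is maximal.
-/

set_option autoImplicit false
set_option linter.unusedSectionVars false

namespace Cfsg.Agent.H26.L4

open Module H10 H11 H11.Im Cfsg.Geo

theorem dih {G : Type*} [Group G] [Finite G] {M : Subgroup G} {a b : G} (ha : a ∈ M)
    (hb : b ∈ M) (a2 : a * a = 1) (b2 : b * b = 1) :
    (Odd (orderOf (a * b)) ∧ ∃ m ∈ M, m * a * m⁻¹ * a * (m * a * m⁻¹)⁻¹ = b) ∨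
      ∃ w ∈ M, w ≠ 1 ∧ w * a = a * w ∧ w * b = b * w ∧ ∃ m ∈ M, w * a = m * a * m⁻¹ ∨ w * a = m * b * m⁻¹ := by
  obtain ⟨c, hc⟩ : ∃ c, c = a * b := ⟨_, rfl⟩
  have cM : c ∈ M := hc ▸ mul_mem ha hb
  have ai : a⁻¹ = a := inv_eq_of_mul_eq_one_right a2
  have bi : b⁻¹ = b := inv_eq_of_mul_eq_one_right b2
  have k : ∀ x, x * c * x⁻¹ = c⁻¹ → ∀ j : ℕ, x * (c ^ j)⁻¹ = c ^ j * x := fun x hx j => by
    have : x * c⁻¹ * x⁻¹ = c := by rw [← inv_inj]; nth_rewrite 2 [← hx]; group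
    rw [← inv_pow, ← mul_inv_eq_iff_eq_mul, ← conj_pow, this]
  have ka := k a (by rw [hc, mul_inv_rev, ai, bi, ← mul_assoc, a2, one_mul])
  have kb := k b (by rw [hc, mul_inv_rev, ai, bi, mul_assoc, mul_assoc, b2, mul_one])
  have ea : ∀ j : ℕ, c ^ j * a * (c ^ j)⁻¹ = c ^ (j + j) * a := fun j => by
    rw [mul_assoc, ka, ← mul_assoc, pow_add]
  have eb : ∀ j : ℕ, c ^ j * b * (c ^ j)⁻¹ = c ^ (j + j) * b := fun j => by
    rw [mul_assoc, kb, ← mul_assoc, pow_add]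
  have cb : c * b = a := by rw [hc, mul_assoc, b2, mul_one]
  have o := pow_orderOf_eq_one c
  have o0 := orderOf_pos c
  rcases Nat.even_or_odd' (orderOf c) with ⟨m, e | e⟩
  · have w2 : c ^ m * c ^ m = 1 := by rw [← pow_add, ← two_mul, ← e, o]
    have wi : (c ^ m)⁻¹ = c ^ m := inv_eq_of_mul_eq_one_right w2
    refine Or.inr ⟨c ^ m, pow_mem cM m, pow_ne_one_of_lt_orderOf (by omega) (by omega),
      by rw [← ka, wi], by rw [← kb, wi], ?_⟩
    rcases Nat.even_or_odd' m with ⟨j, rfl | rfl⟩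
    · exact ⟨_, pow_mem cM j, Or.inl (by rw [ea, two_mul])⟩
    · refine ⟨_, pow_mem cM (j + 1), Or.inr ?_⟩
      rw [eb, ← cb, ← mul_assoc, ← pow_succ]; congr 2; ring
  · refine Or.inl ⟨hc ▸ ⟨m, e⟩, _, pow_mem cM (m * (m + 1)), ?_⟩
    rw [ea, show m * (m + 1) + m * (m + 1) = (2 * m + 1) * m + m by ring, pow_add, pow_mul, ← e, o, one_pow,
      one_mul, mul_inv_rev, ← mul_assoc, mul_inv_cancel_right, ea, ← cb, ← mul_assoc, ← pow_succ, ← two_mul,
      ← e, o, one_mul]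

variable {F : Type*} [Field F] {V : Type*} [AddCommGroup V] [Module F V] [FiniteDimensional F V]
  {D : Fin 6 → Submodule F V} {p : Fin 6 → V →ₗ[F] V}
  {B : V →ₗ[F] V →ₗ[F] F} {Q : V → F} [Fintype F]
  {h : Cl (σ := RingHom.id F) 1 2 (AddMonoidHom.id F) B Q} {e : Fin 6 → V} {c : F}
  {N : Subgroup (V ≃ₗ[F] V)} (f : Fr h D p e c N)

/-- `x` induces the permutation `π` of the frame. -/
def Pm (D : Fin 6 → Submodule F V) (x : V ≃ₗ[F] V) (π : Equiv.Perm (Fin 6)) : Prop :=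
  ∀ i, ∀ v ∈ D i, x v ∈ D (π i)

theorem Pm.mul {x y : V ≃ₗ[F] V} {π ρ : Equiv.Perm (Fin 6)} (a : Pm D x π) (b : Pm D y ρ) :
    Pm D (x * y) (π * ρ) := fun i v hv => a _ _ (b i v hv)

include f

namespace Fr

theorem pm_one {π : Equiv.Perm (Fin 6)} (a : Pm D 1 π) : π = 1 := Equiv.ext fun i => by
  by_contra k
  have := f.d.orth _ _ k _ (a i _ (f.he i)) _ (f.he i)
  simp [Bee (h := h) f.d f.h1 f.he f.c0 f.ec f.t2, f.t2, f.c0] at this

theorem conj_T {k : V ≃ₗ[F] V} (hk : k ∈ N) {π : Equiv.Perm (Fin 6)} (a : Pm D k π) (i j : Fin 6) :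
    k * T h e i j * k⁻¹ = T h e (π i) (π j) := by
  have : ∀ i, k * r h (e i) * k⁻¹ = r h (e (π i)) := fun i => by
    obtain ⟨ε, x, y⟩ := f.sgn hk (a i _ (f.he i))
    have hQ : IsQuad B Q := h.form
    rw [conj_r h (f.hI hk), y]
    ext v
    rw [r_apply, r_apply, hQ.smul', x, one_mul, map_smul, LinearMap.smul_apply, smul_smul, smul_eq_mul,
      mul_assoc, mul_right_comm ε, x, one_mul]
  rw [T, T, ← this, ← this]; group

theorem T_inj {a b i j : Fin 6} (hab : a ≠ b) (hij : i ≠ j) (k : T h e a b = T h e i j) :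
    a = i ∧ b = j ∨ a = j ∧ b = i := by
  have : ∀ l, (a ≠ l ∧ b ≠ l) ↔ (i ≠ l ∧ j ≠ l) := fun l => by
    simpa [f.co_e, k, f.T_fix hij] using (f.T_fix hab (v := e l)).symm
  have x := this a
  have y := this b
  omega

theorem TT {a b i j : Fin 6} (hab : a ≠ b) (hij : i ≠ j) : T h e a b * T h e i j = 1 ∨ ∃ x y, x ≠ y ∧
    ∀ k, k * (T h e a b * T h e i j) * k⁻¹ ∈ dstab D → k * T h e x y * k⁻¹ ∈ dstab D := by
  rcases sd a b i j hab hij with k | ⟨x, y, hxy, k | k⟩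
  · refine Or.inl (LinearEquiv.ext fun v => f.ext 1 fun l => ?_)
    simp only [LinearEquiv.mul_apply, f.co_T hab, f.co_T hij, k]
    split_ifs <;> simp
  · refine Or.inr ⟨x, y, hxy, fun g hg => ?_⟩
    convert hg using 3
    refine LinearEquiv.ext fun v => f.ext 1 fun l => ?_
    have := k l
    simp only [LinearEquiv.mul_apply, f.co_T hab, f.co_T hij, f.co_T hxy, Equiv.Perm.one_apply]
    split_ifs <;> simp_all
  · refine Or.inr ⟨x, y, hxy, fun g hg => ?_⟩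
    convert mul_mem (perm_dstab f.d (g := LinearEquiv.neg F) (π := 1) fun i v hv => (D i).neg_mem hv) hg using 1
    refine LinearEquiv.ext fun v => ?_
    simp only [LinearEquiv.mul_apply, LinearEquiv.neg_apply, ← map_neg g]
    refine congrArg g (f.ext 1 fun l => ?_)
    have := k l
    simp only [map_neg, f.co_T hab, f.co_T hij, f.co_T hxy, Equiv.Perm.one_apply]
    split_ifs <;> simp_all

theorem sq_T (n : V ≃ₗ[F] V) {i j : Fin 6} (hij : i ≠ j) :
    n * T h e i j * n⁻¹ * (n * T h e i j * n⁻¹) = 1 := by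
  rw [show ∀ x : V ≃ₗ[F] V, n * x * n⁻¹ * (n * x * n⁻¹) = n * (x * x) * n⁻¹ from fun x => by group,
    f.T_T hij]; simp

theorem odd {n n' : V ≃ₗ[F] V} (hn : n ∈ N) (hn' : n' ∈ N) {i j i' j' : Fin 6} (hij : i ≠ j) (hij' : i' ≠ j')
    (o : n'⁻¹ * n ∉ dstab D) : Odd (orderOf (n * T h e i j * n⁻¹ * (n' * T h e i' j' * n'⁻¹))) ∧ ∃ m ∈ N,
      m * (n * T h e i j * n⁻¹) * m⁻¹ * (n * T h e i j * n⁻¹) * (m * (n * T h e i j * n⁻¹) * m⁻¹)⁻¹ =
        n' * T h e i' j' * n'⁻¹ := by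
  have := Module.finite_of_finite F (M := V)
  have : Finite (V ≃ₗ[F] V) := Finite.of_injective _ DFunLike.coe_injective
  refine (dih (mul_mem (mul_mem hn (f.T_N i j)) (inv_mem hn)) (mul_mem (mul_mem hn' (f.T_N i' j')) (inv_mem hn'))
    (f.sq_T n hij) (f.sq_T n' hij')).resolve_right fun ⟨w, hw, w1, wa, wb, m, hm, x⟩ => ?_
  have k : ∀ n ∈ N, ∀ i j, i ≠ j → w * (n * T h e i j * n⁻¹) = n * T h e i j * n⁻¹ * w →
      n⁻¹ * w * n ∈ dstab D := fun n hn i j hij x => f.emb (mul_mem (mul_mem (inv_mem hn) hw) hn) hij (by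
    convert f.T_H i j using 1
    rw [show n⁻¹ * w * n * T h e i j * (n⁻¹ * w * n)⁻¹ = n⁻¹ * (w * (n * T h e i j * n⁻¹)) * w⁻¹ * n by group, x]
    group)
  obtain ⟨k', hk, a, b, hab, y⟩ : ∃ k ∈ N, ∃ a b, a ≠ b ∧ w * (n * T h e i j * n⁻¹) = k * T h e a b * k⁻¹ := by
    rcases x with x | x
    · exact ⟨_, mul_mem hm hn, i, j, hij, by rw [x]; group⟩
    · exact ⟨_, mul_mem hm hn', i', j', hij', by rw [x]; group⟩
  have z : n⁻¹ * k' * T h e a b * (n⁻¹ * k')⁻¹ = n⁻¹ * w * n * T h e i j := by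
    rw [show n⁻¹ * k' * T h e a b * (n⁻¹ * k')⁻¹ = n⁻¹ * (k' * T h e a b * k'⁻¹) * n by group, ← y]; group
  have nk := mul_mem (inv_mem hn) hk
  obtain ⟨π, hπ⟩ := dstab_perm (f.emb nk hab (z ▸ mul_mem (k n hn i j hij wa) (f.T_H i j)))
  rw [f.conj_T nk hπ] at z
  have z' : T h e (π a) (π b) * T h e i j = n⁻¹ * w * n := by rw [z, mul_assoc, f.T_T hij, mul_one]
  rcases f.TT (π.injective.ne hab) hij with u | ⟨x, y, hxy, u⟩
  · rw [z', mul_assoc, inv_mul_eq_one, eq_comm, mul_eq_right] at u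
    exact w1 u
  · refine o (f.emb (mul_mem (inv_mem hn') hn) hxy (u _ ?_))
    convert k n' hn' i' j' hij' wb using 1
    rw [z']; group

end Fr

/-- Involutions interchanging two frames. -/
def Sw (h : Cl (σ := RingHom.id F) 1 2 (AddMonoidHom.id F) B Q) (D : Fin 6 → Submodule F V) (e : Fin 6 → V)
    (N : Subgroup (V ≃ₗ[F] V)) (g u : V ≃ₗ[F] V) : Prop :=
  g⁻¹ * u ∈ dstab D ∧ ∃ n ∈ N, ∃ i j, i ≠ j ∧ u = n * T h e i j * n⁻¹

namespace Fr

variable {g u u' w : V ≃ₗ[F] V}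

theorem sw_N (a : Sw h D e N g u) : u ∈ N := by
  obtain ⟨-, n, hn, i, j, -, rfl⟩ := a
  exact mul_mem (mul_mem hn (f.T_N i j)) (inv_mem hn)

theorem sw_sq (a : Sw h D e N g u) : u * u = 1 := by
  obtain ⟨-, n, hn, i, j, hij, rfl⟩ := a
  exact f.sq_T n hij

theorem sw_H (a : Sw h D e N g u) (b : Sw h D e N g u') : u * u' ∈ dstab D := by
  have := mul_mem (inv_mem a.1) b.1
  rwa [mul_inv_rev, inv_inv, mul_assoc, mul_inv_cancel_left, inv_eq_of_mul_eq_one_right (f.sw_sq a)] at this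

theorem sw_conj (a : Sw h D e N g u) (b : Sw h D e N g u') : Sw h D e N g (u * u' * u) := by
  refine ⟨by simpa [mul_assoc] using mul_mem a.1 (f.sw_H b a), ?_⟩
  obtain ⟨-, n, hn, i, j, hij, rfl⟩ := b
  refine ⟨_, mul_mem (f.sw_N a) hn, i, j, hij, ?_⟩
  rw [mul_inv_rev, inv_eq_of_mul_eq_one_right (f.sw_sq a)]; group

variable (hg' : g ∉ dstab D)
include hg'

theorem sw_cube (a : Sw h D e N g u) (b : Sw h D e N g u') {π : Equiv.Perm (Fin 6)} (hπ : Pm D (u * u') π)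
    (l : Fin 6) : π (π (π l)) = l := by
  classical
  have hQ : IsQuad B Q := h.form
  have uH : u ∉ dstab D := fun k => hg' (by simpa using mul_mem k (inv_mem a.1))
  have uN := f.sw_N a
  have xN := mul_mem uN (f.sw_N b)
  have xH := f.sw_H a b
  obtain ⟨-, n, hn, i, j, hij, rfl⟩ := a
  obtain ⟨-, n', hn', i', j', hij', rfl⟩ := b
  by_cases o : n⁻¹ * n' ∈ dstab D
  · obtain ⟨ρ, hρ⟩ := dstab_perm o
    have z := f.conj_T (mul_mem (inv_mem hn) hn') hρ i' j'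
    have z' : n * T h e i j * n⁻¹ * (n' * T h e i' j' * n'⁻¹) = n * (T h e i j * T h e (ρ i') (ρ j')) * n⁻¹ := by
      rw [← z]; group
    rw [z'] at hπ xH
    rcases f.TT hij (ρ.injective.ne hij') with k | ⟨x, y, hxy, k⟩
    · simp [f.pm_one (π := π) (by simpa [k] using hπ)]
    · have := f.emb hn hxy (k _ xH)
      exact absurd (mul_mem (mul_mem this (f.T_H i j)) (inv_mem this)) uH
  have od := (f.odd hn hn' hij hij' fun k => o (by simpa using inv_mem k)).1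
  obtain ⟨v, v0, hv⟩ : ∃ v, v ≠ 0 ∧ ∀ s, B (![n (e i), n (e j), n' (e i'), n' (e j'), e l] s) v = 0 := by
    have := LinearMap.ker_ne_bot_of_finrank_lt
      (f := LinearMap.pi fun s => B (![n (e i), n (e j), n' (e i'), n' (e j'), e l] s)) (by
        have := Nat.mul_le_mul_left 6 (Submodule.one_le_finrank_iff.mpr (f.d.ne 0))
        rw [← finrank_eq_mul f.d] at this
        simp; omega)
    obtain ⟨v, a, b⟩ := (Submodule.ne_bot_iff _).1 this
    exact ⟨v, b, fun s => congrFun a s⟩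
  have fx : ∀ n ∈ N, ∀ i j, i ≠ j → B (n (e i)) v = 0 → B (n (e j)) v = 0 → (n * T h e i j * n⁻¹) v = v :=
    fun n hn i j hij a b => by
    obtain ⟨v, rfl⟩ := n.surjective v
    rw [(f.hI hn).1] at a b
    simp [LinearEquiv.coe_inv, (f.T_fix hij (v := v)).2 ⟨by simp [co_apply, a], by simp [co_apply, b]⟩]
  have f1 := fx n hn i j hij (hv 0) (hv 1)
  have f2 := fx n' hn' i' j' hij' (hv 2) (hv 3)
  have f3 := hv 4
  generalize n * T h e i j * n⁻¹ = u at *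
  generalize n' * T h e i' j' * n'⁻¹ = u' at *
  have pw : ∀ m : ℕ, Pm D ((u * u') ^ m) (π ^ m) := fun m => by
    induction m with
    | zero => exact fun _ _ k => k
    | succ m ih => simpa only [pow_succ] using ih.mul hπ
  refine cube π od (f.pm_one (by simpa using pw (orderOf (u * u')))) l (sp B e v)ᶜ ?_
    (by simpa [mem_sp] using f3) fun m hm => ?_
  · have := two_le_sp (h := h) f.d f.h1 f.he f.c0 f.ec f.t2 (v := v) (fun m hm => uH ?_) (by omega)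
    · rw [Finset.card_compl]; simp; omega
    obtain ⟨s, hs⟩ := line_mem f.d (f.h1 m) hm v0 (f.he m)
    exact f.star uN (j := m) (l := m) (by rw [← hs, map_smul, f1]; exact (D m).smul_mem _ hm)
  · obtain ⟨ε, x, y⟩ := f.sgn xN (hπ m _ (f.he m))
    have := (f.hI xN).1 (e m) v
    simp only [Finset.mem_compl, mem_sp, not_not] at hm ⊢
    rw [y, LinearEquiv.mul_apply, f2, f1, hm, map_smul, LinearMap.smul_apply, smul_eq_zero] at this
    exact this.resolve_left fun k => by simp [k] at x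

theorem sw_two (a : Sw h D e N g u) (b : Sw h D e N g u') (z : Sw h D e N g w) {π ρ : Equiv.Perm (Fin 6)}
    (hπ : Pm D (u * w) π) (hρ : Pm D (u' * w) ρ) : (∀ l, π (ρ (π (ρ (π (ρ l))))) = l) ∧
      ∀ l, π (π (ρ (π (π (ρ (π (π (ρ l)))))))) = l := by
  refine ⟨f.sw_cube hg' a (f.sw_conj z b) (π := π * ρ) (by simpa only [mul_assoc] using hπ.mul hρ), ?_⟩
  obtain ⟨π', h'⟩ := dstab_perm (f.sw_H z a)
  have k := f.pm_one (π := π' * π) (by
    have := Pm.mul h' hπ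
    rwa [mul_assoc, ← mul_assoc u, f.sw_sq a, one_mul, f.sw_sq z] at this)
  have k' : π' = π * π := by
    rw [eq_inv_of_mul_eq_one_left k, inv_eq_iff_mul_eq_one]
    exact Equiv.ext (f.sw_cube hg' a z hπ)
  refine f.sw_cube hg' (f.sw_conj z a) (f.sw_conj z b) (π := π * π * ρ) ?_
  convert Pm.mul (k' ▸ h') hρ using 1
  simp only [mul_assoc, ← mul_assoc w w, f.sw_sq z, one_mul]

theorem false (hg : g ∈ N) : False := by
  have ex : ∀ i j, i ≠ j → ∃ u, Sw h D e N g u ∧ u * T h e i j * u⁻¹ = g * T h e 0 1 * g⁻¹ := fun i j hij => by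
    obtain ⟨-, m, hm, k⟩ := f.odd (one_mem _) hg hij (show (0 : Fin 6) ≠ 1 by decide) (by simpa using hg')
    simp only [one_mul, inv_one, mul_one] at k
    refine ⟨_, ⟨f.emb (mul_mem (inv_mem hg) (mul_mem (mul_mem hm (f.T_N i j)) (inv_mem hm))) hij ?_,
      m, hm, i, j, hij, rfl⟩, k⟩
    convert f.T_H 0 1 using 1
    rw [mul_inv_rev, inv_inv, mul_assoc g⁻¹, mul_assoc g⁻¹, ← mul_assoc _ _ g, k]; group
  obtain ⟨w, z, hw⟩ := ex 0 1 (by decide)
  have ex' : ∀ i j, i ≠ j → ∃ u, Sw h D e N g u ∧ ∃ π, Pm D (u * w) π ∧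
      (π 0 = i ∧ π 1 = j ∨ π 0 = j ∧ π 1 = i) := fun i j hij => by
    obtain ⟨u, a, b⟩ := ex i j hij
    obtain ⟨π, hπ⟩ := dstab_perm (f.sw_H a z)
    refine ⟨u, a, π, hπ, f.T_inj (π.injective.ne (by decide)) hij ?_⟩
    rw [← f.conj_T (mul_mem (f.sw_N a) (f.sw_N z)) hπ, mul_inv_rev, mul_assoc u, mul_assoc u, ← mul_assoc _ w⁻¹,
      hw, ← b, inv_eq_of_mul_eq_one_right (f.sw_sq a)]
    simp only [mul_assoc, ← mul_assoc u u, f.sw_sq a, mul_one, one_mul]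
  obtain ⟨u1, a1, x, b1, c1⟩ := ex' 2 3 (by decide)
  obtain ⟨u2, a2, y, b2, c2⟩ := ex' 2 4 (by decide)
  obtain ⟨u3, a3, z', b3, c3⟩ := ex' 3 4 (by decide)
  exact fin_xy x y z' (f.sw_cube hg' a1 z b1) (f.sw_cube hg' a2 z b2) (f.sw_cube hg' a3 z b3)
    (f.sw_two hg' a1 a2 z b1 b2).1 (f.sw_two hg' a1 a2 z b1 b2).2
    (f.sw_two hg' a1 a3 z b1 b3).1 (f.sw_two hg' a1 a3 z b1 b3).2 c1 c2 c3

end Fr

omit f in
theorem max_frame6 (d : Dec B Q D p) (h1 : ∀ i, finrank F (D i) ≤ 1) (t2 : (2 : F) ≠ 0)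
    (hp : (Fintype.card F).Prime) : IsMaximalIn h.Om (dstab D ⊓ h.Om) := by
  have hQ : IsQuad B Q := h.form
  have ns : ∀ i, ∀ x ∈ D i, x ≠ 0 → Q x ≠ 0 := fun i x hx x0 c => x0 (d.nd i x hx fun y hy => by
    obtain ⟨s, rfl⟩ := line_mem d (h1 i) hx x0 hy
    simp [h.diag0 c])
  obtain ⟨v, hv, v0⟩ := (Submodule.ne_bot_iff _).mp (d.ne 0)
  choose e he ec _ using exists_val h d hv
  have c0 := ns _ v hv v0
  have hn : 5 ≤ finrank F V := by
    have := Nat.mul_le_mul_left 6 (Submodule.one_le_finrank_iff.mpr (d.ne 0))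
    rw [← finrank_eq_mul d] at this; omega
  refine max_of d h hn (by omega) fun M hO hM g hg hg' => ?_
  by_contra hc
  exact Fr.false ⟨d, h1, he, c0, ec, t2, hn, hO, hM.trans h.om_le_isom,
    fun hx _ _ hl => star6 d h1 he c0 ec t2 hn hO hp rfl hM hc hx hl⟩ hg' hg

end Cfsg.Agent.H26.L4
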