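import Cfsg.Agent.H26.S4d
import Cfsg.Agent.S3762

/-!
Normalisers of extraspecial groups of order thirty-two in the four-dimensional symplectic group.
-/

set_option autoImplicit false
set_option linter.unusedSectionVars false

namespace Cfsg.Agent.H26.S4

open Module H10 H11 H11.Im Cfsg.Geo Matrix
open scoped commutatorElement

theorem comm_central {G : Type*} [Group G] [Finite G] (hG : IsPGroup 2 G)
    (hs : ∀ A : Subgroup G, A.Characteristic → IsMulCommutative A → IsCyclic A)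
    (hexp : Monoid.exponent G = 4) (x y : G) : ⁅x, y⁆ ∈ Subgroup.center G := by
  obtain ⟨E, R, hc, top, hE, hR⟩ := S3762.result hG hs
  have ord : ∀ r : R, orderOf r ≤ 4 := fun r => Nat.le_of_dvd (by omega) (by
    rw [← hexp, ← Subgroup.orderOf_coe]; exact Monoid.order_dvd_exponent _)
  have cyc : IsCyclic R := by
    refine hR.resolve_right ?_
    rintro ⟨-, h16, ⟨m, ⟨φ⟩⟩ | ⟨m, ⟨φ⟩⟩ | ⟨n, hn, -, x, -, hx, -⟩⟩
    · have := ord (φ.symm (.r 1))
      rw [MulEquiv.orderOf_eq, DihedralGroup.orderOf_r_one] at this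
      rw [Nat.card_congr φ.toEquiv, DihedralGroup.nat_card] at h16
      omega
    · have := ord (φ.symm (.a 1))
      rw [MulEquiv.orderOf_eq, QuaternionGroup.orderOf_a_one] at this
      rcases eq_zero_or_neZero m with rfl | hm
      · have := Finite.of_equiv _ φ.toEquiv
        have := orderOf_pos (QuaternionGroup.a 1 : QuaternionGroup 0)
        simp [QuaternionGroup.orderOf_a_one] at this
      · rw [Nat.card_congr φ.toEquiv, Nat.card_eq_fintype_card, QuaternionGroup.card] at h16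
        omega
    · have := ord x
      have := Nat.pow_le_pow_right (show 0 < 2 by omega) hn
      omega
  have cen : ∀ z, (∀ e ∈ E, e * z = z * e) → (∀ r ∈ R, r * z = z * r) → z ∈ Subgroup.center G :=
    fun z a b => Subgroup.mem_center_iff.2 fun g => (Subgroup.mem_centralizer_singleton_iff.1
      ((sup_le (fun e he => Subgroup.mem_centralizer_singleton_iff.2 (a e he))
        fun r hr => Subgroup.mem_centralizer_singleton_iff.2 (b r hr) : E ⊔ R ≤ _) (top ▸ trivial)))
  have hZ : R ≤ Subgroup.center G := fun r hr => cen r (fun e he => hc e he r hr) fun s hs =>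
    congrArg Subtype.val (cyc.isMulCommutative.is_comm.comm (⟨s, hs⟩ : R) ⟨r, hr⟩)
  have dec : ∀ g : G, ∃ e ∈ E, ∃ z ∈ Subgroup.center G, e * z = g := fun g => by
    have : g ∈ ((E ⊔ Subgroup.center G : Subgroup G) : Set G) :=
      (sup_le_sup_left hZ E) (top ▸ trivial)
    rwa [Subgroup.mul_normal] at this
  obtain ⟨e, he, z, hz, rfl⟩ := dec x
  obtain ⟨e', he', z', hz', rfl⟩ := dec y
  have : ⁅e * z, e' * z'⁆ = ⁅e, e'⁆ := by
    have a := Subgroup.mem_center_iff.1 hz
    have b := Subgroup.mem_center_iff.1 hz'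
    rw [commutatorElement_def, commutatorElement_def, mul_assoc e z, ← a, ← mul_assoc, _root_.mul_inv_rev,
      mul_assoc _ z, mul_inv_cancel_left, ← mul_assoc e, mul_assoc _ z', ← b, _root_.mul_inv_rev]
    group
  rw [this]
  rcases hE with rfl | hE
  · rw [Subgroup.mem_bot.1 he]; simp
  · have k : (⁅(⟨e, he⟩ : E), ⟨e', he'⟩⁆ : E) ∈ Subgroup.center E :=
      hE.1.2.2 ▸ Subgroup.commutator_mem_commutator trivial trivial
    exact cen _ (fun f hf => congrArg Subtype.val (Subgroup.mem_center_iff.1 k ⟨f, hf⟩))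
      fun r hr => (hc _ (⁅(⟨e, he⟩ : E), ⟨e', he'⟩⁆ : E).2 r hr).symm

variable {F : Type*} [Field F]

local notation "𝐈" => Fin 2 ⊕ Fin 2
local notation "𝐖" => Unit ⊕ (Fin 2 ⊕ Fin 2) → F
local notation "𝐉" => Matrix.J (Fin 2) F
local notation "𝐁" => bOdd 2 F
local notation "𝐐" => quadFormOdd 2 F

theorem trace_adj {X Y : Matrix 𝐈 𝐈 F} (hd : Xᵀ * 𝐉 = 𝐉 * Y) : X.trace = Y.trace := by
  have := congrArg (fun z => (z * 𝐉).trace) hd
  simp only [mul_assoc, J_squared, trace_neg, mul_neg, mul_one, trace_transpose] at this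
  rwa [← mul_assoc, trace_mul_cycle, J_squared, neg_mul, one_mul, trace_neg, neg_inj] at this

theorem trace_tt (u w : 𝐖) : (tt F u * tt F w).trace = 2 * 𝐁 u w := by
  simp [tt_apply, fromBlocks_multiply, trace, Fintype.sum_sum_type, bOdd_apply]; ring

theorem J_ne : 𝐉 ≠ 0 := fun k => by simpa [k] using J_squared (Fin 2) F

theorem sp_scalar {z : GL 𝐈 F} (hz : z ∈ spGL 2 F) (hs : z ∈ scalars _ F) :
    ∃ ε : F, ε * ε = 1 ∧ z.1 = ε • 1 := by
  obtain ⟨c, hc⟩ := (mem_scalars_iff z).1 hs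
  have := (mem_sp' z).1 hz
  rw [hc, transpose_smul, transpose_one, smul_mul_assoc, mul_smul_comm, one_mul, mul_one, smul_smul,
    ← sub_eq_zero] at this
  nth_rewrite 2 [← one_smul F 𝐉] at this
  rw [← sub_smul, smul_eq_zero] at this
  exact ⟨c, sub_eq_zero.mp (this.resolve_right J_ne), hc⟩

variable [Fintype F] (hodd : Odd (Fintype.card F))
include hodd

theorem sp4_es (hp : (Fintype.card F).Prime) (R : Subgroup (GL 𝐈 F)) (hs : IsSymplecticTypeGroup 2 R)
    (habs : ActsAbsolutelyIrreducibly (matrixSet R)) (hR : R ≤ spGL 2 F) (h32 : Nat.card R = 32)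
    (hz : Nat.card (Subgroup.center R) = 2) : IsMaximalIn (spGL 2 F) (subgroupNormalizer R ⊓ spGL 2 F) := by
  classical
  have t2 := two_ne_zero_of_odd_card hodd
  have hQ := isQuad_odd 2 F
  have h := clQuad hQ (bOdd_sep 2 t2)
  have hN := spanAlg_eq_top_of_absIrr habs
  have hc : ∀ x ∈ R, ∀ y ∈ R, ∃ z ∈ scalars 𝐈 F, y * x = z * (x * y) := fun x hx y hy => by
    have := comm_central hs.2 hs.3 hs.4 (⟨y, hy⟩ : R) ⟨x, hx⟩
    rw [center_eq_scalars hN] at this
    exact ⟨_, this, by simp [commutatorElement_def]⟩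
  have cm : ∀ x ∈ R, ∀ y ∈ R, ∃ ε : F, ε * ε = 1 ∧ y.1 * x.1 = ε • (x.1 * y.1) := fun x hx y hy => by
    obtain ⟨z, z1, z2⟩ := hc x hx y hy
    obtain ⟨ε, e, k⟩ := sp_scalar (hR (by
      rw [← mul_inv_eq_iff_eq_mul.2 z2]; exact mul_mem (mul_mem hy hx) (inv_mem (mul_mem hx hy)))) z1
    exact ⟨ε, e, by simpa [k] using congrArg Units.val z2⟩
  have sq : ∀ x ∈ R, ∃ ε : F, ε * ε = 1 ∧ x.1 * x.1 = ε • 1 := fun x hx =>
    sp_scalar (hR (mul_mem hx hx)) (mem_scalars_of_comm hN fun y hy => Units.ext (by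
      obtain ⟨ε, e, k⟩ := cm x hx y hy
      simp only [Units.val_mul]
      rw [← mul_assoc, k, smul_mul_assoc, mul_assoc, k, mul_smul_comm, smul_smul, e, one_smul, mul_assoc]))
  have tr := fun x => trace_eq_zero_of_comm hN hc (x := x)
  obtain ⟨z, hzR, z1⟩ : ∃ z ∈ R, z.1 = -1 := by
    have : Nontrivial (Subgroup.center R) := Finite.one_lt_card_iff_nontrivial.1 (by omega)
    obtain ⟨⟨z, a⟩, b⟩ := exists_ne (1 : Subgroup.center R)
    obtain ⟨ε, e, k⟩ := sp_scalar (hR z.2) (center_eq_scalars hN ▸ a :)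
    rcases mul_self_eq_one_iff.mp e with rfl | rfl
    · exact absurd (Subtype.ext (Subtype.ext (Units.ext (by simpa using k)))) b
    · exact ⟨z, z.2, by simpa using k⟩
  obtain ⟨S, hS⟩ : ∃ S : Set 𝐖, ∀ e, e ∈ S ↔ ∃ x ∈ R, x.1 = tt F e := ⟨{e | _}, fun _ => Iff.rfl⟩
  have q1 : ∀ e ∈ S, 𝐐 e = 1 := fun e he => by
    obtain ⟨x, hx, k⟩ := (hS e).1 he
    have := (mem_sp' x).1 (hR hx)
    rw [k, tt_adj, mul_assoc, tt_sq, mul_smul_comm, mul_one, ← sub_eq_zero] at this
    nth_rewrite 2 [← one_smul F 𝐉] at this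
    rw [← sub_smul, smul_eq_zero] at this
    exact sub_eq_zero.mp (this.resolve_right J_ne)
  have orth : ∀ e ∈ S, ∀ e' ∈ S, 𝐁 e e' = 0 ∨ e' ∈ Submodule.span F {e} := fun e he e' he' => by
    obtain ⟨x, hx, k⟩ := (hS e).1 he
    obtain ⟨y, hy, k'⟩ := (hS e').1 he'
    obtain ⟨ε, a, b⟩ := cm x hx y hy
    have c := tt_mul e e'
    rw [k, k'] at b
    rw [b] at c
    rcases mul_self_eq_one_iff.mp a with rfl | rfl
    · have := congrArg (tt F e * ·) c
      simp only [mul_sub, one_smul, ← mul_assoc, tt_sq, q1 e he, one_mul, mul_smul_comm, mul_one] at this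
      refine Or.inr (Submodule.mem_span_singleton.2 ⟨𝐁 e e' / 2, tt_inj (smul_right_injective _ t2 ?_)⟩)
      simp only [map_smul, smul_smul, mul_div_cancel₀ _ t2, two_smul]
      exact (eq_sub_iff_add_eq.1 this).symm
    · exact Or.inl (by simpa using c)
  have top : Submodule.span F S = ⊤ := by
    by_contra k
    obtain ⟨u, hu⟩ : ∃ u, u ∉ Submodule.span F S := by
      by_contra k'; push Not at k'; exact k (eq_top_iff.2 fun u _ => k' u)
    obtain ⟨w, a, b⟩ := h.form.exists_perp_not h.sep hu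
    have := spanAlg_induction (N := R) (p := fun X => (X * tt F w).trace = 0) (fun x hx => ?_) (by simp)
      (fun X Y a b => by simp [add_mul, a, b]) (fun c X a => by simp [a]) (hN.ge (Algebra.mem_top (x := tt F u)))
    · simp [trace_tt, b, t2] at this
    by_cases xs : x ∈ scalars 𝐈 F
    · obtain ⟨c, hc⟩ := (mem_scalars_iff x).1 xs
      simp [hc, tt_trace]
    obtain ⟨ε, e, k⟩ := sq x hx
    have k1 : x.1ᵀ * 𝐉 = ε • (𝐉 * x.1) := by
      rw [← (mem_sp' x).1 (hR hx), mul_assoc _ x.1, k, (mem_sp' x).1 (hR hx)]; simp [smul_smul, e]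
    rcases mul_self_eq_one_iff.mp e with rfl | rfl
    · obtain ⟨v, hv⟩ := exists_tt t2 (by simpa using k1) (tr x hx xs)
      rw [← hv, trace_tt, a v (Submodule.subset_span ((hS v).2 ⟨x, hx, hv.symm⟩)), mul_zero]
    · have := trace_adj (X := x.1 * tt F w) (Y := -(tt F w * x.1)) (by
        rw [transpose_mul, mul_assoc, k1, mul_smul_comm, ← mul_assoc, tt_adj]; simp [mul_assoc])
      rw [trace_neg, trace_mul_comm (tt F w)] at this
      exact mul_left_cancel₀ t2 (by linear_combination this)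
  obtain ⟨e, eS, esp, eli⟩ := Submodule.exists_fun_fin_finrank_span_eq F S
  have ht : finrank F (Submodule.span F S) = 5 := by rw [top]; simp
  replace esp := esp.trans top
  generalize finrank F (Submodule.span F S) = t at e eS esp eli ht
  have ec : ∀ i, 𝐐 (e i) = 1 := fun i => q1 _ (eS i)
  have e0 : ∀ i, e i ≠ 0 := fun i => eli.ne_zero i
  have eo : ∀ i j, i ≠ j → 𝐁 (e i) (e j) = 0 := fun i j hij => (orth _ (eS i) _ (eS j)).resolve_right
    fun k => eli.notMem_span_image (s := {i}) (x := j) (by simpa using hij.symm) (by simpa using k)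
  obtain ⟨D, hD⟩ : ∃ D : Fin t → Submodule F 𝐖, ∀ i, D i = Submodule.span F {e i} := ⟨_, fun _ => rfl⟩
  have mD : ∀ i x, x ∈ D i ↔ ∃ c : F, c • e i = x := fun i x => by rw [hD, Submodule.mem_span_singleton]
  have he : ∀ i, e i ∈ D i := fun i => (mD _ _).2 ⟨1, one_smul _ _⟩
  have h1 : ∀ i, finrank F (D i) ≤ 1 := fun i => hD i ▸ finrank_span_one_le _
  obtain ⟨p, d⟩ := h.exists_dec (D := D) (fun i x hx k => by
      obtain ⟨c, rfl⟩ := (mD _ _).1 hx
      have := k _ (he i)
      simp [hQ.diag', ec, t2] at this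
      simp [this]) (fun i => (Submodule.ne_bot_iff _).2 ⟨_, he i, e0 i⟩) (fun i j hij x hx y hy => by
      obtain ⟨c, rfl⟩ := (mD _ _).1 hx
      obtain ⟨c', rfl⟩ := (mD _ _).1 hy
      simp [eo i j hij]) (by
      rw [← esp, Submodule.span_range_eq_iSup]; exact iSup_congr hD) fun i j => by
      rw [hD, hD]
      refine ⟨(LinearEquiv.toSpanNonzeroSingleton F _ _ (e0 i)).symm.trans
        (LinearEquiv.toSpanNonzeroSingleton F _ _ (e0 j)), fun x y => ?_, fun x => ?_⟩ <;>
      obtain ⟨a, rfl⟩ := (LinearEquiv.toSpanNonzeroSingleton F _ _ (e0 i)).surjective x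
      · obtain ⟨b, rfl⟩ := (LinearEquiv.toSpanNonzeroSingleton F _ _ (e0 i)).surjective y
        simp only [LinearEquiv.trans_apply, LinearEquiv.symm_apply_apply]
        simp [hQ.diag', ec]
      · simp only [LinearEquiv.trans_apply, LinearEquiv.symm_apply_apply]
        simp [hQ.smul', ec]
  refine bridge hodd h (S := dstab D) (fun g hg σ hσ => ⟨fun k => d.mem_dstab fun i => ?_, fun k => ?_⟩)
    (fun c => (max_of d h (by simp) (by omega) fun M _ a g b b' => absurd (c (a b)) b').1.not_ge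
      (le_inf c le_rfl)) (mem_dstab_of_le fun i v hv => neg_mem hv) fun N hN hO re σ =>
    rt_frame5 d h1 he one_ne_zero ec t2 (by simp) (fun g a b => hO ⟨b, a⟩) hN
      (fun i => re _ (ec i) (rf_dstab h d (he i) _)) hp ht
  · obtain ⟨x, hx, k1⟩ := (hS _).1 (eS i)
    have m : σ (e i) ∈ S := (hS _).2 ⟨_, (k x).1 hx, by simp [k1, ← hσ]⟩
    obtain ⟨j, hj⟩ : ∃ j, σ (e i) ∈ D j := by
      by_contra c
      push Not at c
      refine e0 i (σ.map_eq_zero_iff.1 (ext_p d fun j => ?_))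
      rw [map_zero, pz (h := h) d h1 he one_ne_zero ec t2]
      exact (orth _ (eS j) _ m).resolve_right (hD j ▸ c j)
    exact ⟨j, blk_of (h := h) d h1 he one_ne_zero ec t2 hj⟩
  · obtain ⟨π, hπ⟩ := dstab_perm k
    have iso := lift_isom ⊤ (x := σ) ⟨g, trivial, 1, by simp, by simpa⟩
    let R' := R ⊓ R.comap (MulAut.conj g).toMonoidHom
    have m : ∀ w, tt F w ∈ spanAlg R' := fun w => by
      refine Submodule.span_induction (p := fun w _ => tt F w ∈ spanAlg R') ?_ (by simp)
        (fun _ _ _ _ a b => by rw [map_add]; exact add_mem a b)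
        (fun c _ _ a => by rw [map_smul]; exact Subalgebra.smul_mem _ a c) (esp.ge trivial)
      rintro _ ⟨i, rfl⟩
      obtain ⟨x, hx, k1⟩ := (hS _).1 (eS i)
      obtain ⟨y, hy, k2⟩ := (hS _).1 (eS (π i))
      obtain ⟨c, hc⟩ := (mD _ _).1 (hπ i _ (he i))
      have c1 := iso.2 (e i)
      rw [← hc, hQ.smul', ec, ec, mul_one] at c1
      have k3 : (g * x * g⁻¹).1 = c • y.1 := by simp [k1, ← hσ, ← hc, k2]
      refine k1 ▸ coe_mem_spanAlg ⟨hx, show g * x * g⁻¹ ∈ R from ?_⟩
      rcases mul_self_eq_one_iff.mp c1 with rfl | rfl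
      · rwa [Units.ext (k3.trans (one_smul _ _))]
      · convert mul_mem hzR hy using 1
        exact Units.ext (by simp [k3, z1])
    have c1 := card_quotient_eq_sq (gen2 _ fun a b => mul_mem (m a) (m b)) fun x hx => tr x hx.1
    have zR' : z ∈ R' := ⟨hzR, show g * z * g⁻¹ ∈ R by
      rwa [show g * z * g⁻¹ = z from Units.ext (by simp [z1])]⟩
    have : Nontrivial ((scalars 𝐈 F).subgroupOf R') := ⟨⟨⟨z, zR'⟩, (mem_scalars_iff z).2 ⟨-1, by simp [z1]⟩⟩, 1,
      fun c => by
        have := congrArg (fun a => (a.1.1.1 : Matrix 𝐈 𝐈 F) (.inl 0) (.inl 0)) c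
        simp [z1] at this
        exact t2 (by linear_combination -this)⟩
    have c2 := Finite.one_lt_card (α := (scalars 𝐈 F).subgroupOf R')
    have c3 := Subgroup.card_eq_card_quotient_mul_card_subgroup ((scalars 𝐈 F).subgroupOf R')
    rw [c1] at c3
    have c4 : R' = R := Subgroup.eq_of_le_of_card_ge inf_le_left (by
      rw [c3, h32, Fintype.card_sum, Fintype.card_fin]; omega)
    exact Subgroup.mem_normalizer_fintype fun x hx => (c4.ge hx).2

end Cfsg.Agent.H26.S4
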