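import Cfsg.Agent.H26.L4f
import Cfsg.Agent.H26.S4e
import Cfsg.Agent.H26.Proper
import Cfsg.Agent.H11.Exc2

/-!
Alternating matrices of degree four and groups of symplectic type.
-/

set_option autoImplicit false
set_option linter.unusedSectionVars false

namespace Cfsg.Agent.H26.L4

open Module H10 H11 H11.Im Cfsg.Geo Matrix
open scoped commutatorElement

theorem max_comap {G G' : Type*} [Group G] [Group G'] {K H : Subgroup G} {K' S : Subgroup G'} (φ : K →* G')
    (hr : φ.range = K') (hH : ∀ g : K, g.1 ∈ H ↔ φ g ∈ S) (m : IsMaximalIn K' (S ⊓ K')) :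
    IsMaximalIn K (H ⊓ K) := by
  refine isMaximalIn_inf (fun c => m.1.not_ge (le_inf ?_ le_rfl)) fun M a b g hg hg' x hx => ?_
  · rw [← hr]; rintro _ ⟨g, rfl⟩; exact (hH g).1 (c g.2)
  rcases m.2 ((M.subgroupOf K).map φ) (fun y hy => by
    obtain ⟨z, rfl⟩ := hr.ge hy.2
    exact ⟨z, a ⟨(hH z).2 hy.1, z.2⟩, rfl⟩) (hr ▸ Subgroup.map_le_range _ _) with k | k
  · exact absurd ((hH ⟨g, b hg⟩).2 (k.le ⟨⟨g, b hg⟩, hg, rfl⟩).1) hg'
  · obtain ⟨y, hy, e⟩ := k.ge (hr ▸ ⟨⟨x, hx⟩, rfl⟩ : φ ⟨x, hx⟩ ∈ K')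
    have := a ⟨(hH (y⁻¹ * ⟨x, hx⟩)).2 (by simp [e]), (y⁻¹ * ⟨x, hx⟩).2⟩
    simpa using mul_mem (show y.1 ∈ M from hy) this

variable {K : Type*} [Field K]

local notation "𝐌" => Matrix (Fin 4) (Fin 4) K
local notation "𝐗" => Fin 3 ⊕ Fin 3 → K

/-- The dual alternating matrix. -/
def altD (K : Type*) [Field K] : (Fin 3 ⊕ Fin 3 → K) →ₗ[K] Matrix (Fin 4) (Fin 4) K :=
  altM K ∘ₗ LinearMap.funLeft K K Sum.swap

theorem altD_apply (x : 𝐗) : altD K x = altM K (x ∘ Sum.swap) := rfl

theorem altM_inj : Function.Injective (altM K) := Function.LeftInverse.injective unaltM_altM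

theorem altD_inj : Function.Injective (altD K) := fun x y e => funext fun i => by
  simpa using congrFun (altM_inj e) i.swap

theorem MD (x y : 𝐗) : altM K x * altD K y = -(bPlus 3 K x y • 1) - altM K y * altD K x := by
  ext i j; fin_cases i <;> fin_cases j <;>
    simp [altD_apply, altM_apply, bPlus_apply, mul_apply, Fin.sum_univ_four, Fin.sum_univ_three] <;> ring

theorem DM (x y : 𝐗) : altD K x * altM K y = -(bPlus 3 K x y • 1) - altD K y * altM K x := by
  ext i j; fin_cases i <;> fin_cases j <;>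
    simp [altD_apply, altM_apply, bPlus_apply, mul_apply, Fin.sum_univ_four, Fin.sum_univ_three] <;> ring

theorem MD' (x : 𝐗) : altM K x * altD K x = -(quadFormPlus 3 K x • 1) := by
  ext i j; fin_cases i <;> fin_cases j <;>
    simp [altD_apply, altM_apply, quadFormPlus, mul_apply, Fin.sum_univ_four, Fin.sum_univ_three] <;> ring

theorem DM' (x : 𝐗) : altD K x * altM K x = -(quadFormPlus 3 K x • 1) := by
  ext i j; fin_cases i <;> fin_cases j <;>
    simp [altD_apply, altM_apply, quadFormPlus, mul_apply, Fin.sum_univ_four, Fin.sum_univ_three] <;> ring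

theorem altM_tr (x : 𝐗) : (altM K x)ᵀ = -altM K x := by
  ext i j; fin_cases i <;> fin_cases j <;> simp [altM_apply]

theorem altD_tr (x : 𝐗) : (altD K x)ᵀ = -altD K x := altM_tr _

theorem det_altM (x : 𝐗) : (altM K x).det = quadFormPlus 3 K x ^ 2 := by
  simp [altM_apply, det_succ_row_zero, Fin.sum_univ_succ, quadFormPlus, Fin.succAbove]; ring

theorem gen4 (A : Subalgebra K 𝐌) (hA : ∀ x y, altM K x * altD K y ∈ A) : A = ⊤ := by
  let v : Fin 3 ⊕ Fin 3 → 𝐗 := fun i => Pi.single i 1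
  have d0 := hA (v (.inl 0)) (v (.inr 0))
  have d1 := hA (v (.inl 1)) (v (.inr 1))
  have d2 := add_mem (one_mem A) d0
  have d3 := add_mem (one_mem A) d1
  have P : ∀ i, single i i (1 : K) ∈ A := by
    intro i; fin_cases i
    · convert mul_mem d0 d1 using 1
      ext i j; fin_cases i <;> fin_cases j <;> simp [altD_apply, altM_apply, v, mul_apply, Fin.sum_univ_four]
    · convert neg_mem (mul_mem d0 d3) using 1
      ext i j; fin_cases i <;> fin_cases j <;>
        simp [altD_apply, altM_apply, v, mul_apply, Fin.sum_univ_four, one_apply, vecMul, dotProduct]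
    · convert neg_mem (mul_mem d2 d1) using 1
      ext i j; fin_cases i <;> fin_cases j <;>
        simp [altD_apply, altM_apply, v, mul_apply, Fin.sum_univ_four, one_apply, vecMul, dotProduct]
    · convert mul_mem d2 d3 using 1
      ext i j; fin_cases i <;> fin_cases j <;>
        simp [altD_apply, altM_apply, v, mul_apply, Fin.sum_univ_four, one_apply, vecMul, dotProduct]
  obtain ⟨X, hX, x0⟩ : ∃ X ∈ A, ∀ i j, i ≠ j → X i j ≠ 0 := by
    refine ⟨_, add_mem (add_mem (hA (v (.inl 0) + v (.inr 0)) (v (.inl 1) + v (.inr 1)))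
      (hA (v (.inl 0) + v (.inr 0)) (v (.inl 2) + v (.inr 2))))
      (hA (v (.inl 1) + v (.inr 1)) (v (.inl 2) + v (.inr 2))), ?_⟩
    intro i j; fin_cases i <;> fin_cases j <;>
      simp [altD_apply, altM_apply, v, mul_apply, Fin.sum_univ_four]
  refine eq_top_iff.2 fun M _ => ?_
  rw [matrix_eq_sum_single M]
  refine sum_mem fun i _ => sum_mem fun j _ => ?_
  by_cases hij : i = j
  · simpa [hij] using A.smul_mem (P j) (M j j)
  convert A.smul_mem (mul_mem (mul_mem (P i) hX) (P j)) (M i j / X i j) using 1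
  rw [single_mul_mul_single, smul_single]
  simp [x0 i j hij]

theorem prop_of_sign {N : Subgroup (GL (Fin 4) K)} (hN : spanAlg N = ⊤)
    (cm : ∀ x ∈ N, ∀ y ∈ N, ∃ ε : K, x.1 * y.1 = ε • (y.1 * x.1)) {X : 𝐌} (X0 : X ≠ 0)
    (hX : ∀ x ∈ N, ∃ ε : K, x.1 * X = ε • (X * x.1)) : ∃ r ∈ N, ∃ s : K, X = s • r.1 := by
  obtain ⟨r, hr, k⟩ : ∃ r ∈ N, (X * r.1).trace ≠ 0 := by
    by_contra k
    push Not at k
    refine X0 (Matrix.ext fun i j => ?_)
    simpa [trace_mul_single] using spanAlg_induction (N := N) (p := fun Y => (X * Y).trace = 0) k (by simp)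
      (fun X Y a b => by simp [mul_add, a, b]) (fun c X a => by simp [a])
      (hN.ge (Algebra.mem_top (x := single j i 1)))
  obtain ⟨s, hs⟩ := scalar_of_comm hN (y := X * r.1) fun x hx => by
    obtain ⟨ε, a⟩ := hX x hx
    obtain ⟨δ, b⟩ := cm x hx r hr
    have c : x.1 * (X * r.1) = (ε * δ) • (X * r.1 * x.1) := by
      rw [← mul_assoc, a, smul_mul_assoc, mul_assoc, b, mul_smul_comm, smul_smul, mul_assoc]
    have := congrArg (fun z => (z * (x⁻¹).1).trace) c
    simp only [smul_mul_assoc, Units.mul_inv_cancel_right, trace_smul, trace_mul_cycle x.1, Units.inv_mul,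
      one_mul, smul_eq_mul] at this
    rw [c, (mul_eq_right₀ k).1 this.symm, one_smul]
  exact ⟨r⁻¹, inv_mem hr, s, by rw [← Units.mul_inv_cancel_right X r, hs, smul_mul_assoc, one_mul]⟩

theorem det_anti (t2 : (2 : K) ≠ 0) {y z : 𝐌} (a : y * z = -(z * y)) (b : y * y = 1) (c : z * z = 1) :
    (y * z).det = 1 := by
  have e1 : (y + z) * y = z * (y + z) := by rw [add_mul, mul_add, b, c, add_comm]
  have e2 : (y + z) * (y + z) = (2 : K) • 1 := by rw [add_mul, mul_add, mul_add, a, b, c, two_smul]; abel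
  have e3 : (y + z).det ≠ 0 := fun k => by
    have := congrArg det e2
    rw [det_mul, k, det_smul] at this
    simp [t2, eq_comm (a := (0 : K))] at this
  have := congrArg det e1
  rw [det_mul, det_mul, mul_comm, mul_left_inj' e3] at this
  rw [det_mul, ← this, ← det_mul, b, det_one]

/-- Structure of a group of symplectic type with centre of order four. -/
structure ES (R : Subgroup (GL (Fin 4) K)) : Prop where
  span : spanAlg R = ⊤
  cm : ∀ x ∈ R, ∀ y ∈ R, ∃ ε : K, ε * ε = 1 ∧ x.1 * y.1 = ε • (y.1 * x.1)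
  sq : ∀ x ∈ R, ∃ ε : K, ε * ε = 1 ∧ x.1 * x.1 = ε • 1
  z4 : ∀ s : K, s ^ 4 = 1 → ∃ z ∈ R, z.1 = s • 1
  det : ∀ x ∈ R, x.1.det = 1
  im : ∃ I : K, I * I = -1

theorem es_of [Finite K] (t2 : (2 : K) ≠ 0) {R : Subgroup (GL (Fin 4) K)} (hs : IsSymplecticTypeGroup 2 R)
    (habs : ActsAbsolutelyIrreducibly (matrixSet R)) (hz : Nat.card (Subgroup.center R) = 4) : ES R := by
  classical
  have hN := spanAlg_eq_top_of_absIrr habs
  have p4 : ∀ x ∈ R, x ^ 4 = 1 := fun x hx => by
    have := Monoid.pow_exponent_eq_one (⟨x, hx⟩ : R)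
    rw [hs.4] at this
    exact congrArg Subtype.val this
  have sc : ∀ x ∈ R, ∀ s : K, x.1 = s • 1 → s ^ 4 = 1 := fun x hx s k => by
    have := congrArg (fun z : GL (Fin 4) K => z.1 0 0) (p4 x hx)
    simpa [k, smul_pow] using this
  have cm : ∀ x ∈ R, ∀ y ∈ R, ∃ ε : K, ε * ε = 1 ∧ x.1 * y.1 = ε • (y.1 * x.1) := fun x hx y hy => by
    have := S4.comm_central hs.2 hs.3 hs.4 (⟨x, hx⟩ : R) ⟨y, hy⟩
    rw [center_eq_scalars hN] at this
    have e : x * y = ⁅x, y⁆ * (y * x) := by simp [commutatorElement_def]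
    have k := mul_pow_class2 e (comm_of_mem_scalars this) 4
    rw [p4 _ (mul_mem hy hx), p4 x hx, p4 y hy] at k
    obtain ⟨ε, hε⟩ := (mem_scalars_iff _).1 this
    replace hε : (⁅x, y⁆ : GL (Fin 4) K).1 = ε.1 • 1 := hε
    have k4 := sc _ (⁅(⟨x, hx⟩ : R), ⟨y, hy⟩⁆ : R).2 _ hε
    have k6 := congrArg (fun z : GL (Fin 4) K => z.1 0 0) k
    simp [hε, smul_pow, Nat.choose] at k6
    exact ⟨ε, by linear_combination -k6 - ε.1 ^ 2 * k4, by simpa [hε] using congrArg Units.val e⟩
  have sq : ∀ x ∈ R, ∃ ε : K, ε * ε = 1 ∧ x.1 * x.1 = ε • 1 := fun x hx => by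
    obtain ⟨ε, k⟩ := scalar_of_comm hN (y := x.1 * x.1) fun y hy => by
      obtain ⟨ε, e, k⟩ := cm y hy x hx
      rw [← mul_assoc, k, smul_mul_assoc, mul_assoc, k, mul_smul_comm, smul_smul, e, one_smul, mul_assoc]
    have := congrArg (fun z : GL (Fin 4) K => z.1) (p4 x hx)
    simp only [Units.val_pow_eq_pow_val, show x.1 ^ 4 = x.1 * x.1 * (x.1 * x.1) by noncomm_ring, k] at this
    exact ⟨ε, by simpa using congrFun (congrFun this 0) 0, k⟩
  obtain ⟨f, fi, hf⟩ : ∃ f : Subgroup.center R → K, Function.Injective f ∧ ∀ z, z.1.1.1 = f z • 1 := by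
    choose f hf using fun z : Subgroup.center R => (mem_scalars_iff z.1.1).1 ((center_eq_scalars hN).le z.2)
    exact ⟨fun z => f z, fun a b k => Subtype.ext (Subtype.ext (Units.ext (by rw [hf, hf]; exact congrArg (· • _) k))),
      hf⟩
  have := Fintype.ofFinite (Subgroup.center R)
  have c4 : (Finset.univ.image f).card = 4 := by
    rw [Finset.card_image_of_injective _ fi, Finset.card_univ, ← Nat.card_eq_fintype_card, hz]
  have e4 : Finset.univ.image f = Polynomial.nthRootsFinset 4 (1 : K) := Finset.eq_of_subset_of_card_le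
    (fun s hs => by
      obtain ⟨z, -, rfl⟩ := Finset.mem_image.1 hs
      exact (Polynomial.mem_nthRootsFinset (by omega) _).2 (sc _ z.1.2 _ (hf z)))
    (by rw [c4]; exact (Multiset.toFinset_card_le _).trans (Polynomial.card_nthRoots 4 1))
  obtain ⟨I, hI⟩ : ∃ I : K, I * I = -1 := by
    by_contra k
    push Not at k
    have := Finset.card_le_card (show Finset.univ.image f ⊆ {1, -1} from fun s hs => by
      have := (Polynomial.mem_nthRootsFinset (by omega) _).1 (e4 ▸ hs)
      simpa using mul_self_eq_one_iff.1 ((mul_self_eq_one_iff.1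
        (show s * s * (s * s) = 1 by linear_combination this)).resolve_right (k s)))
    have := this.trans Finset.card_le_two
    omega
  have nm : ∀ x ∈ R, ∃ s : K, s ^ 4 = 1 ∧ s • x.1 * s • x.1 = 1 := fun x hx => by
    obtain ⟨ε, a, b⟩ := sq x hx
    rcases mul_self_eq_one_iff.1 a with rfl | rfl
    · exact ⟨1, by simp, by simpa using b⟩
    · exact ⟨I, by linear_combination (I * I - 1) * hI, by simp [smul_smul, b, hI]⟩
  refine ⟨hN, cm, sq, fun s k => ?_, fun x hx => ?_, I, hI⟩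
  · obtain ⟨z, -, rfl⟩ := Finset.mem_image.1 (e4.ge ((Polynomial.mem_nthRootsFinset (by omega) _).2 k))
    exact ⟨_, z.1.2, hf z⟩
  by_cases k : ∀ y ∈ R, y.1 * x.1 = x.1 * y.1
  · obtain ⟨s, k⟩ := scalar_of_comm hN k
    simpa [k] using sc x hx s k
  push Not at k
  obtain ⟨y, hy, k⟩ := k
  obtain ⟨ε, a, b⟩ := cm x hx y hy
  obtain rfl := (mul_self_eq_one_iff.1 a).resolve_left fun c => k (by simp [b, c])
  obtain ⟨s, s1, s2⟩ := nm y hy
  obtain ⟨u, u1, u2⟩ := nm _ (mul_mem (inv_mem hy) hx)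
  have := det_anti t2 (by
    simp only [smul_mul_smul_comm, Units.val_mul, Units.mul_inv_cancel_left, mul_assoc, b, mul_comm u]
    simp) s2 u2
  simpa [s1, u1] using this

end Cfsg.Agent.H26.L4
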