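import Cfsg.Agent.H26.L4g

/-!
The Klein correspondence and normalisers of groups of order sixty-four in dimension four.
-/

set_option autoImplicit false
set_option linter.unusedSectionVars false

namespace Cfsg.Agent.H26.L4

open Module H10 H11 H11.Im Cfsg.Geo Matrix

variable {K : Type*} [Field K]

local notation "𝐌" => Matrix (Fin 4) (Fin 4) K
local notation "𝐗" => Fin 3 ⊕ Fin 3 → K

variable {F : Type*} [Field F] [Fintype F] {W : Type*} [AddCommGroup W] [Module F W] [FiniteDimensional F W]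
  {B : W →ₗ[F] W →ₗ[F] F} {Q : W → F}

/-- A form of the Klein correspondence. -/
structure Kl (h : Cl (σ := RingHom.id F) 1 2 (AddMonoidHom.id F) B Q) (j : F →+* K)
    (τ : W →ₛₗ[j] (Fin 3 ⊕ Fin 3 → K)) (κ : K) (G : Subgroup (GL (Fin 4) K)) (φ : G →* (W ≃ₗ[F] W)) : Prop where
  inj : Function.Injective τ
  span : ∀ P : Submodule K (Fin 3 ⊕ Fin 3 → K), (∀ w, τ w ∈ P) → ∀ y, y ∈ P
  k0 : κ ≠ 0
  quad : ∀ w, quadFormPlus 3 K (τ w) = κ * j (Q w)
  act : ∀ g w, τ (φ g w) = lam K g.1.1 (τ w)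
  rng : φ.range = h.Om
  dim : finrank F W = 6

variable {h : Cl (σ := RingHom.id F) 1 2 (AddMonoidHom.id F) B Q} {j : F →+* K}
  {τ : W →ₛₗ[j] (Fin 3 ⊕ Fin 3 → K)} {κ : K} {G : Subgroup (GL (Fin 4) K)} {φ : G →* (W ≃ₗ[F] W)}
  (k : Kl h j τ κ G φ)
include k

theorem Kl.bil (v w : W) : bPlus 3 K (τ v) (τ w) = κ * j (B v w) := by
  have hQ : IsQuad B Q := h.form
  have := k.quad (v + w)
  rw [map_add, (isQuad_plus 3 K).add', hQ.add', k.quad, k.quad, map_add, map_add] at this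
  linear_combination this

theorem Kl.isom (g : G) : φ g ∈ Isom B Q := h.om_le_isom (k.rng.le ⟨g, rfl⟩)

theorem Kl.alt (g : G) (w : W) : altM K (τ (φ g w)) = g.1.1 * altM K (τ w) * g.1.1ᵀ := by rw [k.act, altM_lam]

theorem Kl.c6 (t2 : (2 : F) ≠ 0) (hp : (Fintype.card F).Prime) {R : Subgroup (GL (Fin 4) K)} [Finite K] (hR : ES R)
    (hRG : R ≤ G) (cls : ∀ w w' (s : K), ∀ r ∈ R, Q w ≠ 0 → altM K (τ w') = s • (r.1 * altM K (τ w)) →
      ∃ b, Q w' = b * b * Q w) : IsMaximalIn G (subgroupNormalizer R ⊓ G) := by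
  classical
  have hQ : IsQuad B Q := h.form
  have ti : ∀ {v w}, altM K (τ v) = altM K (τ w) → v = w := fun e => k.inj (altM_inj e)
  have sgn : ∀ (g g' : G) (ε : K), ε * ε = 1 → g.1.1 = ε • g'.1.1 → φ g = φ g' := fun g g' ε a b =>
    LinearEquiv.ext fun w => ti (by rw [k.alt, k.alt, b]; simp [smul_smul, a])
  obtain ⟨S, hS⟩ : ∃ S : Set W, ∀ w, w ∈ S ↔ ∀ x, ∀ hx : x ∈ R, ∃ ε : F, ε * ε = 1 ∧ φ ⟨x, hRG hx⟩ w = ε • w :=
    ⟨{w | _}, fun _ => Iff.rfl⟩
  have top : ∀ w, w ∈ Submodule.span F S := by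
    have : ∀ T : Finset R, ∀ w, w ∈ Submodule.span F
        {w | ∀ x ∈ T, ∃ ε : F, ε * ε = 1 ∧ φ ⟨x.1, hRG x.2⟩ w = ε • w} := fun T => by
      induction T using Finset.induction_on with
      | empty => exact fun w => Submodule.subset_span (by simp)
      | insert a T _ ih =>
        refine fun w => Submodule.span_le.2 (fun w hw => ?_) (ih w)
        obtain ⟨y, hy⟩ : ∃ y, y = φ ⟨a.1, hRG a.2⟩ := ⟨_, rfl⟩
        have y2 : y (y w) = w := by
          obtain ⟨ε, e1, e2⟩ := hR.sq a a.2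
          rw [hy, ← LinearEquiv.mul_apply, ← map_mul, sgn _ 1 ε e1 e2, map_one]; rfl
        have m : ∀ δ : F, δ * δ = 1 → w + δ • y w ∈ Submodule.span F
            {w | ∀ x ∈ insert a T, ∃ ε : F, ε * ε = 1 ∧ φ ⟨x.1, hRG x.2⟩ w = ε • w} := fun δ hδ =>
          Submodule.subset_span fun x hx => by
          rcases Finset.mem_insert.1 hx with rfl | hx
          · exact ⟨δ, hδ, by simp [← hy, y2, smul_smul, hδ, add_comm]⟩
          · obtain ⟨ε, e1, e2⟩ := hw x hx
            obtain ⟨η, e3, e4⟩ := hR.cm x x.2 a a.2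
            refine ⟨ε, e1, ?_⟩
            rw [map_add, map_smul, hy, ← LinearEquiv.mul_apply, ← map_mul,
              sgn (⟨x.1, hRG x.2⟩ * ⟨a.1, hRG a.2⟩) (⟨a.1, hRG a.2⟩ * ⟨x.1, hRG x.2⟩) η e3 e4, map_mul, LinearEquiv.mul_apply, e2, map_smul,
              smul_add, smul_comm]
        have := Submodule.smul_mem _ (2 : F)⁻¹ (add_mem (m 1 (by simp)) (m (-1) (by simp)))
        rwa [show (2 : F)⁻¹ • (w + (1 : F) • y w + (w + (-1 : F) • y w)) = w by
          match_scalars <;> field_simp <;> ring] at this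
    have _ := Fintype.ofFinite R
    intro w
    refine Submodule.span_mono (fun w hw => ?_) (this Finset.univ w)
    exact (hS w).2 fun x hx => hw ⟨x, hx⟩ (Finset.mem_univ _)
  have eg : ∀ w ∈ S, ∀ x ∈ R, ∃ ε : K, ε * ε = 1 ∧ x.1 * altM K (τ w) * x.1ᵀ = ε • altM K (τ w) :=
    fun w hw x hx => by
    obtain ⟨ε, a, b⟩ := (hS w).1 hw x hx
    exact ⟨j ε, by rw [← map_mul, a, map_one], by rw [← k.alt ⟨x, hRG hx⟩, b, map_smulₛₗ, map_smul]⟩
  have q0 : ∀ w ∈ S, w ≠ 0 → Q w ≠ 0 := fun w hw w0 q => by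
    have a : ∀ X : 𝐌, altD K (τ w) * X * altM K (τ w) = 0 := fun X =>
      spanAlg_induction (N := R) (p := fun X => altD K (τ w) * X * altM K (τ w) = 0) (fun x hx => by
        obtain ⟨ε, -, b⟩ := eg w hw x hx
        have := congrArg (fun z => altD K (τ w) * z * (x⁻¹).1ᵀ) b
        simpa [mul_assoc, ← transpose_mul, DM', k.quad, q] using this) (by simp)
        (fun X Y a b => by simp [mul_add, add_mul, a, b]) (fun c X a => by simp [a]) (hR.span.ge trivial)
    have t0 : τ w ≠ 0 := fun c => w0 (k.inj (by simpa using c))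
    obtain ⟨i, i', b⟩ : ∃ i i', altD K (τ w) i i' ≠ 0 := by
      by_contra c; push Not at c; exact t0 (altD_inj (by ext; simp [c]))
    refine t0 (altM_inj (Matrix.ext fun l l' => ?_))
    simpa [mul_apply, single_apply, ite_and, b] using congrFun (congrFun (a (single i' l 1)) i) l'
  have cn : ∀ w, Q w ≠ 0 → ∀ (g : GL (Fin 4) K) (X Y : 𝐌), X * altM K (τ w) * g.1ᵀ = Y * altM K (τ w) * g.1ᵀ →
      X = Y := fun w q g X Y e => by
    have := congrArg (fun z => z * (g⁻¹).1ᵀ * altD K (τ w)) e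
    simp only [mul_assoc _ g.1ᵀ, ← transpose_mul, Units.inv_mul, transpose_one, mul_one] at this
    simp only [mul_assoc, MD', k.quad, mul_neg, mul_smul_comm, neg_inj, mul_one] at this
    exact smul_right_injective _ (mul_ne_zero k.k0 ((map_ne_zero j).2 q)) this
  have XX : ∀ w, Q w ≠ 0 → ∀ w', ∃ X : 𝐌, X * altM K (τ w) = altM K (τ w') := fun w q w' =>
    ⟨-(κ * j (Q w))⁻¹ • (altM K (τ w') * altD K (τ w)), by
      rw [smul_mul_assoc, mul_assoc, DM', k.quad, mul_neg, mul_smul_comm, smul_neg, smul_smul, neg_mul,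
        inv_mul_cancel₀ (mul_ne_zero k.k0 ((map_ne_zero j).2 q))]; simp⟩
  have cx : ∀ w, Q w ≠ 0 → ∀ w' (X : 𝐌), X * altM K (τ w) = altM K (τ w') → ∀ (x : GL (Fin 4) K) (ε δ : K),
      ε * ε = 1 → x.1 * altM K (τ w) * x.1ᵀ = ε • altM K (τ w) → x.1 * altM K (τ w') * x.1ᵀ = δ • altM K (τ w') →
      x.1 * X = (δ * ε) • (X * x.1) := fun w q w' X e x ε δ a b c => cn w q x _ _ (by
    rw [mul_assoc x.1, e, c, smul_mul_assoc, smul_mul_assoc, mul_assoc X, mul_assoc X, b, mul_smul_comm, e,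
      smul_smul, mul_assoc, a, mul_one])
  have pr : ∀ w ∈ S, ∀ w' ∈ S, Q w ≠ 0 → w' ≠ 0 → ∃ r ∈ R, ∃ s : K, altM K (τ w') = s • (r.1 * altM K (τ w)) :=
    fun w hw w' hw' q w0 => by
    obtain ⟨X, e⟩ := XX w q w'
    obtain ⟨r, hr, s, rfl⟩ := prop_of_sign hR.span (fun x hx y hy => (hR.cm x hx y hy).imp fun _ => And.right)
      (X := X) (by rintro rfl; exact w0 (ti (by simp [← e]))) fun x hx => by
        obtain ⟨ε, a, b⟩ := eg w hw x hx
        obtain ⟨δ, -, c⟩ := eg w' hw' x hx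
        exact ⟨_, cx w q w' X e x ε δ a b c⟩
    exact ⟨r, hr, s, by rw [← e, smul_mul_assoc]⟩
  have ex : ∀ w ∈ S, ∀ w' ∈ S, Q w ≠ 0 → Q w' = Q w → ∃ r ∈ R, altM K (τ w') = r.1 * altM K (τ w) :=
    fun w hw w' hw' q q' => by
    obtain ⟨r, hr, s, e⟩ := pr w hw w' hw' q (ne_zero_of_Q h (q' ▸ q))
    have := congrArg det e
    rw [det_smul, det_mul, det_altM, det_altM, k.quad, k.quad, q', hR.det r hr, one_mul, eq_comm,
      mul_eq_right₀ (pow_ne_zero _ (mul_ne_zero k.k0 ((map_ne_zero j).2 q)))] at this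
    obtain ⟨z, hz, a⟩ := hR.z4 s (by simpa using this)
    exact ⟨_, mul_mem hz hr, by simp [e, a]⟩
  have orth : ∀ w ∈ S, Q w ≠ 0 → ∀ w' ∈ S, B w w' = 0 ∨ w' ∈ Submodule.span F {w} := fun w hw q w' hw' => by
    refine or_iff_not_imp_left.2 fun b => ?_
    obtain ⟨X, e⟩ := XX w q w'
    obtain ⟨s, rfl⟩ := scalar_of_comm hR.span (y := X) fun x hx => by
      obtain ⟨ε, a1, a2⟩ := (hS w).1 hw x hx
      obtain ⟨δ, a3, a4⟩ := (hS w').1 hw' x hx
      have := (k.isom ⟨x, hRG hx⟩).1 w w'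
      simp only [a2, a4, map_smul, LinearMap.smul_apply, smul_eq_mul, ← mul_assoc, mul_eq_right₀ b] at this
      rw [cx w q w' X e x (j ε) (j δ) (by rw [← map_mul, a1, map_one])
        (by rw [← k.alt ⟨x, hRG hx⟩, a2, map_smulₛₗ, map_smul])
        (by rw [← k.alt ⟨x, hRG hx⟩, a4, map_smulₛₗ, map_smul]), ← map_mul, this, map_one, one_smul]
    rw [smul_mul_assoc, one_mul, ← map_smul] at e
    have e' := altM_inj e
    have := k.bil w w'
    rw [← e', map_smul, k.bil, hQ.diag', smul_eq_mul, mul_left_comm, mul_right_inj' k.k0] at this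
    refine Submodule.mem_span_singleton.2 ⟨B w w' / (2 * Q w), k.inj ?_⟩
    rw [map_smulₛₗ, map_div₀, ← this, mul_div_cancel_right₀ _ ((map_ne_zero j).2 (mul_ne_zero t2 q)), e']
  obtain ⟨w0, hw0, w00⟩ : ∃ w ∈ S, w ≠ 0 := by
    by_contra c
    push Not at c
    have : Nontrivial W := Module.nontrivial_of_finrank_pos (R := F) (by rw [k.dim]; omega)
    obtain ⟨w, hw⟩ := exists_ne (0 : W)
    exact hw (by simpa [Submodule.span_eq_bot.2 c] using top w)
  have c0 := q0 w0 hw0 w00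
  have sm : ∀ w ∈ S, ∀ a : F, a • w ∈ S := fun w hw a => (hS _).2 fun x hx => by
    obtain ⟨ε, a1, a2⟩ := (hS w).1 hw x hx
    exact ⟨ε, a1, by rw [map_smul, a2, smul_comm]⟩
  have top' : Submodule.span F {w ∈ S | Q w = Q w0} = ⊤ := eq_top_iff.2 fun w _ =>
    Submodule.span_le.2 (fun w hw => by
      by_cases w1 : w = 0
      · simp [w1]
      obtain ⟨r, hr, s, e⟩ := pr w0 hw0 w hw c0 w1
      obtain ⟨b, hb⟩ := cls w0 w s r hr c0 e
      have b0 : b ≠ 0 := by rintro rfl; exact q0 w hw w1 (by simpa using hb)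
      simpa [smul_smul, b0] using Submodule.smul_mem _ b (Submodule.subset_span (R := F)
        (s := {w ∈ S | Q w = Q w0}) ⟨sm w hw b⁻¹, by rw [hQ.smul', hb]; field_simp⟩)) (top w)
  obtain ⟨e, eS, esp, eli⟩ := Submodule.exists_fun_fin_finrank_span_eq F {w ∈ S | Q w = Q w0}
  have ht : finrank F (Submodule.span F {w ∈ S | Q w = Q w0}) = 6 := by rw [top', finrank_top, k.dim]
  replace esp := esp.trans top'
  generalize finrank F (Submodule.span F {w ∈ S | Q w = Q w0}) = t at e eS esp eli ht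
  subst ht
  have ec : ∀ i, Q (e i) = Q w0 := fun i => (eS i).2
  have e1 : ∀ i, Q (e i) ≠ 0 := fun i => by rwa [ec]
  have e0 : ∀ i, e i ≠ 0 := fun i => eli.ne_zero i
  have eo : ∀ i j, i ≠ j → B (e i) (e j) = 0 := fun i j hij => (orth _ (eS i).1 (e1 i) _ (eS j).1).resolve_right
    fun k => eli.notMem_span_image (s := {i}) (x := j) (by simpa using hij.symm) (by simpa using k)
  obtain ⟨D, hD⟩ : ∃ D : Fin 6 → Submodule F W, ∀ i, D i = Submodule.span F {e i} := ⟨_, fun _ => rfl⟩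
  have mD : ∀ i x, x ∈ D i ↔ ∃ c : F, c • e i = x := fun i x => by rw [hD, Submodule.mem_span_singleton]
  have he : ∀ i, e i ∈ D i := fun i => (mD _ _).2 ⟨1, one_smul _ _⟩
  have h1 : ∀ i, finrank F (D i) ≤ 1 := fun i => hD i ▸ finrank_span_one_le _
  obtain ⟨p, d⟩ := h.exists_dec (D := D) (fun i x hx k => by
      obtain ⟨c, rfl⟩ := (mD _ _).1 hx
      have := k _ (he i)
      simp [hQ.diag', e1, t2] at this
      simp [this]) (fun i => (Submodule.ne_bot_iff _).2 ⟨_, he i, e0 i⟩) (fun i j hij x hx y hy => by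
      obtain ⟨c, rfl⟩ := (mD _ _).1 hx
      obtain ⟨c', rfl⟩ := (mD _ _).1 hy
      simp [eo i j hij]) (by
      rw [← esp, Submodule.span_range_eq_iSup]; exact iSup_congr hD) fun i j => by
      rw [hD, hD]
      refine ⟨(LinearEquiv.toSpanNonzeroSingleton F _ _ (e0 i)).symm.trans
        (LinearEquiv.toSpanNonzeroSingleton F _ _ (e0 j)), fun x y => ?_, fun x => ?_⟩ <;>
      obtain ⟨a, rfl⟩ := (LinearEquiv.toSpanNonzeroSingleton F _ _ (e0 i)).surjective x
      · obtain ⟨b, rfl⟩ := (LinearEquiv.toSpanNonzeroSingleton F _ _ (e0 i)).surjective y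
        simp only [LinearEquiv.trans_apply, LinearEquiv.symm_apply_apply]
        simp [hQ.diag', ec]
      · simp only [LinearEquiv.trans_apply, LinearEquiv.symm_apply_apply]
        simp [hQ.smul', ec]
  refine max_comap φ k.rng (fun g => ⟨fun n => d.mem_dstab fun i => ?_, fun n => ?_⟩) (max_frame6 d h1 t2 hp)
  · have m : φ g (e i) ∈ S := (hS _).2 fun x hx => by
      have hx' : g.1⁻¹ * x * g.1 ∈ R := (n _).2 (by simpa [mul_assoc] using hx)
      obtain ⟨ε, a1, a2⟩ := (hS _).1 (eS i).1 _ hx'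
      refine ⟨ε, a1, ?_⟩
      rw [← map_smul, ← a2, ← LinearEquiv.mul_apply, ← LinearEquiv.mul_apply, ← map_mul, ← map_mul]
      congr 2; exact Subtype.ext (by simp [mul_assoc])
    obtain ⟨l, hl⟩ : ∃ l, φ g (e i) ∈ D l := by
      by_contra c
      push Not at c
      refine e0 i ((φ g).map_eq_zero_iff.1 (ext_p d fun l => ?_))
      rw [map_zero, pz (h := h) d h1 he c0 ec t2]
      exact (orth _ (eS l).1 (e1 l) _ m).resolve_right (hD l ▸ c l)
    exact ⟨l, blk_of (h := h) d h1 he c0 ec t2 hl⟩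
  · obtain ⟨π, hπ⟩ := dstab_perm n
    let R' := R ⊓ R.comap (MulAut.conj g.1).toMonoidHom
    have gS : ∀ i, φ g (e i) ∈ S := fun i => by
      obtain ⟨c, hc⟩ := (mD _ _).1 (hπ i _ (he i))
      exact hc ▸ sm _ (eS _).1 c
    have m : ∀ i l, altM K (τ (e i)) * altD K (τ (e l)) ∈ spanAlg R' := fun i l => by
      obtain ⟨r, hr, a⟩ := ex _ (eS l).1 _ (eS i).1 (e1 l) (by rw [ec, ec])
      obtain ⟨r', hr', a'⟩ := ex _ (gS l) _ (gS i) (by rw [(k.isom g).2]; exact e1 l)
        (by rw [(k.isom g).2, (k.isom g).2, ec, ec])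
      rw [k.alt, k.alt, a, ← mul_assoc, ← mul_assoc, ← mul_assoc] at a'
      have := cn _ (e1 l) _ _ _ a'
      rw [a, mul_assoc, MD', mul_neg, mul_smul_comm, mul_one]
      refine neg_mem (Subalgebra.smul_mem _ (coe_mem_spanAlg (N := R') ⟨hr, show g.1 * r * g.1⁻¹ ∈ R from ?_⟩) _)
      rwa [show g.1 * r * g.1⁻¹ = r' from Units.ext (by simp [this])]
    have sp2 : ∀ P : Submodule K 𝐗, (∀ i, τ (e i) ∈ P) → ∀ y, y ∈ P := fun P a => k.span P fun w =>
      Submodule.span_induction (p := fun w _ => τ w ∈ P) (by rintro _ ⟨i, rfl⟩; exact a i) (by simp)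
        (fun _ _ _ _ a b => by rw [map_add]; exact add_mem a b)
        (fun c _ _ a => by rw [map_smulₛₗ]; exact P.smul_mem _ a) (esp.ge trivial)
    have c1 := gen4 (spanAlg R') fun x y =>
      sp2 ((spanAlg R').toSubmodule.comap (LinearMap.mulLeft K (altM K x) ∘ₗ altD K)) (fun l =>
        sp2 ((spanAlg R').toSubmodule.comap (LinearMap.mulRight K (altD K (τ (e l))) ∘ₗ altM K))
          (fun i => m i l) x) y
    refine Subgroup.mem_normalizer_fintype fun x hx => ?_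
    obtain ⟨r, hr, s, a⟩ := prop_of_sign c1 (fun x hx y hy => (hR.cm x hx.1 y hy.1).imp fun _ => And.right)
      x.ne_zero fun y hy => (hR.cm y hy.1 x hx).imp fun _ => And.right
    have : (g.1 * x * g.1⁻¹).1 = (x * r⁻¹ * (g.1 * r * g.1⁻¹)).1 := by
      simp only [Units.val_mul, a, smul_mul_assoc, mul_smul_comm, Units.mul_inv, one_mul]
    rw [Units.ext this]
    exact mul_mem (mul_mem hx (inv_mem hr.1)) hr.2

omit k

/-- The exterior square action. -/
noncomputable def lamG (G : Subgroup (GL (Fin 4) K)) : G →* ((Fin 3 ⊕ Fin 3 → K) ≃ₗ[K] (Fin 3 ⊕ Fin 3 → K)) :=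
  ((LinearMap.GeneralLinearGroup.generalLinearEquiv K _).toMonoidHom.comp (Units.map (lam K))).comp G.subtype

theorem lamG_apply (G : Subgroup (GL (Fin 4) K)) (g : G) (x : 𝐗) : lamG G g x = lam K g.1.1 x := rfl

theorem eich_alt {u w : 𝐗} (qu : quadFormPlus 3 K u = 0) (uw : bPlus 3 K u w = 0) (x : 𝐗) :
    lam K (1 - altM K u * altD K w) x =
      x + bPlus 3 K w x • u - bPlus 3 K u x • w - (quadFormPlus 3 K w * bPlus 3 K u x) • u := by
  have hQ := isQuad_plus 3 K
  have e1 : altM K u * altD K w = -(altM K w * altD K u) := by rw [MD, uw]; simp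
  have e2 : altD K u * altM K u = 0 := by rw [DM', qu]; simp
  have e3 : altM K u * altD K u = 0 := by rw [MD', qu]; simp
  have e4 : altM K u * altD K w * altM K x =
      -(bPlus 3 K w x • altM K u) - altM K u * altD K x * altM K w := by
    rw [mul_assoc, DM]; simp [mul_sub, mul_assoc]
  have e5 : altM K x * (altD K w * altM K u) =
      bPlus 3 K u x • altM K w + altM K u * altD K x * altM K w := by
    rw [DM w, hQ.comm, uw, zero_smul, neg_zero, zero_sub, mul_neg, ← mul_assoc, MD x u, hQ.comm x]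
    simp [sub_mul, add_comm]
  have e6 : altM K u * altD K x * altM K w * (altD K w * altM K u) =
      (quadFormPlus 3 K w * bPlus 3 K u x) • altM K u := by
    rw [mul_assoc, ← mul_assoc (altM K w), MD', MD u x]
    simp [sub_mul, mul_assoc, e2, smul_smul]
  have e7 : altM K u * (altD K w * altM K u) = 0 := by rw [← mul_assoc, e1, neg_mul, mul_assoc, e2]; simp
  refine altM_inj ?_
  rw [altM_lam, transpose_sub, transpose_mul, altM_tr, altD_tr, transpose_one, neg_mul_neg, sub_mul, one_mul, e4]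
  simp only [map_add, map_sub, map_smul, mul_sub, sub_mul, mul_one, e5, e6, neg_mul, smul_mul_assoc, e7]
  module

theorem kl_sl (h : Cl (σ := RingHom.id F) 1 2 (AddMonoidHom.id F) (bPlus 3 F) (quadFormPlus 3 F)) :
    Kl h (RingHom.id F) LinearMap.id 1 (specialLinear (Fin 4) F) (lamG _) := by
  refine ⟨Function.injective_id, fun P a => a, one_ne_zero, by simp, fun g w => rfl, le_antisymm ?_
    (h.om_le fun u w c qu uw hc => ?_), by simp⟩
  · rintro _ ⟨g, rfl⟩
    obtain ⟨ψ, hψ⟩ := exists_hom_plus_three (F := F)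
    obtain ⟨g', hg⟩ : ∃ g' : SpecialLinearGroup (Fin 4) F, g'.1 = g.1.1 := ⟨⟨_, mem_specialLinear.1 g.2⟩, rfl⟩
    have : lamG _ g = (ψ g').1 := LinearEquiv.ext fun x => by rw [hψ, lamG_apply, hg]
    rw [this]
    exact (mem_om_quad h (by simp) _).2 (mem_commutator_of_perfect (commutator_SL_eq_top (by simp)) ψ _)
  obtain rfl : c = quadFormPlus 3 F w := hc
  have e : ∀ x, lam F (1 - altM F u * altD F w) x = h.eich u w (quadFormPlus 3 F w) x := fun x => by
    rw [eich_alt qu uw, h.eich_apply qu uw, one_mul]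
  have d : (1 - altM F u * altD F w).det = 1 := by
    have := quad_lam (1 - altM F u * altD F w) (Sum.elim (Pi.single 0 1) (Pi.single 0 1))
    rw [e, (h.eich_mem_isom qu uw (c := quadFormPlus 3 F w) rfl).2] at this
    simpa [quadFormPlus, Fin.sum_univ_three] using this.symm
  exact ⟨⟨GeneralLinearGroup.mkOfDetNeZero _ (d ▸ one_ne_zero), mem_specialLinear.2 d⟩, LinearEquiv.ext e⟩

theorem sl_c6 {p : ℕ} (hp : p.Prime) (hF : Fintype.card F = p) (h4 : p % 4 = 1) {R : Subgroup (GL (Fin 4) F)}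
    (hR : IsLinearSymplecticTypeData 2 R) :
    IsMaximalIn (specialLinear (Fin 4) F) (subgroupNormalizer R ⊓ specialLinear (Fin 4) F) := by
  have t2 : (2 : F) ≠ 0 := two_ne_zero_of_odd_card (hF ▸ Nat.odd_iff.2 (by omega))
  have es := es_of t2 hR.1 hR.2 (by
    obtain ⟨-, e, -, -, ⟨a, -⟩ | a | ⟨-, -, a, -⟩⟩ := hR.3
    · exact absurd a (by decide)
    · exact a.2.2.1
    · simp at a)
  refine (kl_sl (clQuad (isQuad_plus 3 F) (bPlus_sep 3 F))).c6 t2 (hF ▸ hp) es
    (fun x hx => mem_specialLinear.2 (es.det x hx)) fun w w' s r hr q e => ?_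
  have := congrArg det e
  simp only [det_smul, det_mul, det_altM, es.det r hr, Fintype.card_fin, LinearMap.id_apply] at this
  obtain ⟨I, hI⟩ := es.im
  rcases sq_eq_sq_iff_eq_or_eq_neg.1 (show quadFormPlus 3 F w' ^ 2 = (s * s * quadFormPlus 3 F w) ^ 2 by
    linear_combination this) with a | a
  · exact ⟨s, a⟩
  · exact ⟨I * s, by linear_combination a - s * s * quadFormPlus 3 F w * hI⟩

end Cfsg.Agent.H26.L4
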