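import Cfsg.Agent.H26.MS1

/-! `Sp₆(2)` has no proper subgroup of index less than `28`. -/

set_option autoImplicit false
set_option linter.unusedSectionVars false

namespace Cfsg.Agent.H26.MI

open Finset Matrix Cfsg.Agent.H10
open scoped Classical

namespace S6

abbrev K := ZMod 2
abbrev V := Fin 3 ⊕ Fin 3 → K
abbrev E := Fin 7 → K
abbrev G := symplecticGroup (Fin 3) K

local notation "𝔅" => spBilin (Fin 3) K

def pt : Fin 7 → Fin 3 → K :=
  ![![1,0,0], ![0,1,0], ![0,0,1], ![1,1,0], ![0,1,1], ![1,1,1], ![1,0,1]]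

def u (i : Fin 7) : V := Sum.elim (pt i) 0

theorem hu (i j : Fin 7) : 𝔅 (u i) (u j) = 0 := by simp [spBilin_apply_sum, u]

noncomputable def τ : Hm E G := tvs u hu

noncomputable def π : Pr E E :=
  prOf (F := K) (fun d y => ∑ i, d i * y i) (fun _ _ _ => by simp [add_mul, sum_add_distrib])
    (fun _ _ _ => by simp [mul_add, sum_add_distrib])
    (fun _ _ _ => by simp [Finset.mul_sum, mul_left_comm])
    (fun d h => funext fun i => by simpa [Pi.single_apply] using h (Pi.single i 1))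

theorem π_f (d y : E) : π.f d y = psi K (∑ i, d i * y i) := rfl

theorem psi_one : psi K 1 = -1 := by
  have h1 : psi K 1 ≠ 1 := fun h => one_ne_zero (psi_nd (F := K) (a := 1) fun c => by
    rcases (by decide : ∀ c : K, c = 0 ∨ c = 1) c with rfl | rfl <;> simp [h])
  have h2 : psi K 1 * psi K 1 = 1 := by
    rw [← AddChar.map_add_eq_mul, show (1 : K) + 1 = 0 by decide, AddChar.map_zero_eq_one]
  exact (mul_self_eq_one_iff.1 h2).resolve_left h1

theorem psi_eq (c : K) : psi K c = if c = 0 then 1 else -1 := by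
  rcases (by decide : ∀ c : K, c = 0 ∨ c = 1) c with rfl | rfl <;> simp [psi_one]

theorem psi_eq_one {c : K} (h : psi K c = 1) : c = 0 := by
  rw [psi_eq] at h
  by_contra hc
  rw [if_neg hc] at h
  norm_num at h

def gen : Fin 3 → Fin 7 → Fin 7 := ![![3, 1, 2, 0, 4, 6, 5], ![0, 4, 2, 5, 1, 3, 6], ![0, 1, 6, 3, 5, 4, 2]]

def act (w : List (Fin 3)) (y : E) : E := w.foldr (fun k z => z ∘ gen k) y

def wt (y : E) : ℕ := (y 0).val + (y 1).val + (y 2).val + (y 3).val + (y 4).val + (y 5).val + (y 6).val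

def cls (y : E) : Fin 6 :=
  if wt y % 2 = 1 then 5 else if wt y = 0 then 0 else if wt y = 2 then 2 else if wt y = 6 then 3
    else if y 0 + y 1 + y 3 = 0 ∧ y 1 + y 2 + y 4 = 0 ∧ y 2 + y 3 + y 5 = 0 then 1 else 4

def rep : Fin 6 → E := ![![0,0,0,0,0,0,0], ![0,0,1,0,1,1,1], ![0,0,0,0,0,1,1], ![0,1,1,1,1,1,1],
  ![0,0,0,1,1,1,1], ![0,0,0,0,0,0,1]]

def words : List (List (Fin 3)) := [[], [1, 0], [0, 1], [1, 0, 1, 0], [2, 0, 1, 0],
  [2, 1, 0, 2, 1, 0], [2, 1, 0], [0, 2, 0, 1], [2], [1, 2], [0, 2, 1], [1, 2, 1], [2, 1, 2],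
  [0, 1, 2, 1], [2, 1, 2, 1], [0, 2, 1, 2], [2, 0, 2, 0, 1], [0, 2, 0, 1, 2, 0, 1, 0], [2, 0],
  [0, 2], [0, 1, 0], [0, 2, 0], [1, 0, 1], [2, 0, 2], [1, 0, 2, 0], [2, 0, 2, 0], [2, 1, 0, 1],
  [1, 2, 0, 2], [0, 1, 2, 0, 1], [0, 2, 1, 2, 1], [2, 0, 2, 1, 2]]

theorem tab : ∀ y : E, cls y ≠ 5 → ∃ w ∈ words, ∀ i, y i = act w (rep (cls y)) i := by
  decide +kernel

theorem odd : ∀ y : E, cls y = 5 → ∑ i, y i ≠ 0 := by decide +kernel

theorem cnt : ∀ k : Fin 6, (univ.filter fun y : E => cls y = k).card = ![1, 7, 21, 7, 28, 64] k ∧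
    (univ.filter fun y : E => y 0 ≠ 0 ∧ cls y = k).card = ![0, 4, 6, 6, 16, 32] k := by
  decide +kernel

theorem cls_two : ∀ y : E, cls y = 0 ∨ cls y = 2 →
    (∑ i, if y i = 0 then 1 else -1 : ℤ) = if y = 0 then 7 else 3 := by decide +kernel

theorem cls_lin : ∀ y : E, cls y = 0 ∨ cls y = 1 ∨ cls y = 3 →
    (y 0 = 0 → y 1 = 0 → y 3 = 0) ∧ (cls y ≠ 3 → y 0 + y 1 + y 3 = 0) := by decide +kernel

theorem cls_an : ∀ y : E, cls y = 3 ∨ y = rep 1 → ∀ z : E, cls z = 3 ∨ z = rep 1 → y ≠ z →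
    cls (y + z) = 2 ∨ cls (y + z) = 4 := by decide +kernel

theorem t_one : τ.t 1 = 1 := sp_ext fun x => by
  rw [τ, tvs_mulVec, spv_one, one_mulVec]
  simp only [spBilin_apply_sum]
  revert x
  decide +kernel

theorem exists_gen (k : Fin 3) : ∃ g : G, ∀ i, g.1 *ᵥ u i = u (gen k i) := by
  refine ⟨spq (Pi.single (.inl (k + 1)) 1) (Pi.single (.inr k) 1) 0 (by
    rw [spBilin_apply_sum]; revert k; decide +kernel), fun i => ?_⟩
  rw [spq_mulVec]
  simp only [spBilin_apply_sum]
  revert i k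
  decide +kernel

theorem u_ne : ∀ i, u i ≠ 0 := by decide +kernel

theorem u_add : u 0 + u 1 = u 3 := by decide +kernel

theorem card_V : (univ.filter fun v : V => v ≠ 0).card = 63 := by decide +kernel

theorem sum_cls (m : Fin 6 → ℕ) (s : Finset E) :
    ∑ y ∈ s, m (cls y) = ∑ k, (s.filter fun y => cls y = k).card * m k := by
  rw [← Finset.sum_fiberwise s cls]
  refine Finset.sum_congr rfl fun k _ => ?_
  rw [Finset.sum_congr rfl (g := fun _ => m k) fun y hy => by rw [(mem_filter.1 hy).2], sum_const,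
    smul_eq_mul]

instance : IsSimpleGroup G :=
  haveI := isSimpleGroup_PSp (F := K) (m := 3) (by omega) (by omega)
  (MulEquiv.ofBijective (spQ (Fin 3) K) ⟨spQ_injective (by decide), spQ_surjective⟩).isSimpleGroup

instance : MulAction G V where
  smul g v := g.1 *ᵥ v
  one_smul v := one_mulVec v
  mul_smul g h v := sp_mul_mulVec g h v

theorem smul_def (g : G) (v : V) : g • v = g.1 *ᵥ v := rfl

variable {A : Type*} [MulAction G A] [Fintype A]

noncomputable def μ (A : Type*) [MulAction G A] [Fintype A] (y : E) : ℕ := τ.mu π (univ : Finset A) y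

theorem μ_gen (k : Fin 3) (y : E) : μ A (y ∘ gen k) = μ A y := by
  obtain ⟨g, hg⟩ := exists_gen k
  have hi : Function.Involutive (gen k) := (by decide : ∀ k i, gen k (gen k i) = i) k
  refine Cj.mu_eq (g := g) (γ := fun y => y ∘ gen k) ⟨fun d => d ∘ gen k, fun d => ⟨d ∘ gen k, ?_⟩,
    fun d => tvs_conj hu (σ := hi.toPerm _) hg d, fun d y => ?_⟩ (fun _ _ => mem_univ _) y
  · ext i; simp [hi i]
  · rw [π_f, π_f, ← Equiv.sum_comp (hi.toPerm _) (fun i => d i * y i)]; rfl

theorem μ_act (w : List (Fin 3)) (y : E) : μ A (act w y) = μ A y := by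
  induction w with
  | nil => rfl
  | cons k w ih => rw [← ih]; exact μ_gen k _

theorem cls_ne {ω : A} {y : E} (hy : y ∈ τ.Y π ω) : cls y ≠ 5 := fun h => odd y h (by
  have := hy 1 (by rw [Hm.mem_st, t_one, one_smul])
  simpa using psi_eq_one this)

theorem μ_odd {y : E} (h : cls y = 5) : μ A y = 0 := by
  by_contra hc
  obtain ⟨ω, -, hy⟩ := τ.exists_of_mu π hc
  exact cls_ne hy h

theorem μ_cls (y : E) : μ A y = μ A (rep (cls y)) := by
  by_cases h : cls y = 5
  · rw [μ_odd h, h, μ_odd (by decide)]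
  · obtain ⟨w, -, hw⟩ := tab y h
    rw [← μ_act w (rep _), ← funext hw]

theorem card_A : Fintype.card A = μ A (rep 0) + 7 * μ A (rep 1) + 21 * μ A (rep 2) +
    7 * μ A (rep 3) + 28 * μ A (rep 4) := by
  have h := τ.card_mul π (Ω := (univ : Finset A)) fun _ _ _ => mem_univ _
  rw [mul_comm, card_univ] at h
  rw [Nat.eq_of_mul_eq_mul_left Nat.card_pos h]
  change ∑ y, μ A y = _
  rw [Finset.sum_congr rfl fun y _ => μ_cls y, sum_cls fun k => μ A (rep k)]
  simp only [fun k => (cnt k).1, Fin.sum_univ_six, μ_odd (y := rep 5) (by decide)]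
  simp

theorem card_fix : (univ.filter fun ω : A => stv (u 0) 1 • ω = ω).card + 2 * (4 * μ A (rep 1) +
    6 * μ A (rep 2) + 6 * μ A (rep 3) + 16 * μ A (rep 4)) = Fintype.card A := by
  have h := τ.fix_mul π (Ω := (univ : Finset A)) (fun _ _ _ => mem_univ _) (Pi.single 0 1)
  have h0 := τ.card_mul π (Ω := (univ : Finset A)) fun _ _ _ => mem_univ _
  rw [mul_comm, card_univ] at h0
  rw [mul_comm, τ, tvs_single] at h
  have h1 := mul_left_cancel₀ (Nat.cast_ne_zero.2 Nat.card_pos.ne') h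
  have h2 : ∑ y ∈ univ.filter fun y : E => y 0 ≠ 0, μ A y = 4 * μ A (rep 1) +
      6 * μ A (rep 2) + 6 * μ A (rep 3) + 16 * μ A (rep 4) := by
    rw [Finset.sum_congr rfl fun y _ => μ_cls y, sum_cls fun k => μ A (rep k)]
    simp only [filter_filter, fun k => (cnt k).2, Fin.sum_univ_six, μ_odd (y := rep 5) (by decide)]
    simp
  rw [Nat.eq_of_mul_eq_mul_left Nat.card_pos h0, ← h2]
  apply Nat.cast_injective (R := ℂ)
  push_cast
  rw [h1, Finset.sum_filter, Finset.mul_sum, ← Finset.sum_add_distrib]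
  refine Finset.sum_congr rfl fun y _ => ?_
  rw [π_f, psi_eq]
  simp only [Pi.single_apply, ite_mul, one_mul, zero_mul, sum_ite_eq', mem_univ, if_true, μ, τ]
  by_cases hy : y 0 = 0 <;> simp [hy]
  ring

theorem faithful (hA : ∀ ω : A, ∃ g : G, g • ω ≠ ω) [Nonempty A] {g : G}
    (h : ∀ ω : A, g • ω = ω) : g = 1 := by
  rcases (MonoidHom.normal_ker (MulAction.toPermHom G A)).eq_bot_or_eq_top with h0 | h0
  · exact (Subgroup.eq_bot_iff_forall _).1 h0 g (Equiv.ext h)
  · obtain ⟨ω⟩ := ‹Nonempty A›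
    obtain ⟨x, hx⟩ := hA ω
    exact absurd (Equiv.congr_fun (show x ∈ (MulAction.toPermHom G A).ker from
      h0 ▸ Subgroup.mem_top x) ω) hx

theorem case_hyp (h1 : μ A (rep 1) = 0) (h3 : μ A (rep 3) = 0) (h4 : μ A (rep 4) = 0) :
    Fintype.card A ≤ 4 * μ A (rep 0) := by
  rw [← card_univ, τ.card_eq_sum (Ω := (univ : Finset A)) fun _ _ _ => mem_univ _,
    show rep 0 = 0 by decide, μ, τ.mu_zero, mul_comm, ← smul_eq_mul, ← sum_const]
  refine Finset.sum_le_sum fun O hO => ?_
  obtain ⟨ω, -, rfl⟩ := τ.mem_orbs.1 hO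
  have h := τ.card_Y π ω
  rw [mul_comm] at h
  rw [Nat.eq_of_mul_eq_mul_left Nat.card_pos h]
  have hc : ∀ y ∈ τ.Y π ω, cls y = 0 ∨ cls y = 2 := fun y hy => by
    have a := τ.one_le_mu π (mem_univ ω) hy
    have b := cls_ne hy
    change 1 ≤ μ A y at a
    rw [μ_cls] at a
    generalize cls y = k at a b
    fin_cases k <;> simp_all
  have e : ∑ i : Fin 7, ∑ y ∈ univ.filter (· ∈ τ.Y π ω), π.f (Pi.single i 1) y =
      3 * Nat.card (τ.Y π ω) + 4 := by
    rw [Finset.sum_comm, Finset.sum_congr rfl (g := fun y => 3 + if y = 0 then 4 else 0),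
      sum_add_distrib, sum_ite_eq', if_pos (by simp), sum_const, Nat.card_eq_fintype_card,
      Fintype.card_subtype]
    · simp [mul_comm]
    · intro y hy
      have := congrArg (Int.cast (R := ℂ)) (cls_two y (hc y (by simpa using hy)))
      simp only [π_f, psi_eq, Pi.single_apply, ite_mul, one_mul, zero_mul, sum_ite_eq', mem_univ,
        if_true]
      push_cast at this
      rw [this]
      split_ifs <;> norm_num
  simp only [τ.sum_Y, ← Finset.sum_filter, sum_const, nsmul_eq_mul] at e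
  have e' : (univ.filter fun i : Fin 7 => τ.t (Pi.single i 1) • ω = ω).card * Nat.card (τ.Y π ω) =
      3 * Nat.card (τ.Y π ω) + 4 := by exact_mod_cast e
  refine Nat.le_of_dvd (by omega) ((Nat.dvd_add_right (Dvd.intro_left 3 rfl)).1 ?_)
  rw [← e']; exact Dvd.intro_left _ rfl

theorem cls_of (h2 : μ A (rep 2) = 0) (h4 : μ A (rep 4) = 0) {ω : A} {y : E} (hy : y ∈ τ.Y π ω) :
    cls y = 0 ∨ cls y = 1 ∨ cls y = 3 := by
  have a := τ.one_le_mu π (mem_univ ω) hy
  have b := cls_ne hy
  change 1 ≤ μ A y at a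
  rw [μ_cls] at a
  generalize cls y = k at a b
  fin_cases k <;> simp_all

theorem stv_smul_iff (g : G) (v : V) (ω : A) :
    stv (g.1 *ᵥ v) 1 • g • ω = g • ω ↔ stv v 1 • ω = ω := by
  rw [← stv_conj, ← mul_smul, inv_mul_cancel_right, mul_smul, smul_left_cancel_iff]

/-- the vectors whose transvection fixes a point. -/
def S (h2 : μ A (rep 2) = 0) (h4 : μ A (rep 4) = 0) (ω : A) : AddSubgroup V where
  carrier := {v | stv v 1 • ω = ω}
  zero_mem' := by simp [stv_zero_left]
  neg_mem' {v} h := by rwa [show -v = v from funext fun i => CharTwo.neg_eq _]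
  add_mem' {v w} hv hw := by
    change stv _ 1 • ω = ω at hv hw ⊢
    rcases (by decide : ∀ c : K, c = 0 ∨ c = 1) (𝔅 v w) with h | h
    · by_cases h0 : v = 0
      · rwa [h0, zero_add]
      by_cases h1 : w = 0
      · rwa [h1, add_zero]
      by_cases h3 : v = w
      · rw [h3, show w + w = 0 from funext fun i => CharTwo.add_self_eq_zero _, stv_zero_left,
          one_smul]
      have li : ∀ a b : V, a ≠ 0 → b ≠ 0 → a ≠ b → LinearIndependent K ![a, b] := fun a b ha hb hab =>
        QC.li_pair ha fun c hc => by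
          rcases (by decide : ∀ c : K, c = 0 ∨ c = 1) c with rfl | rfl
          · exact hb (by simpa using hc)
          · exact hab (by simpa using hc.symm)
      obtain ⟨g, g1, g2⟩ := exists_sp_pair (li (u 0) (u 1) (u_ne _) (u_ne _) (by decide +kernel))
        (li v w h0 h1 h3) (by rw [h, hu])
      rw [← g1, ← g2, ← mulVec_add, u_add]
      rw [← smul_inv_smul g ω, ← g1, stv_smul_iff, ← tvs_single hu] at hv
      rw [← smul_inv_smul g ω, ← g2, stv_smul_iff, ← tvs_single hu] at hw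
      rw [← smul_inv_smul g ω, stv_smul_iff, ← tvs_single hu]
      refine τ.fix_of_Y π fun y hy => ?_
      have a := psi_eq_one (hy _ hv)
      have b := psi_eq_one (hy _ hw)
      simp only [Pi.single_apply, ite_mul, one_mul, zero_mul, sum_ite_eq', mem_univ, if_true] at a b
      simp [π_f, Pi.single_apply, (cls_lin y (cls_of h2 h4 hy)).1 a b]
    · have := (stv_smul_iff (stv w 1) v ω).2 hv
      rwa [hw, stv_mulVec, h, one_mul, one_smul] at this

theorem bound [MulAction.IsPretransitive G A] [Nonempty A] (hA : ∀ ω : A, ∃ g : G, g • ω ≠ ω) :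
    28 ≤ Fintype.card A := by
  by_contra hlt
  have e1 := card_A (A := A)
  have e2 := card_fix (A := A)
  obtain ⟨ω⟩ := ‹Nonempty A›
  have e0 : 1 ≤ μ A (rep 0) := τ.one_le_mu π (mem_univ ω) (by
    rw [show rep 0 = 0 by decide]; exact zero_mem _)
  have h4 : μ A (rep 4) = 0 := by omega
  by_cases h2 : μ A (rep 2) = 0
  swap
  · have := case_hyp (A := A) (by omega) (by omega) h4
    omega
  by_cases h3 : μ A (rep 3) = 0
  · have : τ.t (Pi.single 0 1 + Pi.single 1 1 + Pi.single 3 1) = 1 := faithful hA fun ω =>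
      τ.fix_of_Y π fun y hy => by
        have := (cls_lin y (cls_of h2 h4 hy)).2 fun h => by
          have a := τ.one_le_mu π (mem_univ ω) hy
          change 1 ≤ μ A y at a
          rw [μ_cls, h] at a
          omega
        simp [π_f, add_mul, sum_add_distrib, Pi.single_apply, this]
    have h := congrArg (fun g : G => g.1 *ᵥ Pi.single (.inr 0) 1) this
    simp only [τ, tvs_mulVec, spv_one, one_mulVec, spBilin_apply_sum] at h
    revert h
    decide +kernel
  have e3 : 7 * μ A (rep 3) + μ A (rep 1) ≤ μ A (rep 0) := by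
    have := τ.sum_mu_le π (Ω := (univ : Finset A)) (insert (rep 1) (univ.filter fun y => cls y = 3))
      fun ω _ y hy z hz a b => by
        by_contra hne
        have c := cls_of h2 h4 (add_mem a b)
        have d := cls_an y (by simpa [or_comm] using hy) z (by simpa [or_comm] using hz) hne
        generalize cls (y + z) = k at c d
        revert k; decide
    rw [sum_insert (by decide +kernel), ← τ.mu_zero π, Finset.sum_congr rfl
      (g := fun _ => μ A (rep 3)) fun y hy => by
        change μ A y = _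
        rw [μ_cls, (mem_filter.1 hy).2], sum_const, (cnt 3).1] at this
    rw [show rep 0 = 0 by decide, add_comm]
    exact this
  have e4 := double_count (X := (⊤ : Subgroup G)) (Ω := (univ : Finset A))
    (S := univ.filter fun v : V => v ≠ 0) (fun _ _ _ _ => mem_univ _)
    (fun a _ b _ => (MulAction.exists_smul_eq G a b).imp fun g hg => ⟨trivial, hg⟩)
    (fun g _ e he => by simpa [smul_def] using sp_mulVec_ne_zero g (by simpa using he))
    (fun e he e' he' => (exists_sp_apply_eq (by simpa using he) (by simpa using he')).imp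
      fun g hg => ⟨trivial, hg⟩) (fun ω v => stv v 1 • ω = ω)
    (fun g _ ω _ e _ h => (stv_smul_iff g e ω).2 h) (mem_univ ω) (e₀ := u 0) (by simpa using u_ne 0)
  have e5 : ((univ.filter fun v : V => v ≠ 0).filter fun v => stv v 1 • ω = ω).card + 1 =
      Nat.card (S h2 h4 ω) := by
    rw [Nat.card_eq_fintype_card, Fintype.card_subtype, ← Finset.card_insert_of_notMem (a := 0)
      (by simp)]
    congr 1
    ext v
    by_cases hv : v = 0
    · simp [hv]
    · simp [hv]; rfl
  have e6 : Nat.card (S h2 h4 ω) ∣ 2 ^ 6 := by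
    have := (S h2 h4 ω).card_addSubgroup_dvd_card
    simpa using this
  have e7 : Nat.card (S h2 h4 ω) ≠ 2 ^ 6 := fun h => by
    have ht : S h2 h4 ω = ⊤ := AddSubgroup.eq_top_of_card_eq _ (by simpa using h)
    obtain ⟨g, hg⟩ := hA ω
    have := sp_eq_top_of_stv_mem (MulAction.stabilizer G ω) fun a c => by
      rcases (by decide : ∀ c : K, c = 0 ∨ c = 1) c with rfl | rfl
      · rw [stv_zero]; exact one_mem _
      · exact (ht ▸ AddSubgroup.mem_top a : a ∈ S h2 h4 ω)
    exact hg (this ▸ Subgroup.mem_top g : g ∈ MulAction.stabilizer G ω)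
  obtain ⟨k, hk, ek⟩ := (Nat.dvd_prime_pow Nat.prime_two).1 e6
  rw [card_V, card_univ] at e4
  rw [ek] at e5 e7
  have e8 : Fintype.card A * (2 ^ k - 1) = _ := (congrArg _ (by rw [← e5]; rfl)).trans e4
  interval_cases k <;> omega

theorem lower (H : Subgroup G) (hH : H ≠ ⊤) : 28 ≤ H.index := by
  letI : Fintype (G ⧸ H) := Fintype.ofFinite _
  rw [Subgroup.index, Nat.card_eq_fintype_card]
  refine bound fun ω => ?_
  by_contra hc
  push Not at hc
  refine hH (eq_top_iff.2 fun g _ => ?_)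
  obtain ⟨x, rfl⟩ := QuotientGroup.mk_surjective ω
  have := QuotientGroup.eq.1 (hc (x * g⁻¹ * x⁻¹))
  simpa using this

end S6

end Cfsg.Agent.H26.MI
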