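import Cfsg.Agent.H26.MS2

/-! Minimal index of `Sp_{2m}(2)`. -/

set_option autoImplicit false
set_option linter.unusedSectionVars false

namespace Cfsg.Agent.H26.MI

open Finset Matrix Cfsg.Agent.H10 Cfsg.Agent.H11 Module
open scoped Classical Pointwise

namespace S2

variable {F : Type*} [Field F] [Fintype F] (hF : Fintype.card F = 2) {m : ℕ}

local notation "𝔅" => spBilin (Fin m) F
local notation "𝒬" => quadFormPlus m F

include hF

theorem cases (c : F) : c = 0 ∨ c = 1 := by
  obtain ⟨e⟩ := nonempty_ringEquiv_zmod (K := F) 2 (by rw [Nat.card_eq_fintype_card, hF])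
  rcases (by decide : ∀ c : ZMod 2, c = 0 ∨ c = 1) (e c) with h | h
  · exact Or.inl (e.injective (by simpa using h))
  · exact Or.inr (e.injective (by simpa using h))

theorem two : (2 : F) = 0 := by
  rcases cases hF (1 + 1) with h | h
  · rwa [one_add_one_eq_two] at h
  · simp at h

theorem b_eq (x y : Fin m ⊕ Fin m → F) : bPlus m F x y = 𝔅 x y := by
  rw [bPlus_apply, spBilin_apply_sum]
  refine Finset.sum_congr rfl fun i _ => ?_
  linear_combination (x (.inl i) * y (.inr i)) * two hF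

theorem simple (hm : 3 ≤ m) : IsSimpleGroup (symplecticGroup (Fin m) F) :=
  haveI := isSimpleGroup_PSp (F := F) (m := m) (by omega) (by omega)
  (MulEquiv.ofBijective (spQ (Fin m) F) ⟨spQ_injective (two hF), spQ_surjective⟩).isSimpleGroup

theorem lower (hm : 3 ≤ m) (H : Subgroup (symplecticGroup (Fin m) F)) (hH : H ≠ ⊤) :
    2 ^ (m - 1) * (2 ^ m - 1) ≤ H.index := by
  haveI := simple hF hm
  have hq : Nat.card F = 2 := by rw [Nat.card_eq_fintype_card, hF]
  rcases hm.eq_or_lt with rfl | hm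
  · obtain ⟨e⟩ := nonempty_ringEquiv_zmod (K := F) 2 hq
    exact lower_sub (spCongr (n := Fin 3) e).symm.toMonoidHom (x := stv (S6.u 0) 1)
      (fun h => by
        have h3 : (spCongr (n := Fin 3) e).symm (stv (S6.u 0) 1) = 1 := h
        simpa [stv_eq_one_iff, S6.u_ne] using (MulEquiv.map_eq_one_iff _).1 h3) S6.lower H hH
  have h : QC _ _ := clQuad (isQuad_plus m F) (bPlus_sep m F)
  have hw := wittIdx_plus m F
  obtain ⟨k, rfl⟩ : ∃ k, m = k + 2 := ⟨m - 2, by omega⟩
  have hd : finrank F (Fin (k + 2) ⊕ Fin (k + 2) → F) = 2 * (k + 2) := by simp; omega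
  have hle : h.Om ≤ isomGroup (spBilin (Fin (k + 2)) F) := fun g hg x y => by
    rw [← b_eq hF, ← b_eq hF]; exact (h.om_le_isom hg).1 x y
  obtain ⟨g, hg, e⟩ := h.trans1 (by omega) (u := Pi.single (.inl 0) 1) (v := Pi.single (.inl 1) 1)
    (by simp) (by simp) (by simp [quadFormPlus, Pi.single_apply])
  haveI : Finite ((Fin (k + 2) ⊕ Fin (k + 2) → F) ≃ₗ[F] (Fin (k + 2) ⊕ Fin (k + 2) → F)) :=
    DFunLike.finite _
  refine lower_sub (spEquiv.symm.toMonoidHom.comp (Subgroup.inclusion hle)) (x := ⟨g, hg⟩)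
    (fun h1 => ?_) (lower_of_act' h.Om.subtype h.Om.subtype_injective h.Om.range_subtype
      fun K Ω hA => h.bound_plus (by omega) hd hw (Or.inr ⟨hq, rfl⟩) hA) H hH
  have h2 : g = 1 := by
    have h3 : spEquiv.symm (Subgroup.inclusion hle ⟨g, hg⟩) = 1 := h1
    exact congrArg Subtype.val ((MulEquiv.map_eq_one_iff _).1 h3)
  have := congrFun e (.inl 0)
  simp [h2] at this

omit hF in
/-- the action on functions. -/
@[reducible] def fnAct (m : ℕ) (F : Type*) [Field F] :
    MulAction (symplecticGroup (Fin m) F) ((Fin m ⊕ Fin m → F) → F) where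
  smul g θ x := θ ((g⁻¹).1 *ᵥ x)
  one_smul θ := funext fun x => by
    change θ ((1⁻¹ : symplecticGroup (Fin m) F).1 *ᵥ x) = _
    rw [inv_one, spv_one, one_mulVec]
  mul_smul g h θ := funext fun x => by
    change θ (((g * h)⁻¹).1 *ᵥ x) = θ ((h⁻¹).1 *ᵥ ((g⁻¹).1 *ᵥ x))
    rw [_root_.mul_inv_rev, sp_mul_mulVec]

omit hF in
/-- the quadratic forms polarising to the symplectic form. -/
noncomputable def th (a x : Fin m ⊕ Fin m → F) : F := 𝒬 x + 𝔅 x a

theorem qadd (x y : Fin m ⊕ Fin m → F) : 𝒬 (x + y) = 𝒬 x + 𝒬 y + 𝔅 x y := by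
  rw [← b_eq hF]; exact QC.qadd (clQuad (isQuad_plus m F) (bPlus_sep m F)) x y

theorem th_stv (a u x : Fin m ⊕ Fin m → F) : th a (((stv u 1)⁻¹).1 *ᵥ x) =
    if 𝒬 u + 𝔅 a u = 0 then th (a + u) x else th a x := by
  have h2 := two hF
  rw [stv_inv, stv_mulVec, th, qadd hF, QC.qsmul (clQuad (isQuad_plus m F) (bPlus_sep m F))]
  simp only [th, map_add, map_smul, LinearMap.add_apply, LinearMap.smul_apply, smul_eq_mul,
    spB_swap u a]
  rcases cases hF (𝔅 x u) with h | h <;> rw [h] <;> split_ifs with h'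
  · simp
  · simp
  · linear_combination h' - h2
  · linear_combination ((cases hF _).resolve_left h')

theorem exi (hm : 1 ≤ m) :
    ∃ H : Subgroup (symplecticGroup (Fin m) F), H.index = 2 ^ (m - 1) * (2 ^ m - 1) := by
  letI := fnAct m F
  have hq : Nat.card F = 2 := by rw [Nat.card_eq_fintype_card, hF]
  have hc : Nat.card {v : Fin m ⊕ Fin m → F // 𝒬 v = 1} = 2 ^ (m - 1) * (2 ^ m - 1) := by
    have := card_level_plus one_ne_zero _ (isQuad_plus m F) (bPlus_sep m F) (wittIdx_plus m F)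
      (by simp; omega)
    obtain ⟨k, rfl⟩ : ∃ k, m = k + 1 := ⟨m - 1, by omega⟩
    rw [hq] at this
    zify [show 1 ≤ 2 ^ (k + 1) from Nat.one_le_two_pow]
    refine mul_left_cancel₀ (show (2 : ℤ) ≠ 0 by positivity) ?_
    push_cast at this
    rw [this, Nat.add_sub_cancel]; ring
  obtain ⟨⟨a₀, h₀⟩⟩ := (Nat.card_ne_zero.1 (hc ▸ mul_ne_zero (by positivity)
    (Nat.sub_ne_zero_of_lt (Nat.one_lt_two_pow (by omega))))).1
  refine ⟨MulAction.stabilizer _ (th a₀), ?_⟩
  have inj : Function.Injective (th (m := m) (F := F)) := fun a b h => by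
    refine sub_eq_zero.1 (spBilin_nondegenerate.2 _ fun x => ?_)
    have := congrFun h x
    simp only [th, add_right_inj] at this
    rw [map_sub, this, sub_self]
  have key : ∀ a u : Fin m ⊕ Fin m → F, stv u 1 • th a =
      if 𝒬 u + 𝔅 a u = 0 then th (a + u) else th a := fun a u => funext fun x => by
    refine (th_stv hF a u x).trans ?_
    split_ifs <;> rfl
  have hT : MulAction.stabilizer (symplecticGroup (Fin m) F) (th '' {v | 𝒬 v = 1}) = ⊤ := by
    refine sp_eq_top_of_stv_mem _ fun u c => ?_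
    rcases cases hF c with rfl | rfl
    · rw [stv_zero]; exact one_mem _
    rw [MulAction.mem_stabilizer_set_iff_smul_set_subset (Set.toFinite _)]
    rintro _ ⟨_, ⟨a, ha, rfl⟩, rfl⟩
    simp only [key]
    split_ifs with h
    · exact ⟨a + u, by rw [Set.mem_ofPred_eq, qadd hF, add_assoc, h, add_zero]; exact ha, rfl⟩
    · exact ⟨a, ha, rfl⟩
  rw [MulAction.index_stabilizer, ← hc, show MulAction.orbit (symplecticGroup (Fin m) F) (th a₀) =
    th '' {v | 𝒬 v = 1} from ?_, Set.ncard_image_of_injective _ inj]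
  · rfl
  ext θ
  constructor
  · rintro ⟨g, rfl⟩
    have : g ∈ MulAction.stabilizer _ (th '' {v | 𝒬 v = 1}) := hT ▸ Subgroup.mem_top g
    rw [← MulAction.mem_stabilizer_iff.1 this]
    exact Set.smul_mem_smul_set ⟨a₀, h₀, rfl⟩
  · rintro ⟨a, ha, rfl⟩
    refine ⟨stv (a - a₀) 1, ?_⟩
    have := qadd hF a₀ (a - a₀)
    rw [add_sub_cancel, show 𝒬 a = 1 from ha, h₀] at this
    simp only [key]
    rw [if_pos (by linear_combination -this), add_sub_cancel]

theorem psp (hm : 3 ≤ m) : (∀ H : Subgroup (PSp m F), H ≠ ⊤ → 2 ^ (m - 1) * (2 ^ m - 1) ≤ H.index) ∧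
    ∃ H : Subgroup (PSp m F), H.index = 2 ^ (m - 1) * (2 ^ m - 1) := by
  have e := MulEquiv.ofBijective (spQ (Fin m) F) ⟨spQ_injective (two hF), spQ_surjective⟩
  refine ⟨fun H hH => ?_, ?_⟩
  · rw [← H.index_comap_of_surjective (f := e.toMonoidHom) e.surjective]
    exact lower hF hm _ fun h => hH (Subgroup.comap_injective (f := e.toMonoidHom) e.surjective
      (by rw [h, Subgroup.comap_top]))
  · obtain ⟨H, hH⟩ := exi hF (m := m) (by omega)
    exact ⟨H.comap e.symm.toMonoidHom, by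
      rw [H.index_comap_of_surjective e.symm.surjective, hH]⟩

end S2

end Cfsg.Agent.H26.MI
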