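import Cfsg.Agent.H26.MI12
import Cfsg.Agent.H11.Spin2

/-! Minimal index of `Ω₆⁻(q)`: geometry. -/

set_option autoImplicit false
set_option maxHeartbeats 400000
set_option linter.unusedSectionVars false

namespace Cfsg.Agent.H26.MI

open Module Cfsg.Agent.H11 Cfsg.Agent.H10 MulAction Finset
open scoped Classical

variable {F : Type*} [Field F] [Fintype F] {V : Type*} [AddCommGroup V] [Module F V] [Fintype V]
variable {B : V →ₗ[F] V →ₗ[F] F} {Q : V → F}

namespace QC
variable (h : QC B Q)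
include h

theorem sing_span' {A : Submodule F V} {u : V} (hu : u ∈ perp B A) (huA : u ∉ A) (hQ : Q u = 0)
    (φ : V →ₗ[F] F) {z : V} (hz : z ∈ perp B A) (hφ : φ z ≠ 0) :
    ∃ u ∈ perp B A, Q u = 0 ∧ φ u ≠ 0 := by
  by_cases hφu : φ u = 0
  · obtain ⟨z₀, hz₀, hb⟩ := h.exists_perp_not huA
    obtain ⟨x, hx, x1, x2⟩ := exists_mem_ne_ne (U := perp B A) φ (B u) ⟨z, hz, hφ⟩
      ⟨z₀, mem_perp.2 hz₀, by simp [hb]⟩
    obtain ⟨c, hc⟩ := h.form.exists_add_smul_singular hQ x2
    exact ⟨_, add_mem hx (Submodule.smul_mem _ _ hu), hc, by simpa [hφu] using x1⟩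
  · exact ⟨u, hu, hQ, hφu⟩

theorem not_mem_of_sing {e y u : V} (he : Q e = 0) (hey : B e y = 0) (hy : Q y ≠ 0) (hu : Q u = 0)
    (hue : u ∉ Submodule.span F {e}) : u ∉ Submodule.span F {e, y} := fun hm => by
  obtain ⟨c, d, rfl⟩ := Submodule.mem_span_pair.1 hm
  have : d = 0 := by simpa [h.qadd, h.qsmul, he, hey, hy] using hu
  exact hue (Submodule.mem_span_singleton.2 ⟨c, by simp [this]⟩)

theorem partner6 {e y u : V} (he : Q e = 0) (hey : B e y = 0) (hy : Q y ≠ 0) (hu : Q u = 0)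
    (hue : u ∉ Submodule.span F {e}) (eu : B e u = 0) (yu : B y u = 0) :
    ∃ f, Q f = 0 ∧ B u f = 1 ∧ B e f = 0 ∧ B y f = 0 := by
  obtain ⟨f, hf, huf, hfZ⟩ := h.form.exists_partner_perp h.sep hu
    (h.not_mem_of_sing he hey hy hu hue) (mem_perp.1 (mem_perp_span.2 (by simp [eu, yu])))
  exact ⟨f, hf, huf, hfZ e (Submodule.subset_span (by simp)), hfZ y (Submodule.subset_span (by simp))⟩

theorem sing6 (hn : 6 ≤ finrank F V) (e y : V) :
    ∃ u, Q u = 0 ∧ u ∉ Submodule.span F {e} ∧ B e u = 0 ∧ B y u = 0 := by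
  have d1 := h.finrank_perp (Submodule.span F {e, y})
  have d2 := finrank_span_pair_le (F := F) e y
  have d3 := finrank_span_one_le (F := F) e
  obtain ⟨u, hu, huZ, hQ⟩ := h.exists_sing_notMem (W := perp B (Submodule.span F {e, y}))
    (Z := Submodule.span F {e}) (by omega)
  exact ⟨u, hQ, huZ, mem_perp.1 hu e (Submodule.subset_span (by simp)),
    mem_perp.1 hu y (Submodule.subset_span (by simp))⟩

theorem lev6 (hn : 6 ≤ finrank F V) {e y : V} (he : Q e = 0) (hey : B e y = 0) (hy : Q y ≠ 0)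
    (c : F) : ∃ z, B e z = 0 ∧ B y z = 0 ∧ z ∉ Submodule.span F {e, y} ∧ Q z = c := by
  obtain ⟨u, hu, hue, eu, yu⟩ := h.sing6 hn e y
  obtain ⟨f, hf, huf, ef, yf⟩ := h.partner6 he hey hy hu hue eu yu
  refine ⟨u + c • f, by simp [eu, ef], by simp [yu, yf], fun hm => ?_,
    h.q.exists_eq_of_pair hu hf huf c⟩
  obtain ⟨a, b, hab⟩ := Submodule.mem_span_pair.1 hm
  have := congrArg (fun x => B x f) hab
  simp [huf, h.diag0 hf, ef, yf] at this

theorem lemI6 (hn : finrank F V = 6) (hν : WittIdx B Q 2) (hq : 3 ≤ Nat.card F)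
    {Y : AddSubgroup V} {e y y' : V} (he : Q e = 0) (he0 : e ≠ 0) (hey : B e y = 0) (hQy : Q y ≠ 0)
    (hYe : ∀ x ∈ Y, B e x = 0)
    (hY : ∀ u v, Q u = 0 → B u v = 0 → B e u = 0 → B e v = 0 → B y u = 0 → B y v = 0 →
      ∀ x ∈ Y, h.sg u v x ∈ Y) (hy' : y' ∈ Y) (hy : ∀ c d : F, y' ≠ c • e + d • y)
    {z : V} (h1 : B e z = 0) (h2 : B y z = 0) : z ∈ Y := by
  have f : ∀ u x, x ∈ Y → Q u = 0 → B e u = 0 → B y u = 0 → ∀ v, B e v = 0 → B y v = 0 →
      B u v = 0 → B v x • u - B u x • v - (Q v * B u x) • u ∈ Y := fun u x hx hu eu yu v a b c => by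
    have := sub_mem (hY u v hu c eu a yu b x hx) hx
    rw [h.sg_apply hu c] at this
    convert this using 1; abel
  have ne : ∀ u x, x ∈ Y → B u x ≠ 0 → u ∉ Submodule.span F {e} := fun u x hx hux hm => by
    obtain ⟨a, rfl⟩ := Submodule.mem_span_singleton.1 hm
    simp [hYe x hx] at hux
  have g1 : ∀ u x, x ∈ Y → Q u = 0 → B e u = 0 → B y u = 0 → B u x ≠ 0 → ∀ c : F, c • u ∈ Y := by
    intro u x hx hu eu yu hux c
    by_cases h2 : (2 : F) = 0
    · have yy : B y y = 0 := by rw [h.diag, h2, zero_mul]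
      obtain ⟨a, ha0, ha⟩ := exists_sq_ne_one (F := F) (by
        have : CharP F 2 := (CharP.charP_iff_prime_eq_zero Nat.prime_two).2 h2
        obtain ⟨k, -, hk⟩ := FiniteField.card F 2
        rw [Nat.card_eq_fintype_card, hk] at hq ⊢
        obtain ⟨j, hj⟩ := dvd_pow_self 2 k.ne_zero
        omega)
      have ha1 : a - 1 ≠ 0 := fun e => ha (by rw [sub_eq_zero.1 e, one_mul])
      obtain ⟨u', hu', uu, eu', yu'⟩ := h.partner6 he hey hQy hu (ne u x hx hux) eu yu
      obtain ⟨t, ht0, ht⟩ : ∃ t : F, t ≠ 0 ∧ B y x - t * Q y * B u x ≠ 0 := by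
        by_cases h3 : B y x - 1 * Q y * B u x = 0
        · refine ⟨a, ha0, fun h4 => mul_ne_zero (mul_ne_zero ha1 hQy) hux ?_⟩
          linear_combination h3 - h4
        · exact ⟨1, one_ne_zero, h3⟩
      have k1 := f u x hx hu eu yu (t • y) (by simp [hey]) (by simp [yy]) (by simp [h.refl yu])
      have k2 : ∀ s b : F, -(s * b) • y - (s * s * Q y * b) • u ∈ Y := fun s b => by
        obtain ⟨r, hr⟩ := FiniteField.isSquare_of_char_two (F := F)
          ((ringChar.eq_iff).2 ((CharP.charP_iff_prime_eq_zero Nat.prime_two).2 h2))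
          (-b / (Q y * (t * (B y x - t * Q y * B u x))))
        have k3 := f u' _ k1 hu' eu' yu' (r • y) (by simp [hey]) (by simp [yy])
          (by simp [h.refl yu'])
        have k4 := f u _ k3 hu eu yu (s • y) (by simp [hey]) (by simp [yy]) (by simp [h.refl yu])
        have hb : b = -(r * r) * (Q y * (t * (B y x - t * Q y * B u x))) := by
          rw [← hr, neg_div, neg_neg, div_mul_cancel₀ _ (mul_ne_zero hQy (mul_ne_zero ht0 ht))]
        convert k4 using 1
        simp only [map_sub, map_smul, LinearMap.smul_apply, smul_eq_mul, h.qsmul, yy, yu, yu', uu,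
          h.refl yu, h.refl yu', h.comm u' u, hb]
        module
      have k5 : ∀ d : F, d • y ∈ Y := fun d => by
        have := sub_mem (k2 1 (a * d / (1 - a))) (k2 a (d / (a * (1 - a))))
        have h3 : 1 - a ≠ 0 := fun e => ha1 (by linear_combination -e)
        convert this using 1
        match_scalars <;> field_simp <;> ring
      have := sub_mem (k5 (c / Q y)) (k2 1 (-c / Q y))
      convert neg_mem this using 1
      match_scalars <;> field_simp <;> ring
    have hr : finrank F (Submodule.span F (({e, y, u} : Finset V) : Set V)) ≤ 3 :=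
      (finrank_span_finset_le_card _).trans Finset.card_le_three
    have hp := h.finrank_perp (Submodule.span F (({e, y, u} : Finset V) : Set V))
    obtain ⟨v, hv, hv'⟩ := MX.exists_not_mem_of_lt (W := Submodule.span F {e, u})
      (U := perp B (Submodule.span F (({e, y, u} : Finset V) : Set V)))
      (by have := finrank_span_pair_le (F := F) e u; omega)
    have hs : ∀ t ∈ ({e, y, u} : Finset V), t ∈ Submodule.span F (({e, y, u} : Finset V) : Set V) :=
      fun t ht => Submodule.subset_span ht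
    have v1 := mem_perp.1 hv e (hs _ (by simp))
    have v2 := mem_perp.1 hv y (hs _ (by simp))
    have v3 := mem_perp.1 hv u (hs _ (by simp))
    have hQv : Q v ≠ 0 := fun h0 => by
      have t1 := h.form.finrank_le_wittIdx h.sep hν (h.form.totSing_span (s := Set.range ![e, u, v])
        (by rintro _ ⟨i, rfl⟩; fin_cases i <;> simp [*]) (by
          rintro _ ⟨i, rfl⟩ _ ⟨j, rfl⟩
          fin_cases i <;> fin_cases j <;>
            simp [eu, v1, v3, h.refl eu, h.refl v1, h.refl v3, h.diag0 he, h.diag0 hu, h.diag0 h0]))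
      rw [finrank_span_eq_card (li_triple he0 (fun c hc => ne u x hx hux
        (Submodule.mem_span_singleton.2 ⟨c, hc.symm⟩)) fun c d hc =>
          hv' (Submodule.mem_span_pair.2 ⟨c, d, hc.symm⟩))] at t1
      simp at t1
    set t := (2 * Q v * B u x)⁻¹ * c
    have := sub_mem (add_mem (f u x hx hu eu yu (t • v) (by simp [v1]) (by simp [v2]) (by simp [v3]))
      (f u x hx hu eu yu v v1 v2 v3)) (f u x hx hu eu yu (t • v + v) (by simp [v1]) (by simp [v2])
        (by simp [v3]))
    convert this using 1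
    simp only [h.qadd, map_add, map_smul, LinearMap.add_apply, LinearMap.smul_apply, h.diag v,
      smul_eq_mul]
    match_scalars
    · simp only [t]; field_simp; ring
    · ring
  have step : ∀ u x, x ∈ Y → Q u = 0 → B e u = 0 → B y u = 0 → B u x ≠ 0 →
      ∀ v, B e v = 0 → B y v = 0 → B u v = 0 → v ∈ Y := by
    intro u x hx hu eu yu hux w a b c
    have := sub_mem (g1 u x hx hu eu yu hux (B ((B u x)⁻¹ • w) x - Q ((B u x)⁻¹ • w) * B u x))
      (f u x hx hu eu yu ((B u x)⁻¹ • w) (by simp [a]) (by simp [b]) (by simp [c]))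
    convert this using 1
    rw [smul_smul, mul_inv_cancel₀ hux]; module
  have hmem : ∀ x, x ∈ perp B (Submodule.span F {e, y}) ↔ B e x = 0 ∧ B y x = 0 := fun x => by
    simp [mem_perp_span]
  obtain ⟨z₀, hz₀, hb⟩ := h.exists_perp_not (A := Submodule.span F {e, y}) (x := y') fun hm => by
    obtain ⟨c, d, hcd⟩ := Submodule.mem_span_pair.1 hm
    exact hy c d hcd.symm
  obtain ⟨u₀, a1, a2, a3, a4⟩ := h.sing6 hn.ge e y
  obtain ⟨u, hu, hQ, hb'⟩ := h.sing_span' ((hmem u₀).2 ⟨a3, a4⟩) (h.not_mem_of_sing he hey hQy a1 a2)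
    a1 (B y') (mem_perp.2 hz₀) (by simp [hb])
  obtain ⟨u1, u2⟩ := (hmem u).1 hu
  have s1 := g1 u y' hy' hQ u1 u2 (h.refl_ne hb')
  by_cases huz : B u z = 0
  · exact step u y' hy' hQ u1 u2 (h.refl_ne hb') z h1 h2 huz
  · obtain ⟨c, hc⟩ := h.form.exists_add_smul_singular hQ huz
    have := g1 (z + c • u) u (by simpa using s1 1) hc (by simp [h1, u1]) (by simp [h2, u2])
      (by simpa [h.diag0 hQ] using h.refl_ne huz) 1
    simpa using sub_mem this (s1 c)

theorem not_regular6 (hn : finrank F V = 6) (hq : 4 ≤ Nat.card F) {H : Subgroup (V ≃ₗ[F] V)}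
    (h1 : ∀ e w, Q e = 0 → e ≠ 0 → B e w = 0 → h.sg e w ∈ H → ∃ c : F, w = c • e)
    (h2 : ∀ e, Q e = 0 → e ≠ 0 → ∀ g ∈ h.Om, ∃ w, B e w = 0 ∧ g * h.sg e w ∈ H) : False := by
  obtain ⟨e, -, he0, he⟩ := h.exists_sing3 (W := ⊤) (by rw [finrank_top]; omega)
  obtain ⟨f, hf, ef⟩ := h.form.exists_partner h.sep he he0
  obtain ⟨y, y1, hy⟩ := h.rep_perp (Submodule.span F {e, f})
    (by have := finrank_span_pair_le (F := F) e f; omega) 1
  have ey := y1 e (Submodule.subset_span (by simp))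
  have fy := y1 f (Submodule.subset_span (by simp))
  have hr : finrank F (Submodule.span F (({e, f, y} : Finset V) : Set V)) ≤ 3 :=
    (finrank_span_finset_le_card _).trans Finset.card_le_three
  have hp := h.finrank_perp (Submodule.span F (({e, f, y} : Finset V) : Set V))
  obtain ⟨u, u1, hu0, hu⟩ := h.exists_sing3
    (W := perp B (Submodule.span F (({e, f, y} : Finset V) : Set V))) (by omega)
  have eu := mem_perp.1 u1 e (Submodule.subset_span (by simp))
  have fu := mem_perp.1 u1 f (Submodule.subset_span (by simp))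
  have uy := h.refl (mem_perp.1 u1 y (Submodule.subset_span (by simp)))
  obtain ⟨b, hb0, hb⟩ := exists_sq_ne_one hq
  set z := (h.q.dil e f b).1 * (h.q.dil e f b).1 with hz
  have zI : z ∈ Isom B Q := mul_mem (h.q.dil e f b).2 (h.q.dil e f b).2
  have za : ∀ x, B e x = 0 → z x = x + ((b * b - 1) * B f x) • e := fun x hx => by
    rw [hz, ← Subgroup.coe_mul, h.q.dil_mul he hf ef hb0 hb0,
      h.q.dil_apply he hf ef (mul_ne_zero hb0 hb0), hx, mul_zero, zero_smul, add_zero]
  have ee := h.diag0 he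
  have zc : ∀ x, B e x = 0 → z * h.sg e x = h.sg e ((b * b) • x) * z := fun x hx => by
    rw [h.mul_sg zI, za x hx, za e ee, h.comm f e, ef, show e + ((b * b - 1) * 1) • e = (b * b) • e by
      module, h.sg_smul_left he (by simp [hx, ee]), smul_add, smul_smul,
      h.sg_add_smul he (by simp [hx])]
  set t := h.sg u y with ht
  have te : t e = e := h.sg_fix (h.refl eu) (h.refl ey)
  have tc : ∀ x, t * h.sg e x = h.sg e (t x) * t := fun x => by rw [h.mul_sg (h.sg_isom hu uy), te]
  have tp : ∀ x, B e x = 0 → B e (t x) = 0 := fun x hx => by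
    rw [← te, (h.sg_isom hu uy).1]; exact hx
  have zt : z * t = t * z := by rw [h.mul_sg zI, za u eu, za y ey, fu, fy]; simp [ht]
  obtain ⟨d, hd, k1⟩ := h2 e he he0 z (h.sq_mem_om (by omega) (h.q.dil e f b).2)
  obtain ⟨d', hd', k2⟩ := h2 e he he0 t (h.sg_mem hu uy)
  have k3 := mul_mem (mul_mem k1 k2) (inv_mem (mul_mem k2 k1))
  have e1 : z * h.sg e d * (t * h.sg e d') = h.sg e ((b * b) • d + (b * b) • t d') * (z * t) := by
    rw [zc d hd, tc, h.sg_mul (by simp [hd]) (by simp [tp d' hd']), mul_assoc, ← mul_assoc z,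
      zc _ (tp d' hd')]
    simp only [mul_assoc]
  have e2 : t * h.sg e d' * (z * h.sg e d) = h.sg e (t d' + t ((b * b) • d)) * (z * t) := by
    rw [zc d hd, tc, h.sg_mul (tp d' hd') (tp _ (by simp [hd])), mul_assoc, ← mul_assoc t, tc, zt]
    simp only [mul_assoc]
  rw [e1, e2, mul_inv_rev, mul_assoc, mul_inv_cancel_left, ← h.sg_neg (by
    simp [tp d' hd', tp d hd]), ← h.sg_mul (by simp [hd, tp d' hd']) (by
      simp [tp d' hd', tp d hd])] at k3
  obtain ⟨c, hc⟩ := h1 _ _ he he0 (by simp [hd, tp d' hd', tp d hd]) k3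
  have hb1 : b * b - 1 ≠ 0 := sub_ne_zero.2 hb
  obtain ⟨α, β, γ, hd''⟩ : ∃ α β γ : F, d' = β • u + γ • y + α • e := by
    refine ⟨(b * b - 1)⁻¹ * c, (b * b - 1)⁻¹ * (b * b * (B y d + B u d)),
      (b * b - 1)⁻¹ * -(b * b * B u d), t.injective ?_⟩
    have e3 : t d' = (b * b - 1)⁻¹ • (c • e + (b * b) • (t d - d)) := by
      rw [eq_inv_smul_iff₀ hb1, ← hc, map_smul]; module
    rw [e3, map_add, map_add, map_smul, map_smul, map_smul, te, ht, h.sg_self hu uy,
      h.sg_perp hu uy uy, h.sg_apply hu uy, h.diag y, hy]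
    module
  have k4 := h.sg_line he hu eu ey uy γ (-β - γ * Q y)
  rw [hd'', h.sg_add_smul he (by simp [eu, ey]), show β • u + γ • y =
    γ • y - (-β - γ * Q y + γ * Q y) • u by module, ← k4] at k2
  obtain ⟨c', hc'⟩ := h1 _ _ (by simp [h.qadd, h.qsmul, he, hu, h.refl eu]) (fun h0 => by
    have := congrArg (B f) h0
    simp only [map_add, map_smul, fu, h.comm f e, ef, map_zero, smul_eq_mul] at this
    exact hu0 (by simpa [show γ = 0 by simpa using this] using h0))
    (by simp [uy, ey, ee, h.refl eu]) k2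
  have := congrArg Q hc'
  simp [h.qadd, h.qsmul, he, hu, hy, h.refl eu, h.refl ey] at this

end QC

theorem UD.geo6 {h : QC B Q} {H : Subgroup (V ≃ₗ[F] V)} {U : V → Submodule F V} (u : UD h H U)
    (hn : finrank F V = 6) (hty : ∀ e, Q e = 0 → e ≠ 0 → finrank F (U e) ≤ 2) : h.Om ≤ H := by
  refine h.om_le fun f w c hf a b => (?_ : h.Full H f).2 w c a b
  by_cases hf0 : f = 0
  · rw [hf0]; exact h.full_zero
  by_contra h0
  obtain ⟨x, hx, hxf⟩ := SetLike.not_le_iff_exists.1 fun hle => h0 (u.full_of_le hf hle)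
  obtain ⟨z, hz, hxz⟩ := h.exists_perp_not hxf
  obtain ⟨e, he1, he, hxe⟩ := h.sing_span (Submodule.span F {f})
    (by have := finrank_span_one_le (F := F) f; omega) (B x) (mem_perp.2 hz) (by simp [hxz])
  have hef : B e f = 0 := h.refl (mem_perp.1 he1 f (Submodule.mem_span_singleton_self f))
  have he0 : e ≠ 0 := by rintro rfl; simp at hxe
  have hk := u.key he hf hef hx (h.refl_ne hxe)
  have k1 := (Submodule.finrank_mono hk).trans (h.finrank_key hx (h.refl_ne hxe))
  have k2 := h.finrank_perp (U e ⊔ Submodule.span F {f})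
  have k3 := finrank_sup_span_le (U e) f
  have := hty e he he0
  have := hty f hf hf0
  omega

end Cfsg.Agent.H26.MI
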