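import Cfsg.Agent.H26.MV1

/-! Minimal index of `Ω₆⁻(q)`: counting. -/

set_option autoImplicit false
set_option maxHeartbeats 800000
set_option linter.unusedSectionVars false

namespace Cfsg.Agent.H26.MI

open Module Cfsg.Agent.H11 Cfsg.Agent.H10 MulAction Finset
open scoped Classical

variable {F : Type*} [Field F] [Fintype F] {V : Type*} [AddCommGroup V] [Module F V] [Fintype V]
variable {B : V →ₗ[F] V →ₗ[F] F} {Q : V → F}

namespace QC
variable (h : QC B Q) {A : Type*} [MulAction (V ≃ₗ[F] V) A]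

theorem Y_line6 (hn : finrank F V = 6) (hw : WittIdx B Q 2) (hq : 3 ≤ Nat.card F) {e : V}
    (he : Q e = 0) (he0 : e ≠ 0) {Ω : Finset A}
    (hΩ : ∀ g ∈ h.Om, g e = e → ∀ ω ∈ Ω, g • ω ∈ Ω) {p : ℕ} (hp : p.Prime) (hp0 : (p : F) = 0)
    {ω : A} (hω : ω ∈ Ω) (hr : ¬ h.Reg e ω) (hν : ∀ c, c ≠ 0 → h.nu e Ω c < p) :
    finrank F (h.U e ω) ≤ 2 := by
  by_cases hY : ∀ y ∈ h.Y e ω, Q y = 0
  · refine h.form.finrank_le_wittIdx h.sep hw (h.form.totSing_span hY fun x hx y hy => ?_)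
    have := hY _ (add_mem hx hy)
    rwa [h.qadd, hY x hx, hY y hy, zero_add, zero_add] at this
  push Not at hY
  obtain ⟨y, hy, hQ⟩ := hY
  have ne : ∀ y, Q y ≠ 0 → ∀ a : F, y ≠ a • e := fun y hQ a ha =>
    hQ (by rw [ha, h.qsmul, he, mul_zero])
  have hye := ne y hQ
  have key : ∀ y ∈ h.Y e ω, Q y ≠ 0 → ∀ y' ∈ h.Y e ω,
      (∀ c d : F, y' ≠ c • e + d • y) → ∀ z, B e z = 0 → B y z = 0 → z ∈ h.Y e ω := by
    intro y hy hQ y' hy' hy'e z z1 z2
    refine h.lemI6 hn hw hq he he0 (h.Y_perp he hy) hQ (fun x hx => h.Y_perp he hx)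
      (fun u v hu huv eu ev yu yv x hx => ?_) hy' hy'e z1 z2
    have ge : h.sg u v e = e := h.sg_fix (h.refl eu) (h.refl ev)
    have hc := h.cj (h.sg_isom hu huv) he one_ne_zero (by rw [ge, one_smul])
    have := hc.orb_fix (hΩ _ (h.sg_mem hu huv) ge) (y := y)
      (by simp [h.sg_fix (h.refl yu) (h.refl yv)]) hp (k := 1)
      (by rw [pow_one, h.sg_pow huv, hp0, zero_smul, h.sg_zero])
      (by rw [h.mu_eq_nu (by omega) he he0 hΩ (h.Y_perp he hy) (ne y hQ)]; exact hν _ hQ) hω hy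
    have h2 := hc.mem_Y.2 hx
    rw [(h.tau e).Y_eq (h.pi e) this] at h2
    simp only [inv_one, one_smul] at h2
    exact h2
  refine (Submodule.finrank_mono ?_).trans (finrank_span_pair_le e y)
  rw [U, Submodule.span_le]
  intro y' hy'
  by_contra hc
  have hy'e : ∀ c d : F, y' ≠ c • e + d • y := fun c d hcd =>
    hc (Submodule.mem_span_pair.2 ⟨c, d, hcd.symm⟩)
  have k1 := key y hy hQ y' hy' hy'e
  obtain ⟨z, z1, z2, z3, z4⟩ := h.lev6 hn.ge he (h.Y_perp he hy) hQ (Q y)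
  have k2 := key z (k1 z z1 z2) (z4 ▸ hQ) y hy fun c d hcd => by
    have hd : d ≠ 0 := by rintro rfl; exact hye c (by simpa using hcd)
    refine z3 (Submodule.mem_span_pair.2 ⟨-(d⁻¹ * c), d⁻¹, ?_⟩)
    rw [hcd, smul_add, smul_smul, smul_smul, inv_mul_cancel₀ hd]; module
  obtain ⟨t, ht, hzt⟩ := h.exists_perp_not (A := Submodule.span F {e, z}) (x := y) fun hm => by
    obtain ⟨c, d, hcd⟩ := Submodule.mem_span_pair.1 hm
    have hd : d ≠ 0 := by rintro rfl; exact hye c (by simpa using hcd.symm)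
    refine z3 (Submodule.mem_span_pair.2 ⟨-(d⁻¹ * c), d⁻¹, ?_⟩)
    rw [← hcd, smul_add, smul_smul, smul_smul, inv_mul_cancel₀ hd]; module
  have t1 := ht e (Submodule.subset_span (by simp))
  have t2 := ht z (Submodule.subset_span (by simp))
  refine hr fun v hv => ?_
  have := add_mem (k1 (v - B y v • t) (by simp [hv, t1]) (by simp [hzt]))
    (k2 (B y v • t) (by simp [t1]) (by simp [t2]))
  simpa using this

theorem sig_le6 (hn : 6 ≤ finrank F V) {e : V} (he : Q e = 0) (he0 : e ≠ 0) {Ω : Finset A}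
    (hΩ : ∀ g ∈ h.Om, ∀ a : F, a ≠ 0 → g e = a • e → ∀ ω ∈ Ω, g • ω ∈ Ω) (s : F → ℕ) (c : F) :
    h.nu e Ω c * sig s c ≤ ∑ c, h.nu e Ω c * s c := by
  obtain ⟨y, y1, hy⟩ := h.rep_perp (Submodule.span F {e})
    (by have := finrank_span_one_le (F := F) e; omega) 1
  obtain ⟨z, z1, -, z3, rfl⟩ := h.lev6 hn he (y1 e (Submodule.mem_span_singleton_self e))
    (by simp [hy]) c
  rw [sig, Finset.mul_sum]
  refine le_trans (le_of_eq (Finset.sum_congr rfl fun c' hc' => ?_))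
    (Finset.sum_le_sum_of_subset (Finset.subset_univ _))
  obtain ⟨a, -, rfl⟩ := Finset.mem_image.1 hc'
  rw [h.nu_sq (by omega) he he0 hΩ z1 (fun t ht => z3 (Submodule.mem_span_pair.2 ⟨t, 0, by simp [ht]⟩))
    a.ne_zero]

theorem lemA6 (hn : finrank F V = 6) (hw : WittIdx B Q 2) {q : ℕ} (hq : Nat.card F = q)
    (hq3 : 3 ≤ q) {s : F → ℕ} (s0 : s 0 = (q ^ 2 + 1) * (q - 1))
    (s1 : ∀ c, c ≠ 0 → s c = (q ^ 2 + 1) * q) {Ω : Finset A} (hA : Act h.Om Ω)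
    (hm : Ω.card < (q + 1) * (q ^ 3 + 1)) {e : V} (he : Q e = 0) (he0 : e ≠ 0)
    (hs : ∀ c, (h.lev e c).card = Nat.card F * s c) {ω₁ : A} (hω₁ : ω₁ ∈ Ω) (hr : h.Reg e ω₁) :
    (∀ ω ∈ Ω, h.Reg e ω → ω ∈ (h.tau e).orb ω₁) ∧
    Ω.card = q ^ 4 + (Ω.filter fun ω => ¬ h.Reg e ω).card ∧
    ((∀ ω ∈ Ω, ¬ h.Reg e ω → h.Full (stabilizer (V ≃ₗ[F] V) ω) e) ∨
      (q + 1) * (q ^ 3 + 1) ≤ Ω.card + 1) := by
  obtain ⟨p, hp, hp0, -⟩ := exists_char F
  obtain ⟨r, rfl⟩ : ∃ r, q = r + 1 := ⟨q - 1, by omega⟩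
  have hsub : ∀ ω ∈ Ω, (h.tau e).orb ω ⊆ Ω := fun ω hω x hx => by
    obtain ⟨d, rfl⟩ := (h.tau e).mem_orb.1 hx
    exact hA.inv _ (h.sg_mem he d.2) ω hω
  have cr : ∀ ω : A, h.Reg e ω → ((h.tau e).orb ω).card = (r + 1) ^ 4 := fun ω hr => by
    rw [h.card_orb_reg he he0 hr, hn, hq]
  have c1 : ∀ ω ∈ Ω, h.Reg e ω → ω ∈ (h.tau e).orb ω₁ := by
    intro ω hω hrω
    by_contra hc
    have hd : Disjoint ((h.tau e).orb ω₁) ((h.tau e).orb ω) := Finset.disjoint_left.2 fun x h1 h2 =>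
      hc (by rw [← (h.tau e).orb_eq h1, (h.tau e).orb_eq h2]; exact (h.tau e).self_mem_orb ω)
    have := Finset.card_le_card (Finset.union_subset (hsub _ hω₁) (hsub _ hω))
    rw [Finset.card_union_of_disjoint hd, cr _ hr, cr _ hrω] at this
    obtain ⟨t, rfl⟩ : ∃ t, r = t + 2 := ⟨r - 2, by omega⟩
    nlinarith [Nat.zero_le (t ^ 2), Nat.zero_le (t ^ 3), Nat.zero_le (t ^ 4)]
  have c2 : Ω.card = (r + 1) ^ 4 + (Ω.filter fun ω => ¬ h.Reg e ω).card := by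
    rw [← Finset.card_filter_add_card_filter_not (s := Ω) (fun ω => h.Reg e ω), ← cr _ hr]
    congr 2
    ext ω
    rw [mem_filter]
    refine ⟨fun hω => c1 ω hω.1 hω.2, fun hω => ⟨hsub _ hω₁ hω, fun y hy => ?_⟩⟩
    change y ∈ (h.tau e).Y (h.pi e) ω
    rw [(h.tau e).Y_eq (h.pi e) hω]; exact hr y hy
  refine ⟨c1, c2, ?_⟩
  set Ω' := Ω.filter fun ω => ¬ h.Reg e ω with hΩ'
  have hinv : ∀ g ∈ h.Om, ∀ a : F, a ≠ 0 → g e = a • e → ∀ ω ∈ Ω', g • ω ∈ Ω' := by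
    intro g hg a ha ge ω hω
    rw [mem_filter] at hω ⊢
    exact ⟨hA.inv g hg ω hω.1, by rw [h.reg_cj (h.om_le_isom hg) he ha ge]; exact hω.2⟩
  have hinv' : ∀ g ∈ h.Om, g e = e → ∀ ω ∈ Ω', g • ω ∈ Ω' := fun g hg ge =>
    hinv g hg 1 one_ne_zero (by rw [ge, one_smul])
  have hf := h.card_formula (by omega) he he0 hinv' hs
  have h0 : ∀ c, h.nu e Ω' c * s c ≤ ∑ c, h.nu e Ω' c * s c := fun c =>
    Finset.single_le_sum (f := fun c => h.nu e Ω' c * s c) (fun _ _ => Nat.zero_le _) (mem_univ c)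
  have hle := h.nu_le e Ω'
  generalize ∑ c, h.nu e Ω' c * s c = T at hf h0
  have hz : ∀ c, c ≠ 0 → h.nu e Ω' c = 0 := by
    intro c hc
    by_contra h1
    have := h0 c
    have := hle c
    rw [s1 c hc] at *
    nlinarith [Nat.pos_of_ne_zero h1]
  have hU : ∀ ω ∈ Ω', finrank F (h.U e ω) ≤ 1 + 1 := fun ω hω =>
    h.Y_line6 hn hw (by omega) he he0 hinv' hp hp0 hω (mem_filter.1 hω).2 fun c hc =>
      (hz c hc).trans_lt hp.pos
  have hb := (h.tau e).sum_bound (Ω := Ω') (K := r + 1)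
    (fun d ω hω => hinv' _ (h.sg_mem he d.2) (h.sg_self he d.2) ω hω)
    fun ω hω => by have := h.card_orb_le he0 (hU ω hω); rwa [hq, pow_one] at this
  have hb2 := Finset.card_filter_le Ω' fun ω => ¬ ∀ d, (h.tau e).t d • ω = ω
  rw [Nat.add_sub_cancel] at hb s0
  have hT : (r + 1) * T ≤ r * Ω'.card := by nlinarith
  by_cases h1 : h.nu e Ω' 0 = 0
  · refine Or.inl fun ω hω hrω => (h.ud ((hA.le ω hω).trans h.om_le_isom)).full_of_le he
      (h.U_le_self fun y hy => ?_)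
    by_contra hc
    push Not at hc
    have := (h.tau e).one_le_mu (h.pi e) (Ω := Ω') (mem_filter.2 ⟨hω, hrω⟩) hy
    rw [h.mu_eq_nu (by omega) he he0 hinv' (h.Y_perp he hy) hc] at this
    by_cases hy0 : Q y = 0
    · rw [hy0] at this; omega
    · rw [hz _ hy0] at this; omega
  · right
    have h2 : s 0 ≤ T := by nlinarith [Nat.pos_of_ne_zero h1, h0 0]
    have h3 : r * ((r + 1) * ((r + 1) ^ 2 + 1)) ≤ r * Ω'.card := by nlinarith
    have := Nat.le_of_mul_le_mul_left h3 (by omega)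
    nlinarith

theorem lemB6 (hn : finrank F V = 6) (hw : WittIdx B Q 2) {q : ℕ} (hq : Nat.card F = q)
    (hq3 : 3 ≤ q) {s : F → ℕ} (s0 : s 0 = (q ^ 2 + 1) * (q - 1))
    (s1 : ∀ c, c ≠ 0 → s c = (q ^ 2 + 1) * q) {Ω : Finset A} (hA : Act h.Om Ω)
    (hm : Ω.card < (q + 1) * (q ^ 3 + 1)) {e : V} (he : Q e = 0) (he0 : e ≠ 0)
    (hs : ∀ c, (h.lev e c).card = Nat.card F * s c) (hr : ∀ ω ∈ Ω, ¬ h.Reg e ω) {ω : A}
    (hω : ω ∈ Ω) : finrank F (h.U e ω) ≤ 2 := by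
  obtain ⟨p, hp, hp0, hpk⟩ := exists_char F
  have hinv : ∀ g ∈ h.Om, ∀ a : F, a ≠ 0 → g e = a • e → ∀ ω ∈ Ω, g • ω ∈ Ω :=
    fun g hg _ _ _ => hA.inv g hg
  have hinv' : ∀ g ∈ h.Om, g e = e → ∀ ω ∈ Ω, g • ω ∈ Ω := fun g hg _ => hA.inv g hg
  have hf := h.card_formula (by omega) he he0 hinv' hs
  by_cases hb : ∀ c, c ≠ 0 → h.nu e Ω c < p
  · exact h.Y_line6 hn hw (by omega) he he0 hinv' hp hp0 hω (hr ω hω) hb
  push Not at hb
  obtain ⟨c₀, hc₀, hν⟩ := hb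
  rcases Nat.lt_or_ge 3 q with h4 | h4
  · have a1 := (le_sig_big hp hp0 hpk (by omega) (fun c hc => (s1 c hc).ge) hc₀).2
    have a2 := h.sig_le6 hn.ge he he0 hinv s c₀
    have a3 := Nat.mul_le_mul_right (sig s c₀) hν
    rw [hq] at a1
    nlinarith [Nat.zero_le (q ^ 2), Nat.zero_le (q ^ 3)]
  obtain rfl : q = 3 := by omega
  obtain rfl : p = 3 := by
    obtain ⟨j, hj⟩ := hpk
    exact (Nat.prime_dvd_prime_iff_eq hp Nat.prime_three).1 (by
      rw [← hq, hj, pow_succ]; exact dvd_mul_left _ _)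
  have h1 : ∀ y ∈ h.Y e ω, (∀ a : F, y ≠ a • e) → Q y = c₀ := fun y hy hye => by
    by_contra hc
    have a1 := (h.tau e).one_le_mu (h.pi e) hω hy
    rw [h.mu_eq_nu (by omega) he he0 hinv' (h.Y_perp he hy) hye] at a1
    have h2 : ∑ x ∈ ({Q y, c₀} : Finset F), h.nu e Ω x * s x ≤ ∑ c, h.nu e Ω c * s c :=
      Finset.sum_le_sum_of_subset (Finset.subset_univ _)
    rw [Finset.sum_pair hc, s1 c₀ hc₀] at h2
    have a2 : 20 ≤ s (Q y) := by
      by_cases h0 : Q y = 0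
      · rw [h0, s0]; norm_num
      · rw [s1 _ h0]; norm_num
    have := h.nu_le e Ω c₀
    nlinarith
  have h2 : (2 : F) ≠ 0 := two_ne_zero_of_odd_card (by
    rw [← Nat.card_eq_fintype_card, hq]; decide)
  by_cases hY : ∀ y ∈ h.Y e ω, ∃ a : F, y = a • e
  · exact (Submodule.finrank_mono (h.U_le_self hY)).trans ((finrank_span_one_le e).trans (by omega))
  · push Not at hY
    obtain ⟨y, hy, hye⟩ := hY
    refine (Submodule.finrank_mono (Submodule.span_le.2 fun y' hy' => ?_)).trans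
      (finrank_span_pair_le e y)
    by_contra hc
    have k : ∀ t a : F, y' + t • y ≠ a • e := fun t a ha =>
      hc (Submodule.mem_span_pair.2 ⟨a, -t, by rw [← ha]; module⟩)
    have e1 := h1 y hy hye
    have e2 := h1 y' hy' fun a => by simpa using k 0 a
    have e3 := h1 _ (add_mem hy' hy) fun a => by simpa using k 1 a
    have e4 := h1 _ (sub_mem hy' hy) fun a => by simpa [sub_eq_add_neg] using k (-1) a
    rw [h.qadd, e1, e2] at e3
    rw [h.qsub, e1, e2] at e4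
    exact hc₀ ((mul_eq_zero.1 (show 2 * c₀ = 0 by linear_combination e3 + e4)).resolve_left h2)

theorem main6 (hn : finrank F V = 6) (hw : WittIdx B Q 2) {q : ℕ} (hq : Nat.card F = q)
    (hq3 : 3 ≤ q) {s : F → ℕ} (s0 : s 0 = (q ^ 2 + 1) * (q - 1))
    (s1 : ∀ c, c ≠ 0 → s c = (q ^ 2 + 1) * q)
    (hs : ∀ e, Q e = 0 → e ≠ 0 → ∀ c, (h.lev e c).card = Nat.card F * s c)
    (hN₀ : h.sing.card = (q - 1) * ((q + 1) * (q ^ 3 + 1)))
    {Ω : Finset A} (hA : Act h.Om Ω) : (q + 1) * (q ^ 3 + 1) ≤ Ω.card ∨ q = 3 ∧ Ω.card = 81 := by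
  by_contra hm
  rw [not_or, not_le] at hm
  obtain ⟨hm, h81⟩ := hm
  have hI : ∀ ω ∈ Ω, stabilizer (V ≃ₗ[F] V) ω ≤ Isom B Q := fun ω hω =>
    (hA.le ω hω).trans h.om_le_isom
  have hm0 : 0 < Ω.card := hA.ne.card_pos
  have dcF : ∀ ω ∈ Ω, ∀ e, Q e = 0 → e ≠ 0 →
      Ω.card * (q ^ finrank F (h.fullSpan (stabilizer (V ≃ₗ[F] V) ω)) - 1) = (q - 1) *
        ((q + 1) * (q ^ 3 + 1)) * (Ω.filter fun ω => h.Full (stabilizer (V ≃ₗ[F] V) ω) e).card := by
    intro ω hω e he he0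
    rw [← hN₀, ← hq, ← h.card_full (hI ω hω) (hA.prop ω hω), Nat.add_sub_cancel]
    exact h.dcount (by omega) hA (fun ω e => h.Full (stabilizer (V ≃ₗ[F] V) ω) e)
      (fun g hg _ _ _ hf => h.full_smul (h.om_le_isom hg) hf) hω he he0
  have noF : ∀ ω₀ ∈ Ω, finrank F (h.fullSpan (stabilizer (V ≃ₗ[F] V) ω₀)) = 0 → ∀ ω ∈ Ω,
      ∀ f, f ≠ 0 → ¬ h.Full (stabilizer (V ≃ₗ[F] V) ω) f := by
    intro ω₀ hω₀ h0 ω hω f hf0 hf
    obtain ⟨g, hg, rfl⟩ := hA.trans _ hω _ hω₀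
    have := (h.full_smul (h.om_le_isom hg) hf).mem
    rw [Submodule.finrank_eq_zero.1 h0] at this
    exact MX.app_ne_zero g hf0 this
  by_cases hreg : ∃ e, Q e = 0 ∧ e ≠ 0 ∧ ∃ ω ∈ Ω, h.Reg e ω
  swap
  · push Not at hreg
    obtain ⟨ω₀, hω₀⟩ := hA.ne
    exact hA.prop _ hω₀ ((h.ud (hI _ hω₀)).geo6 hn fun e he he0 =>
      h.lemB6 hn hw hq hq3 s0 s1 hA hm he he0 (hs e he he0) (hreg e he he0) hω₀)
  obtain ⟨e₁, he₁, he₁0, ω₁, hω₁, hr₁⟩ := hreg
  have hall : ∀ e, Q e = 0 → e ≠ 0 → ∃ ω ∈ Ω, h.Reg e ω := fun e he he0 => by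
    obtain ⟨g, hg, rfl⟩ := h.trans1 (by omega) he₁0 he0 (he.trans he₁.symm)
    exact ⟨g • ω₁, hA.inv g hg _ hω₁,
      (h.reg_cj (h.om_le_isom hg) he₁ one_ne_zero (one_smul F _).symm).2 hr₁⟩
  have k1 : finrank F (h.fullSpan (stabilizer (V ≃ₗ[F] V) ω₁)) < 2 := by
    by_contra hc
    exact (h.ud (hI _ hω₁)).geoK1 (hA.prop _ hω₁) (by omega) he₁
      fun y hy => Submodule.subset_span (hr₁ y hy)
  by_cases k0 : finrank F (h.fullSpan (stabilizer (V ≃ₗ[F] V) ω₁)) = 0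
  · have nF := noF _ hω₁ k0
    by_cases har : ∀ e, Q e = 0 → e ≠ 0 → ∀ ω ∈ Ω, h.Reg e ω
    · rcases Nat.lt_or_ge 3 q with h4 | h4
      · refine h.not_regular6 hn (by omega) (H := stabilizer (V ≃ₗ[F] V) ω₁)
          (fun e w he he0 hw hm => ?_) fun e he he0 g hg => ?_
        · have : w ∈ Submodule.span F {e} := h.mem_of_perp fun y hy => psi_nd fun c => by
            simpa using h.mem_Y.1 (har e he he0 _ hω₁ (c • y)
              (by simp [hy e (Submodule.mem_span_singleton_self e)])) w hw hm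
          obtain ⟨c, hc⟩ := Submodule.mem_span_singleton.1 this
          exact ⟨c, hc.symm⟩
        · have h1 := hA.inv _ (inv_mem hg) _ hω₁
          obtain ⟨d, hd⟩ := (h.tau e).mem_orb.1 ((h.lemA6 hn hw hq hq3 s0 s1 hA hm he he0
            (hs e he he0) hω₁ (har e he he0 _ hω₁)).1 _ h1 (har e he he0 _ h1))
          refine ⟨d.1, d.2, ?_⟩
          rw [mem_stabilizer_iff, mul_smul]
          change g • (h.tau e).t d • ω₁ = ω₁
          rw [hd, smul_inv_smul]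
      · obtain rfl : q = 3 := by omega
        have := (h.lemA6 hn hw hq hq3 s0 s1 hA hm he₁ he₁0 (hs _ he₁ he₁0) hω₁ hr₁).2.1
        rw [Finset.filter_eq_empty_iff.2 fun ω hω => not_not.2 (har _ he₁ he₁0 ω hω)] at this
        exact h81 ⟨rfl, by simpa using this⟩
    · push Not at har
      obtain ⟨e, he, he0, ω, hω, hr⟩ := har
      obtain ⟨ω', hω', hr'⟩ := hall e he he0
      obtain ⟨-, c2, c3⟩ := h.lemA6 hn hw hq hq3 s0 s1 hA hm he he0 (hs e he he0) hω' hr'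
      have c4 := c3.resolve_left fun hf => nF ω hω e he0 (hf ω hω hr)
      have c5 : (q + 1) * (q ^ 3 + 1) = Ω.card + 1 := by omega
      have dc : Ω.card * (h.sing.filter fun e => ¬ h.Reg e ω).card =
          h.sing.card * (Ω.filter fun ω => ¬ h.Reg e ω).card := by
        convert h.dcount (by omega) hA (fun ω e => ¬ h.Reg e ω) (fun g hg ω e he hr => by
          rwa [h.reg_cj (h.om_le_isom hg) he one_ne_zero (one_smul F _).symm]) hω he he0
      obtain ⟨α, hα⟩ : Nat.card F - 1 ∣ (h.sing.filter fun e => ¬ h.Reg e ω).card :=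
        dvd_card_of_smul (by simp [h.mem_sing]) fun c hc v hv => by
          rw [mem_filter, h.mem_sing] at hv ⊢
          refine ⟨⟨h.sing_smul hv.1.1 c, smul_ne_zero hc hv.1.2⟩, fun h1 => hv.2 ?_⟩
          have := (h.reg_cj (g := 1) (one_mem _) (h.sing_smul hv.1.1 c) hc (e' := v) rfl).2 h1
          rwa [one_smul] at this
      rw [hα, hN₀, c5, hq] at dc
      have hβ : 0 < (Ω.filter fun ω => ¬ h.Reg e ω).card :=
        Finset.card_pos.2 ⟨ω, mem_filter.2 ⟨hω, hr⟩⟩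
      have hD : 0 < q ^ 4 := by positivity
      set β := (Ω.filter fun ω => ¬ h.Reg e ω).card
      have d1 : Ω.card * α = (Ω.card + 1) * β :=
        Nat.eq_of_mul_eq_mul_left (show 0 < q - 1 by omega) (by linarith)
      have d2 : Ω.card ∣ β := (Nat.Coprime.dvd_mul_left (by simp)).1 ⟨α, d1.symm⟩
      have := Nat.le_of_dvd hβ d2
      omega
  · have := dcF _ hω₁ e₁ he₁ he₁0
    rw [show finrank F (h.fullSpan (stabilizer (V ≃ₗ[F] V) ω₁)) = 1 by omega, pow_one, mul_assoc,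
      mul_comm] at this
    have h2 := Nat.eq_of_mul_eq_mul_left (show 0 < q - 1 by omega) this
    rcases Nat.eq_zero_or_pos (Ω.filter fun ω => h.Full (stabilizer (V ≃ₗ[F] V) ω) e₁).card
      with h3 | h3
    · rw [h3] at h2; omega
    · nlinarith

theorem bound6 (hn : finrank F V = 6) (hw : WittIdx B Q 2) {q : ℕ} (hq : Nat.card F = q)
    (hq3 : 3 ≤ q) {Ω : Finset A} (hA : Act h.Om Ω) :
    (q + 1) * (q ^ 3 + 1) ≤ Ω.card ∨ q = 3 ∧ Ω.card = 81 := by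
  obtain ⟨e, f, he, hf, hef⟩ := h.form.exists_pair_of_wittIdx h.sep hw
  have he0 : e ≠ 0 := by rintro rfl; simp at hef
  have h1 := h.form.finrank_hperp h.sep he hf hef
  have w1 := h.form.separatingLeft_hperp h.sep he hf hef
  have w2 := h.form.wittIdx_hperp h.sep he hf hef hw
  obtain ⟨r, rfl⟩ : ∃ r, q = r + 1 := ⟨q - 1, by omega⟩
  let s : F → ℕ := fun c => if c = 0 then ((r + 1) ^ 2 + 1) * r else ((r + 1) ^ 2 + 1) * (r + 1)
  refine h.main6 hn hw hq hq3 (s := s) (if_pos rfl) (fun c hc => if_neg hc) (fun e' he' he0' c => ?_)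
    ?_ hA
  · rw [h.card_lev_eq (by omega) he' he0' he he0]
    have h2 := h.card_lev he hf hef c
    zify at h2 ⊢
    by_cases hc : c = 0
    · subst hc
      rw [IsQuad.card_singular_minus 1 (h.q.restrict _) w1 w2 (by omega), if_pos rfl, hq] at h2
      simp only [s, if_pos, hq]
      push_cast at h2 ⊢
      linear_combination h2
    · rw [card_level_minus hc 1 (h.q.restrict _) w1 w2 (by omega), if_neg hc, hq] at h2
      simp only [s, if_neg hc, hq]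
      push_cast at h2 ⊢
      linear_combination h2
  · have h2 := h.card_sing
    zify at h2 ⊢
    rw [IsQuad.card_singular_minus 2 h.q h.sep hw (by omega), hq] at h2
    push_cast [Nat.add_sub_cancel] at h2 ⊢
    linear_combination h2

end QC

end Cfsg.Agent.H26.MI
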