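import Cfsg.Agent.H26.MV2
import Cfsg.Agent.H26.MW4
import Cfsg.Agent.H12.Ph3
import Cfsg.Agent.H10.PSU32
import Cfsg.Agent.H11.OLang
import Cfsg.Agent.S0278
import Cfsg.Agent.S0303

/-! Minimal index of `PSU₄(q)`. -/

set_option autoImplicit false
set_option maxHeartbeats 400000
set_option maxRecDepth 100000
set_option linter.unusedSectionVars false

namespace Cfsg.Agent.H26.MI

open Module Cfsg.Agent.H11 Cfsg.Agent.H10 MulAction Finset

theorem exists_act {Γ G : Type*} [Group Γ] [Group G] [Finite Γ] (ι : Γ →* G)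
    (hι : Function.Injective ι) (H : Subgroup Γ) (hH : H ≠ ⊤) :
    ∃ (K : Subgroup G) (Ω : Finset (G ⧸ K)), Act ι.range Ω ∧ Ω.card = H.index := by
  classical
  have := Fintype.ofFinite Γ
  let K := H.map ι
  let f : Γ → G ⧸ K := fun γ => ((ι γ : G) : G ⧸ K)
  have hf : ∀ a b, f a = f b ↔ a⁻¹ * b ∈ H := by
    intro a b
    simp only [f, QuotientGroup.eq, K]
    rw [← map_inv, ← map_mul]
    exact ⟨fun ⟨c, hc, e⟩ => hι e ▸ hc, fun hc => ⟨_, hc, rfl⟩⟩
  have hs : ∀ a b, ι a • f b = f (a * b) := fun a b => by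
    simp only [f, map_mul]; rfl
  refine ⟨K, univ.image f, ⟨?_, ?_, ⟨f 1, by simp⟩, ?_, ?_⟩, ?_⟩
  · rintro _ ⟨a, rfl⟩ ω hω
    obtain ⟨b, _, rfl⟩ := mem_image.1 hω
    rw [hs]; simp
  · intro ω hω ω' hω'
    obtain ⟨b, _, rfl⟩ := mem_image.1 hω
    obtain ⟨b', _, rfl⟩ := mem_image.1 hω'
    exact ⟨ι (b' * b⁻¹), ⟨_, rfl⟩, by rw [hs]; simp⟩
  · intro ω hω hle
    obtain ⟨b, _, rfl⟩ := mem_image.1 hω
    apply hH
    rw [eq_top_iff]
    intro a _
    have := hle (⟨b * a⁻¹ * b⁻¹, rfl⟩ : ι (b * a⁻¹ * b⁻¹) ∈ ι.range)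
    rw [MulAction.mem_stabilizer_iff, hs, hf] at this
    simpa using this
  · intro ω hω g hg
    obtain ⟨b, _, rfl⟩ := mem_image.1 hω
    rw [MulAction.mem_stabilizer_iff] at hg
    have : ((g * ι b : G) : G ⧸ K) = (ι b : G) := hg
    rw [QuotientGroup.eq] at this
    obtain ⟨c, _, hc⟩ := this
    refine ⟨b * c⁻¹ * b⁻¹, ?_⟩
    simp only [map_mul, map_inv, hc]; group
  rw [Subgroup.index, ← Nat.card_eq_finsetCard]
  let e : Γ ⧸ H → (univ.image f) := Quotient.lift (fun a => ⟨f a, by simp⟩) (fun a b hab => by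
    exact Subtype.ext ((hf a b).2 (QuotientGroup.leftRel_apply.1 hab)))
  refine (Nat.card_eq_of_bijective e ⟨?_, ?_⟩).symm
  · intro a b
    induction a using QuotientGroup.induction_on
    induction b using QuotientGroup.induction_on
    intro hab
    exact QuotientGroup.eq.2 ((hf _ _).1 (congrArg Subtype.val hab))
  · rintro ⟨ω, hω⟩
    obtain ⟨b, _, rfl⟩ := mem_image.1 hω
    exact ⟨(b : Γ ⧸ H), rfl⟩

theorem exists_act' {Γ G : Type*} [Group Γ] [Group G] [Finite Γ] (ι : Γ →* G)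
    (hι : Function.Injective ι) (H : Subgroup (Γ ⧸ Subgroup.center Γ)) (hH : H ≠ ⊤) :
    ∃ (K : Subgroup G) (Ω : Finset (G ⧸ K)), Act ι.range Ω ∧ Ω.card = H.index := by
  rw [← Subgroup.index_comap_of_surjective H (QuotientGroup.mk'_surjective (Subgroup.center Γ))]
  refine exists_act ι hι _ fun e => hH ?_
  rw [eq_top_iff]
  intro x _
  obtain ⟨x, rfl⟩ := QuotientGroup.mk'_surjective (Subgroup.center Γ) x
  have : x ∈ H.comap (QuotientGroup.mk' (Subgroup.center Γ)) := e ▸ Subgroup.mem_top x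
  exact this

theorem no81 {Γ G : Type*} [Group Γ] [Group G] [Finite G] (φ : Γ →* G) (hφ : Function.Injective φ)
    (hΓ : Nat.card Γ = 6048) (h : ∀ K : Subgroup Γ, K ≠ ⊤ → 28 ≤ K.index) {H : Subgroup G}
    (h1 : H.index = 81) (h2 : Nat.card H = 40320) : False := by
  let := MulAction.compHom (G ⧸ H) φ
  have k : ∀ ω : G ⧸ H, 28 ≤ Nat.card (orbit Γ ω) ∧ Nat.card (orbit Γ ω) ∣ 6048 := fun ω => by
    rw [Nat.card_coe_set_eq, ← index_stabilizer]
    refine ⟨h _ fun e => ?_, hΓ ▸ Subgroup.index_dvd_card _⟩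
    have a1 : φ.range ≤ stabilizer G ω := by
      rintro _ ⟨x, rfl⟩
      exact (e ▸ Subgroup.mem_top x : x ∈ stabilizer Γ ω)
    have a2 := Subgroup.card_dvd_of_le a1
    have a3 := (stabilizer G ω).index_mul_card
    rw [index_stabilizer_of_transitive, ← H.index_mul_card, ← H.index_eq_card, h1, h2] at a3
    rw [← Nat.card_congr (MonoidHom.ofInjective hφ).toEquiv, hΓ] at a2
    omega
  have := Fintype.ofFinite (orbitRel.Quotient Γ (G ⧸ H))
  have s := Nat.card_congr (selfEquivSigmaOrbits Γ (G ⧸ H))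
  rw [Nat.card_sigma, ← H.index_eq_card, h1] at s
  have c := Finset.card_nsmul_le_sum univ _ 28 fun (O : orbitRel.Quotient Γ (G ⧸ H)) _ =>
    (k O.out).1
  rw [← s, smul_eq_mul] at c
  have d : ∀ n < 54, 28 ≤ n → n ∣ 6048 → ¬ 81 - n ∣ 6048 := by decide +kernel
  classical
  obtain c0 | c0 | c0 : #(univ : Finset (orbitRel.Quotient Γ (G ⧸ H))) = 0 ∨
      #(univ : Finset (orbitRel.Quotient Γ (G ⧸ H))) = 1 ∨
      #(univ : Finset (orbitRel.Quotient Γ (G ⧸ H))) = 2 := by omega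
  · rw [Finset.card_eq_zero.1 c0] at s; simp at s
  · obtain ⟨a, ha⟩ := Finset.card_eq_one.1 c0
    rw [ha, Finset.sum_singleton] at s
    have := (k a.out).2
    rw [← s] at this
    norm_num at this
  · obtain ⟨a, b, hab, ha⟩ := Finset.card_eq_two.1 c0
    rw [ha, Finset.sum_pair hab] at s
    have := (k b.out).1
    exact d _ (by omega) (k a.out).1 (k _).2 (by convert (k b.out).2; omega)

theorem ext27 {G M X : Type*} [Group G] [Monoid M] [MulAction G X] [Finite X] (ι : G →* M)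
    (hι : Function.Injective ι) {z : G} (hc : ∀ g, g * z = z * g) (z3 : z * z * z = 1)
    (x g : Fin 12 → G) (e : Fin 27 → G)
    (h1 : ∀ i j, i ≠ j → ι (x i) * ι z = ι (x j) ∨ ι (x j) * ι z = ι (x i) ∨
      ι (x i) * ι (x j) = ι z * (ι (x j) * ι (x i)) ∨ ι (x j) * ι (x i) = ι z * (ι (x i) * ι (x j)))
    (h2 : ∀ j, ι (g j) * ι (x 0) = ι (x j) * ι (g j))
    (h4 : ∀ p p', p ≠ p' → ι (e p) * ι z = ι (e p') ∨ ι (e p') * ι z = ι (e p) ∨
      ∃ i, ι (e p) * ι (x i) = ι (e p') ∨ ι (e p') * ι (x i) = ι (e p))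
    {ω : X} (hω : z • ω ≠ ω) : 27 ≤ Nat.card X := by
  simp only [← map_mul, hι.eq_iff] at h1 h2 h4
  have mv : ∀ (a : G) {η : X}, z • η ≠ η → z • a • η ≠ a • η := fun a η h h' => h (by
    rwa [smul_smul, ← hc, mul_smul, smul_left_cancel_iff] at h')
  by_cases hx : ∃ i a, x i • a • ω = (a : G) • ω
  · obtain ⟨i, a, ha⟩ := hx
    have f0 : x 0 • (g i)⁻¹ • a • ω = (g i)⁻¹ • a • ω := by
      rw [eq_inv_smul_iff, smul_smul, smul_smul, h2, mul_inv_cancel_right, ha]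
    have m0 := mv (g i)⁻¹ (mv a hω)
    generalize (g i)⁻¹ • a • ω = η at f0 m0
    have f1 : ∀ j (k : ℕ), x j • z ^ k • g j • η = z ^ k • g j • η := fun j k => by
      rw [smul_smul, ((Commute.pow_right (hc (x j)) k)).eq, mul_smul, smul_smul (x j), ← h2, mul_smul,
        f0]
    refine le_trans (by simp) (Nat.card_le_card_of_injective
      (fun p : Fin 12 × Fin 3 => z ^ p.2.1 • g p.1 • η) ?_)
    rintro ⟨i, k⟩ ⟨j, l⟩ (h : z ^ k.1 • g i • η = z ^ l.1 • g j • η)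
    obtain rfl : i = j := by
      by_contra hij
      have a1 := f1 i k
      have a2 := f1 j l
      have a3 := mv (z ^ k.1) (mv (g i) m0)
      rw [← h] at a2
      generalize z ^ k.1 • g i • η = θ at a1 a2 a3
      rw [← mem_stabilizer_iff] at a1 a2
      refine a3 (mem_stabilizer_iff.1 ?_)
      rcases h1 i j hij with b | b | b | b
      · rwa [← b, mul_mem_cancel_left a1] at a2
      · rwa [← b, mul_mem_cancel_left a2] at a1
      · have := mul_mem a1 a2
        rwa [b, mul_mem_cancel_right (mul_mem a2 a1)] at this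
      · have := mul_mem a2 a1
        rwa [b, mul_mem_cancel_right (mul_mem a1 a2)] at this
    have a3 := mv (g i) m0
    generalize g i • η = θ at h a3
    have a4 := mv z a3
    have a5 := mv z a4
    have a6 : z • z • z • θ = θ := by rw [smul_smul, smul_smul, z3, one_smul]
    rw [a6] at a5
    fin_cases k <;> fin_cases l <;> simp only [pow_zero, pow_one, pow_two, mul_smul, one_smul] at h <;>
      first | rfl | exact absurd h a3 | exact absurd h.symm a3 | exact absurd h a4 |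
        exact absurd h.symm a4 | exact absurd h a5 | exact absurd h.symm a5
  · push Not at hx
    refine le_trans (by simp) (Nat.card_le_card_of_injective (fun p : Fin 27 => e p • ω) ?_)
    intro p p' (h : e p • ω = e p' • ω)
    by_contra hp
    rcases h4 p p' hp with b | b | ⟨i, b | b⟩
    · rw [← b, mul_smul, smul_left_cancel_iff] at h; exact hω h.symm
    · rw [← b, mul_smul, smul_left_cancel_iff] at h; exact hω h
    · rw [← b, mul_smul, smul_left_cancel_iff] at h; exact hx i 1 (by simpa using h.symm)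
    · rw [← b, mul_smul, smul_left_cancel_iff] at h; exact hx i 1 (by simpa using h)

/-- model data -/
def X12 : Fin 12 → Matrix (Fin 3) (Fin 3) K4 := ![
    !![1,0,0;0,w4,0;0,0,w5], !![w4,0,0;0,w5,0;0,0,1], !![w5,0,0;0,1,0;0,0,w4],
    !![0,1,0;0,0,1;1,0,0], !![0,w4,0;0,0,w4;w4,0,0], !![0,w5,0;0,0,w5;w5,0,0],
    !![0,1,0;0,0,w4;w5,0,0], !![0,w4,0;0,0,w5;1,0,0], !![0,w5,0;0,0,1;w4,0,0],
    !![0,0,1;w4,0,0;0,w5,0], !![0,0,w4;w5,0,0;0,1,0], !![0,0,w5;1,0,0;0,w4,0]]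

/-- model data -/
def G12 : Fin 12 → Matrix (Fin 3) (Fin 3) K4 := ![
    !![1,0,0;0,1,0;0,0,1], !![0,1,0;0,0,1;1,0,0], !![0,0,1;1,0,0;0,1,0],
    !![1,1,1;1,w4,w5;1,w5,w4], !![1,1,1;w5,1,w4;w4,1,w5], !![1,1,1;w4,w5,1;w5,w4,1],
    !![w4,w4,w5;w4,w5,w4;1,w5,w5], !![1,w5,w5;w5,w5,1;1,w4,1], !![1,w5,w5;w4,w4,w5;w4,w5,w4],
    !![1,w4,w4;w4,w4,1;1,w5,1], !![1,w4,w4;w5,w5,w4;w5,w4,w5], !![1,w4,w4;1,1,w5;w4,1,w4]]

/-- model data -/
def E27 : Fin 27 → Matrix (Fin 3) (Fin 3) K4 := ![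
    !![1,0,0;0,1,0;0,0,1], !![1,0,0;0,w4,0;0,0,w5], !![0,1,0;0,0,1;1,0,0],
    !![1,0,0;0,w5,0;0,0,w4], !![0,1,0;0,0,w4;w5,0,0], !![0,w4,0;0,0,w5;1,0,0],
    !![0,0,1;1,0,0;0,1,0], !![0,1,0;0,0,w5;w4,0,0], !![0,w4,0;0,0,1;w5,0,0],
    !![0,0,1;w4,0,0;0,w5,0], !![0,w5,0;0,0,w4;1,0,0], !![0,0,w4;w5,0,0;0,1,0],
    !![0,0,w5;1,0,0;0,w4,0], !![0,w4,0;0,0,w4;w4,0,0], !![0,0,1;w5,0,0;0,w4,0],
    !![0,w5,0;0,0,w5;w5,0,0], !![0,0,w4;1,0,0;0,w5,0], !![0,0,w5;w4,0,0;0,1,0],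
    !![w4,0,0;0,w5,0;0,0,1], !![w5,0,0;0,1,0;0,0,w4], !![0,w5,0;0,0,1;w4,0,0],
    !![0,0,w4;w4,0,0;0,w4,0], !![0,0,w5;w5,0,0;0,w5,0], !![w4,0,0;0,1,0;0,0,w5],
    !![w5,0,0;0,w4,0;0,0,1], !![w4,0,0;0,w4,0;0,0,w4], !![w5,0,0;0,w5,0;0,0,w5]]

theorem mk_inj {Γ : Type*} [Group Γ] [Finite Γ]
    (h : Nat.card (Γ ⧸ Subgroup.center Γ) = Nat.card Γ) :
    Function.Injective (QuotientGroup.mk' (Subgroup.center Γ)) :=
  ((QuotientGroup.mk'_surjective _).bijective_of_nat_card_le h.ge).1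

theorem finite_K4 : Finite K4 := Nat.finite_of_card_ne_zero (by rw [card_K4]; norm_num)

theorem psu42_lower (H : Subgroup (PSU 4 K4 2)) (hH : H ≠ ⊤) : 27 ≤ H.index := by
  have := finite_K4
  have := Fintype.ofFinite K4
  have hF : Fintype.card K4 = 2 ^ 2 := by rw [← Nat.card_eq_fintype_card, card_K4]; rfl
  have hσ := qConj_conjQ hF
  have := S0283.result hF 4 (by omega) (by omega)
  have c1 := S0278.result hF 4 (by omega)
  have c2 := S0280.result hF 4 (by omega)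
  simp only [Finset.prod_range_succ] at c1 c2
  norm_num at c1 c2
  let φ : SU 3 K4 2 →* PSU 4 K4 2 :=
    (QuotientGroup.mk' _).comp (H12.Ph.emb hσ (Fin.castSucc_injective 3))
  have hφ : Function.Injective φ := (mk_inj (show Nat.card (PSU 4 K4 2) = _ by omega)).comp
    (H12.Ph.emb_inj _ _)
  let ι : SU 3 K4 2 →* Matrix (Fin 3) (Fin 3) K4 :=
    (Matrix.SpecialLinearGroup.coeMonoidHom).comp (SU 3 K4 2).subtype
  have hι : Function.Injective ι := Subtype.val_injective.comp Subtype.val_injective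
  have mk : ∀ {n : ℕ} (A : Fin n → Matrix (Fin 3) (Fin 3) K4), (∀ t, (A t).det = 1 ∧
      ∀ j k, ∑ i, A t i j * A t i k ^ 2 = if j = k then 1 else 0) → ∃ x : Fin n → SU 3 K4 2,
      ∀ t, ι (x t) = A t := fun A h => ⟨fun t => ⟨⟨A t, (h t).1⟩, mem_su_two (h t).2⟩, fun _ => rfl⟩
  obtain ⟨z, hz⟩ := mk ![w4 • 1] (by decide +kernel)
  obtain ⟨x, hx⟩ := mk X12 (by decide +kernel)
  obtain ⟨g, hg⟩ := mk G12 (by decide +kernel)
  obtain ⟨e, he⟩ := mk E27 (by decide +kernel)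
  replace hz : ι (z 0) = w4 • 1 := hz 0
  let := MulAction.compHom (PSU 4 K4 2 ⧸ H) φ
  obtain ⟨ω, hω⟩ : ∃ ω : PSU 4 K4 2 ⧸ H, z 0 • ω ≠ ω := by
    by_contra hc
    push Not at hc
    have h1 : φ (z 0) ∈ H.normalCore := by
      rw [H.normalCore_eq_ker]
      exact Equiv.ext hc
    rcases H.normalCore_normal.eq_bot_or_eq_top with h0 | h0
    · rw [h0, Subgroup.mem_bot, map_eq_one_iff _ hφ] at h1
      rw [h1, map_one] at hz
      exact absurd hz (by decide +kernel)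
    · exact hH (top_le_iff.1 (h0 ▸ H.normalCore_le))
  refine ext27 ι hι (fun a => hι ?_) (hι ?_) x g e ?_ ?_ ?_ hω
  · simp [hz]
  · rw [map_mul, map_mul, hz, map_one]; decide +kernel
  · simp only [hz, hx]; decide +kernel
  · simp only [hx, hg]; decide +kernel
  · simp only [hz, hx, he]; decide +kernel

theorem psu43_ne {F : Type*} [Field F] [Fintype F] (hF : Fintype.card F = 3 ^ 2)
    (H : Subgroup (PSU 4 F 3)) : H.index ≠ 81 := fun h1 => by
  have hσ := qConj_conjQ hF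
  have := S0283.result hF 3 (by omega) (by omega)
  have c1 := S0278.result hF 3 (by omega)
  have c2 := S0280.result hF 3 (by omega)
  have c3 := S0280.result hF 4 (by omega)
  have c4 := H.index_mul_card
  simp only [Finset.prod_range_succ] at c1 c2 c3
  norm_num at c1 c2 c3
  let e := MulEquiv.ofBijective (QuotientGroup.mk' (Subgroup.center (SU 3 F 3)))
    ⟨mk_inj (show Nat.card (PSU 3 F 3) = _ by omega), QuotientGroup.mk'_surjective _⟩
  let φ : PSU 3 F 3 →* PSU 4 F 3 := ((QuotientGroup.mk' _).comp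
    (H12.Ph.emb hσ (Fin.castSucc_injective 3))).comp e.symm.toMonoidHom
  refine no81 φ ?_ (by omega) (fun K hK => (psu3_lower hF le_rfl K hK).resolve_right (by omega)) h1
    (by rw [h1] at c4; omega)
  rcases φ.normal_ker.eq_bot_or_eq_top with h0 | h0
  · exact φ.ker_eq_bot_iff.1 h0
  have cm : ∀ a b : PSU 3 F 3, a * b = b * a := fun a b => by
    have := Subgroup.mem_center_iff.1 ((QuotientGroup.eq_one_iff _).1
      (h0.ge (Subgroup.mem_top b) : φ b = 1)) (H12.Ph.emb hσ (Fin.castSucc_injective 3) (e.symm a))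
    simp only [MulEquiv.toMonoidHom_eq_coe, MonoidHom.coe_coe] at this
    rw [← map_mul, ← map_mul, ← map_mul, ← map_mul] at this
    exact e.symm.injective (H12.Ph.emb_inj _ _ this)
  let : CommGroup (PSU 3 F 3) := { (inferInstance : Group (PSU 3 F 3)) with mul_comm := cm }
  have := IsSimpleGroup.prime_card (α := PSU 3 F 3)
  rw [show Nat.card (PSU 3 F 3) = 6048 by omega] at this
  norm_num at this

theorem psu4_min {K : Type*} [Field K] [Fintype K] {q : ℕ} (hK : Fintype.card K = q ^ 2) :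
    (∀ H : Subgroup (PSU 4 K q), H ≠ ⊤ → (q + 1) * (q ^ 3 + 1) ≤ H.index) ∧
      ∃ H : Subgroup (PSU 4 K q), H.index = (q + 1) * (q ^ 3 + 1) := by
  have hσ := qConj_conjQ hK
  obtain ⟨p, k, hp, -, hk⟩ := (ucStd hσ 1).char
  have := Fact.mk hp
  let F := GaloisField p (k + 1)
  let : Fintype F := Fintype.ofFinite F
  have hq : Nat.card F = q := hk ▸ GaloisField.card p (k + 1) (by omega)
  have hq2 := hσ.two_le
  obtain ⟨a, b, hab⟩ := exists_aniso F
  obtain ⟨e⟩ := S0303.result (F := F) (by rw [← hq, Nat.card_eq_fintype_card]) hK a b hab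
  have h : QC _ _ := clQuad (isQuad_minus 2 F a b) (bMinus_sep _ hab)
  have hw := wittIdx_minus 2 hab
  have hd : finrank F ((Fin 2 ⊕ Fin 2) ⊕ Fin 2 → F) = 6 := by simp
  refine ⟨fun H hH => ?_, ?_⟩
  · rcases hq2.eq_or_lt with rfl | h3
    · have := finite_K4
      obtain ⟨e'⟩ := nonempty_psu_congr (K := K4) (L := K)
        (by rw [card_K4, Nat.card_eq_fintype_card, hK]; rfl) 4 2
      rw [← H.index_comap_of_surjective (f := e'.toMonoidHom) e'.surjective]
      exact psu42_lower _ fun h0 => hH (Subgroup.comap_injective e'.surjective h0)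
    obtain ⟨L, Ω, hA, hc⟩ := exists_act' (omRep h.q) (omRep_inj h.q) (H.comap e.toMonoidHom)
      fun h0 => hH (Subgroup.comap_injective e.surjective h0)
    rw [omRep_range h (by omega)] at hA
    rw [H.index_comap_of_surjective e.surjective] at hc
    rcases h.bound6 hd hw hq h3 hA with h1 | ⟨rfl, h1⟩
    · exact hc ▸ h1
    · exact absurd (hc ▸ h1) (psu43_ne hK H)
  obtain ⟨r, rfl⟩ : ∃ r, q = r + 1 := ⟨q - 1, by omega⟩
  obtain ⟨H, hH⟩ := pomega_exists_sing h (by omega) (M := (r + 1 + 1) * ((r + 1) ^ 3 + 1) * r)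
    (mul_ne_zero (by positivity) (by omega)) (by
    rw [IsQuad.card_singular_minus 2 (isQuad_minus _ F a b) h.sep hw hd, hq]
    push_cast; ring)
  refine ⟨H.comap e.symm.toMonoidHom, ?_⟩
  rw [H.index_comap_of_surjective e.symm.surjective, hH, hq, Nat.add_sub_cancel,
    Nat.mul_div_cancel _ (by omega)]

end Cfsg.Agent.H26.MI
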