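import Cfsg.Agent.H26.S4a

/-!
Orthogonal frames in dimension five over prime fields.
-/

set_option autoImplicit false
set_option linter.unusedSectionVars false

namespace Cfsg.Agent.H26.S4

open Module H10 H11 H11.Im Cfsg.Geo

variable {F : Type*} [Field F] {V : Type*} [AddCommGroup V] [Module F V] [FiniteDimensional F V]
  {t : ℕ} {D : Fin t → Submodule F V} {p : Fin t → V →ₗ[F] V}
  {B : V →ₗ[F] V →ₗ[F] F} {Q : V → F} [Fintype F]
  {h : Cl (σ := RingHom.id F) 1 2 (AddMonoidHom.id F) B Q} (d : Dec B Q D p)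
  (h1 : ∀ i, finrank F (D i) ≤ 1) {e : Fin t → V} (he : ∀ i, e i ∈ D i)
  {c : F} (c0 : c ≠ 0) (ec : ∀ i, Q (e i) = c) (t2 : (2 : F) ≠ 0)
  (hn : 5 ≤ finrank F V) {N : Subgroup (V ≃ₗ[F] V)} (hO : Ov h D N) (hN : N ≤ Isom B Q)
  (re : ∀ i, r h (e i) ∈ N)
include h d h1 he c0 ec t2 hn hO

theorem dbl {i j o m : Fin t} (hij : i ≠ j) (hom : o ≠ m) :
    ∃ k ∈ N, ∀ l, k (e l) = e (Equiv.swap o m (Equiv.swap i j l)) := by
  refine ⟨_, hO _ (root_pair d h1 he c0 ec t2 hn hO hom hij (mul_one 1) (mul_one 1)) (mul_mem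
    (root_dstab d h1 he c0 ec t2 hom (mul_one 1)) (root_dstab d h1 he c0 ec t2 hij (mul_one 1))), fun l => ?_⟩
  rw [LinearEquiv.mul_apply, r_root d h1 he c0 ec t2 hij (mul_one 1), ite_self, one_smul F (e (Equiv.swap _ _ _)),
    r_root d h1 he c0 ec t2 hom (mul_one 1), ite_self, one_smul]

include hN re

theorem rt_three5 (hp : (Fintype.card F).Prime) (t3 : (3 : F) = 0) {a : V}
    (ha : Lam h N a) {i j l o m : Fin t} (hij : i ≠ j) (hil : i ≠ l) (hio : i ≠ o) (hjl : j ≠ l)
    (hjo : j ≠ o) (hlo : l ≠ o) (mi : m ≠ i) (mj : m ≠ j) (ml : m ≠ l) (mo : m ≠ o)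
    (all : ∀ s, s ≠ i → s ≠ j → s ≠ l → s = o ∨ s = m)
    (ai : p i a = e i) (aj : p j a = e j) (al : p l a = e l) (ao : p o a ≠ 0) : h.Om ≤ N := by
  have hQ : IsQuad B Q := h.form
  have ee := Bee (h := h) d h1 he c0 ec t2
  have c2 := mul_ne_zero t2 c0
  obtain ⟨u, hu⟩ : ∃ u, u = e i + e j + e l := ⟨_, rfl⟩
  have eu : ∀ m, m ≠ i → m ≠ j → m ≠ l → B (e m) u = 0 := fun m a b c => by simp [hu, ee, a, b, c]
  have qu : Q u = 0 := by
    simp [hu, hQ.add', ee, ec, hij, hil, hjl]; linear_combination c * t3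
  have ua : B u a = 0 := by
    simp only [hu, map_add, LinearMap.add_apply]
    rw [← d.B_p (he i), ← d.B_p (he j), ← d.B_p (he l), ai, aj, al]
    simp only [ee, if_true]; linear_combination 2 * c * t3
  obtain ⟨s, hs, es⟩ := exists_sign d h1 he c0 ec t2 re {i, j, l}
  have a1 := arm_of_ar h hp ((adm_r h a).mem_ar qu ua (mul_mem (by
    convert (ha.map hN hs).2 _ using 2
    rw [es, Finset.sum_insert (by simp [hij, hil]), Finset.sum_pair hjl, ai, aj, al, hu,
      show (2 : F) = -1 by linear_combination t3]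
    module) (inv_mem (ha.2 _))))
  rw [Submodule.smul_mem_iff _ (inv_ne_zero ha.1)] at a1
  have a2 := sub_mem a1 (h.map_mem_arm hN (re o) (rf_fix h _ _ (eu o hio.symm hjo.symm hlo.symm)) a1)
  rw [r_apply, sub_sub_cancel, Submodule.smul_mem_iff _ (mul_ne_zero (by simpa [ec])
    (by rwa [Ne, ← pz (h := h) d h1 he c0 ec t2]))] at a2
  have a4 : e m ∈ h.Arm N u := by
    obtain ⟨k, hk, k1⟩ := dbl d h1 he c0 ec t2 hn hO hij mo.symm
    have := h.map_mem_arm hN hk (by
      simp [hu, k1, Equiv.swap_apply_of_ne_of_ne, hio, hjo, hlo, mi.symm, mj.symm, ml.symm, hil.symm,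
        hjl.symm, add_comm (e i)]) a2
    rwa [k1, Equiv.swap_apply_of_ne_of_ne hio.symm hjo.symm, Equiv.swap_apply_left] at this
  have a3 : ∀ m, m ≠ i → m ≠ j → m ≠ l → e m ∈ h.Arm N u := fun s a b c => by
    rcases all s a b c with rfl | rfl <;> assumption
  obtain ⟨k, hk, k1⟩ := dbl d h1 he c0 ec t2 hn hO hij hlo
  have k3 : (r h (e j) * k) u = e i - e j + e o := by
    simp [hu, k1, Equiv.swap_apply_of_ne_of_ne, r_apply, ee, hij.symm, hjo, ec, hil, hio, hjl, hil.symm,
      hjl.symm]
    match_scalars <;> field_simp; ring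
  have k4 := h.map_mem_ar hN (mul_mem (re j) hk) (h.ar_of_arm (a3 m mi mj ml))
  rw [k3, LinearEquiv.mul_apply, k1, Equiv.swap_apply_of_ne_of_ne mi mj, Equiv.swap_apply_of_ne_of_ne ml mo,
    rf_fix h _ _ (by simp [ee, Ne.symm mj])] at k4
  have k5 := arm_of_ar h hp (h.ar_move hN (by rw [← k3, (hN (mul_mem (re j) hk)).2, qu])
    (by simp [hu, ee, hij, hil, hjl, hij.symm, hio.symm, hjo.symm, hlo.symm]) (h.ar_of_arm (a3 m mi mj ml)) k4
    (eu m mi mj ml) (by simp [ee, Ne.symm mi, Ne.symm mj, Ne.symm mo]))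
  rw [Submodule.smul_mem_iff _ (by simpa [ee] using c2)] at k5
  have k6 := sub_mem k5 a2
  rw [add_sub_cancel_right] at k6
  have fl : h.Full N u := h.full_of_ar qu (fun x hx => h.ar_of_arm (by
    obtain ⟨q1, q2⟩ := Q_sub_sum (h := h) d {i, j, l} x
    have m1 : x - ∑ s ∈ {i, j, l}, p s x ∈ h.Arm N u := mem_of_blocks d fun s hs z hz => by
      obtain ⟨a, rfl⟩ := line_mem d (h1 s) (he s) (ne_zero_of_Q h (by rwa [ec])) hz
      rw [map_sub, q2] at hs
      refine Submodule.smul_mem _ _ (a3 s ?_ ?_ ?_) <;> rintro rfl <;> simp at hs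
    rw [Finset.sum_insert (by simp [hij, hil]), Finset.sum_pair hjl] at m1
    simp only [pe (h := h) d h1 he c0 ec t2] at m1
    have := add_mem (add_mem m1 (Submodule.smul_mem _ (B (e l) x / (2 * c)) (h.self_mem_arm qu)))
      (Submodule.smul_mem _ ((B (e i) x - B (e l) x) / (2 * c)) k6)
    convert this using 1
    simp only [hu, map_add, LinearMap.add_apply] at hx ⊢
    match_scalars <;> field_simp
    · ring
    · linear_combination hx - B (e l) x * t3
    · ring)) fun c hc => by
      rw [show c = 0 from hc, h.eich_zero]; exact one_mem _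
  refine h.om_le_of_full hN fl (fl.map hN (re i)) ?_
  have : B (e i) u = 2 * c := by simp [hu, ee, hij, hil]
  simp [r_apply, h.diag0 qu, hQ.comm u, this, ec, c0, t2]

theorem four5 (ht : t = 5) (n3 : ∀ a, Lam h N a → (sp B e a).card ≠ 3) (n5 : ∀ a, Lam h N a → (sp B e a).card ≤ 4)
    {a : V} (ha : Lam h N a) {i j l o m : Fin t} (hij : i ≠ j) (hil : i ≠ l) (hio : i ≠ o) (hjl : j ≠ l)
    (hjo : j ≠ o) (hlo : l ≠ o) (hs : sp B e a = {i, j, l, o}) (am : m ∉ sp B e a) :
    B (e l) a ^ 2 = -(2 * c * Q a) := by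
  have hQ : IsQuad B Q := h.form
  have ee := Bee (h := h) d h1 he c0 ec t2
  have qa := ha.1
  have ai : B (e i) a ≠ 0 := mem_sp.mp (by simp [hs])
  have aj : B (e j) a ≠ 0 := mem_sp.mp (by simp [hs])
  have al : B (e l) a ≠ 0 := mem_sp.mp (by simp [hs])
  have ao : B (e o) a ≠ 0 := mem_sp.mp (by simp [hs])
  have am' : B (e m) a = 0 := by simpa [mem_sp] using am
  simp only [hs, Finset.mem_insert, Finset.mem_singleton, not_or] at am
  obtain ⟨mi, mj, ml, mo⟩ := am
  have U : (Finset.univ : Finset (Fin t)) = {i, j, l, o, m} := (Finset.eq_univ_of_card _ (by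
    rw [Finset.card_insert_of_notMem (by simp [hij, hil, hio, Ne.symm mi]),
      Finset.card_insert_of_notMem (by simp [hjl, hjo, Ne.symm mj]),
      Finset.card_insert_of_notMem (by simp [hlo, Ne.symm ml]), Finset.card_pair (Ne.symm mo)]
    simp [ht])).symm
  have sum5 : ∀ f : Fin t → F, ∑ n, f n = f i + (f j + (f l + (f o + f m))) := fun f => by
    rw [U, Finset.sum_insert (by simp [hij, hil, hio, Ne.symm mi]),
      Finset.sum_insert (by simp [hjl, hjo, Ne.symm mj]),
      Finset.sum_insert (by simp [hlo, Ne.symm ml]), Finset.sum_pair (Ne.symm mo)]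
  obtain ⟨μ, hμ⟩ : ∃ μ, μ = B (e l) a ^ 2 / (2 * c * Q a) := ⟨_, rfl⟩
  have m0 : μ ≠ 0 := by simp [hμ, al, t2, c0, qa]
  have m1 : μ ≠ 1 := fun k => n3 _ ((lam_r h (show Q (e l) ≠ 0 by rwa [ec]) (re l)).map hN (ha.2 (Q a)⁻¹)) (by
    have k' : 2 * c - (Q a)⁻¹ * B (e l) a * B (e l) a = 0 := by
      rw [hμ] at k; field_simp at k ⊢; linear_combination -k
    rw [show sp B e (r h a (e l)) = {i, j, o} from Finset.ext fun n => by
      have : n ∈ ({i, j, l, o, m} : Finset _) := U ▸ Finset.mem_univ n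
      simp only [Finset.mem_insert, Finset.mem_singleton] at this
      rcases this with rfl | rfl | rfl | rfl | rfl <;>
      simp [mem_sp, r_apply, ee, hQ.comm a, *, hil.symm, hjl.symm, hlo.symm]]
    exact Finset.card_eq_three.mpr ⟨i, j, o, hij, hio, hjo, rfl⟩)
  obtain ⟨k, hk, k1⟩ := dbl d h1 he c0 ec t2 hn hO hij (Ne.symm mo)
  have k2 : ∀ n, B (e (Equiv.swap o m (Equiv.swap i j n))) (k a) = B (e n) a := fun n => by
    rw [← k1, (hN hk).1]
  have bi := k2 j
  have bj := k2 i
  have bl := k2 l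
  have bo := k2 m
  have bm := k2 o
  simp only [Equiv.swap_apply_left, Equiv.swap_apply_right, Equiv.swap_apply_of_ne_of_ne hio (Ne.symm mi),
    Equiv.swap_apply_of_ne_of_ne hjo (Ne.symm mj), Equiv.swap_apply_of_ne_of_ne hlo (Ne.symm ml),
    Equiv.swap_apply_of_ne_of_ne hil.symm hjl.symm, Equiv.swap_apply_of_ne_of_ne hio.symm hjo.symm,
    Equiv.swap_apply_of_ne_of_ne mi mj] at bi bj bl bo bm
  have main : ∀ b, Lam h N b → B (e i) a * B (e i) b + B (e j) a * B (e j) b = 0 → B (e l) b = B (e l) a →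
      B (e o) b = 0 → B (e m) b ≠ 0 → B (e i) b = μ * B (e i) a ∨ B (e j) b = μ * B (e j) a :=
    fun b hb x1 x2 x3 x4 => by
    have y : (Q a)⁻¹ * B a b = μ := by
      have := Bs (h := h) d h1 he c0 ec t2 a b
      rw [sum5, x2, x3, am'] at this
      rw [hμ]; field_simp; linear_combination this + x1
    by_contra k
    push Not at k
    have := n5 _ (hb.map hN (ha.2 (Q a)⁻¹))
    rw [show sp B e (r h a b) = Finset.univ from Finset.eq_univ_of_forall fun n => by
      have : n ∈ ({i, j, l, o, m} : Finset _) := U ▸ Finset.mem_univ n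
      simp only [Finset.mem_insert, Finset.mem_singleton] at this
      rw [mem_sp, r_apply, y, map_sub, map_smul, smul_eq_mul]
      rcases this with rfl | rfl | rfl | rfl | rfl
      · exact sub_ne_zero.mpr k.1
      · exact sub_ne_zero.mpr k.2
      · rw [x2, ← one_sub_mul]; exact mul_ne_zero (sub_ne_zero.mpr m1.symm) al
      · simp [x3, m0, ao]
      · simpa [am'] using x4] at this
    simp [ht] at this
  have z : ∀ n s, B (e n) (r h (e s) (k a)) = if n = s then -B (e n) (k a) else B (e n) (k a) := fun n s => by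
    rw [r_apply, map_sub, map_smul, ee, ec]
    split_ifs with q
    · subst q; simp; field_simp; ring
    · simp
  have w1 := main _ ((ha.map hN hk).map hN (re i)) (by simp [z, hij.symm, bi, bj]; ring)
    (by simp [z, hil.symm, bl]) (by simp [z, hio.symm, bo, am']) (by simp [z, mi, bm, ao])
  have w2 := main _ ((ha.map hN hk).map hN (re j)) (by simp [z, hij, bi, bj]; ring)
    (by simp [z, hjl.symm, bl]) (by simp [z, hjo.symm, bo, am']) (by simp [z, mj, bm, ao])
  simp only [z, if_true, if_neg hij, if_neg hij.symm, bi, bj] at w1 w2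
  have m2 : μ * μ = 1 := by
    rcases w1 with w1 | w1 <;> rcases w2 with w2 | w2
    · exact absurd (mul_left_cancel₀ t2 (by linear_combination w2 - w1)) aj
    · exact mul_right_cancel₀ ai (by linear_combination w2 - μ * w1)
    · exact mul_right_cancel₀ ai (by linear_combination -(μ * w2) - w1)
    · exact absurd (mul_left_cancel₀ t2 (by linear_combination w1 - w2)) ai
  have := (mul_self_eq_one_iff.mp m2).resolve_left m1
  rw [hμ] at this
  field_simp at this
  linear_combination this

theorem rt_frame5 (hp : (Fintype.card F).Prime) (ht : t = 5) {x : V ≃ₗ[F] V} (hx : x ∈ N)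
    (hx' : x ∉ dstab D) : h.Om ≤ N := by
  classical
  have hQ : IsQuad B Q := h.form
  have q0 : ∀ i, Q (e i) ≠ 0 := fun i => by rwa [ec]
  have z := pz (h := h) d h1 he c0 ec t2
  obtain ⟨-, -, -, ⟨j, rfl⟩, out⟩ := exists_out d (P := fun v => ∃ j, e j = v) (fun i => ⟨⟨_, he i,
    ne_zero_of_Q h (q0 i), i, rfl⟩, fun X a b c => absurd (Submodule.eq_of_le_of_finrank_le a
      ((h1 i).trans (Submodule.one_le_finrank_iff.mpr b))) c⟩) (hN hx) hx'
  have h2 := two_le_sp (h := h) d h1 he c0 ec t2 out (by omega)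
  have ha := (lam_r h (q0 j) (re j)).map hN hx
  have qa : Q (x (e j)) = c := by rw [(hN hx).2, ec]
  by_cases c3 : Fintype.card F = 3
  · have t3 : (3 : F) = 0 := by simpa [c3] using FiniteField.cast_card_eq_zero F
    generalize x (e j) = a at h2 ha qa
    have q1 : ∀ i ∈ sp B e a, Q (p i a) = c := fun i hi => by
      have := FiniteField.pow_card_sub_one_eq_one _ (div_ne_zero (mem_sp.mp hi) (mul_ne_zero t2 c0))
      rw [c3] at this
      rw [pe (h := h) d h1 he c0 ec t2, IsQuad.smul' h.form, ec, ← sq, this, one_mul]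
    have q2 := Q_sum h d a
    rw [← Finset.sum_subset (Finset.subset_univ (sp B e a)) fun i _ hi => by
      rw [(z i a).mpr (by simpa [mem_sp] using hi), h.Q_zero], Finset.sum_congr rfl q1,
      Finset.sum_const, nsmul_eq_mul, qa, eq_comm, mul_eq_right₀ c0] at q2
    have h4 : 4 ≤ (sp B e a).card := by
      by_contra k
      rcases (show (sp B e a).card = 2 ∨ (sp B e a).card = 3 by omega) with k | k <;> rw [k] at q2
      · exact t2 (by push_cast at q2; linear_combination t3 - q2)
      · exact t2 (by push_cast at q2; linear_combination q2)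
    obtain ⟨S, s1, s2⟩ := Finset.exists_subset_card_eq h4
    obtain ⟨m, -, hm⟩ := Finset.exists_mem_notMem_of_card_lt_card (s := S) (t := Finset.univ)
      (by simp; omega)
    have U := Finset.eq_univ_of_card (insert m S) (by rw [Finset.card_insert_of_notMem hm]; simp; omega)
    obtain ⟨i, j, l, o, hij, hil, hio, hjl, hjo, hlo, rfl⟩ := Finset.card_eq_four.mp s2
    simp only [Finset.insert_subset_iff, Finset.singleton_subset_iff] at s1
    simp only [Finset.mem_insert, Finset.mem_singleton, not_or] at hm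
    have he' : ∀ m, (if m ∈ sp B e a then p m a else e m) ∈ D m := fun m => by
      split_ifs; exacts [d.mem m a, he m]
    have ec' : ∀ m, Q (if m ∈ sp B e a then p m a else e m) = c := fun m => by
      split_ifs with k; exacts [q1 m k, ec m]
    exact rt_three5 d h1 he' c0 ec' t2 hn hO hN (fun m => by
      convert re m using 1
      ext v; rw [r_line d h1 he' c0 ec' t2, r_line d h1 he c0 ec t2]) hp t3 ha
      hij hil hio hjl hjo hlo hm.1 hm.2.1 hm.2.2.1 hm.2.2.2 (fun s a b c => by
        have := U ▸ Finset.mem_univ s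
        simp only [Finset.mem_insert, Finset.mem_singleton] at this
        tauto) (by simp [s1]) (by simp [s1]) (by simp [s1]) (mt (z o a).mp (mem_sp.mp s1.2.2.2))
  have : Fact (Fintype.card F).Prime := ⟨hp⟩
  have : CharP F (Fintype.card F) := charP_of_card_eq_prime rfl
  have h4 : 4 ≤ Fintype.card F := by
    have := hp.two_le
    have : Fintype.card F ≠ 2 := fun k => t2 (by simpa [k] using FiniteField.cast_card_eq_zero F)
    omega
  have t3 : (3 : F) ≠ 0 := fun k => by
    have := Nat.le_of_dvd (by omega) ((CharP.cast_eq_zero_iff F (Fintype.card F) 3).mp (by simpa))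
    omega
  refine stepC d h1 he c0 ec t2 hN re hp h4 ?_ fun i j => ?_
  · by_contra hE
    have bd := fun a => bound4 d h1 he c0 ec t2 hN re hp t3 hE (a := a)
    have sq : ∀ a (s : F), (∀ i ∈ sp B e a, B (e i) a ^ 2 = s * (2 * c * Q a)) → Q a ≠ 0 →
        (sp B e a).card * s = 2 := fun a s k qa => by
      have := Bs (h := h) d h1 he c0 ec t2 a a
      rw [← Finset.sum_subset (Finset.subset_univ (sp B e a)) fun i _ hi => by
        simp_all [mem_sp], Finset.sum_congr rfl fun i hi => (sq _).symm.trans (k i hi),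
        Finset.sum_const, nsmul_eq_mul, hQ.diag'] at this
      exact mul_right_cancel₀ (mul_ne_zero (mul_ne_zero t2 c0) qa) (by linear_combination -this)
    have n3 : ∀ a, Lam h N a → (sp B e a).card ≠ 3 := fun a ha k => by
      obtain ⟨i, hi, i1⟩ : ∃ i ∈ sp B e a, B (e i) a ^ 2 ≠ 2 * c * Q a := by
        by_contra k'
        push Not at k'
        have := sq a 1 (by simpa using k') ha.1
        rw [k] at this
        exact one_ne_zero (by push_cast at this; linear_combination this : (1 : F) = 0)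
      obtain ⟨b, hb, S, s1, s2, s3, s4⟩ := overlap d h1 he c0 ec t2 hn hO hN ha hi (by omega) (by omega)
      have := Finset.card_le_card (Finset.insert_subset (s4 i1) s1)
      rw [Finset.card_insert_of_notMem s2] at this
      have := bd b hb
      omega
    obtain ⟨a, ha, a3⟩ := three d h1 he c0 ec t2 hn hO hN re (by omega) hx h2
    have a4 : (sp B e a).card = 4 := by have := bd a ha; have := n3 a ha; omega
    obtain ⟨m, -, hm⟩ := Finset.exists_mem_notMem_of_card_lt_card (s := sp B e a) (t := Finset.univ)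
      (by simp; omega)
    have := sq a (-1) (fun l hl => by
      obtain ⟨i, j, o, hij, hio, hjo, k⟩ := Finset.card_eq_three.mp
        (show ((sp B e a).erase l).card = 3 by rw [Finset.card_erase_of_mem hl, a4])
      have n : ∀ s ∈ ({i, j, o} : Finset _), s ≠ l := fun s hs => (Finset.mem_erase.mp (k ▸ hs)).1
      rw [four5 d h1 he c0 ec t2 hn hO hN re ht n3 bd ha hij (n i (by simp)) hio (n j (by simp)) hjo
        (n o (by simp)).symm (by
          rw [← Finset.insert_erase hl, k]; ext; simp; tauto) hm, neg_one_mul]) ha.1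
    rw [a4] at this
    exact mul_ne_zero t2 t3 (by push_cast at this; linear_combination -this)
  by_cases hij : i = j
  · exact ⟨_, lam_r h (q0 j) (re j), by simp [hij, d.self j _ (he j), ne_zero_of_Q h (q0 j)]⟩
  obtain ⟨i', hi, j', hj, hij'⟩ := Finset.one_lt_card.mp h2
  obtain ⟨k, hk, -, π, k1, k2⟩ := frame_perm d h1 he c0 ec t2 hn hO
    (Equiv.swap (Equiv.swap i' i j') j * Equiv.swap i' i) {i', j'}
    ((Nat.add_le_add_right Finset.card_le_two _).trans (by omega))
  have k3 : π i' = i := by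
    rw [k2 i' (by simp), Equiv.Perm.mul_apply, Equiv.swap_apply_left, Equiv.swap_apply_of_ne_of_ne _ hij]
    rwa [Ne, eq_comm, Equiv.swap_apply_eq_iff, Equiv.swap_apply_right, eq_comm]
  have k4 : π j' = j := by rw [k2 j' (by simp), Equiv.Perm.mul_apply, Equiv.swap_apply_left]
  exact ⟨_, ha.map hN hk, by rw [Ne, z, ← k3, ← k1, (hN hk).1]; exact mem_sp.mp hi,
    by rw [Ne, z, ← k4, ← k1, (hN hk).1]; exact mem_sp.mp hj⟩

end Cfsg.Agent.H26.S4
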