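import Cfsg.Agent.H26.S4b
import Cfsg.Agent.H11.Exc
import Cfsg.Agent.H26.RType

/-!
The five-dimensional orthogonal representation of the four-dimensional symplectic group.
-/

set_option autoImplicit false
set_option linter.unusedSectionVars false

namespace Cfsg.Agent.H26.S4

open Module H10 H11 H11.Im Cfsg.Geo Matrix

variable {F : Type*} [Field F]

local notation "𝐈" => Fin 2 ⊕ Fin 2
local notation "𝐖" => Unit ⊕ (Fin 2 ⊕ Fin 2) → F
local notation "𝐉" => Matrix.J (Fin 2) F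
local notation "𝐁" => bOdd 2 F
local notation "𝐐" => quadFormOdd 2 F

/-- self-adjoint matrices of trace zero -/
def tt (F : Type*) [Field F] : (Unit ⊕ (Fin 2 ⊕ Fin 2) → F) →ₗ[F] Matrix 𝐈 𝐈 F where
  toFun x := fromBlocks !![x (.inl ()), x (.inr (.inl 0)); x (.inr (.inr 0)), -x (.inl ())]
    !![0, x (.inr (.inl 1)); -x (.inr (.inl 1)), 0] !![0, -x (.inr (.inr 1)); x (.inr (.inr 1)), 0]
    !![x (.inl ()), x (.inr (.inr 0)); x (.inr (.inl 0)), -x (.inl ())]
  map_add' x y := by ext (i | i) (j | j) <;> fin_cases i <;> fin_cases j <;> simp [add_comm]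
  map_smul' c x := by ext (i | i) (j | j) <;> fin_cases i <;> fin_cases j <;> simp

theorem tt_apply (x : 𝐖) : tt F x =
    fromBlocks !![x (.inl ()), x (.inr (.inl 0)); x (.inr (.inr 0)), -x (.inl ())]
    !![0, x (.inr (.inl 1)); -x (.inr (.inl 1)), 0] !![0, -x (.inr (.inr 1)); x (.inr (.inr 1)), 0]
    !![x (.inl ()), x (.inr (.inr 0)); x (.inr (.inl 0)), -x (.inl ())] := rfl

theorem tt_sq (x : 𝐖) : tt F x * tt F x = 𝐐 x • 1 := by
  ext (i | i) (j | j) <;> fin_cases i <;> fin_cases j <;>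
    simp [tt_apply, fromBlocks_multiply, quadFormOdd, one_apply] <;> ring

theorem tt_mul (x y : 𝐖) : tt F x * tt F y = 𝐁 x y • 1 - tt F y * tt F x := by
  have := tt_sq (x + y)
  rw [map_add, (isQuad_odd 2 F).add', add_mul, mul_add, mul_add, tt_sq, tt_sq] at this
  simp only [add_smul] at this
  rw [eq_sub_iff_add_eq, ← sub_eq_zero, ← sub_eq_zero.mpr this]; abel

theorem tt_inj : Function.Injective (tt F) := fun x y e => by
  have a := fun i j => congrFun (congrFun e i) j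
  ext (i | i | i) <;> [skip; fin_cases i; fin_cases i]
  exacts [a (.inl 0) (.inl 0), a (.inl 0) (.inl 1), a (.inl 0) (.inr 1), a (.inl 1) (.inl 0),
    a (.inr 1) (.inl 0)]

theorem tt_adj (x : 𝐖) : (tt F x)ᵀ * 𝐉 = 𝐉 * tt F x := by
  ext (i | i) (j | j) <;> fin_cases i <;> fin_cases j <;>
    simp [tt_apply, fromBlocks_multiply, fromBlocks_transpose, Matrix.J]

theorem tt_trace (x : 𝐖) : (tt F x).trace = 0 := by
  simp [tt_apply, trace, Fintype.sum_sum_type]

theorem exists_tt (t2 : (2 : F) ≠ 0) {X : Matrix 𝐈 𝐈 F} (h1 : Xᵀ * 𝐉 = 𝐉 * X) (h2 : X.trace = 0) :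
    ∃ x, tt F x = X := by
  have a := fun i j => congrFun (congrFun h1 i) j
  have a1 := a (.inl 0) (.inl 0)
  have a2 := a (.inl 0) (.inl 1)
  have a3 := a (.inl 1) (.inl 1)
  have a4 := a (.inr 0) (.inr 0)
  have a5 := a (.inr 0) (.inr 1)
  have a6 := a (.inr 1) (.inr 1)
  have a7 := a (.inl 0) (.inr 0)
  have a8 := a (.inl 0) (.inr 1)
  have a9 := a (.inl 1) (.inr 0)
  have a0 := a (.inl 1) (.inr 1)
  simp [Matrix.J, mul_apply, Fintype.sum_sum_type, one_apply, trace] at a1 a2 a3 a4 a5 a6 a7 a8 a9 a0 h2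
  refine ⟨Sum.elim (fun _ => X (.inl 0) (.inl 0)) (Sum.elim ![X (.inl 0) (.inl 1), X (.inl 0) (.inr 1)]
    ![X (.inl 1) (.inl 0), X (.inr 1) (.inl 0)]), ?_⟩
  ext (i | i) (j | j) <;> fin_cases i <;> fin_cases j <;> simp [tt_apply] <;>
    refine mul_left_cancel₀ t2 ?_
  · linear_combination -h2 - a7 - a0
  · linear_combination a4
  · linear_combination 2 * a5
  · linear_combination a6
  · linear_combination -a1
  · linear_combination -2 * a2
  · linear_combination -a3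
  · linear_combination 2 * a7
  · linear_combination 2 * a8
  · linear_combination 2 * a9
  · linear_combination -h2 - a7 + a0

theorem gen2 (A : Subalgebra F (Matrix 𝐈 𝐈 F)) (hA : ∀ x y, tt F x * tt F y ∈ A) : A = ⊤ := by
  let v : Unit ⊕ (Fin 2 ⊕ Fin 2) → 𝐖 := fun i => Pi.single i 1
  have d1 := hA (v (.inr (.inl 0))) (v (.inr (.inr 0)))
  have d2 := hA (v (.inr (.inl 1))) (v (.inr (.inr 1)))
  have d3 := sub_mem (one_mem A) d1
  have d4 := sub_mem (one_mem A) d2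
  have P : ∀ i, single i i (1 : F) ∈ A := by
    rintro (i | i) <;> fin_cases i
    · convert mul_mem d1 d2 using 1
      ext (i | i) (j | j) <;> fin_cases i <;> fin_cases j <;> simp [tt_apply, v, mul_apply, Fintype.sum_sum_type]
    · convert mul_mem d3 d2 using 1
      ext (i | i) (j | j) <;> fin_cases i <;> fin_cases j <;>
        simp [tt_apply, v, mul_apply, Fintype.sum_sum_type, one_apply]
    · convert mul_mem d3 d4 using 1
      ext (i | i) (j | j) <;> fin_cases i <;> fin_cases j <;>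
        simp [tt_apply, v, mul_apply, Fintype.sum_sum_type, one_apply]
    · convert mul_mem d1 d4 using 1
      ext (i | i) (j | j) <;> fin_cases i <;> fin_cases j <;>
        simp [tt_apply, v, mul_apply, Fintype.sum_sum_type, one_apply]
  obtain ⟨X, hX, x0⟩ : ∃ X ∈ A, ∀ i j, X i j ≠ 0 := by
    refine ⟨_, add_mem (add_mem (one_mem A) (hA (v (.inl ())) (Sum.elim 0 1)))
      (hA (v (.inr (.inl 0)) + v (.inr (.inr 0))) (v (.inr (.inl 1)) + v (.inr (.inr 1)))), ?_⟩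
    rintro (i | i) (j | j) <;> fin_cases i <;> fin_cases j <;>
      simp [tt_apply, v, mul_apply, Fintype.sum_sum_type, one_apply]
  refine eq_top_iff.2 fun M _ => ?_
  rw [matrix_eq_sum_single M]
  refine sum_mem fun i _ => sum_mem fun j _ => ?_
  convert A.smul_mem (mul_mem (mul_mem (P i) hX) (P j)) (M i j / X i j) using 1
  rw [single_mul_mul_single, smul_single]
  simp [x0]

theorem cent {y : Matrix 𝐈 𝐈 F} {ε : F} (hε : ε * ε = 1) (h : ∀ w, tt F w * y = ε • (y * tt F w)) :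
    ∃ c : F, y = c • 1 := by
  have := gen2 (Subalgebra.centralizer F {y}) fun a b => by
    simp only [Subalgebra.mem_centralizer_iff, Set.mem_singleton_iff, forall_eq]
    rw [mul_assoc, h, mul_smul_comm, ← mul_assoc (tt F a), h, smul_mul_assoc, smul_smul, hε, one_smul,
      mul_assoc]
  obtain ⟨c, hc⟩ := mem_range_scalar_of_commute_single (M := y) fun i j _ =>
    ((Subalgebra.mem_centralizer_iff F).1 (this.ge Algebra.mem_top) y rfl).symm
  exact ⟨c, by rw [← hc]; simp [smul_one_eq_diagonal]⟩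

theorem mem_sp' (g : GL 𝐈 F) : g ∈ spGL 2 F ↔ g.1ᵀ * 𝐉 * g.1 = 𝐉 := by
  rw [← SymplecticGroup.mem_iff', mem_symplecticGroup_iff_form]
  simp only [spBilin_eq_sympForm]; rfl

/-- the isometries induced up to sign by a group of matrices -/
def lift (M : Subgroup (GL 𝐈 F)) : Subgroup (𝐖 ≃ₗ[F] 𝐖) where
  carrier := {x | ∃ m ∈ M, ∃ ε : F, ε * ε = 1 ∧ ∀ w, tt F (x w) * m.1 = ε • (m.1 * tt F w)}
  one_mem' := ⟨1, one_mem _, 1, by simp, by simp⟩
  mul_mem' := by
    rintro x y ⟨m, hm, ε, e, k⟩ ⟨m', hm', ε', e', k'⟩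
    refine ⟨m * m', mul_mem hm hm', ε * ε', by linear_combination ε * ε * e' + e, fun w => ?_⟩
    rw [LinearEquiv.mul_apply, Units.val_mul, ← mul_assoc, k, smul_mul_assoc, mul_assoc, k', mul_smul_comm,
      smul_smul, mul_assoc]
  inv_mem' := by
    rintro x ⟨m, hm, ε, e, k⟩
    refine ⟨m⁻¹, inv_mem hm, ε, e, fun w => ?_⟩
    have := congrArg (fun z => ε • ((m⁻¹).1 * z * (m⁻¹).1)) (k (x⁻¹ w))
    simp only [app_inv, mul_smul_comm, smul_mul_assoc, smul_smul, e, one_smul, mul_assoc,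
      Units.mul_inv, mul_one, Units.inv_mul_cancel_left] at this
    exact this.symm

theorem lift_isom (M : Subgroup (GL 𝐈 F)) : lift M ≤ Isom 𝐁 𝐐 := by
  rintro x ⟨m, -, ε, e, k⟩
  refine (isQuad_odd 2 F).mem_isom.mpr fun w => ?_
  have : tt F (x w) * (tt F (x w) * m.1) = m.1 * (tt F w * tt F w) := by
    rw [k, mul_smul_comm, ← mul_assoc, k, smul_mul_assoc, smul_smul, e, one_smul, mul_assoc]
  rw [← mul_assoc, tt_sq, tt_sq, smul_mul_assoc, mul_smul_comm, one_mul, mul_one, ← sub_eq_zero,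
    ← sub_smul, smul_eq_zero] at this
  exact sub_eq_zero.mp (this.resolve_right m.ne_zero)

variable [Fintype F] (hodd : Odd (Fintype.card F)) (h : Cl (σ := RingHom.id F) 1 2 (AddMonoidHom.id F)
  (bOdd 2 F) (quadFormOdd 2 F))

theorem om_le_lift : h.Om ≤ lift (spGL 2 F) := h.om_le fun u w c qu uw hc => by
  obtain rfl : c = 𝐐 w := hc
  have e1 : tt F w * tt F u = -(tt F u * tt F w) := by rw [tt_mul w, h.refl uw]; simp
  have e2 : tt F u * tt F u = 0 := by rw [tt_sq, qu, zero_smul]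
  have e3 : tt F u * tt F w * (tt F u * tt F w) = 0 := by
    rw [mul_assoc, ← mul_assoc (tt F w), e1, neg_mul, mul_neg, ← mul_assoc, ← mul_assoc, e2]; simp
  refine ⟨⟨1 + tt F u * tt F w, 1 - tt F u * tt F w, by simp [mul_sub, add_mul, e3], by
    simp [sub_mul, mul_add, e3]⟩, (mem_sp' _).2 ?_, 1, by simp, fun x => ?_⟩
  · have : (tt F u * tt F w)ᵀ * 𝐉 = -(𝐉 * (tt F u * tt F w)) := by
      rw [transpose_mul, mul_assoc, tt_adj, ← mul_assoc, tt_adj, mul_assoc, e1, mul_neg]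
    simp [transpose_add, add_mul, mul_add, this, mul_assoc 𝐉, e3, -transpose_mul]
  · have e4 : tt F w * (tt F u * tt F w) = -(𝐐 w • tt F u) := by
      rw [← mul_assoc, e1, neg_mul, mul_assoc, tt_sq]; simp
    have e5 : tt F u * tt F w * tt F x = 𝐁 w x • tt F u - 𝐁 u x • tt F w + tt F x * (tt F u * tt F w) := by
      rw [mul_assoc, tt_mul w x, mul_sub, ← mul_assoc, tt_mul u x]; simp [sub_mul, mul_assoc]; abel
    rw [h.eich_apply qu uw]
    simp only [map_add, map_sub, map_smul, add_mul, sub_mul, mul_add, smul_mul_assoc, mul_one, one_mul,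
      e4, e5, ← mul_assoc (tt F u) (tt F u), e2, zero_mul]
    module

include hodd in
theorem exists_om {g : GL 𝐈 F} (hg : g ∈ spGL 2 F) : ∃ σ ∈ h.Om, ∀ w, tt F (σ w) * g.1 = g.1 * tt F w := by
  have t2 := two_ne_zero_of_odd_card hodd
  have h3 : 3 ≤ Fintype.card F := by
    have := Fintype.one_lt_card (α := F); obtain ⟨k, hk⟩ := hodd; omega
  let ρ : symplecticGroup (Fin 2) F →* Module.End F (Matrix 𝐈 𝐈 F) :=
    { toFun := fun g => LinearMap.mulLeftRight F (g.1, (g⁻¹).1)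
      map_one' := by ext1 X; simp
      map_mul' := fun g g' => by ext1 X; simp [Matrix.mul_assoc] }
  have hi : ∀ g : symplecticGroup (Fin 2) F, (g⁻¹).1 * g.1 = 1 := fun g => by
    simpa only [inv_inv] using sp_mul_inv g⁻¹
  obtain ⟨φ, hφ⟩ := (isQuad_odd 2 F).exists_hom_of_act (tt F) tt_inj ρ fun g x => by
    have a := SymplecticGroup.mem_iff'.1 g.2
    have b := SymplecticGroup.mem_iff'.1 (g⁻¹).2
    have a' : g.1ᵀ * 𝐉 = 𝐉 * (g⁻¹).1 := by rw [← mul_one (g.1ᵀ * 𝐉), ← sp_mul_inv g, ← mul_assoc, a]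
    have b' : (g⁻¹).1ᵀ * 𝐉 = 𝐉 * g.1 := by rw [← mul_one ((g⁻¹).1ᵀ * 𝐉), ← hi g, ← mul_assoc, b]
    obtain ⟨y, hy⟩ := exists_tt t2 (X := g.1 * tt F x * (g⁻¹).1) (by
      simp only [transpose_mul, mul_assoc]
      rw [a', ← mul_assoc _ 𝐉, tt_adj, ← mul_assoc, ← mul_assoc, b', mul_assoc, mul_assoc])
      (by rw [trace_mul_cycle, hi, one_mul, tt_trace])
    refine ⟨y, hy.symm, ?_⟩
    have := tt_sq y
    rw [hy, mul_assoc, mul_assoc, mul_assoc, ← mul_assoc (g⁻¹).1, hi, one_mul, ← mul_assoc (tt F x), tt_sq,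
      smul_mul_assoc, mul_smul_comm, one_mul, sp_mul_inv, ← sub_eq_zero, ← sub_smul, smul_eq_zero] at this
    exact (sub_eq_zero.mp (this.resolve_right one_ne_zero)).symm
  let k : symplecticGroup (Fin 2) F := ⟨g.1, SymplecticGroup.mem_iff'.2 ((mem_sp' g).1 hg)⟩
  refine ⟨_, (mem_om_quad h (by simp) (φ k)).2 (mem_commutator_of_perfect
    (commutator_sp_eq_top (Or.inr (Or.inl ⟨by simp, h3⟩))) φ k), fun w => ?_⟩
  rw [hφ]
  exact (mul_assoc _ _ k.1).trans (by rw [hi, mul_one]; rfl)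

include hodd in
theorem bridge {S : Subgroup (𝐖 ≃ₗ[F] 𝐖)} {H : Subgroup (GL 𝐈 F)}
    (hH : ∀ g ∈ spGL 2 F, ∀ σ : 𝐖 ≃ₗ[F] 𝐖, (∀ w, tt F (σ w) * g.1 = g.1 * tt F w) → (g ∈ H ↔ σ ∈ S))
    (hne : ¬ h.Om ≤ S) (hneg : LinearEquiv.neg F ∈ S)
    (core : ∀ N ≤ Isom 𝐁 𝐐, S ⊓ h.Om ≤ N → (∀ b, 𝐐 b = 1 → r h b ∈ S → r h b ∈ N) →
      ∀ σ ∈ N, σ ∉ S → h.Om ≤ N) : IsMaximalIn (spGL 2 F) (H ⊓ spGL 2 F) := by
  have hH' : ∀ g ∈ spGL 2 F, ∀ (σ : 𝐖 ≃ₗ[F] 𝐖) (ε : F), ε * ε = 1 →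
      (∀ w, tt F (σ w) * g.1 = ε • (g.1 * tt F w)) → (g ∈ H ↔ σ ∈ S) := fun g hg σ ε e k => by
    rcases mul_self_eq_one_iff.mp e with rfl | rfl
    · exact hH g hg σ (by simpa using k)
    · rw [hH g hg (LinearEquiv.neg F * σ) (fun w => by simp [k]), mul_mem_cancel_left hneg]
  refine isMaximalIn_inf (fun hc => hne fun x hx => ?_) fun M hHM hM g hg hg' => ?_
  · obtain ⟨m, hm, ε, e, k⟩ := om_le_lift h hx
    exact (hH' m hm x ε e k).1 (hc hm)
  obtain ⟨σ, -, hσ⟩ := exists_om hodd h (hM hg)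
  have := core (lift M) (lift_isom M) (fun x hx => ?_) (fun b qb hb => ?_) σ ⟨g, hg, 1, by simp, by simpa⟩
    fun c => hg' ((hH g (hM hg) σ hσ).2 c)
  · intro g hg
    obtain ⟨σ, s1, hσ⟩ := exists_om hodd h hg
    obtain ⟨m, hm, ε, e, k⟩ := this s1
    obtain ⟨c, hc⟩ := cent (y := (g⁻¹ * m).1) e fun w => by
      have := congrArg (fun z => (g⁻¹).1 * z * (g⁻¹).1) (hσ w)
      simp only [mul_assoc, Units.mul_inv, mul_one, Units.inv_mul_cancel_left] at this
      rw [Units.val_mul, ← mul_assoc, ← this, mul_assoc, k, mul_smul_comm, mul_assoc]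
    have m1 := mul_mem (inv_mem hg) (hM hm)
    have := mul_mem hm (inv_mem (hHM ⟨(hH _ m1 1 fun w => by simp [hc]).2 (one_mem _), m1⟩))
    simpa using this
  · obtain ⟨m, hm, ε, e, k⟩ := om_le_lift h hx.2
    exact ⟨m, hHM ⟨(hH' m hm x ε e k).2 hx.1, hm⟩, ε, e, k⟩
  · have e1 : tt F b * tt F b = 1 := by rw [tt_sq, qb, one_smul]
    have m1 : (⟨tt F b, tt F b, e1, e1⟩ : GL 𝐈 F) ∈ spGL 2 F := (mem_sp' _).2 (by
      rw [tt_adj, mul_assoc, e1, mul_one])
    have k : ∀ w, tt F (r h b w) * tt F b = (-1 : F) • (tt F b * tt F w) := fun w => by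
      rw [r_apply, qb, tt_mul b w]; simp [sub_mul, e1]
    exact ⟨_, hHM ⟨(hH' _ m1 _ (-1) (by simp) k).2 hb, m1⟩, -1, by simp, k⟩

end Cfsg.Agent.H26.S4
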