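import Cfsg.Agent.H26.S4c

/-!
Centralisers up to sign of skew-adjoint matrices in the four-dimensional symplectic group.
-/

set_option autoImplicit false
set_option linter.unusedSectionVars false

namespace Cfsg.Agent.H26.S4

open Module H10 H11 H11.Im Cfsg.Geo Matrix

variable {F : Type*} [Field F]

local notation "𝐈" => Fin 2 ⊕ Fin 2
local notation "𝐖" => Unit ⊕ (Fin 2 ⊕ Fin 2) → F
local notation "𝐉" => Matrix.J (Fin 2) F
local notation "𝐁" => bOdd 2 F
local notation "𝐐" => quadFormOdd 2 F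

theorem J_cancel {X Y : Matrix 𝐈 𝐈 F} (h : 𝐉 * X = 𝐉 * Y) : X = Y := by
  have := congrArg (𝐉 * ·) h
  simpa [← mul_assoc, J_squared] using this

theorem trace_skew (t2 : (2 : F) ≠ 0) {d : Matrix 𝐈 𝐈 F} (hd : dᵀ * 𝐉 = -(𝐉 * d)) : d.trace = 0 := by
  have := congrArg (fun z => (z * 𝐉).trace) hd
  simp only [mul_assoc, J_squared, neg_mul, trace_neg, mul_neg, mul_one, trace_transpose] at this
  rw [← mul_assoc, trace_mul_cycle, J_squared, neg_mul, one_mul, trace_neg] at this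
  exact mul_left_cancel₀ t2 (by linear_combination -this)

theorem skew_scalar (t2 : (2 : F) ≠ 0) {c : F} (hd : (c • (1 : Matrix 𝐈 𝐈 F))ᵀ * 𝐉 = -(𝐉 * c • 1)) :
    c = 0 := by
  have := trace_skew t2 hd
  simp at this
  exact this.resolve_right (by rw [show (4 : F) = 2 * 2 by ring]; exact mul_ne_zero t2 t2)

theorem adj_of_form {k k' : Matrix 𝐈 𝐈 F}
    (h : ∀ u v, sympForm 2 F (k *ᵥ u) v = sympForm 2 F u (k' *ᵥ v)) : kᵀ * 𝐉 = 𝐉 * k' := by
  ext i j
  have := h (Pi.single i 1) (Pi.single j 1)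
  simp only [sympForm, mulVec_mulVec] at this
  rw [← vecMul_transpose, ← dotProduct_mulVec, mulVec_mulVec] at this
  simpa using this

variable [Fintype F] (hodd : Odd (Fintype.card F))
include hodd

theorem max_skew (h4 : 4 ≤ Fintype.card F) {d : Matrix 𝐈 𝐈 F} (hd : dᵀ * 𝐉 = -(𝐉 * d)) {δ : F}
    (dd : d * d = δ • 1) (δ0 : δ ≠ 0) {H : Subgroup (GL 𝐈 F)}
    (hH : ∀ g ∈ spGL 2 F, g ∈ H ↔ ∃ ε : F, ε * ε = 1 ∧ g.1 * d = ε • (d * g.1)) :
    IsMaximalIn (spGL 2 F) (H ⊓ spGL 2 F) := by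
  have t2 := two_ne_zero_of_odd_card hodd
  have hQ := isQuad_odd 2 F
  have h := clQuad hQ (bOdd_sep 2 t2)
  have dd' : ∀ X : Matrix 𝐈 𝐈 F, d * (d * X) = δ • X := fun X => by rw [← mul_assoc, dd]; simp
  have pr : ∀ z, ∃ a, tt F a = δ • tt F z - d * tt F z * d := fun z => exists_tt t2 (by
      simp only [transpose_sub, transpose_smul, transpose_mul, sub_mul, smul_mul_assoc, mul_assoc, hd, tt_adj,
        mul_neg, ← mul_assoc _ 𝐉, neg_mul, neg_neg, mul_sub, mul_smul_comm])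
    (by rw [trace_sub, trace_mul_cycle, dd]; simp)
  choose π hπ using pr
  have an : ∀ z, tt F (π z) * d = -(d * tt F (π z)) := fun z => by
    simp [hπ, sub_mul, mul_sub, mul_assoc, dd, dd']
  obtain ⟨a, a1, qa⟩ : ∃ a, tt F a * d = -(d * tt F a) ∧ 𝐐 a ≠ 0 := by
    by_contra k
    push Not at k
    have k1 : ∀ z, π z = 0 := fun z => h.sep _ fun y => by
      have k2 := k (π z + π y) (by simp [add_mul, mul_add, an, add_comm])
      rw [hQ.add', k _ (an z), k _ (an y), zero_add, zero_add] at k2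
      have k3 := eq_sub_iff_add_eq.1 (tt_mul (π z) (π y))
      have k4 : d * tt F (π z) = -(tt F (π z) * d) := by rw [an, neg_neg]
      have k6 : ∀ X : Matrix 𝐈 𝐈 F, tt F (π z) * (d * X) = -(d * (tt F (π z) * X)) := fun X => by
        rw [← mul_assoc, an, neg_mul, mul_assoc]
      have k7 : tt F (π z) * tt F (π y) + tt F (π y) * tt F (π z) =
          δ • (tt F (π z) * tt F y + tt F y * tt F (π z)) +
            d * (tt F (π z) * tt F y + tt F y * tt F (π z)) * d := by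
        rw [hπ y]
        simp only [mul_sub, sub_mul, mul_add, add_mul, mul_assoc, k6, k4, mul_smul_comm, smul_mul_assoc,
          mul_neg, smul_add]
        abel
      rw [k3, k2, eq_sub_iff_add_eq.1 (tt_mul (π z) y), mul_smul_comm, smul_mul_assoc, mul_one, dd] at k7
      have k5 : ((2 * δ) * 𝐁 (π z) y) • (1 : Matrix 𝐈 𝐈 F) = 0 := by
        rw [zero_smul] at k7; rw [k7]; module
      simpa [t2, δ0] using k5
    obtain ⟨c, rfl⟩ := cent (y := d) (mul_one 1) fun w => by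
      have := congrArg (d * ·) (hπ w)
      simp only [k1, map_zero, mul_zero, mul_sub, mul_assoc, dd', mul_smul_comm, ← smul_sub] at this
      rw [one_smul, eq_comm, ← sub_eq_zero]
      exact (smul_eq_zero.mp this.symm).resolve_left δ0
    rw [skew_scalar t2 hd] at dd
    exact δ0 (by simpa [eq_comm (a := (0 : Matrix 𝐈 𝐈 F))] using dd)
  have a2 : d * tt F a = -(tt F a * d) := by rw [a1, neg_neg]
  obtain ⟨b, hb⟩ := exists_tt t2 (X := tt F a * d) (by
    rw [transpose_mul, mul_assoc, tt_adj, ← mul_assoc, hd, neg_mul, mul_assoc, a2]; simp)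
    (mul_left_cancel₀ t2 (by rw [two_mul]; nth_rewrite 1 [a1]; rw [trace_neg, trace_mul_comm]; simp))
  have b1 : tt F b * d = -(d * tt F b) := by rw [hb, ← mul_assoc, a2]; simp
  have ab : tt F a * tt F b = 𝐐 a • d := by rw [hb, ← mul_assoc, tt_sq]; simp
  have ab0 : 𝐁 a b = 0 := by
    have := tt_mul a b
    rw [ab, hb, mul_assoc, a2, mul_neg, ← mul_assoc, tt_sq] at this
    simpa using this
  have qb : 𝐐 b ≠ 0 := fun k => by
    have := tt_sq b
    rw [k, hb, mul_assoc, ← mul_assoc d, a2, neg_mul, mul_assoc, dd, mul_smul_comm, mul_one, mul_neg,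
      mul_smul_comm, tt_sq] at this
    simp [δ0, qa] at this
  obtain ⟨P, hP⟩ : ∃ P, P = Submodule.span F {a, b} := ⟨_, rfl⟩
  have pP : ∀ w, w ∈ perp 𝐁 P ↔ 𝐁 a w = 0 ∧ 𝐁 b w = 0 := fun w => by simp [hP, mem_perp_span]
  have mU : ∀ w ∈ perp 𝐁 P, tt F w * d = d * tt F w := fun w hw => by
    obtain ⟨x, y⟩ := (pP w).1 hw
    refine smul_right_injective _ qa ?_
    simp only [← mul_smul_comm, ← smul_mul_assoc _ d, ← ab]
    rw [← mul_assoc, tt_mul w a, mul_assoc (tt F a), tt_mul b w, h.refl x, y]; simp [mul_assoc]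
  have mP : ∀ w, w ∈ P ↔ tt F w * d = -(d * tt F w) := fun w => ⟨fun hw => by
      obtain ⟨x, y, rfl⟩ := Submodule.mem_span_pair.1 (hP ▸ hw)
      simp [add_mul, mul_add, a1, b1, add_comm], fun hw => by
      have k := mU (w - (𝐁 a w / (2 * 𝐐 a)) • a - (𝐁 b w / (2 * 𝐐 b)) • b) ((pP _).2
        ⟨by simp [ab0, hQ.diag', t2, qa], by simp [h.refl ab0, hQ.diag', t2, qb]⟩)
      have k' : tt F (w - (𝐁 a w / (2 * 𝐐 a)) • a - (𝐁 b w / (2 * 𝐐 b)) • b) * d =
          -(d * tt F (w - (𝐁 a w / (2 * 𝐐 a)) • a - (𝐁 b w / (2 * 𝐐 b)) • b)) := by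
        simp [sub_mul, mul_sub, a1, b1, hw]; abel
      rw [k, eq_neg_iff_add_eq_zero, ← two_smul F, smul_eq_zero] at k'
      have k2 := congrArg (d * ·) (k'.resolve_left t2)
      simp only [dd', mul_zero, smul_eq_zero, δ0, false_or] at k2
      have k3 := tt_inj (k2.trans (map_zero _).symm)
      exact hP ▸ Submodule.mem_span_pair.2 ⟨_, _, by rw [sub_sub, sub_eq_zero] at k3; exact k3.symm⟩⟩
  have aP : a ∈ P := (mP a).2 a1
  have bP : b ∈ P := (mP b).2 b1
  have nd : NondegOn 𝐁 P := fun w hw k => by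
    obtain ⟨x, y, rfl⟩ := Submodule.mem_span_pair.1 (hP ▸ hw)
    have k1 := k a aP
    have k2 := k b bP
    simp [ab0, h.refl ab0, hQ.diag', t2, qa, qb] at k1 k2
    simp [k1, k2]
  have d2 : finrank F P = 2 := by
    have := finrank_span_eq_card (LinearIndependent.pair_iff.2 fun x y k => by
      have k1 := congrArg (𝐁 a) k
      have k2 := congrArg (𝐁 b) k
      simp [ab0, h.refl ab0, hQ.diag', t2, qa, qb] at k1 k2
      exact ⟨k1, k2⟩ : LinearIndependent F ![a, b])
    rwa [Matrix.range_cons_cons_empty, Fintype.card_fin, ← hP] at this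
  refine bridge hodd h (S := stabS F (P : Set 𝐖)) (fun g hg σ hσ => (hH g hg).trans ⟨?_, fun k => ?_⟩)
    (h.not_om_le_stabS (by simp) (by rintro rfl; simp at d2) (by rintro rfl; simp at d2))
    (mem_stabS_of_le fun v hv => neg_mem hv) fun N hN hO re σ => plane5 h t2 (by simp) h4 nd d2 hN hO
      fun b hb qb => re b qb (mem_stabS_of_le fun v hv => by rwa [rf_fix h _ _ (h.refl (hb v hv))])
  · rintro ⟨ε, e, k⟩
    have k' : d * g.1 = ε • (g.1 * d) := by rw [k, smul_smul, e, one_smul]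
    refine mem_stabS_of_le fun w hw => (mP _).2 (g.mul_left_inj.1 ?_)
    rw [mul_assoc, k', mul_smul_comm, ← mul_assoc, hσ, mul_assoc, (mP w).1 hw, neg_mul, mul_assoc, hσ,
      ← mul_assoc d, k']
    simp [mul_assoc]
  · have k' := h.stab_perp (lift_isom ⊤ ⟨g, trivial, 1, by simp, by simpa⟩) k
    have hσ' : ∀ w, tt F (σ w) = g.1 * tt F w * (g⁻¹).1 := fun w => by rw [← hσ]; simp
    have cm : ∀ w (ε : F), ε * ε = 1 → tt F w * d = ε • (d * tt F w) →
        tt F (σ w) * d = ε • (d * tt F (σ w)) → tt F (σ w) * (d * (g.1 * d * (g⁻¹).1)) =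
          d * (g.1 * d * (g⁻¹).1) * tt F (σ w) := fun w ε e a b => by
      rw [← mul_assoc, b, smul_mul_assoc, mul_assoc d, ← mul_assoc (tt F _), ← mul_assoc (tt F _), hσ,
        mul_assoc g.1, a, hσ']
      simp only [mul_smul_comm, smul_mul_assoc, smul_smul, e, one_smul, mul_assoc, Units.inv_mul_cancel_left]
    obtain ⟨c, hc⟩ := cent (y := d * (g.1 * d * (g⁻¹).1)) (mul_one 1) fun w => by
      obtain ⟨w, rfl⟩ := σ.surjective w
      obtain ⟨x, hx, y, hy, rfl⟩ := Submodule.mem_sup.mp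
        ((h.form.isCompl_perp h.sep nd).sup_eq_top ▸ Submodule.mem_top (x := w))
      rw [map_add, map_add, add_mul, mul_add, one_smul,
        cm x (-1) (by simp) (by simpa using (mP x).1 hx) (by simpa using (mP _).1 ((k x).1 hx)),
        cm y 1 (by simp) (by simpa using mU y hy) (by simpa using mU _ ((k' y).1 hy))]
    have k1 := congrArg (fun z => d * z * g.1) hc
    simp only [dd', mul_assoc, Units.inv_mul, mul_one, smul_mul_assoc, mul_smul_comm, one_mul] at k1
    have k2 : g.1 * d = (c / δ) • (d * g.1) := by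
      rw [div_eq_inv_mul, ← smul_smul, ← k1, smul_smul, inv_mul_cancel₀ δ0, one_smul]
    refine ⟨_, ?_, k2⟩
    have k3 : g.1 * d * d = ((c / δ) * (c / δ)) • (d * (d * g.1)) := by
      rw [k2, smul_mul_assoc, mul_assoc, k2, mul_smul_comm, smul_smul]
    rw [mul_assoc, dd, dd', mul_smul_comm, mul_one, smul_smul, ← sub_eq_zero, ← sub_smul, smul_eq_zero] at k3
    exact mul_right_cancel₀ δ0 (by linear_combination -k3.resolve_right g.ne_zero)

theorem sp4_pair (h4 : 4 ≤ Fintype.card F) (D : Fin 2 → Submodule F (𝐈 → F)) (hD : IsMDecomposition 2 D)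
    (hts : ∀ i, IsTotallySingularFor (sympForm 2 F) (D i)) :
    IsMaximalIn (spGL 2 F) (decompositionStabilizer D ⊓ spGL 2 F) := by
  have t2 := two_ne_zero_of_odd_card hodd
  have hc := isCompl_of_two hD.indep hD.iSup_eq_top
  have dec : ∀ v, ∃ a ∈ D 0, ∃ b ∈ D 1, a + b = v := fun v =>
    Submodule.mem_sup.mp (hc.sup_eq_top ▸ Submodule.mem_top (x := v))
  obtain ⟨d, hd⟩ : ∃ d : Matrix 𝐈 𝐈 F, ∀ a ∈ D 0, ∀ b ∈ D 1, d *ᵥ (a + b) = a - b :=
    ⟨LinearMap.toMatrix' ((2 : F) • (D 0).projection _ hc - LinearMap.id), fun a ha b hb => by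
      rw [LinearMap.toMatrix'_mulVec]
      simp only [LinearMap.sub_apply, LinearMap.smul_apply, map_add, LinearMap.id_apply,
        Submodule.projection_apply_of_mem_left hc ha, Submodule.projection_apply_of_mem_right hc hb]
      module⟩
  have hd' : ∀ a ∈ D 0, ∀ b ∈ D 1, d *ᵥ (a - b) = a + b := fun a ha b hb => by
    simpa [sub_eq_add_neg] using hd a ha (-b) (neg_mem hb)
  have ex : ∀ X Y : Matrix 𝐈 𝐈 F, (∀ a ∈ D 0, ∀ b ∈ D 1, X *ᵥ (a + b) = Y *ᵥ (a + b)) → X = Y :=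
    fun X Y k => ext_of_mulVec_single fun i => by
      obtain ⟨a, ha, b, hb, e⟩ := dec (Pi.single i 1)
      rw [← e, k a ha b hb]
  have m0 : ∀ v, d *ᵥ v = v → v ∈ D 0 := fun v k => by
    obtain ⟨a, ha, b, hb, rfl⟩ := dec v
    rw [hd a ha b hb, sub_eq_add_neg, add_right_inj, neg_eq_iff_add_eq_zero, ← two_smul F] at k
    simpa [(smul_eq_zero.mp k).resolve_left t2]
  have m1 : ∀ v, d *ᵥ v = -v → v ∈ D 1 := fun v k => by
    obtain ⟨a, ha, b, hb, rfl⟩ := dec v
    rw [hd a ha b hb, neg_add, sub_eq_add_neg, add_left_inj, eq_neg_iff_add_eq_zero, ← two_smul F] at k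
    simpa [(smul_eq_zero.mp k).resolve_left t2]
  refine max_skew hodd h4 (d := d) ((adj_of_form (k' := -d) fun u v => ?_).trans (mul_neg _ _)) (δ := 1)
    (ex _ _ fun a ha b hb => by rw [← mulVec_mulVec, hd a ha b hb, hd' a ha b hb]; simp) one_ne_zero
    fun g hg => ?_
  · obtain ⟨a, ha, b, hb, rfl⟩ := dec u
    obtain ⟨a', ha', b', hb', rfl⟩ := dec v
    have k1 := hts 0 a ha a' ha'
    have k2 := hts 1 b hb b' hb'
    rw [neg_mulVec, hd a ha b hb, hd a' ha' b' hb']
    simp only [sympForm_eq_spBilin, map_add, map_sub, map_neg, LinearMap.add_apply, LinearMap.sub_apply] at *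
    linear_combination 2 * k1 - 2 * k2
  rw [mem_decompositionStabilizer_iff, mem_dstab_two]
  constructor
  · rintro (⟨k0, k1⟩ | ⟨k0, k1⟩)
    · refine ⟨1, by simp, ex _ _ fun a ha b hb => ?_⟩
      rw [one_smul, ← mulVec_mulVec, ← mulVec_mulVec, hd a ha b hb, mulVec_add,
        hd (g.1 *ᵥ a) (k0.le ⟨a, ha, rfl⟩) (g.1 *ᵥ b) (k1.le ⟨b, hb, rfl⟩), mulVec_sub]
    · refine ⟨-1, by simp, ex _ _ fun a ha b hb => ?_⟩
      rw [smul_mulVec, ← mulVec_mulVec, ← mulVec_mulVec, hd a ha b hb, mulVec_add, add_comm,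
        hd (g.1 *ᵥ b) (k1.le ⟨b, hb, rfl⟩) (g.1 *ᵥ a) (k0.le ⟨a, ha, rfl⟩), mulVec_sub]
      simp
  · rintro ⟨ε, e, k⟩
    have k0 : ∀ a ∈ D 0, d *ᵥ (g.1 *ᵥ a) = ε • g.1 *ᵥ a := fun a ha => by
      have := congrArg (fun z => ε • z *ᵥ (a + 0)) k
      simp only [smul_mulVec, smul_smul, e, ← mulVec_mulVec, hd a ha 0 (zero_mem _)] at this
      simpa using this.symm
    have k1 : ∀ a ∈ D 1, d *ᵥ (g.1 *ᵥ a) = -ε • g.1 *ᵥ a := fun a ha => by
      have := congrArg (fun z => ε • z *ᵥ (0 + a)) k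
      simp only [smul_mulVec, smul_smul, e, ← mulVec_mulVec, hd 0 (zero_mem _) a ha] at this
      simpa [mulVec_neg] using this.symm
    have f := hD.finrank_eq
    rcases mul_self_eq_one_iff.mp e with rfl | rfl
    · exact Or.inl ⟨map_eq_of_le fun a ha => m0 _ (by simpa using k0 a ha),
        map_eq_of_le fun a ha => m1 _ (by simpa using k1 a ha)⟩
    · exact Or.inr ⟨map_eq_of_le' (by rw [f, f]) (by
          rintro _ ⟨a, ha, rfl⟩; exact m1 _ (by simpa using k0 a ha)),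
        map_eq_of_le' (by rw [f, f]) (by rintro _ ⟨a, ha, rfl⟩; exact m0 _ (by simpa using k1 a ha))⟩

theorem sp4_gu (h4 : 4 ≤ Fintype.card F) (K : Subalgebra F (Matrix 𝐈 𝐈 F)) (hK : IsFieldSubalgebra 2 K)
    (hac : IsAdjointClosedFor (sympForm 2 F) K) (hns : ¬ IsSelfAdjointFor (sympForm 2 F) K) :
    IsMaximalIn (spGL 2 F) (subalgebraNormalizer K ⊓ spGL 2 F) := by
  have t2 := two_ne_zero_of_odd_card hodd
  have t4 : (4 : F) ≠ 0 := by rw [show (4 : F) = 2 * 2 by ring]; exact mul_ne_zero t2 t2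
  obtain ⟨d, dK, d0, hd⟩ : ∃ d ∈ K, d ≠ 0 ∧ dᵀ * 𝐉 = -(𝐉 * d) := by
    simp only [IsSelfAdjointFor, not_forall] at hns
    obtain ⟨k, hk, u, v, huv⟩ := hns
    obtain ⟨k', hk', e⟩ := hac k hk
    have e1 := adj_of_form e
    have e2 := congrArg transpose e1
    simp only [transpose_mul, transpose_transpose, J_transpose, neg_mul, mul_neg, neg_inj] at e2
    refine ⟨k - k', sub_mem hk hk', fun c => huv (by rw [e, sub_eq_zero.mp c]), ?_⟩
    rw [transpose_sub, sub_mul, e1, ← e2, mul_sub, neg_sub]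
  have tr := trace_skew t2 hd
  have mK : ∀ x, x ∈ K ↔ ∃ α β : F, α • 1 + β • d = x := fun x => by
    rw [← Submodule.mem_span_pair, ← Subalgebra.mem_toSubmodule]
    refine (SetLike.ext_iff.1 (Submodule.eq_of_le_of_finrank_eq (by
      simp [Submodule.span_le, Set.insert_subset_iff, dK]) ?_) x).symm
    have := finrank_span_eq_card (LinearIndependent.pair_iff.2 fun x y k => by
      have k1 := congrArg trace k
      simp [tr, t4] at k1
      exact ⟨k1, by simpa [k1, d0] using k⟩ : LinearIndependent F ![(1 : Matrix 𝐈 𝐈 F), d])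
    rw [Matrix.range_cons_cons_empty, Fintype.card_fin] at this
    rw [this]; exact hK.finrank_eq.symm
  obtain ⟨δ, β, dd⟩ := (mK _).1 (mul_mem dK dK)
  obtain rfl : β = 0 := by
    have k : (d * d)ᵀ * 𝐉 = 𝐉 * (d * d) := by
      rw [transpose_mul, mul_assoc, hd, mul_neg, ← mul_assoc, hd]; simp [mul_assoc]
    rw [← dd, transpose_add, add_mul, transpose_smul, transpose_smul β, smul_mul_assoc β, hd] at k
    simp only [transpose_one, smul_mul_assoc, one_mul, mul_add, mul_smul_comm, mul_one, add_right_inj,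
      smul_neg, neg_eq_iff_add_eq_zero, ← two_smul F, smul_eq_zero, t2, false_or] at k
    exact k.resolve_right fun c => d0 (J_cancel (by simpa using c))
  rw [zero_smul, add_zero] at dd
  have δ0 : δ ≠ 0 := by
    rintro rfl
    obtain ⟨y, -, hy⟩ := hK.2 d dK d0
    exact d0 (by rw [← mul_one d, ← hy, ← mul_assoc, ← dd]; simp)
  refine max_skew hodd h4 hd dd.symm δ0 fun g _ => ⟨fun k => ?_, ?_⟩
  · obtain ⟨α, ε, e⟩ := (mK _).1 ((k d).1 dK)
    have k1 := congrArg trace e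
    rw [trace_mul_cycle] at k1
    simp [tr, t4] at k1
    rw [k1, zero_smul, zero_add] at e
    refine ⟨ε, ?_, by rw [← smul_mul_assoc, e]; simp⟩
    have := congrArg₂ (· * ·) e e
    simp only [smul_mul_assoc, mul_smul_comm, smul_smul, mul_assoc, Units.inv_mul_cancel_left,
      ← mul_assoc d d, ← dd, one_mul, Units.mul_inv] at this
    rw [← sub_eq_zero, ← sub_smul, smul_eq_zero] at this
    exact mul_right_cancel₀ δ0 (by linear_combination this.resolve_right one_ne_zero)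
  · rintro ⟨ε, e, k⟩ x
    have k1 : g.1 * d * (g⁻¹).1 = ε • d := by rw [k]; simp
    have k2 : (g⁻¹).1 * d * g.1 = ε • d := by
      rw [mul_assoc, ← one_smul F (d * _), ← e, mul_smul, ← k]; simp
    refine ⟨fun hx => ?_, fun hx => ?_⟩
    · obtain ⟨α, β, rfl⟩ := (mK _).1 hx
      exact (mK _).2 ⟨α, β * ε, by
        simp only [mul_add, add_mul, mul_smul_comm, smul_mul_assoc, k1, smul_smul, mul_one, Units.mul_inv]⟩
    · obtain ⟨α, β, e'⟩ := (mK _).1 hx
      have := congrArg (fun z => (g⁻¹).1 * z * g.1) e'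
      simp only [mul_add, add_mul, mul_smul_comm, smul_mul_assoc, k2] at this
      exact (mK _).2 ⟨α, β * ε, by simpa [smul_smul, mul_assoc] using this⟩

end Cfsg.Agent.H26.S4
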