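import Cfsg.Agent.H26.SQ5

/-! Minimal index of the symplectic groups, VI: consequences of small multiplicities. -/

set_option autoImplicit false
set_option linter.unusedSectionVars false

namespace Cfsg.Agent.H26.MI.SQ

open Finset Matrix Cfsg.Agent.H10 Module MulAction
open scoped Classical

variable {l : Type*} [Fintype l] [DecidableEq l] {F : Type*} [Field F] [Fintype F]

local notation "𝔅" => spBilin l F
local notation "𝕍" => (l ⊕ l → F)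
local notation "𝔾" => symplecticGroup l F

variable {A : Type*} [MulAction (symplecticGroup l F) A] [Fintype A]

variable (A) in
/-- the number of `Q_e`-orbits over `y` containing `v`. -/
noncomputable def bb (e : 𝕍) (y : F) (v : 𝕍) : ℕ := (tw A e).mu (pw e) (Oy A e y) v

theorem cv_of_orb {e : 𝕍} {g : 𝔾} {ω : A} (h : mk e (g⁻¹ • ω) ∈ (tw A e).orb (mk e ω)) :
    Cv (stabilizer 𝔾 ω) e g := by
  obtain ⟨w, hw⟩ := (tw A e).mem_orb.1 h
  obtain ⟨c, hc⟩ := mk_eq.1 ((tw_mk w ω).symm.trans hw)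
  refine ⟨w, c, w.2, ?_⟩
  rw [← mul_smul, T_E w.2, add_zero, eq_inv_smul_iff, ← mul_smul] at hc
  exact hc

theorem T_pow (x : 𝕍) (c : F) (n : ℕ) : stv x c ^ n = stv x (n * c) := by
  induction n with
  | zero => simp [stv_zero]
  | succ n ih => rw [pow_succ, ih, ← stv_add]; congr 1; push_cast; ring

theorem orb_T {p : ℕ} (hp : p.Prime) (hp0 : (p : F) = 0) {e v x : 𝕍} {y : F} {ω : A}
    (hy : Yz (stabilizer 𝔾 ω) e y) (hv : Yw (stabilizer 𝔾 ω) e v) (hb : bb A e y v < p)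
    (hx : 𝔅 x e = 0) (hxv : 𝔅 x v = 0) (c : F) : mk e (stv x c • ω) ∈ (tw A e).orb (mk e ω) :=
  (cjw ⟨stv x c, T_fix (brefl hx) c⟩).orb_fix (inv_Oy e y _) (T_fix (brefl hxv) c) hp (k := 1)
    (by
      rw [← map_pow, pow_one, ← map_one (rho A e)]
      exact congrArg _ (Subtype.ext (by simp [T_pow, hp0, stv_zero]))) hb (mem_Oy.2 hy)
    (mem_Yw.2 hv)

theorem cv_T {p : ℕ} (hp : p.Prime) (hp0 : (p : F) = 0) {e v x : 𝕍} {y : F} {ω : A}
    (hy : Yz (stabilizer 𝔾 ω) e y) (hv : Yw (stabilizer 𝔾 ω) e v) (hb : bb A e y v < p)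
    (hx : 𝔅 x e = 0) (hxv : 𝔅 x v = 0) (c : F) : Cv (stabilizer 𝔾 ω) e (stv x c) :=
  cv_of_orb (by rw [stv_inv]; exact orb_T hp hp0 hy hv hb hx hxv _)

theorem yw_of_orb {e v : 𝕍} {ω ω' : A} (h : mk e ω' ∈ (tw A e).orb (mk e ω)) :
    Yw (stabilizer 𝔾 ω') e v ↔ Yw (stabilizer 𝔾 ω) e v := by
  rw [← mem_Yw, ← mem_Yw, (tw A e).Y_eq _ h]

theorem yz_of_orb {e : 𝕍} {y : F} {ω ω' : A} (h : mk e ω' ∈ (tw A e).orb (mk e ω))
    (hy : Yz (stabilizer 𝔾 ω) e y) : Yz (stabilizer 𝔾 ω') e y := by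
  obtain ⟨d, hd⟩ := (tw A e).mem_orb.1 h
  rw [← mem_Oy, ← hd]
  exact inv_Oy e y _ _ (mem_Oy.2 hy)

theorem orb_of_le {e v : 𝕍} {y : F} (hb : bb A e y v ≤ 1) {ω ω' : A}
    (hy : Yz (stabilizer 𝔾 ω) e y) (hy' : Yz (stabilizer 𝔾 ω') e y)
    (hv : Yw (stabilizer 𝔾 ω) e v) (hv' : Yw (stabilizer 𝔾 ω') e v) :
    mk e ω' ∈ (tw A e).orb (mk e ω) := by
  rw [(tw A e).orb_eq_of_mu (pw e) hb (mem_Oy.2 hy) (mem_Oy.2 hy') (mem_Yw.2 hv) (mem_Yw.2 hv')]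
  exact (tw A e).self_mem_orb _

theorem yw_fix {g : 𝔾} {ω : A} {e v : 𝕍} (ge : ap g e = e) (h : Yw (stabilizer 𝔾 ω) e v) :
    Yw (stabilizer 𝔾 (g • ω)) e (ap g v) := by
  have := yw_act (g := g) h
  rwa [ge] at this

theorem yw_perp {p : ℕ} (hp : p.Prime) (hp0 : (p : F) = 0) {e v v' : 𝕍} {y : F} {ω : A}
    (hy : Yz (stabilizer 𝔾 ω) e y) (hv : Yw (stabilizer 𝔾 ω) e v) (hb : bb A e y v < p)
    (hv' : Yw (stabilizer 𝔾 ω) e v') (hvv : ∀ a b : F, v' ≠ a • v + b • e) {u : 𝕍}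
    (hu : 𝔅 u e = 0) (huv : 𝔅 u v = 0) : Yw (stabilizer 𝔾 ω) e u := by
  have key : ∀ u, 𝔅 u e = 0 → 𝔅 u v = 0 → 𝔅 u v' ≠ 0 → Yw (stabilizer 𝔾 ω) e u :=
    fun u hu huv h => by
      have h' : 𝔅 v' u ≠ 0 := fun h0 => h (brefl h0)
      have h1 := (yw_of_orb (orb_T hp hp0 hy hv hb hu huv (𝔅 v' u)⁻¹)).1
        (yw_fix (T_fix (brefl hu) _) hv')
      simpa [T_app, inv_mul_cancel₀ h'] using h1.sub hv'
  by_cases h : 𝔅 u v' = 0
  · obtain ⟨z, z1, z2, z3⟩ := ex_perp2 hvv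
    simpa using (key (u + z) (by simp [hu, z3]) (by simp [huv, z2]) (by simp [h, z1])).sub
      (key z z3 z2 (by simp [z1]))
  · exact key u hu huv h

theorem tri {p : ℕ} (hp : p.Prime) (hp0 : (p : F) = 0) {e : 𝕍} {y : F} {ω : A}
    (hy : Yz (stabilizer 𝔾 ω) e y)
    (hb : ∀ v, 𝔅 v e = 0 → (∀ a : F, v ≠ a • e) → bb A e y v < p) {v : 𝕍}
    (hv : Yw (stabilizer 𝔾 ω) e v) (hve : ∀ a : F, v ≠ a • e) : Rg (stabilizer 𝔾 ω) e ∨
      ∀ v', Yw (stabilizer 𝔾 ω) e v' → ∃ a b : F, v' = a • v + b • e := by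
  by_contra hc
  push Not at hc
  obtain ⟨hr, v', hv', hvv⟩ := hc
  have hv'e : ∀ a : F, v' ≠ a • e := fun a h => hvv 0 a (by rw [h, zero_smul, zero_add])
  refine hr (rg_of_yw fun z hz => ?_)
  obtain ⟨u, u1, u2, u3⟩ := ex_two hve hvv (𝔅 z v) 0
  simpa using (yw_perp hp hp0 hy hv (hb v hv.perp hve) hv' hvv (u := z - u) (by simp [hz, u1])
    (by simp [u2])).add (yw_perp hp hp0 hy hv' (hb v' hv'.perp hv'e) hv (indep_swap hve hvv) u1 u3)

theorem rp_of {p : ℕ} (hp : p.Prime) (hp0 : (p : F) = 0) {e : 𝕍} {y : F} (hy0 : y ≠ 0) {ω : A}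
    (hy : Yz (stabilizer 𝔾 ω) e y)
    (hb : ∀ v, 𝔅 v e = 0 → (∀ a : F, v ≠ a • e) → bb A e y v < p) (hr : Rg (stabilizer 𝔾 ω) e) :
    RP (stabilizer 𝔾 ω) e := by
  refine ⟨hy.not_fl hy0, hr, fun x c hx => ?_⟩
  by_cases h : ∃ a : F, x = a • e
  · obtain ⟨a, rfl⟩ := h
    exact ⟨0, -(a ^ 2 * c), by simp, by
      rw [E_zero, stv_smul, ← stv_add, add_neg_cancel, stv_zero]; exact Subgroup.one_mem _⟩
  push Not at h
  exact cv_T hp hp0 hy (hr.yw hx) (hb x hx h) hx (bs x) c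

theorem tor {e v : 𝕍} (he : e ≠ 0) (hve : ∀ a : F, v ≠ a • e) {y : F} {ω : A}
    (hy : Yz (stabilizer 𝔾 ω) e y)
    (hb : ∀ v, 𝔅 v e = 0 → (∀ a : F, v ≠ a • e) → bb A e y v ≤ 1)
    (hv : ∀ a : F, Yw (stabilizer 𝔾 ω) e (a • v)) {a : F} (ha : a ≠ 0) :
    ∃ k ∈ stabilizer 𝔾 ω, ap k e = e ∧ ∃ β : F, ap k v = a • v + β • e := by
  have h0 : 𝔅 v e = 0 := by simpa using (hv 1).perp
  obtain ⟨g, ge, gv⟩ := trans2 he hve he (v' := a • v) (fun c h => hve (a⁻¹ * c) (by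
    rw [mul_smul, ← h, smul_smul, inv_mul_cancel₀ ha, one_smul])) (by simp [h0])
  have h1 : Yw (stabilizer 𝔾 (g⁻¹ • ω)) e v := by
    have := yw_fix (inv_fix ge) (hv a)
    rwa [← gv, inv_ap] at this
  obtain ⟨w, d, hw, h⟩ := cv_of_orb (orb_of_le (hb v h0 hve) hy ((yz_fix (inv_fix ge)).2 hy)
    (by simpa using hv 1) h1)
  exact ⟨_, h, by rw [ap_mul, E_fix hw, ge], 𝔅 v w, by
    rw [ap_mul, E_perp hw d h0, map_add, map_smul, ge, gv]⟩

theorem card_pair (e v : 𝕍) : Nat.card (Submodule.span F {e, v}) ≤ Fintype.card F ^ 2 := by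
  rw [card_eq_pow (F := F), Nat.card_eq_fintype_card]
  exact Nat.pow_le_pow_right Fintype.card_pos (finrank_span_pair_le e v)

theorem Y_le {e v : 𝕍} {ω : A}
    (h : ∀ v', Yw (stabilizer 𝔾 ω) e v' → ∃ a b : F, v' = a • v + b • e) :
    (tw A e).Y (pw e) (mk e ω) ≤ (Submodule.span F {e, v}).toAddSubgroup := fun u hu => by
  obtain ⟨a, b, rfl⟩ := h u (mem_Yw.1 hu)
  exact Submodule.mem_span_pair.2 ⟨b, a, add_comm _ _⟩

theorem orb_le {e v : 𝕍} (he : e ≠ 0) {ω : A}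
    (h : ∀ v', Yw (stabilizer 𝔾 ω) e v' → ∃ a b : F, v' = a • v + b • e) :
    ((tw A e).orb (mk e ω)).card ≤ Fintype.card F := by
  have h1 := (AddSubgroup.card_le_of_le (Y_le h)).trans (card_pair e v)
  rw [← card_orbw he, pow_two] at h1
  exact Nat.le_of_mul_le_mul_right h1 Fintype.card_pos

theorem orb_le' {e v : 𝕍} (he : e ≠ 0) {ω : A}
    (h : ∀ v', Yw (stabilizer 𝔾 ω) e v' → ∃ a b : F, v' = a • v + b • e) {a : F}
    (ha : ¬ Yw (stabilizer 𝔾 ω) e (a • v)) :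
    2 * ((tw A e).orb (mk e ω)).card ≤ Fintype.card F := by
  obtain ⟨k, hk⟩ := AddSubgroup.card_dvd_of_le (Y_le h)
  have h1 : k ≠ 1 := by
    rintro rfl
    refine ha (mem_Yw.1 ?_)
    rw [AddSubgroup.eq_of_le_of_card_ge (Y_le h) (by rw [hk, mul_one])]
    exact Submodule.mem_span_pair.2 ⟨0, a, by simp⟩
  have h2 : k ≠ 0 := by
    rintro rfl
    exact Nat.card_pos.ne' hk
  have h3 : Nat.card ((tw A e).Y (pw e) (mk e ω)) * 2 ≤ Fintype.card F ^ 2 :=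
    (Nat.mul_le_mul_left _ (by omega)).trans (hk.ge.trans (card_pair e v))
  rw [← card_orbw he, pow_two, mul_right_comm, mul_comm _ 2] at h3
  exact Nat.le_of_mul_le_mul_right h3 Fintype.card_pos

theorem PP_of_eq (h2 : (2 : F) = 0) {e x x' z : 𝕍} {ω : A} (hx : 𝔅 x e = 0) (hx' : 𝔅 x' e = 0)
    (hI : ∀ w, 𝔅 w e = 0 → In (stabilizer 𝔾 ω) e w) {c c' : F}
    (h : mk e (stv x (-c) • ω) = mk e (stv x' c' • ω)) (z1 : 𝔅 z x = 1) (z2 : 𝔅 z x' = 0)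
    (z3 : 𝔅 z e = 0) : PP (stabilizer 𝔾 ω) e x c := by
  obtain ⟨d, hd⟩ := mk_eq.1 h.symm
  refine PP_of h2 hx hI (k := stv x c * stv e d * stv x' c') ?_ ?_ z1 z3 (a := 0) ?_
  · rw [mem_stabilizer_iff, mul_smul, mul_smul, hd, ← stv_inv, smul_inv_smul]
  · rw [ap_mul, ap_mul, T_fix (brefl hx'), T_fix (bs e), T_fix (brefl hx)]
  · rw [ap_mul, ap_mul, T_fix z2, T_fix z3, T_app, z1]; simp

theorem card_S (h2 : (2 : F) = 0) {a : F} (ha : a ≠ 0) (ha1 : a ≠ 1) {e v : 𝕍} (he : e ≠ 0) {y : F}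
    (hy0 : y ≠ 0) {Q : ℕ}
    (hQ : Fintype.card F ^ (2 * Fintype.card l) = Q * Fintype.card F * Fintype.card F) {ω₁ ω : A}
    (hy₁ : Yz (stabilizer 𝔾 ω₁) e y) (hv : Yw (stabilizer 𝔾 ω₁) e v) (hve : ∀ a : F, v ≠ a • e)
    (hy : Yz (stabilizer 𝔾 ω) e y) (hI : ∀ w, 𝔅 w e = 0 → In (stabilizer 𝔾 ω) e w) :
    ∃ s, Q - 1 ≤ s * (Fintype.card F - 1) ∧ Q + s + 1 ≤ mz A e y := by
  set S := (Oy A e y).filter fun O => ∀ d, (tw A e).t d • O = O with hS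
  have fixS : ∀ (g : Ge e) (O : ZO A e), (∀ d, (tw A e).t d • O = O) →
      ∀ d, (tw A e).t d • rho A e g • O = rho A e g • O := fun g O h d => by
    obtain ⟨α, h1, h3, -⟩ := (cjw (A := A) g).ex
    obtain ⟨d, rfl⟩ := h1 d
    rw [← mul_smul, ← h3, mul_smul, h]
  have i1 : Inv e (Oy A e y \ S) := fun g O hO => by
    simp only [hS, mem_sdiff, mem_filter, not_and] at hO ⊢
    refine ⟨inv_Oy e y g O hO.1, fun _ h => hO.2 hO.1 ?_⟩
    have := fixS g⁻¹ _ h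
    rwa [← mul_smul, ← map_mul, inv_mul_cancel, map_one, one_smul] at this
  have m1 : mk e ω₁ ∈ Oy A e y \ S := by
    simp only [hS, mem_sdiff, mem_filter, not_and]
    refine ⟨mem_Oy.2 hy₁, fun _ h => ?_⟩
    obtain ⟨z, z1, z2⟩ := ex_perp1 hve
    refine one_ne_zero (psi_nd (F := F) fun c => ?_)
    have h0 : c • z ∈ Kp e := show 𝔅 (c • z) e = 0 by simp [z2]
    simpa [z1] using hv (c • z) ((tw_fix (w := ⟨c • z, h0⟩)).1 (h _))
  have c1 := cnt he hv.perp hve hQ i1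
  have c2 := (tw A e).one_le_mu (pw e) m1 (mem_Yw.2 hv)
  have c3 := (tw A e).mu_le (pw e) (Oy A e y \ S) v
  have c4 := Nat.mul_le_mul_left (Q - 1) c2
  have c5 : (Oy A e y \ S).card + S.card = (Oy A e y).card :=
    card_sdiff_add_card_eq_card (filter_subset _ _)
  have c6 := card_Oy (A := A) e y
  have m2 : mk e ω ∈ S := mem_filter.2 ⟨mem_Oy.2 hy, fun d => tw_fix.2 (hI d d.2)⟩
  have c7 := card_erase_add_one m2
  have hq : 0 < Fintype.card F := Fintype.card_pos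
  set L := univ.filter fun v : 𝕍 => ∃ a : F, v = a • e
  set K := univ.filter fun v : 𝕍 => 𝔅 v e = 0
  have h1 : L ⊆ K := fun u hu => by
    obtain ⟨a, rfl⟩ := (mem_filter.1 hu).2
    simp [K, bs]
  have hK : K.card = Q * Fintype.card F :=
    Nat.eq_of_mul_eq_mul_right hq ((card_level he 0).trans hQ)
  have := card_mul_le_card_mul (s := K \ L) (t := S.erase (mk e ω))
    (fun x O => ∃ c, ¬ PP (stabilizer 𝔾 ω) e x c ∧ O = mk e (stv x (-c) • ω)) (m := 1)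
    (n := Fintype.card F ^ 2 - Fintype.card F) (fun x hx => by
      simp only [K, L, mem_sdiff, mem_filter, mem_univ, true_and, not_exists] at hx
      obtain ⟨c, hc⟩ : ∃ c, ¬ PP (stabilizer 𝔾 ω) e x c := by
        by_contra hc
        push Not at hc
        exact hy.not_fl hy0 (fl_of_PP h2 hx.1 ha one_ne_zero ha1 (hc a) (hc 1))
      refine card_pos.2 ⟨mk e (stv x (-c) • ω), (mem_bipartiteAbove _).2 ⟨mem_erase.2 ⟨fun h => ?_,
        ?_⟩, c, hc, rfl⟩⟩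
      · obtain ⟨z, z1, z2⟩ := ex_perp1 hx.2
        exact hc (PP_of_eq h2 hx.1 (x' := 0) (c' := 0) (by simp) hI
          (by rwa [stv_zero, one_smul]) z1 (by simp) z2)
      · exact mem_filter.2 ⟨inv_Oy e y ⟨_, T_fix (brefl hx.1) _⟩ _ (mem_Oy.2 hy),
          fixS ⟨_, T_fix (brefl hx.1) _⟩ _ (mem_filter.1 m2).2⟩) (fun O _ => by
      rcases ((K \ L).bipartiteBelow (fun x O => ∃ c, ¬ PP (stabilizer 𝔾 ω) e x c ∧
        O = mk e (stv x (-c) • ω)) O).eq_empty_or_nonempty with h | ⟨x', h⟩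
      · rw [h]; simp
      obtain ⟨hx', c', -, e'⟩ := (mem_bipartiteBelow _).1 h
      have d1 : L ⊆ univ.filter fun u => u ∈ Submodule.span F {e, x'} := fun u hu => by
        obtain ⟨a, rfl⟩ := (mem_filter.1 hu).2
        exact mem_filter.2 ⟨mem_univ _, Submodule.mem_span_pair.2 ⟨a, 0, by simp⟩⟩
      refine le_trans (card_le_card (t := (univ.filter fun u => u ∈ Submodule.span F {e, x'}) \ L)
        fun x hx => ?_) ?_
      · obtain ⟨hx, c, hc, e''⟩ := (mem_bipartiteBelow _).1 hx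
        refine mem_sdiff.2 ⟨mem_filter.2 ⟨mem_univ _, ?_⟩, (mem_sdiff.1 hx).2⟩
        by_contra hn
        obtain ⟨z, z1, z2, z3⟩ := ex_perp2 (not_mem_pair hn)
        exact hc (PP_of_eq h2 (mem_filter.1 (mem_sdiff.1 hx).1).2
          (mem_filter.1 (mem_sdiff.1 hx').1).2 hI (e''.symm.trans e') z1 z3 z2)
      · rw [card_sdiff_of_subset d1, card_line' he, card_filter_mem]
        exact Nat.sub_le_sub_right (card_pair e x') _)
  rw [card_sdiff_of_subset h1, hK, card_line' he, mul_one, ← Nat.sub_one_mul, pow_two,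
    ← Nat.sub_one_mul, ← mul_assoc] at this
  have hQ0 : Q ≠ 0 := by
    rintro rfl
    simp [hq.ne'] at hQ
  exact ⟨_, Nat.le_of_mul_le_mul_right this hq, by omega⟩

theorem transfer (h2 : (2 : F) = 0) {e e' : 𝕍} (he : e ≠ 0) (he' : e' ≠ 0) {y y' : F} (hy : y ≠ 0)
    (hy' : y' ≠ 0) {ω : A} (h : Yz (stabilizer 𝔾 ω) e y) : ∃ ω' : A,
      Yz (stabilizer 𝔾 ω') e' y' ∧ (Rg (stabilizer 𝔾 ω) e → Rg (stabilizer 𝔾 ω') e') ∧
      ∀ v, Yw (stabilizer 𝔾 ω) e v → (∀ a : F, v ≠ a • e) →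
        ∃ v', Yw (stabilizer 𝔾 ω') e' v' ∧ ∀ a : F, v' ≠ a • e' := by
  haveI : CharP F 2 := (CharP.charP_iff_prime_eq_zero Nat.prime_two).2 h2
  obtain ⟨a, ha⟩ := FiniteField.isSquare_of_char_two (ringChar.eq F 2) (y' / y)
  have ha0 : a ≠ 0 := by
    rintro rfl
    exact div_ne_zero hy' hy (by simpa using ha)
  obtain ⟨g, rfl⟩ := trans1 (smul_ne_zero ha0 he) he'
  refine ⟨g • ω, ?_, fun hr => rg_of_yw fun v hv => ?_, fun v hv hve =>
    ⟨_, yw_act (yw_smul ha0 hv), fun c hc => hve c ?_⟩⟩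
  · rw [yz_act, show y' = a ^ 2 * y by rw [pow_two, ← ha]; field_simp]
    exact yz_smul ha0 h
  · have e1 : v = ap g (a • a⁻¹ • ap g⁻¹ v) := by
      rw [smul_smul, mul_inv_cancel₀ ha0, one_smul, ap_inv]
    rw [e1] at hv ⊢
    refine yw_act (yw_smul ha0 (hr.yw ?_))
    rw [ap_form] at hv
    simpa [ha0] using hv
  · rw [← map_smul, smul_comm] at hc
    exact smul_right_injective _ ha0 (ap_inj g hc)

end Cfsg.Agent.H26.MI.SQ
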