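import Cfsg.Agent.H26.SQ6

/-! Minimal index of the symplectic groups, VII: the bound. -/

set_option autoImplicit false
set_option linter.unusedSectionVars false

namespace Cfsg.Agent.H26.MI.SQ

open Finset Matrix Cfsg.Agent.H10 Module MulAction
open scoped Classical

variable {l : Type*} [Fintype l] [DecidableEq l] {F : Type*} [Field F] [Fintype F]

local notation "𝔅" => spBilin l F
local notation "𝕍" => (l ⊕ l → F)
local notation "𝔾" => symplecticGroup l F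

/-- a small action. -/
structure Sm (l F : Type*) [Fintype l] [DecidableEq l] [Field F] [Fintype F] (A : Type*)
    [MulAction (symplecticGroup l F) A] [Fintype A] (Q : ℕ) : Prop where
  hl : 2 ≤ Fintype.card l
  hq : 3 ≤ Fintype.card F
  hQ : Fintype.card F ^ (2 * Fintype.card l) = Q * Fintype.card F * Fintype.card F
  sm : Fintype.card A * (Fintype.card F - 1) + Fintype.card F ≤
    Q * Fintype.card F * Fintype.card F
  nf : ∀ ω : A, ∃ e, ¬ Fl (stabilizer (symplecticGroup l F) ω) e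

namespace Sm

variable {A : Type*} [MulAction (symplecticGroup l F) A] [Fintype A]
  [IsPretransitive (symplecticGroup l F) A] {Q : ℕ} (s : Sm l F A Q)
include s

theorem not_bound : ¬ Fintype.card F ^ (2 * Fintype.card l) - 1 ≤
    Fintype.card A * (Fintype.card F - 1) := by
  have h1 := s.sm
  have h2 := s.hq
  rw [s.hQ]
  omega

theorem Q_pos : 0 < Q := Nat.pos_of_ne_zero fun h => by
  have := s.hQ
  have h2 := s.hq
  rw [h] at this
  simp at this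

theorem Q_two (hl : Fintype.card l = 2) : Q = Fintype.card F ^ 2 := by
  have h := s.hQ
  have hq : 0 < Fintype.card F := Fintype.card_pos
  rw [hl, show 2 * 2 = 2 + 1 + 1 from rfl, pow_succ, pow_succ] at h
  exact (Nat.eq_of_mul_eq_mul_right hq (Nat.eq_of_mul_eq_mul_right hq h)).symm

theorem le_mz {e v : 𝕍} (he : e ≠ 0) (hv : 𝔅 v e = 0) (hve : ∀ a : F, v ≠ a • e) (y : F) :
    ((tw A e).orbs (Oy A e y)).card + (Q - 1) * bb A e y v ≤ mz A e y ∧
      bb A e y v ≤ ((tw A e).orbs (Oy A e y)).card :=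
  ⟨(cnt he hv hve s.hQ (inv_Oy e y)).trans (card_Oy e y), Hm.mu_le _ _ _ _⟩

theorem end_rg (ω : A) (h : ∀ e, ¬ Fl (stabilizer 𝔾 ω) e → Rg (stabilizer 𝔾 ω) e)
    (line : ∀ e x, ¬ Fl (stabilizer 𝔾 ω) e → 𝔅 x e = 0 → (∀ a : F, x ≠ a • e) →
      ∃ γ : F, Fl (stabilizer 𝔾 ω) (x + γ • e)) : False := by
  obtain ⟨e, he⟩ := s.nf ω
  obtain ⟨e, he, h1⟩ := eg_main s.hl (fun e he => Or.inl (h e he)) line he
  exact s.not_bound (hyp_bound _ he h1)

theorem end_lt (hl : Fintype.card l = 2) (ω : A)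
    (h : ∀ e, ¬ Fl (stabilizer 𝔾 ω) e → Rg (stabilizer 𝔾 ω) e ∨ LT (stabilizer 𝔾 ω) e) {e : 𝕍}
    (he : ¬ Fl (stabilizer 𝔾 ω) e) (h1 : LT (stabilizer 𝔾 ω) e) : False := by
  obtain ⟨v, -, v1, v2, -⟩ := h1
  exact s.not_bound (dim4_bound hl h he (fun h => v1 0 (by rw [h, zero_smul])) v2)

/-! ### odd characteristic -/

theorem b_odd {e v : 𝕍} (he : e ≠ 0) (hv : 𝔅 v e = 0) (hve : ∀ a : F, v ≠ a • e) {y : F}
    (hy : y ≠ 0) : bb A e y v ≤ 2 := by
  by_contra hc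
  obtain ⟨h1, h2⟩ := s.le_mz he hv hve y
  have h3 := mz_odd (A := A) he hy
  have h4 := s.sm
  have h5 := Nat.mul_le_mul_left (Q - 1) (not_le.1 hc)
  have h6 : 3 * Q ≤ mz A e y := by have := s.Q_pos; omega
  have h7 := (Nat.mul_le_mul_left (Fintype.card F + 1) h6).trans h3
  obtain ⟨k, hk⟩ := Nat.exists_eq_add_of_le s.hq
  rw [hk] at h4 h7
  rw [show 3 + k - 1 = k + 2 by omega] at h4
  nlinarith [Nat.mul_le_mul_right (k + 2) h7, Nat.zero_le (Q * k), Nat.zero_le (Q * k * k)]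

theorem odd_lt (h2 : (2 : F) ≠ 0) {p : ℕ} (hp : p.Prime) (hp0 : (p : F) = 0) (hp3 : 2 < p)
    (hm : 3 ≤ Fintype.card l ∨ ∃ a : F, a ≠ 0 ∧ a ^ 2 ≠ 1) {ω : A} {e : 𝕍}
    (he : ¬ Fl (stabilizer 𝔾 ω) e) (hr : ¬ Rg (stabilizer 𝔾 ω) e) :
    Fintype.card l = 2 ∧ LT (stabilizer 𝔾 ω) e := by
  obtain ⟨y, hy0, hy⟩ := exists_yz he
  have he0 := ne_of_not_fl he
  have hb : ∀ v, 𝔅 v e = 0 → (∀ a : F, v ≠ a • e) → bb A e y v < p := fun v hv hve =>
    (s.b_odd he0 hv hve hy0).trans_lt hp3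
  have nc : ∀ w w', (∀ c : F, In (stabilizer 𝔾 ω) e (c • w')) → In (stabilizer 𝔾 ω) e w →
      𝔅 w' w = 0 := fun w w' h h' => by
    by_contra hc
    refine he (fl_of_mul (mul_ne_zero h2 hc) fun c => ?_)
    have := h'.comm (h c)
    rwa [map_smul, LinearMap.smul_apply, smul_eq_mul, mul_left_comm] at this
  obtain ⟨v, hv, hve⟩ : ∃ v, Yw (stabilizer 𝔾 ω) e v ∧ ∀ a : F, v ≠ a • e := by
    by_contra hc
    push Not at hc
    have hI : ∀ w, 𝔅 w e = 0 → In (stabilizer 𝔾 ω) e w := fun w hw => in_of_yw hw fun v hv => by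
      obtain ⟨a, rfl⟩ := hc v hv
      simp [hw]
    obtain ⟨w, w1, w2⟩ := ex_not1 s.hl e
    obtain ⟨z, z1, z2⟩ := ex_perp1 w2
    exact one_ne_zero (z1.symm.trans (nc w z (fun c => hI _ (by simp [z2])) (hI w w1)))
  have ht := (tri hp hp0 hy hb hv hve).resolve_left hr
  have hI : ∀ w, 𝔅 w e = 0 → 𝔅 w v = 0 → In (stabilizer 𝔾 ω) e w := fun w hw hw' =>
    in_of_yw hw fun v hv => by
      obtain ⟨a, b, rfl⟩ := ht v hv
      simp [hw, hw']
  have hl : Fintype.card l = 2 := by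
    by_contra hc
    obtain ⟨x, x1, x2, x3⟩ := ex_not2 (by have := s.hl; omega) e v
    obtain ⟨z, z1, z2, z3⟩ := ex_perp2 x3
    exact one_ne_zero (z1.symm.trans (nc x z (fun c => hI _ (by simp [z3]) (by simp [z2]))
      (hI x x1 x2)))
  obtain ⟨a, ha, ha1⟩ := hm.resolve_left (by omega)
  have i1 : ∀ b : F, In (stabilizer 𝔾 ω) e (b • v) := fun b =>
    hI _ (by simp [hv.perp]) (by simp [bs])
  have i2 : ∀ w, In (stabilizer 𝔾 ω) e w → ∃ a b : F, w = a • v + b • e := fun w hw =>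
    mem_pair4 hl he0 hve hv.perp hw.1 (brefl (nc w v i1 hw))
  have i3 : ∀ c : F, Yw (stabilizer 𝔾 ω) e (c • v) := fun c w hw => by
    obtain ⟨a, b, rfl⟩ := i2 w hw
    simp [bs, brefl hv.perp]
  obtain ⟨r, r1, r2, -⟩ := small he0 hv.perp hve s.hQ (inv_Oy e y) (mem_Oy.2 hy) (mem_Yw.2 hv)
    (orb_le he0 ht)
  have hb1 : ∀ u, 𝔅 u e = 0 → (∀ a : F, u ≠ a • e) → bb A e y u ≤ 1 := fun u hu hue => by
    by_contra hc
    obtain ⟨h1, -⟩ := s.le_mz he0 hu hue y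
    have h3 := mz_odd (A := A) he0 hy0
    have h4 := s.sm
    have h5 := Nat.mul_le_mul_left (Q - 1) (not_le.1 hc)
    obtain ⟨k, hk⟩ := Nat.exists_eq_add_of_le s.hq
    rw [s.Q_two hl, hk] at h1 h4 h5 r2
    rw [hk] at h3
    rw [show 3 + k - 1 = k + 2 by omega] at h4
    rw [show (3 + k) ^ 2 - 1 = (k + 2) * (k + 4) by
      rw [Nat.sub_eq_iff_eq_add (Nat.one_le_pow _ _ (by omega))]; ring] at h1 h5 r2
    have h6 : k + 4 ≤ r := Nat.le_of_mul_le_mul_left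
      (show (k + 2) * (k + 4) ≤ (k + 2) * r by nlinarith) (by omega)
    have h7 : k + 4 + (k + 2) * (k + 4) * 2 ≤ mz A e y := by omega
    have h8 := (Nat.mul_le_mul_left (3 + k + 1) h7).trans h3
    nlinarith [Nat.mul_le_mul_right (k + 2) h8, Nat.zero_le (k * k * k)]
  obtain ⟨k, hk, ke, β, kv⟩ := tor he0 hve hy hb1 i3 ha
  exact ⟨hl, lt_of hv.perp hve i1 i2 (fun c => cv_odd h2 hl he hv.perp hve i1
    (cv_T hp hp0 hy hv (hb v hv.perp hve) hv.perp (bs v) c)) ha1 hk ke kv⟩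

theorem odd_false (h2 : (2 : F) ≠ 0) (hm : 3 ≤ Fintype.card l ∨ ∃ a : F, a ≠ 0 ∧ a ^ 2 ≠ 1)
    (ω : A) : False := by
  obtain ⟨p, hp, hp0, -⟩ := exists_char F
  have hp3 : 2 < p := lt_of_le_of_ne hp.two_le (by rintro rfl; exact h2 (by simpa using hp0))
  by_cases h : ∀ e, ¬ Fl (stabilizer 𝔾 ω) e → Rg (stabilizer 𝔾 ω) e
  · refine s.end_rg ω h fun e x he hx hxe => ?_
    obtain ⟨y, hy0, hy⟩ := exists_yz he
    exact line_odd h2 hm (rp_of hp hp0 hy0 hy (fun v hv hve =>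
      (s.b_odd (ne_of_not_fl he) hv hve hy0).trans_lt hp3) (h e he)) hx hxe
  push Not at h
  obtain ⟨e, he, hr⟩ := h
  obtain ⟨hl, h1⟩ := s.odd_lt h2 hp hp0 hp3 hm he hr
  exact s.end_lt hl ω (fun e he => or_iff_not_imp_left.2 fun hr =>
    (s.odd_lt h2 hp hp0 hp3 hm he hr).2) he h1

/-! ### characteristic two -/

theorem mz_ev (h2 : (2 : F) = 0) {e : 𝕍} (he : e ≠ 0) {y : F} (hy : y ≠ 0) :
    mz A e y * (Fintype.card F - 1) + 1 ≤ Q * Fintype.card F := by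
  have h1 := mz_even (A := A) h2 he hy
  have h3 := mz_le (A := A) e y
  have h4 := s.sm
  obtain ⟨k, hk⟩ := Nat.exists_eq_add_of_le s.hq
  rw [hk, show 3 + k - 1 = k + 2 by omega] at h1 h4 ⊢
  have h5 : (3 + k) * mz A e y ≤ Fintype.card A := by nlinarith
  refine Nat.le_of_mul_le_mul_right (c := 3 + k) ?_ (by omega)
  nlinarith [Nat.mul_le_mul_right (k + 2) h5]

theorem b_even (h2 : (2 : F) = 0) {e v : 𝕍} (he : e ≠ 0) (hv : 𝔅 v e = 0)
    (hve : ∀ a : F, v ≠ a • e) {y : F} (hy : y ≠ 0) : bb A e y v ≤ 1 := by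
  by_contra hc
  obtain ⟨h1, h3⟩ := s.le_mz he hv hve y
  have h4 := s.mz_ev h2 he hy
  have h5 := Nat.mul_le_mul_left (Q - 1) (not_le.1 hc)
  have h6 : 2 * Q ≤ mz A e y := by have := s.Q_pos; omega
  obtain ⟨k, hk⟩ := Nat.exists_eq_add_of_le s.hq
  rw [hk, show 3 + k - 1 = k + 2 by omega] at h4
  nlinarith [Nat.mul_le_mul_right (k + 2) h6, Nat.zero_le (Q * k)]

theorem has_v (h2 : (2 : F) = 0) {a : F} (ha : a ≠ 0) (ha1 : a ≠ 1) (ω : A) {e : 𝕍}
    (he : ¬ Fl (stabilizer 𝔾 ω) e) : ∃ v, Yw (stabilizer 𝔾 ω) e v ∧ ∀ a : F, v ≠ a • e := by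
  have hI : ∀ (ω : A) (e : 𝕍), ¬ (∃ v, Yw (stabilizer 𝔾 ω) e v ∧ ∀ a : F, v ≠ a • e) →
      ∀ w, 𝔅 w e = 0 → In (stabilizer 𝔾 ω) e w := fun ω e hc w hw => in_of_yw hw fun v hv => by
    push Not at hc
    obtain ⟨a, rfl⟩ := hc v hv
    simp [hw]
  by_contra hc
  refine he (stW_false h2 s.hl ha ha1 (fun e' he' => hI ω e' fun ⟨v, hv, hve⟩ => ?_) e)
  obtain ⟨y, hy0, hy⟩ := exists_yz he
  obtain ⟨y', hy0', hy'⟩ := exists_yz he'
  obtain ⟨ω₁, h1, -, h3⟩ := transfer h2 (ne_of_not_fl he') (ne_of_not_fl he) hy0' hy0 hy'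
  obtain ⟨v₁, hv₁, hve₁⟩ := h3 v hv hve
  obtain ⟨t, t1, t2⟩ := card_S h2 ha ha1 (ne_of_not_fl he) hy0 s.hQ h1 hv₁ hve₁ hy (hI ω e hc)
  have h4 := s.mz_ev h2 (ne_of_not_fl he) hy0
  obtain ⟨k, hk⟩ := Nat.exists_eq_add_of_le s.hq
  rw [hk, show 3 + k - 1 = k + 2 by omega] at h4 t1
  have h5 : Q ≤ t * (k + 2) + 1 := by omega
  nlinarith [Nat.mul_le_mul_right (k + 2) t2]

theorem even_line (h2 : (2 : F) = 0) {a : F} (ha : a ≠ 0) (ha1 : a ≠ 1)
    (hr : ∀ (ω : A) (e : 𝕍), ¬ Fl (stabilizer 𝔾 ω) e → ¬ Rg (stabilizer 𝔾 ω) e) {ω : A} {e : 𝕍}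
    {y : F} (hy0 : y ≠ 0) (hy : Yz (stabilizer 𝔾 ω) e y) : Fintype.card l = 2 ∧
      Fintype.card F ^ 2 + Fintype.card F ≤ mz A e y ∧ ∃ v, 𝔅 v e = 0 ∧ (∀ a : F, v ≠ a • e) ∧
      (∀ a : F, Yw (stabilizer 𝔾 ω) e (a • v)) ∧ ∀ b : F, In (stabilizer 𝔾 ω) e (b • v) := by
  have he := hy.not_fl hy0
  have he0 := ne_of_not_fl he
  have hp0 : ((2 : ℕ) : F) = 0 := by simpa using h2
  have hb : ∀ v, 𝔅 v e = 0 → (∀ a : F, v ≠ a • e) → bb A e y v < 2 := fun v hv hve =>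
    Nat.lt_succ_of_le (s.b_even h2 he0 hv hve hy0)
  obtain ⟨v, hv, hve⟩ := s.has_v h2 ha ha1 ω he
  have ht := (tri Nat.prime_two hp0 hy hb hv hve).resolve_left (hr ω e he)
  have hI : ∀ w, 𝔅 w e = 0 → 𝔅 w v = 0 → In (stabilizer 𝔾 ω) e w := fun w hw hw' =>
    in_of_yw hw fun v hv => by
      obtain ⟨a, b, rfl⟩ := ht v hv
      simp [hw, hw']
  have hl : Fintype.card l = 2 := by
    by_contra hc
    exact he (small_false h2 (by have := s.hl; omega) ha ha1 hI fun x c hx hxv =>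
      cv_T Nat.prime_two hp0 hy hv (hb v hv.perp hve) hx hxv c)
  obtain ⟨k, hk⟩ := Nat.exists_eq_add_of_le s.hq
  have e1 : Q - 1 = (k + 2) * (k + 4) := by
    rw [s.Q_two hl, hk, Nat.sub_eq_iff_eq_add (Nat.one_le_pow _ _ (by omega))]; ring
  refine ⟨hl, ?_, v, hv.perp, hve, fun c => ?_, fun b => hI _ (by simp [hv.perp]) (by simp [bs])⟩
  · obtain ⟨r, -, r2, r3⟩ := small he0 hv.perp hve s.hQ (inv_Oy e y) (mem_Oy.2 hy) (mem_Yw.2 hv)
      (orb_le he0 ht)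
    have h4 := card_Oy (A := A) e y
    rw [e1, hk] at r2
    rw [e1] at r3
    have h6 : k + 4 ≤ r := Nat.le_of_mul_le_mul_left
      (show (k + 2) * (k + 4) ≤ (k + 2) * r by nlinarith) (by omega)
    rw [hk]
    nlinarith
  · by_contra hc
    have h3 := orb_le' he0 ht hc
    obtain ⟨r, -, r2, r3⟩ := small he0 hv.perp hve s.hQ (inv_Oy e y) (mem_Oy.2 hy) (mem_Yw.2 hv)
      le_rfl
    have h4 := r3.trans (card_Oy (A := A) e y)
    have h5 := s.mz_ev h2 he0 hy0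
    rw [s.Q_two hl, hk, show 3 + k - 1 = k + 2 by omega] at h5
    rw [e1] at r2 h4
    rw [hk] at h3
    have h6 := Nat.mul_le_mul_right (k + 2) h4
    have h7 : r ≤ k + 5 := Nat.le_of_mul_le_mul_left
      (show (k + 2) * r ≤ (k + 2) * (k + 5) by nlinarith) (by omega)
    nlinarith [Nat.mul_le_mul_right r h3, Nat.mul_le_mul_right (k + 1) h7]

theorem even_false (h2 : (2 : F) = 0) {a : F} (ha : a ≠ 0) (ha2 : a ^ 2 ≠ 1) (ω : A) : False := by
  have ha1 : a ≠ 1 := fun h => ha2 (by rw [h, one_pow])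
  have hp0 : ((2 : ℕ) : F) = 0 := by simpa using h2
  by_cases hr : ∃ (ω : A) (e : 𝕍), ¬ Fl (stabilizer 𝔾 ω) e ∧ Rg (stabilizer 𝔾 ω) e
  · obtain ⟨ω₀, e₀, he₀, hr₀⟩ := hr
    obtain ⟨y₀, hy0, hy₀⟩ := exists_yz he₀
    have h : ∀ e, ¬ Fl (stabilizer 𝔾 ω) e → Rg (stabilizer 𝔾 ω) e := fun e he => by
      obtain ⟨y, hy1, hy⟩ := exists_yz he
      obtain ⟨ω₁, h1, h3, -⟩ := transfer h2 (ne_of_not_fl he₀) (ne_of_not_fl he) hy0 hy1 hy₀
      obtain ⟨v, hv, hve⟩ := s.has_v h2 ha ha1 ω he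
      exact rg_of_yw fun u hu => (yw_of_orb (orb_of_le (s.b_even h2 (ne_of_not_fl he) hv.perp hve hy1)
        h1 hy ((h3 hr₀).yw hv.perp) hv)).2 ((h3 hr₀).yw hu)
    refine s.end_rg ω h fun e x he hx hxe => ?_
    obtain ⟨y, hy0, hy⟩ := exists_yz he
    exact line_even h2 h (rp_of Nat.prime_two hp0 hy0 hy (fun v hv hve =>
      Nat.lt_succ_of_le (s.b_even h2 (ne_of_not_fl he) hv hve hy0)) (h e he)) hx hxe
  push Not at hr
  have key : ∀ e, ¬ Fl (stabilizer 𝔾 ω) e → Fintype.card l = 2 ∧ LT (stabilizer 𝔾 ω) e := by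
    intro e he
    have he0 := ne_of_not_fl he
    obtain ⟨y, hy0, hy⟩ := exists_yz he
    obtain ⟨hl, m1, v, hv, hve, i3, i1⟩ := s.even_line h2 ha ha1 hr hy0 hy
    have hv1 : Yw (stabilizer 𝔾 ω) e v := by simpa using i3 1
    have hb : ∀ v, 𝔅 v e = 0 → (∀ a : F, v ≠ a • e) → bb A e y v ≤ 1 := fun v hv hve =>
      s.b_even h2 he0 hv hve hy0
    have i2 : ∀ w, In (stabilizer 𝔾 ω) e w → ∃ a b : F, w = a • v + b • e := fun w hw =>
      mem_pair4 hl he0 hve hv hw.1 (psi_nd fun c => by simpa using i3 c w hw)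
    have hC : ∀ d, stv e d ∈ stabilizer 𝔾 ω → d = 0 := fun d hd => by
      by_contra hd0
      obtain ⟨y', hy'⟩ : ∃ y', psi F (y' * d) ≠ 1 := by
        by_contra hc
        push Not at hc
        exact hd0 (psi_nd hc)
      have n1 : ¬ Yz (stabilizer 𝔾 ω) e y' := fun h => hy' (by rw [mul_comm]; exact h d hd)
      have n2 : y' ≠ 0 := by rintro rfl; simp at hy'
      have n3 : y ≠ y' := by rintro rfl; exact n1 hy
      have n4 : ∀ ω' : A, Yz (stabilizer 𝔾 ω') e y → ¬ Yz (stabilizer 𝔾 ω') e y' :=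
        fun ω' h h' => by
          obtain ⟨v', hv', hve'⟩ := s.has_v h2 ha ha1 ω' (h.not_fl hy0)
          obtain ⟨g, ge, rfl⟩ := trans2 he0 hve he0 hve' (hv'.perp.trans hv.symm)
          exact n1 ((yz_fix ge).1 (yz_of_orb (orb_of_le (hb _ hv'.perp hve') h
            ((yz_fix ge).2 hy) hv' (yw_fix ge hv1)) h'))
      have n5 := (tz e).sum_mu_le (pz F) (Ω := (univ : Finset A)) {y, y'}
        fun ω' _ z hz z' hz' h h' => by
          simp only [mem_insert, mem_singleton] at hz hz'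
          rcases hz with rfl | rfl <;> rcases hz' with rfl | rfl
          · rfl
          · exact (n4 ω' (mem_Yz.1 h) (mem_Yz.1 h')).elim
          · exact (n4 ω' (mem_Yz.1 h') (mem_Yz.1 h)).elim
          · rfl
      rw [sum_pair n3, ← Hm.mu_zero _ (pz F)] at n5
      obtain ⟨ω₁, h1, -⟩ := transfer h2 he0 he0 hy0 n2 hy
      have m2 := (s.even_line h2 ha ha1 hr n2 h1).2.1
      have m3 := mz_even (A := A) h2 he0 hy0
      have m4 := s.sm
      change mz A e y + mz A e y' ≤ mz A e 0 at n5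
      obtain ⟨k, hk⟩ := Nat.exists_eq_add_of_le s.hq
      rw [s.Q_two hl] at m4
      rw [hk] at m1 m2 m3 m4
      rw [show 3 + k - 1 = k + 2 by omega] at m3 m4
      have m5 : (k + 4) * ((3 + k) ^ 2 + (3 + k)) ≤ Fintype.card A := by
        nlinarith [Nat.mul_le_mul_left (k + 2) m1]
      nlinarith [Nat.mul_le_mul_right (k + 2) m5, Nat.zero_le (k * k * k)]
    obtain ⟨k, hk, ke, β, kv⟩ := tor he0 hve hy hb i3 ha
    exact ⟨hl, lt_of hv hve i1 i2 (fun c => cv_even h2 hl he0 hC hv hve i1 ha1 hk ke kv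
      (cv_T Nat.prime_two hp0 hy hv1 (Nat.lt_succ_of_le (hb v hv hve)) hv (bs v) c)) ha2 hk ke kv⟩
  obtain ⟨e, he⟩ := s.nf ω
  exact s.end_lt (key e he).1 ω (fun e he => Or.inr (key e he).2) he (key e he).2

end Sm

theorem lower {m : ℕ} (hm : 2 ≤ m) (hq : 3 ≤ Fintype.card F) (hexc : ¬ (m = 2 ∧ Fintype.card F = 3))
    (H : Subgroup (symplecticGroup (Fin m) F)) (hH : H ≠ ⊤) :
    (Fintype.card F ^ (2 * m) - 1) / (Fintype.card F - 1) ≤ H.index := by
  letI : Fintype (symplecticGroup (Fin m) F ⧸ H) := Fintype.ofFinite _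
  rw [Subgroup.index, Nat.card_eq_fintype_card]
  by_contra hc
  have s : Sm (Fin m) F (symplecticGroup (Fin m) F ⧸ H) (Fintype.card F ^ (2 * m - 2)) := by
    have e1 : Fintype.card F ^ (2 * m) =
        Fintype.card F ^ (2 * m - 2) * Fintype.card F * Fintype.card F := by
      rw [← pow_succ, ← pow_succ]; congr 1; omega
    refine ⟨by simpa using hm, hq, by simpa using e1, ?_, fun ω => ?_⟩
    · have h1 := (Nat.mul_le_mul_right (Fintype.card F - 1) (not_le.1 hc)).trans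
        (Nat.div_mul_le_self _ _)
      have h2 : 1 ≤ Fintype.card F ^ (2 * m) := Nat.one_le_pow _ _ (by omega)
      rw [Nat.succ_mul] at h1
      omega
    · by_contra h
      push Not at h
      refine hH (eq_top_iff.2 fun g _ => ?_)
      obtain ⟨x, rfl⟩ := QuotientGroup.mk_surjective ω
      have h1 : x * g⁻¹ * x⁻¹ ∈ stabilizer _ (x : symplecticGroup (Fin m) F ⧸ H) :=
        sp_eq_top_of_stv_mem _ h ▸ Subgroup.mem_top _
      simpa using QuotientGroup.eq.1 h1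
  have h4 : 4 ≤ Fintype.card F → ∃ a : F, a ≠ 0 ∧ a ^ 2 ≠ 1 := fun h => by
    simpa [pow_two] using exists_sq_ne_one (F := F) (by rwa [Nat.card_eq_fintype_card])
  by_cases h2 : (2 : F) = 0
  · have := two_eq_zero_iff_even_card.1 h2
    obtain ⟨a, ha, ha2⟩ := h4 (by omega)
    exact s.even_false h2 ha ha2 ((1 : symplecticGroup (Fin m) F) : _ ⧸ H)
  · refine s.odd_false h2 ?_ ((1 : symplecticGroup (Fin m) F) : _ ⧸ H)
    by_cases h3 : 3 ≤ m
    · exact Or.inl (by simpa using h3)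
    · exact Or.inr (h4 (by omega))

theorem psp {m : ℕ} (hm : 2 ≤ m) (hq : 3 ≤ Fintype.card F) (hexc : ¬ (m = 2 ∧ Fintype.card F = 3)) :
    (∀ H : Subgroup (PSp m F), H ≠ ⊤ →
      (Fintype.card F ^ (2 * m) - 1) / (Fintype.card F - 1) ≤ H.index) ∧
    ∃ H : Subgroup (PSp m F), H.index = (Fintype.card F ^ (2 * m) - 1) / (Fintype.card F - 1) := by
  refine ⟨fun H hH => ?_, ?_⟩
  · rw [← H.index_comap_of_surjective (QuotientGroup.mk'_surjective _)]
    exact lower hm hq hexc _ fun h => hH (Subgroup.comap_injective (QuotientGroup.mk'_surjective _)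
      (by rw [h, Subgroup.comap_top]))
  · obtain ⟨v, -, hv⟩ := ex_not1 (l := Fin m) (F := F) (by simpa using hm) 0
    have hv0 : v ≠ 0 := by simpa using hv 0
    obtain ⟨H, hH⟩ := exists_index_line ((isomGroup (spBilin (Fin m) F)).subtype.comp
      (spEquiv (l := Fin m) (F := F)).toMonoidHom) hv0 (T := {w | w ≠ 0}) (fun w => ⟨fun hw => by
        obtain ⟨g, hg⟩ := trans1 hv0 hw
        exact ⟨g, 1, one_ne_zero, by rw [one_smul]; exact hg.symm⟩, by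
        rintro ⟨g, c, hc, rfl⟩
        exact smul_ne_zero hc (sp_mulVec_ne_zero g hv0)⟩) (fun z hz => by
        rcases (mem_center_sp_iff z).1 hz with h | h
        · exact ⟨1, by change z.1 *ᵥ v = _; rw [h, one_mulVec, one_smul]⟩
        · exact ⟨-1, by change z.1 *ᵥ v = _; rw [h, neg_mulVec, one_mulVec, neg_one_smul]⟩)
    refine ⟨H, ?_⟩
    rw [hH, Nat.card_eq_fintype_card (α := F)]
    congr 1
    have e := card_V (l := Fin m) (F := F)
    rw [Fintype.card_fin] at e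
    rw [← e, Nat.card_eq_fintype_card]
    have := Fintype.card_subtype_compl (fun w : Fin m ⊕ Fin m → F => w = 0)
    rw [Fintype.card_subtype_eq] at this
    convert this

end Cfsg.Agent.H26.MI.SQ
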