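import Cfsg.Agent.H10.Ag14
import Cfsg.Agent.H10.Ag6
import Cfsg.Agent.H11.Im1
import Cfsg.Agent.H26.L4a

/-!
Transvection points in four-dimensional unitary groups.
-/

set_option autoImplicit false
set_option linter.unusedSectionVars false

namespace Cfsg.Agent.H26.U4

open Module H10 H11 Cfsg.Geo

variable {F : Type*} [Field F] {V : Type*} [AddCommGroup V] [Module F V] {σ : F →+* F}
  {B : V →ₛₗ[σ] V →ₗ[F] F} [FiniteDimensional F V] [Finite F]

theorem span2 (inv : ∀ a, σ (σ a) = a) {l l' : F} (hl : σ l * l' ≠ l * σ l') (a : F) :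
    ∃ c c', σ c = -c ∧ σ c' = -c' ∧ a = c * l + c' * l' := by
  obtain ⟨d, hd⟩ : ∃ d, d = σ l * l' - l * σ l' := ⟨_, rfl⟩
  have d0 : d ≠ 0 := hd ▸ sub_ne_zero.2 hl
  have sd : σ d = -d := by simp [hd, inv]
  refine ⟨(-a * σ l' - l' * σ a) / d, (l * σ a + σ l * a) / d, ?_, ?_, ?_⟩
  · simp only [map_div₀, map_sub, map_mul, map_neg, inv, sd]; field_simp; ring
  · simp only [map_div₀, map_sub, map_add, map_mul, inv, sd]; field_simp; ring
  · field_simp; rw [hd]; ring

variable (h : Cl 1 1 (trHom σ) B fun x => B x x) {M : Subgroup (V ≃ₗ[F] V)}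

/-- all transvections with the given centre lie in `M` -/
def TT (M : Subgroup (V ≃ₗ[F] V)) (x : V) : Prop := B x x = 0 ∧ ∀ c, σ c = -c → h.eich x 0 c ∈ M

theorem tv {x : V} (hx : B x x = 0) (c : F) (y : V) : h.eich x 0 c y = y - (c * B x y) • x := by
  rw [h.eich_apply hx (map_zero _)]; simp

theorem tv_om {x : V} (hx : B x x = 0) {c : F} (hc : σ c = -c) : h.eich x 0 c ∈ h.Om :=
  h.eich_mem_om hx (map_zero _) (by simp [hc])

variable {h}

theorem TT.map (hM : M ≤ h.Om) {x : V} (hx : TT h M x) {g : V ≃ₗ[F] V} (hg : g ∈ M) : TT h M (g x) :=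
  ⟨by rw [(h.om_le_isom (hM hg)).1, hx.1], fun c hc => by
    have := mul_mem (mul_mem hg (hx.2 c hc)) (inv_mem hg)
    rwa [h.conj_eich (h.om_le_isom (hM hg)), map_zero] at this⟩

theorem TT.smul {x : V} (hx : TT h M x) (a : F) : TT h M (a • x) :=
  ⟨by simp [hx.1], fun c hc => by
    rw [h.eich_smul_left hx.1 (map_zero _), smul_zero]
    exact hx.2 _ (by simp [h.invol, hc, mul_comm])⟩

theorem TT.of_smul {x : V} {a : F} (ha : a ≠ 0) (hx : TT h M (a • x)) : TT h M x := by
  simpa [ha] using hx.smul a⁻¹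

theorem TT.ar (hM : M ≤ h.Om) {a x b : V} (hx : TT h M x) (hxa : B x a = 0) (hb : b ∈ h.Ar M a) {c : F}
    (hc : σ c = -c) : (c * B x b) • x ∈ h.Ar M a := by
  have := sub_mem hb (h.map_mem_ar_fix (hM.trans h.om_le_isom) (hx.2 c hc)
    (h.eich_fix _ hxa (by simp)) hb)
  rwa [tv h hx.1, sub_sub_cancel] at this

theorem TT.arm (hH : IsHerm B) (hM : M ≤ h.Om) {a x b : V} (hx : TT h M x) (hxa : B x a = 0)
    (hb : b ∈ h.Arm M a) (hxb : B x b ≠ 0) : x ∈ h.Arm M a := fun s => by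
  obtain ⟨c, c0, hc⟩ := IsHerm.nq hH
  have := hx.ar hM hxa (hb (s / (c * B x b))) (c := c) (by simpa [add_eq_zero_iff_eq_neg'] using hc)
  rwa [map_smul, smul_eq_mul, show c * (s / (c * B x b) * B x b) = s by field_simp] at this

theorem TT.ar_add {y z : V} (hy : B y y = 0) (hyz : B y z = 0) (hz : TT h M z) {l : F}
    (h2 : TT h M (y + l • z)) {c : F} (hc : σ c = -c) : (c * l) • z ∈ h.Ar M y := by
  refine (h.mem_ar hy).2 ⟨by simp [hyz], c, by simp [hc, hz.1], ?_⟩
  have := mul_mem (h2.2 c hc) (inv_mem ((hz.smul l).2 c hc))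
  convert this using 1
  rw [eq_mul_inv_iff_mul_eq]
  ext1 v
  rw [LinearEquiv.mul_apply, tv h h2.1, tv h (hz.smul l).1, h.eich_apply hy (by simp [hyz])]
  simp [hyz, hz.1, hc]; module

theorem TT.arm_two {y z : V} (hy : B y y = 0) (hyz : B y z = 0) (hz : TT h M z) {l l' : F}
    (h1 : TT h M (y + l • z)) (h2 : TT h M (y + l' • z)) (hl : σ l * l' ≠ l * σ l') :
    z ∈ h.Arm M y := fun a => by
  obtain ⟨c, c', p, q, rfl⟩ := span2 h.invol hl a
  rw [add_smul]; exact add_mem (hz.ar_add hy hyz h1 p) (hz.ar_add hy hyz h2 q)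

omit h in
theorem tr_ne (hH : IsHerm B) : trHom σ ≠ 0 := fun e => by
  obtain ⟨t, ht⟩ := H11.exists_trace_eq hH.ne hH.invol (a := 1) (map_one _)
  have := DFunLike.congr_fun e t
  simp [ht] at this

theorem full_of_ar (hH : IsHerm B) (hn : finrank F V = 4) {a : V} (ha : B a a = 0)
    (k : ∀ y, B a y = 0 → y ∈ h.Ar M a) : h.Full M a :=
  h.full_of_ar ha k fun c hc => h.center_of_ar (by omega) (fun e => (tr_ne hH e).elim) ha k hc

include h in
theorem span3 (hn : finrank F V = 4) {a x y : V} (a0 : a ≠ 0) {S : Submodule F V} (hS : ∀ v ∈ S, B a v = 0)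
    (ha : a ∈ S) (hx : x ∈ S) (hy : y ∈ S) (h1 : x ∉ Submodule.span F {a})
    (h2 : y ∉ Submodule.span F {a, x}) {v : V} (hv : B a v = 0) : v ∈ S := by
  have d1 := h.form.finrank_perp h.sep (Submodule.span F {a})
  rw [finrank_span_singleton a0] at d1
  have l1 : Submodule.span F {a} < Submodule.span F {a, x} :=
    lt_of_le_of_ne (Submodule.span_mono (by simp)) fun e => h1 (e ▸ Submodule.subset_span (by simp))
  have l2 : Submodule.span F {a, x} < S :=
    lt_of_le_of_ne (Submodule.span_le.2 (by rintro _ (rfl | rfl) <;> assumption)) fun e => h2 (e ▸ hy)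
  have d2 := Submodule.finrank_lt_finrank_of_lt l1
  have d3 := Submodule.finrank_lt_finrank_of_lt l2
  rw [finrank_span_singleton a0] at d2
  have : S = perp B (Submodule.span F {a}) := Submodule.eq_of_le_of_finrank_le
    (fun v hv => mem_perp_span.2 (by simpa using hS v hv)) (by omega)
  exact this ▸ mem_perp_span.2 (by simpa using hv)

theorem full_of_two (hH : IsHerm B) (hn : finrank F V = 4) {a x y : V} (a0 : a ≠ 0) (ha : B a a = 0)
    (hx : x ∈ h.Arm M a) (hy : y ∈ h.Arm M a) (h1 : x ∉ Submodule.span F {a})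
    (h2 : y ∉ Submodule.span F {a, x}) : h.Full M a :=
  full_of_ar hH hn ha fun _ hv => h.ar_of_arm (span3 (h := h) hn a0 (fun v hv => h.ar_perp (h.ar_of_arm hv))
    (h.self_mem_arm ha) hx hy h1 h2 hv)

theorem om_of_full (hM : M ≤ h.Om) {a : V} (ha : h.Full M a) {g : V ≃ₗ[F] V} (hg : g ∈ M)
    (k : B a (g a) ≠ 0) : h.Om ≤ M :=
  h.om_le_of_full (hM.trans h.om_le_isom) ha (ha.map (hM.trans h.om_le_isom) hg) k

variable (h)

include h in
theorem exists_iso (hH : IsHerm B) {a b : V} (k : ∀ s t : F, s • a + t • b = 0 → s = 0 ∧ t = 0) :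
    ∃ x ∈ Submodule.span F {a, b}, x ≠ 0 ∧ B x x = 0 :=
  h.exists_sing (Or.inr ⟨by
    have := finrank_span_eq_card (LinearIndependent.pair_iff.2 k)
    rw [Matrix.range_cons_cons_empty] at this
    simp [this], IsHerm.nq hH⟩)

theorem max_nd1 (hH : IsHerm B) (hn : finrank F V = 4) {W : Submodule F V} (hW : NondegOn B W)
    (h1 : finrank F W = 1) : IsMaximalIn h.Om (stabS F (W : Set V) ⊓ h.Om) := by
  have d := h.form.finrank_perp h.sep W
  have hU := h.form.nondegOn_perp h.sep hW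
  have hb : h.Big (perp B W) := Or.inl (by omega)
  refine isMaximalIn_inf (h.not_om_le_stabS (by omega) (by rintro rfl; simp at h1)
    (by rintro rfl; simp at h1; omega)) fun M hHM hM g hg hgS => ?_
  obtain ⟨w, hw, w0⟩ := exists_ne_zero_of_finrank (W := W) (by omega)
  have eW : W = Submodule.span F {w} := (Submodule.eq_of_le_of_finrank_le (by simpa)
    (by rw [finrank_span_singleton w0]; omega)).symm
  have ww : B w w ≠ 0 := fun e => w0 (hW w hw fun y hy => by
    rw [eW] at hy; obtain ⟨c, rfl⟩ := Submodule.mem_span_singleton.1 hy; simp [e])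
  have mU : ∀ v, v ∈ perp B W ↔ B w v = 0 := fun v => by rw [eW, mem_perp_span]; simp
  have gi := h.om_le_isom (hM hg)
  obtain ⟨u, hu, qu, k⟩ := h.exists_sing_not_perp hU hb (s := g⁻¹ w) (by
    by_contra! k
    have : g⁻¹ w ∈ W := by
      have := h.form.mem_of_perp h.sep (W := W) (x := g⁻¹ w) fun y hy => h.refl (k y hy)
      exact this
    refine hgS (mem_stabS_of_le fun v hv => ?_)
    rw [eW] at hv this ⊢
    obtain ⟨c, hc⟩ := Submodule.mem_span_singleton.1 this
    obtain ⟨a, rfl⟩ := Submodule.mem_span_singleton.1 hv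
    have c0 : c ≠ 0 := by rintro rfl; exact MX.app_ne_zero g⁻¹ w0 (by simpa using hc.symm)
    refine Submodule.mem_span_singleton.2 ⟨a / c, ?_⟩
    conv_lhs => rw [← MX.app_inv g w, ← hc]
    simp [smul_smul, c0])
  have tu : TT h M u := ⟨qu, fun c hc => h.eich_of_stab hHM u hu 0 (zero_mem _) c qu (by simp) (by simp [hc])⟩
  have tx := tu.map hM hg
  rw [Im.isom_inv gi] at k
  generalize g u = x at k tx
  obtain ⟨y, hy⟩ : ∃ y, y = x - (B w x / B w w) • w := ⟨_, rfl⟩
  have wy : B w y = 0 := by simp [hy, ww]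
  have xy : B x y ≠ 0 := by simp [hy, tx.1, k, ww, h.refl_ne k]
  have d1 := finrank_le_inf_ker (perp B W) (B y)
  obtain ⟨e, ⟨e1, e2⟩, e0, qe⟩ := h.exists_sing (W := perp B W ⊓ LinearMap.ker (B y))
    (Or.inr ⟨by omega, IsHerm.nq hH⟩)
  have we := (mU e).1 e1
  have xe : B x e = 0 := by
    have : B y e = 0 := e2
    simpa [hy, we] using this
  exact h.om_le_of_arm hW hb (Or.inr (Or.inl h1)) hHM hM e1 e0 qe
    (tx.arm hH hM xe (h.arm_of_stab hHM e1 qe ((mU y).2 wy) (h.refl e2)) xy)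
    fun c => h.refl_ne k ((mU x).1 c)

end Cfsg.Agent.H26.U4
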