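import Cfsg.Agent.H26.U4a

/-!
Orthogonal pairs of planes and symplectic subgroups in four-dimensional unitary groups.
-/

set_option autoImplicit false
set_option linter.unusedSectionVars false

namespace Cfsg.Agent.H26.U4

open Module H10 H11 Cfsg.Geo

variable {F : Type*} [Field F] {V : Type*} [AddCommGroup V] [Module F V] {σ : F →+* F}
  {B : V →ₛₗ[σ] V →ₗ[F] F} [FiniteDimensional F V] [Finite F]
  (hH : IsHerm B) (h : Cl 1 1 (trHom σ) B fun x => B x x) {M : Subgroup (V ≃ₗ[F] V)}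
include hH h

theorem perp2 {U : Submodule F V} (hU : NondegOn B U) (dU : finrank F U = 2) {x : V} (hx : x ∈ U)
    (xx : B x x ≠ 0) {n : F} (hn : σ n = n) : ∃ a ∈ U, B x a = 0 ∧ B a a = n := by
  have d1 := finrank_le_inf_ker U (B x)
  obtain ⟨a, ⟨a1, a2⟩, a0⟩ := exists_ne_zero_of_finrank (W := U ⊓ LinearMap.ker (B x)) (by omega)
  replace a2 : B x a = 0 := a2
  have e : Submodule.span F {x, a} = U := Submodule.eq_of_le_of_finrank_le
    (Submodule.span_le.2 (by rintro _ (rfl | rfl) <;> assumption)) (by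
      have := finrank_span_eq_card (LinearIndependent.pair_iff.2 fun s t e => by
        have k := congrArg (B x) e
        simp [a2, xx] at k
        subst k; simpa [a0] using e : LinearIndependent F ![x, a])
      rw [Matrix.range_cons_cons_empty] at this
      simp [this, dU])
  have aa : B a a ≠ 0 := fun k => a0 (hU a a1 fun y hy => by
    rw [← e] at hy; obtain ⟨s, t, rfl⟩ := Submodule.mem_span_pair.1 hy; simp [k, h.refl a2])
  obtain ⟨c, hc⟩ := hH.exists_norm (a := n / B a a) (by simp [hn, hH.symm])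
  exact ⟨c • a, U.smul_mem _ a1, by simp [a2], by
    simp only [map_smulₛₗ, LinearMap.smul_apply, smul_eq_mul, RingHom.id_apply]
    rw [← mul_assoc, mul_comm c, hc]; field_simp⟩

/-- an orthogonal pair of planes and an overgroup of its stabiliser -/
structure Pl (U W : Submodule F V) (M : Subgroup (V ≃ₗ[F] V)) : Prop where
  hU : NondegOn B U
  hW : NondegOn B W
  dU : finrank F U = 2
  dW : finrank F W = 2
  orth : ∀ x ∈ U, ∀ y ∈ W, B x y = 0
  ov : ∀ g ∈ h.Om, (∀ x ∈ U, g x ∈ U) → (∀ x ∈ W, g x ∈ W) → g ∈ M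
  le : M ≤ h.Om

variable {h} {U W : Submodule F V}

omit hH in
theorem Pl.symm (p : Pl h U W M) : Pl h W U M :=
  ⟨p.hW, p.hU, p.dW, p.dU, fun x hx y hy => h.refl (p.orth y hy x hx), fun g a b c => p.ov g a c b, p.le⟩

omit hH in
theorem Pl.loc (p : Pl h U W M) {g : V ≃ₗ[F] V} (hg : g ∈ Im.Loc B (fun x => B x x) U) :
    (∀ x ∈ U, g x ∈ U) ∧ ∀ x ∈ W, g x = x :=
  ⟨fun _ hx => Im.loc_mem h hg le_rfl hx, fun x hx => hg.2 x fun y hy => p.orth y hy x hx⟩

theorem Pl.mv (p : Pl h U W M) {x x' : V} (hx : x ∈ U) (hx' : x' ∈ U) (xx : B x x ≠ 0)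
    (e : B x' x' = B x x) : ∃ g ∈ M, g x = x' ∧ ∀ y ∈ W, g y = y := by
  obtain ⟨g, hg, e1⟩ := Im.exists_loc h p.hU hx hx' (by rintro rfl; simp at xx)
    (by rintro rfl; simp [← e] at xx) e
  obtain ⟨a, ha, xa, aa⟩ := perp2 hH h p.hU p.dU hx xx (map_one σ)
  obtain ⟨s, hs, e2⟩ := Im.adj_herm hH h (Submodule.mem_span_singleton_self a) (by simp [aa]) g hg.1
  have k := p.loc (mul_mem hg (Im.loc_mono (by simpa) hs))
  refine ⟨_, p.ov _ e2 k.1 fun y hy => by rwa [k.2 y hy], ?_, k.2⟩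
  rw [LinearEquiv.mul_apply, hs.2 x fun y hy => by
    obtain ⟨c, rfl⟩ := Submodule.mem_span_singleton.1 hy; simp [h.refl xa], e1]

theorem Pl.all (p : Pl h U W M) {u v u' v' : V} (hu : u ∈ U) (hv : v ∈ W) (t : TT h M (u + v))
    (uu : B u u ≠ 0) (hu' : u' ∈ U) (hv' : v' ∈ W) (uu' : B u' u' ≠ 0) (e : B v' v' = -B u' u') :
    TT h M (u' + v') := by
  obtain ⟨c, hc⟩ := hH.exists_norm (a := B u' u' / B u u) (by simp [hH.symm])
  have e1 : B v v = -B u u := by
    have := t.1
    simp [p.orth u hu v hv, h.refl (p.orth u hu v hv)] at this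
    linear_combination this
  rw [eq_div_iff uu] at hc
  have e2 : B u' u' = B (c • u) (c • u) := by simp; linear_combination -hc
  obtain ⟨g, hg, g1, g2⟩ := p.mv hH (U.smul_mem c hu) hu' (e2 ▸ uu') e2
  have e3 : B v' v' = B (c • v) (c • v) := by simp [e, e1]; linear_combination -hc
  obtain ⟨g', hg', g1', g2'⟩ := p.symm.mv hH (W.smul_mem c hv) hv' (by rw [← e3, e]; simpa) e3
  have := ((t.smul c).map p.le hg).map p.le hg'
  rwa [smul_add, map_add, g1, g2 _ (W.smul_mem c hv), map_add, g1', g2' _ hu'] at this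

theorem Pl.om_ni (p : Pl h U W M) (hn : finrank F V = 4) {l m : F} (l0 : l ≠ 0) (hl : 1 + σ l * l ≠ 0)
    (hm : σ m * m = 1) (hm' : σ m ≠ m) {u v : V} (hu : u ∈ U) (hv : v ∈ W) (t : TT h M (u + v))
    (uu : B u u ≠ 0) : h.Om ≤ M := by
  have o := p.orth
  have o' := p.symm.orth
  have e1 : B v v = -B u u := by
    have := t.1
    simp [o u hu v hv, o' v hv u hu] at this
    linear_combination this
  obtain ⟨a, ha, ua, aa⟩ := perp2 hH h p.hU p.dU hu uu (hH.symm u u)
  obtain ⟨b, hb, vb, bb⟩ := perp2 hH h p.hW p.dW hv (by simpa [e1]) (hH.symm v v)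
  have m1 : m ≠ 1 := by rintro rfl; simp at hm'
  have k : ∀ s, σ s * s = 1 → a + s • b ∈ h.Arm M (u + v) := fun s hs => by
    have k1 : ∀ l, 1 + σ l * l ≠ 0 → TT h M (u + v + l • (a + s • b)) := fun l hl => by
      have := p.all hH hu hv t uu (add_mem hu (U.smul_mem l ha)) (add_mem hv (W.smul_mem (l * s) hb))
        (by simp [ua, h.refl ua, aa]; intro c; exact mul_ne_zero uu hl (by linear_combination c))
        (by simp [ua, h.refl ua, aa, vb, h.refl vb, bb, e1]; linear_combination (-(σ l * l * B u u)) * hs)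
      convert this using 1; module
    refine TT.arm_two t.1 (by simp [ua, vb, o u hu b hb, o' v hv a ha])
      (p.all hH hu hv t uu ha (W.smul_mem s hb) (by rwa [aa]) (by
        simp [aa, bb, e1]; linear_combination (B u u) * hs)) (k1 l hl) (k1 (l * m) (by
          rw [map_mul]; convert hl using 1; linear_combination (σ l * l) * hm)) fun c => hm' ?_
    rw [map_mul] at c
    exact mul_left_cancel₀ (mul_ne_zero l0 (h.sigma_ne l0)) (by linear_combination -c)
  have f := full_of_two hH hn (fun c => uu (by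
      simpa [o u hu v hv] using congrArg (B u) c)) t.1 (k 1 (by simp)) (k m hm) (fun c => by
      obtain ⟨s, hs⟩ := Submodule.mem_span_singleton.1 c
      have := congrArg (B a) hs
      simp [h.refl ua, o a ha v hv, o a ha b hb, aa] at this
      exact uu this.symm) fun c => by
      obtain ⟨s, r, hs⟩ := Submodule.mem_span_pair.1 c
      have := congrArg (B (a + b)) hs
      simp [h.refl ua, h.refl vb, o a ha v hv, o a ha b hb, o' b hb a ha, o' b hb u hu, aa, bb, e1] at this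
      exact mul_ne_zero uu (sub_ne_zero.2 m1) (by linear_combination this)
  obtain ⟨g, hg, g1, g2⟩ := p.symm.mv hH hv (W.smul_mem m hv) (by simpa [e1])
    (by simp; linear_combination (B v v) * hm)
  refine om_of_full p.le f hg fun c => mul_ne_zero uu (sub_ne_zero.2 m1) ?_
  simp [g1, g2 u hu, o u hu v hv, o' v hv u hu, e1] at c
  linear_combination -c

theorem Pl.unit (p : Pl h U W M) {u : V} (hu : u ∈ U) (u0 : u ≠ 0) (uu : B u u = 0) :
    ∃ w ∈ U, B w w = 1 ∧ B u w = 1 := by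
  obtain ⟨f, hf, ff, uf⟩ := h.exists_partner_in' p.hU hu uu u0
  obtain ⟨t, ht⟩ := H11.exists_trace_eq hH.ne hH.invol (a := 1) (map_one _)
  replace ff : B f f = 0 := ff
  exact ⟨f + t • u, add_mem hf (U.smul_mem _ hu), by
    simp [ff, uf, uu, h.flip_one uf]; linear_combination ht, by simp [uu, uf]⟩

theorem Pl.om (p : Pl h U W M) (hn : finrank F V = 4) {l m : F} (l0 : l ≠ 0) (hl : 1 + σ l * l ≠ 0)
    (hm : σ m * m = 1) (hm' : σ m ≠ m) {u v : V} (hu : u ∈ U) (hv : v ∈ W) (t : TT h M (u + v))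
    (u0 : u ≠ 0) (v0 : v ≠ 0) : h.Om ≤ M := by
  by_cases uu : B u u = 0
  swap
  · exact p.om_ni hH hn l0 hl hm hm' hu hv t uu
  have o := p.orth
  have o' := p.symm.orth
  have vv : B v v = 0 := by simpa [o u hu v hv, o' v hv u hu, uu] using t.1
  obtain ⟨a, ha, aa, ua⟩ := p.unit hH hu u0 uu
  obtain ⟨b, hb, bb, vb⟩ := p.symm.unit hH hv v0 vv
  have au := h.flip_one ua
  have bv := h.flip_one vb
  have c1 := Im.adm_herm (h := h) (a := a) (by simp [aa]) hm
  have c2 := Im.adm_herm (h := h) (a := b) (ζ := σ m) (by simp [bb]) (by rw [h.invol, mul_comm, hm])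
  rw [aa, div_one] at c1
  rw [bb, div_one] at c2
  have r1 := p.loc (Im.rf_mem_loc h ha (1 - m))
  have r2 := p.symm.loc (Im.rf_mem_loc h hb (1 - σ m))
  have hr : Im.rf h a (1 - m) * Im.rf h b (1 - σ m) ∈ M := p.ov _ ((mem_om_herm hH h).2
    ⟨(mul_mem (Im.rf_mem_isom h _ _) (Im.rf_mem_isom h _ _)).1, by
      rw [LinearEquiv.coe_toLinearMap_mul, map_mul, Im.det_rf c1, Im.det_rf c2, aa, bb]
      linear_combination hm⟩) (fun x hx => by rw [LinearEquiv.mul_apply, r2.2 x hx]; exact r1.1 x hx)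
      fun x hx => by rw [LinearEquiv.mul_apply, r1.2 _ (r2.1 x hx)]; exact r2.1 x hx
  have t1 := t.map p.le hr
  rw [LinearEquiv.mul_apply, map_add, r2.2 u hu, map_add, r1.2 _ (r2.1 v hv), c1.apply, c2.apply, au, bv,
    mul_one, mul_one] at t1
  obtain ⟨c, c0, hc⟩ := IsHerm.nq hH
  replace hc : σ c = -c := by simpa [add_eq_zero_iff_eq_neg'] using hc
  have t2 := t.map p.le (t1.2 c hc)
  rw [tv h t1.1] at t2
  have e : B (u - (1 - m) • a + (v - (1 - σ m) • b)) (u + v) = σ m + m - 2 := by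
    simp [uu, vv, au, bv, o u hu v hv, o' v hv u hu, o a ha v hv, o' b hb u hu, h.invol]; ring
  rw [e] at t2
  have m1 : m - 1 ≠ 0 := by rw [sub_ne_zero]; rintro rfl; simp at hm'
  have b0 : σ m + m - 2 ≠ 0 := fun k => mul_ne_zero m1 m1 (by linear_combination m * k - hm)
  refine p.om_ni hH hn l0 hl hm hm' (u := u - (c * (σ m + m - 2)) • (u - (1 - m) • a))
    (v := v - (c * (σ m + m - 2)) • (v - (1 - σ m) • b))
    (sub_mem hu (U.smul_mem _ (sub_mem hu (U.smul_mem _ ha))))
    (sub_mem hv (W.smul_mem _ (sub_mem hv (W.smul_mem _ hb)))) (by convert t2 using 1; module) fun k => ?_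
  simp [uu, ua, au, aa, hc, h.invol, map_ofNat] at k
  exact mul_ne_zero (mul_ne_zero c0 b0) (sub_ne_zero.2 hm') (by
    linear_combination k + (c * c * (σ m + m - 2) ^ 2) * hm)

omit hH h in
theorem exists_lm {q : ℕ} (hq : QConj σ q) (h3 : 3 ≤ q) :
    (∃ l : F, l ≠ 0 ∧ 1 + σ l * l ≠ 0) ∧ ∃ m : F, σ m * m = 1 ∧ σ m ≠ m := by
  classical
  constructor
  · by_contra! k
    have h1 := hq.card_norm (μ := -1) (by simp) (by simp)
    have h2 := hq.card_units
    have : Nat.card Fˣ ≤ Nat.card {x : F // σ x * x = -1} := Nat.card_le_card_of_injective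
      (fun x => ⟨x, by linear_combination k x x.ne_zero⟩) fun x y e => Units.ext (congrArg Subtype.val e)
    obtain ⟨r, rfl⟩ : ∃ r, q = r + 3 := ⟨q - 3, by omega⟩
    rw [h1, h2, show r + 3 - 1 = r + 2 by omega] at this
    nlinarith
  · by_contra! k
    have h1 := hq.card_norm (μ := 1) (by simp) (by simp)
    have : Nat.card {x : F // σ x * x = 1} ≤ Nat.card ({1, -1} : Finset F) := Nat.card_le_card_of_injective
      (fun x => ⟨x.1, by simpa [← mul_self_eq_one_iff, k x.1 x.2] using x.2⟩)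
      fun x y e => Subtype.ext (congrArg Subtype.val e :)
    have h2 := Finset.card_le_two (a := (1 : F)) (b := -1)
    rw [h1, Nat.card_eq_fintype_card, Fintype.card_coe] at this
    omega

theorem Pl.span (p : Pl h U W M) : ∃ e ∈ U, ∃ f ∈ U, B e e = 0 ∧ B f f = 0 ∧ B e f = 1 ∧
    Submodule.span F {e, f} = U := by
  obtain ⟨e, he, e0, ee⟩ := h.exists_sing (W := U) (Or.inr ⟨p.dU.ge, IsHerm.nq hH⟩)
  obtain ⟨f, hf, ff, ef⟩ := h.exists_partner_in' p.hU he ee e0
  refine ⟨e, he, f, hf, ee, ff, ef, Submodule.eq_of_le_of_finrank_le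
    (Submodule.span_le.2 (by rintro _ (rfl | rfl) <;> assumption)) ?_⟩
  have := finrank_span_eq_card (h.form.linearIndependent_pair (f := f) ee (by simp [ef]))
  rw [Matrix.range_cons_cons_empty] at this
  simp [this, p.dU]

omit hH in
theorem Pl.perp (p : Pl h U W M) (hn : finrank F V = 4) : perp B U = W := by
  have := h.form.finrank_perp h.sep U
  exact (Submodule.eq_of_le_of_finrank_le (fun y hy => mem_perp.2 fun x hx => p.orth x hx y hy)
    (by rw [p.dW]; rw [p.dU] at this; omega)).symm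

variable (h) in
theorem max_pl {q : ℕ} (hq : QConj σ q) (h3 : 3 ≤ q) (hn : finrank F V = 4) {D : Fin 2 → Submodule F V}
    {π : Fin 2 → V →ₗ[F] V} (d : Dec B (fun x => B x x) D π) (e : ∀ i, finrank F (D i) = 2) :
    IsMaximalIn h.Om (dstab D ⊓ h.Om) := by
  refine isMaximalIn_inf (fun hc => ?_) fun M hO hM g hg hg' => ?_
  · have p : Pl h (D 0) (D 1) h.Om := ⟨d.nd 0, d.nd 1, e 0, e 1, d.orth 0 1 (by decide), fun g a _ _ => a, le_rfl⟩
    obtain ⟨a, ha, b, hb, aa, bb, ab, -⟩ := p.span hH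
    obtain ⟨a', ha', b', hb', aa', bb', ab', -⟩ := p.symm.span hH
    obtain ⟨c, c0, hc'⟩ := IsHerm.nq hH
    have x : B (a + a') (a + a') = 0 := by simp [aa, aa', p.orth a ha a' ha', p.symm.orth a' ha' a ha]
    obtain ⟨s, hs⟩ := Im.dstab_perm (hc (tv_om h x (c := c) (by simpa [add_eq_zero_iff_eq_neg'] using hc')))
    have k := hs 0 b hb
    rw [tv h x] at k
    generalize s 0 = i at k
    fin_cases i
    · have := p.symm.orth b' hb' _ k
      simp [ab, h.flip_one ab', p.symm.orth _ hb' _ hb, p.symm.orth _ hb' _ ha, p.symm.orth _ ha' _ hb, c0] at this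
    · have := p.orth a ha _ k
      simp [ab, aa, p.orth _ ha _ ha'] at this
  have p : Pl h (D 0) (D 1) M := ⟨d.nd 0, d.nd 1, e 0, e 1, d.orth 0 1 (by decide), fun g a b c =>
    hO ⟨mem_dstab_of_le fun i => by fin_cases i <;> assumption, a⟩, hM⟩
  obtain ⟨⟨l, l0, hl⟩, m, hm, hm'⟩ := exists_lm hq h3
  obtain ⟨a, ha, b, hb, aa, bb, ab, sp⟩ := p.span hH
  have gi := h.om_le_isom (hM hg)
  have k : ∀ x ∈ D 0, B x x = 0 → (g x ∈ D 0 ∨ g x ∈ D 1) ∨ h.Om ≤ M := fun x hx xx => by
    have t : TT h M x := ⟨xx, fun c hc => p.ov _ (tv_om h xx hc)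
      (fun y hy => h.eich_apply_mem c hx (zero_mem _) hy) fun y hy => by
        rwa [h.eich_fix _ (p.orth x hx y hy) (by simp)]⟩
    have s : π 0 (g x) + π 1 (g x) = g x := by simpa using d.sum (g x)
    by_cases h0 : π 0 (g x) = 0
    · exact Or.inl (Or.inr (by rw [← s, h0, zero_add]; exact d.mem 1 _))
    by_cases h1 : π 1 (g x) = 0
    · exact Or.inl (Or.inl (by rw [← s, h1, add_zero]; exact d.mem 0 _))
    exact Or.inr (p.om hH hn l0 hl hm hm' (d.mem 0 _) (d.mem 1 _) (by rw [s]; exact t.map hM hg) h0 h1)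
  have k2 : ∀ U W, Pl h U W M → g a ∈ U → g b ∈ U → (D 0).map (g : V →ₗ[F] V) = U ∧
      (D 1).map (g : V →ₗ[F] V) = W := fun U W p' x y => by
    have : (D 0).map (g : V →ₗ[F] V) = U := map_eq_of_le' (by rw [e, p'.dU]) (by
      rw [← sp, Submodule.map_span, Submodule.span_le]
      rintro _ ⟨_, rfl | rfl, rfl⟩ <;> assumption)
    exact ⟨this, by rw [← p.perp hn, IsForm.isom_map_perp gi, this, p'.perp hn]⟩
  have e1 := gi.1 a b
  rcases k a ha aa with (x | x) | x
  · rcases k b hb bb with (y | y) | y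
    · exact absurd (mem_dstab_two.2 (Or.inl (k2 _ _ p x y))) hg'
    · simp [p.orth _ x _ y, ab] at e1
    · exact y
  · rcases k b hb bb with (y | y) | y
    · simp [p.symm.orth _ x _ y, ab] at e1
    · exact absurd (mem_dstab_two.2 (Or.inr (k2 _ _ p.symm x y))) hg'
    · exact y
  · exact x

end Cfsg.Agent.H26.U4
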