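import Cfsg.Agent.H26.U4b

/-!
Orthogonal subgroups of four-dimensional unitary groups: overgroups with a transvection.
-/

set_option autoImplicit false
set_option linter.unusedSectionVars false

namespace Cfsg.Agent.H26.U4

open Module H10 H11 Cfsg.Geo

variable {F : Type*} [Field F] {V : Type*} [AddCommGroup V] [Module F V] {σ : F →+* F}
  {B : V →ₛₗ[σ] V →ₗ[F] F} [FiniteDimensional F V] [Finite F]

/-- a real structure of orthogonal type and an overgroup of its stabiliser -/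
structure Re (h : Cl 1 1 (trHom σ) B fun x => B x x) (T : V →+ V) (M : Subgroup (V ≃ₗ[F] V)) : Prop where
  hH : IsHerm B
  hn : finrank F V = 4
  t2 : (2 : F) ≠ 0
  smul : ∀ (c : F) x, T (c • x) = σ c • T x
  inv : ∀ x, T (T x) = x
  iso : ∀ x y, B (T x) (T y) = B y x
  sing : ∀ S : Submodule F V, (∀ v ∈ S, T v ∈ S) → 3 ≤ finrank F S → ∃ x ∈ S, x ≠ 0 ∧ T x = x ∧ B x x = 0
  val : ∀ S : Submodule F V, (∀ v ∈ S, T v ∈ S) → NondegOn B S → 2 ≤ finrank F S → ∀ c, σ c = c →
    ∃ x ∈ S, T x = x ∧ B x x = c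
  ov : ∀ g ∈ h.Om, ∀ μ : F, μ ≠ 0 → (∀ v, T (g v) = μ • g (T v)) → g ∈ M
  le : M ≤ h.Om

variable {h : Cl 1 1 (trHom σ) B fun x => B x x} {T : V →+ V} {M : Subgroup (V ≃ₗ[F] V)} (r : Re h T M)
include r

namespace Re

theorem s2 : σ 2 = 2 := map_ofNat σ 2

theorem BT {a : V} (ha : T a = a) (y : V) : B a (T y) = σ (B a y) := by
  conv_lhs => rw [← ha]
  rw [r.iso, r.hH.symm]

theorem BT' (x y : V) : B (T x) y = B (T y) x := by rw [← r.iso x (T y), r.inv]

theorem real {a b : V} (ha : T a = a) (hb : T b = b) : σ (B a b) = B a b := by rw [← r.BT ha, hb]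

theorem sy {a b : V} (ha : T a = a) (hb : T b = b) : B b a = B a b := by rw [← r.hH.symm, r.real ha hb]

theorem ind {S P : Submodule F V} (hS : ∀ v ∈ S, T v ∈ S) (k : ∀ x ∈ S, T x = x → x ∈ P) : S ≤ P := fun v hv => by
  obtain ⟨c, c0, hc⟩ := H11.exists_trace_zero r.hH.ne r.hH.invol
  have sc : σ c = -c := by linear_combination hc
  have k1 := k _ (add_mem hv (hS v hv)) (by simp [r.inv, add_comm])
  have k2 := k _ (S.smul_mem c (sub_mem hv (hS v hv))) (by simp only [r.smul, map_sub, r.inv, sc]; module)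
  have := P.smul_mem (2 : F)⁻¹ (add_mem k1 ((P.smul_mem_iff c0).1 k2))
  rwa [show v + T v + (v - T v) = (2 : F) • v by module, inv_smul_smul₀ r.t2] at this

theorem h90 {v : V} {c : F} (hv : T v = c • v) : ∃ l : F, l ≠ 0 ∧ T (l • v) = l • v := by
  by_cases hc : 1 + c = 0
  · obtain ⟨d, d0, hd⟩ := H11.exists_trace_zero r.hH.ne r.hH.invol
    exact ⟨d, d0, by rw [r.smul, hv, smul_smul]; congr 1; linear_combination σ d * hc - hd⟩
  · refine ⟨1 + c, hc, ?_⟩
    rw [add_smul, one_smul, ← hv, map_add, r.inv, add_comm]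

theorem ker {a : V} (ha : T a = a) : ∀ v ∈ LinearMap.ker (B a), T v ∈ LinearMap.ker (B a) := fun v hv => by
  simp [r.BT ha, show B a v = 0 from hv]

theorem adj {a y : V} (ha : T a = a) (hy : T y = y) (aa : B a a = 0) (ay : B a y = 1) :
    T (y - (B y y / 2) • a) = y - (B y y / 2) • a ∧ B (y - (B y y / 2) • a) (y - (B y y / 2) • a) = 0 :=
  ⟨by simp [r.smul, ha, hy, r.real hy hy, r.s2], by
    have := r.t2
    simp [aa, ay, h.flip_one ay, r.real hy hy, r.s2]; field_simp; ring⟩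

theorem dual {a b : V} (ha : T a = a) (hb : T b = b) (k : a ∉ Submodule.span F {b}) :
    ∃ f, T f = f ∧ B a f = 1 ∧ B b f = 0 := by
  obtain ⟨y, y1, y2⟩ := h.form.exists_perp_not h.sep k
  replace y1 := y1 b (Submodule.mem_span_singleton_self b)
  have := r.t2
  exact ⟨(2 : F)⁻¹ • (y + T y), by simp [r.smul, r.inv, r.s2, add_comm], by
    simp [r.BT ha, y2]; field_simp; ring, by simp [r.BT hb, y1]⟩

theorem partner {a b : V} (ha : T a = a) (hb : T b = b) (aa : B a a = 0) (ba : B b a = 0)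
    (k : a ∉ Submodule.span F {b}) : ∃ f, T f = f ∧ B f f = 0 ∧ B a f = 1 ∧ B b f = 0 := by
  obtain ⟨y, y1, y2, y3⟩ := r.dual ha hb k
  exact ⟨_, (r.adj ha y1 aa y2).1, (r.adj ha y1 aa y2).2, by simp [y2, aa], by simp [y3, ba]⟩

theorem partner' {a : V} (ha : T a = a) (aa : B a a = 0) (a0 : a ≠ 0) : ∃ f, T f = f ∧ B f f = 0 ∧ B a f = 1 := by
  obtain ⟨f, a, b, c, -⟩ := r.partner ha (map_zero T) aa (by simp) (by simpa)
  exact ⟨f, a, b, c⟩

theorem adm {w : V} (hw : T w = w) (ww : B w w ≠ 0) : Im.Adm h w (2 / B w w) := by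
  convert Im.adm_herm (h := h) ww (ζ := -1) (by simp) using 2; ring

theorem refl2 {w w' : V} (hw : T w = w) (ww : B w w ≠ 0) (hw' : T w' = w') (ww' : B w' w' ≠ 0) :
    Im.rf h w (2 / B w w) * Im.rf h w' (2 / B w' w') ∈ M ∧
      ∀ v, T ((Im.rf h w (2 / B w w) * Im.rf h w' (2 / B w' w')) v) =
        (Im.rf h w (2 / B w w) * Im.rf h w' (2 / B w' w')) (T v) := by
  have k : ∀ {w : V}, T w = w → B w w ≠ 0 → ∀ v, T (Im.rf h w (2 / B w w) v) = Im.rf h w (2 / B w w) (T v) :=
    fun hw ww v => by simp [(r.adm hw ww).apply, r.smul, r.BT hw, hw, r.real hw hw, r.s2]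
  have k2 := fun v => (k hw ww _).trans (congrArg _ (k hw' ww' v))
  refine ⟨r.ov _ ((mem_om_herm r.hH h).2 ⟨(mul_mem (Im.rf_mem_isom h _ _) (Im.rf_mem_isom h _ _)).1, ?_⟩) 1
    one_ne_zero fun v => by rw [one_smul]; exact k2 v, k2⟩
  rw [LinearEquiv.coe_toLinearMap_mul, map_mul, Im.det_rf (r.adm hw ww), Im.det_rf (r.adm hw' ww')]
  field_simp; ring

theorem eT {a b : V} (ha : T a = a) (hb : T b = b) (aa : B a a = 0) (ab : B a b = 0) {c : F} (hc : σ c = c)
    (v : V) : T (h.eich a b c v) = h.eich a b c (T v) := by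
  simp [h.eich_apply aa ab, r.smul, r.BT, ha, hb, hc]

theorem eQ {b : V} (hb : T b = b) : trHom σ (B b b / 2) = B b b := by
  have := r.t2
  simp [r.real hb hb, r.s2]; field_simp; ring

theorem eM {a b : V} (ha : T a = a) (hb : T b = b) (aa : B a a = 0) (ab : B a b = 0) :
    h.eich a b (B b b / 2) ∈ M :=
  r.ov _ (h.eich_mem_om aa ab (r.eQ hb)) 1 one_ne_zero fun v => by
    rw [one_smul, r.eT ha hb aa ab (by simp [r.real hb hb, r.s2])]

theorem ar {a b : V} (ha : T a = a) (hb : T b = b) (aa : B a a = 0) (ab : B a b = 0) : b ∈ h.Ar M a :=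
  (h.mem_ar aa).2 ⟨ab, _, r.eQ hb, r.eM ha hb aa ab⟩

theorem hyp {a f : V} (ha : T a = a) (hf : T f = f) (aa : B a a = 0) (ff : B f f = 0) (af : B a f ≠ 0) {c : F}
    (hc : σ c = c) : ∃ b, T b = b ∧ B a b = 0 ∧ B f b = 0 ∧ B b b = c := by
  have d5 := h.form.finrank_perp h.sep (Submodule.span F {a, f})
  have d6 := finrank_span_pair_le (F := F) a f
  have := r.hn
  obtain ⟨b, b1, b2, b3⟩ := r.val (perp B (Submodule.span F {a, f})) (fun v hv => by
    simp only [mem_perp_span, Set.mem_insert_iff, Set.mem_singleton_iff, forall_eq_or_imp, forall_eq] at hv ⊢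
    simp [r.BT, ha, hf, hv]) (h.form.nondegOn_perp h.sep (h.form.nondegOn_span_pair aa ff af)) (by omega) c hc
  simp only [mem_perp_span, Set.mem_insert_iff, Set.mem_singleton_iff, forall_eq_or_imp, forall_eq] at b1
  exact ⟨b, b2, b1.1, b1.2, b3⟩

theorem rswap {a f : V} (ha : T a = a) (hf : T f = f) (aa : B a a = 0) (ff : B f f = 0) (af : B a f ≠ 0) :
    B (a - f) (a - f) ≠ 0 ∧ Im.rf h (a - f) (2 / B (a - f) (a - f)) a = f := by
  have e : B (a - f) (a - f) = -2 * B a f := by simp [aa, ff, r.sy ha hf]; ring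
  have e0 : B (a - f) (a - f) ≠ 0 := by rw [e]; simp [af, r.t2]
  refine ⟨e0, ?_⟩
  rw [(r.adm (by simp [ha, hf]) e0).apply, e]
  have := r.t2
  simp only [map_sub, LinearMap.sub_apply, aa, r.sy ha hf]
  match_scalars <;> field_simp <;> ring

theorem swap {a f : V} (ha : T a = a) (hf : T f = f) (aa : B a a = 0) (ff : B f f = 0) (af : B a f ≠ 0) :
    ∃ g ∈ M, g a = f := by
  obtain ⟨b, b1, b2, -, b3⟩ := r.hyp ha hf aa ff af (map_one σ)
  obtain ⟨p, q⟩ := r.rswap ha hf aa ff af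
  exact ⟨_, (r.refl2 (by simp [ha, hf]) p b1 (by simp [b3])).1, by
    rw [LinearEquiv.mul_apply, Im.rf_fix h _ _ (h.refl b2), q]⟩

theorem trans {a a' : V} (ha : T a = a) (ha' : T a' = a') (aa : B a a = 0) (aa' : B a' a' = 0) (a0 : a ≠ 0)
    (t : TT h M a) : TT h M a' := by
  have k : ∀ {a f : V}, T a = a → T f = f → B f f = 0 → B a f ≠ 0 → TT h M a → TT h M f := fun p q s u t => by
    obtain ⟨g, hg, rfl⟩ := r.swap p q t.1 s u
    exact t.map r.le hg
  by_cases h1 : B a a' = 0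
  swap
  · exact k ha ha' aa' h1 t
  by_cases h2 : a' ∈ Submodule.span F {a}
  · obtain ⟨c, rfl⟩ := Submodule.mem_span_singleton.1 h2
    exact t.smul c
  obtain ⟨y, y1, y2, y3⟩ := r.dual ha' ha h2
  obtain ⟨z, z1, z2, z3⟩ := r.dual ha ha' (notMem_span_symm a0 h2)
  obtain ⟨p, q⟩ := r.adj ha (y := y + z) (by simp [y1, z1]) aa (by simp [y3, z2])
  exact k p ha' aa' (h.refl_ne (by simp [y2, z3, h.refl h1])) (k ha p q (by simp [y3, z2, aa]) t)

theorem tt_of {a : V} (ha : T a = a) (aa : B a a = 0) (a0 : a ≠ 0) {c : F} (c0 : c ≠ 0) (hc : σ c = -c)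
    (t : h.eich a 0 c ∈ M) : TT h M a := by
  obtain ⟨f, hf, ff, af⟩ := r.partner' ha aa a0
  have k : ∀ l, σ l = l → h.eich a 0 (l * l * c) ∈ M := fun l hl => by
    by_cases l0 : l = 0
    · simp [l0, h.eich_zero, one_mem]
    obtain ⟨g, hg, e⟩ := r.swap ha hf aa ff (by simp [af])
    obtain ⟨g', hg', e'⟩ := r.swap hf (f := l • a) (by rw [r.smul, hl, ha]) ff (by simp [aa])
      (by simp [h.flip_one af, l0])
    have := mul_mem (mul_mem (mul_mem hg' hg) t) (inv_mem (mul_mem hg' hg))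
    rwa [h.conj_eich (h.om_le_isom (r.le (mul_mem hg' hg))), map_zero, LinearEquiv.mul_apply, e, e',
      h.eich_smul_left aa (map_zero _), smul_zero, hl] at this
  refine ⟨aa, fun d hd => ?_⟩
  have t2 := r.t2
  have e : σ (d / c) = d / c := by simp [hd, hc, neg_div_neg_eq]
  have := mul_mem (k ((d / c + 1) / 2) (by simp [r.s2, hd, hc, neg_div_neg_eq]))
    (inv_mem (k ((d / c - 1) / 2) (by simp [r.s2, hd, hc, neg_div_neg_eq])))
  rw [h.eich_inv aa (map_zero _), h.eich_mul aa (map_zero _) (by simp)] at this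
  convert this using 2
  · simp
  · simp; field_simp; ring

theorem full {a x : V} (ha : T a = a) (aa : B a a = 0) (a0 : a ≠ 0) (ta : TT h M a) (tx : TT h M x)
    (xa : B x a = 0) (hx : x ∉ Submodule.span F {a}) : h.Full M a := by
  obtain ⟨c, c0, hc⟩ := H11.exists_trace_zero r.hH.ne r.hH.invol
  have sc : σ c = -c := by linear_combination hc
  have key : ∀ {x : V}, B x a = 0 → x ∉ Submodule.span F {a} → B x x = 0 → x ∈ h.Arm M a →
      (∀ s, ∃ b ∈ h.Ar M a, B x b = s) → h.Full M a := fun {x} xa hx xx k1 k2 =>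
    full_of_ar r.hH r.hn aa fun y hy => by
      obtain ⟨b, hb, e⟩ := k2 (B x y)
      have d1 := h.form.finrank_perp h.sep (Submodule.span F {a, x})
      have d2 := finrank_span_eq_card ((LinearIndependent.pair_iff' a0).2 fun s hs =>
        hx (Submodule.mem_span_singleton.2 ⟨s, hs⟩) : LinearIndependent F ![a, x])
      rw [Matrix.range_cons_cons_empty] at d2
      have d3 : Submodule.span F {a, x} = perp B (Submodule.span F {a, x}) := Submodule.eq_of_le_of_finrank_le
        (Submodule.span_le.2 (by rintro _ (rfl | rfl) <;> simp [mem_perp_span, aa, xa, xx, h.refl xa]))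
        (by have := r.hn; simp at d2; omega)
      obtain ⟨s, t, hs⟩ := Submodule.mem_span_pair.1 (d3.ge (show y - b ∈ _ by
        simp [mem_perp_span, hy, h.ar_perp hb, e]))
      rw [show y = s • a + t • x + b by rw [hs]; abel]
      exact add_mem (add_mem (h.smul_mem_ar aa s) (k1 t)) hb
  by_cases k : ∃ b b', T b = b ∧ T b' = b' ∧ B a b = 0 ∧ B a b' = 0 ∧ σ (B x b) * B x b' ≠ B x b * σ (B x b')
  · obtain ⟨b, b', p, p', q, q', k⟩ := k
    refine key xa hx tx.1 (fun s => ?_) fun s => ?_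
    · obtain ⟨d, d', e, e', rfl⟩ := span2 h.invol k s
      rw [add_smul]
      exact add_mem (tx.ar r.le xa (r.ar ha p aa q) e) (tx.ar r.le xa (r.ar ha p' aa q') e')
    · obtain ⟨d, d', e, e', k'⟩ := span2 h.invol k (c * s)
      refine ⟨(d / c) • b + (d' / c) • b', r.ar ha (by simp [r.smul, p, p', e, e', sc, neg_div_neg_eq]) aa
        (by simp [q, q']), ?_⟩
      simp; field_simp; linear_combination -k'
  push Not at k
  obtain ⟨b, p, q, xb⟩ : ∃ b, T b = b ∧ B a b = 0 ∧ B x b ≠ 0 := by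
    by_contra! k
    exact hx (h.form.mem_of_perp h.sep fun y hy => r.ind (P := LinearMap.ker (B x)) (r.ker ha)
      (fun z hz tz => k z tz hz) (hy a (Submodule.mem_span_singleton_self a)))
  obtain ⟨y, hy⟩ : ∃ y, y = (σ (B x b))⁻¹ • x := ⟨_, rfl⟩
  have s0 := h.sigma_ne xb
  have k1 : T y - y ∈ Submodule.span F {a} := h.form.mem_of_perp h.sep fun z hz =>
    r.ind (P := LinearMap.ker (B (T y - y))) (r.ker ha) (fun z hz tz => by
      rw [LinearMap.mem_ker, map_sub, LinearMap.sub_apply, r.BT', tz, ← r.hH.symm, hy]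
      have := k b z p tz q hz
      simp [h.invol]; field_simp; linear_combination -this) (hz a (Submodule.mem_span_singleton_self a))
  obtain ⟨κ, hκ⟩ := Submodule.mem_span_singleton.1 k1
  have sκ : σ κ = -κ := smul_left_injective F a0 (by
    have := congrArg T hκ
    simp only [r.smul, ha, map_sub, r.inv] at this
    simp only [this, neg_smul, hκ, neg_sub])
  obtain ⟨z, hz⟩ : ∃ z, z = y + (κ / 2) • a := ⟨_, rfl⟩
  have t2 := r.t2
  have z1 : T z = z := by
    rw [hz, map_add, r.smul, ha, eq_add_of_sub_eq hκ.symm, map_div₀, sκ, r.s2]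
    match_scalars <;> field_simp <;> ring
  have z2 : B z a = 0 := by simp [hz, hy, xa, aa]
  have z3 : B z z = 0 := by simp [hz, hy, xa, aa, tx.1, h.refl xa]
  have z4 : z ∉ Submodule.span F {a} := fun e => hx (by
    rw [hz, Submodule.add_mem_iff_left _ (Submodule.smul_mem _ _ (Submodule.mem_span_singleton_self a)), hy,
      Submodule.smul_mem_iff _ (inv_ne_zero s0)] at e
    exact e)
  obtain ⟨f, f1, f2, f3, f4⟩ := r.partner z1 ha z3 (h.refl z2) z4
  have arm : ∀ {z f : V}, T z = z → B z z = 0 → B z a = 0 → T f = f → B a f = 0 → B z f = 1 → z ∈ h.Arm M a :=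
    fun {z f} z1 z3 z2 f1 f4 f3 s => by
    obtain ⟨d, d', e, e', k'⟩ := span2 h.invol (l := 1) (l' := c) (by
      simp only [map_one, one_mul, sc]; intro e; exact mul_ne_zero t2 c0 (by linear_combination e)) s
    have := (r.trans ha z1 aa z3 a0 ta).ar r.le z2 (r.ar ha f1 aa f4) e
    rw [f3] at this
    rw [k', add_smul]
    exact add_mem this (r.ar ha (by simp [r.smul, z1, e', sc]) aa (by simp [h.refl z2]))
  exact key z2 z4 z3 (arm z1 z3 z2 f1 f4 f3) fun s =>
    ⟨s • f, arm f1 f2 (h.refl f4) z1 (h.refl z2) (h.flip_one f3) s, by simp [f3]⟩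

theorem om_of_full' {a : V} (ha : T a = a) (a0 : a ≠ 0) (k : h.Full M a) : h.Om ≤ M := by
  obtain ⟨f, hf, ff, af⟩ := r.partner' ha k.1 a0
  obtain ⟨g, hg, e⟩ := r.swap ha hf k.1 ff (by simp [af])
  exact om_of_full r.le k hg (by simp [e, af])

theorem om_of_tv {a : V} (ha : T a = a) (aa : B a a = 0) (a0 : a ≠ 0) {c : F} (c0 : c ≠ 0) (hc : σ c = -c)
    (t : h.eich a 0 c ∈ M) : h.Om ≤ M := by
  have ta := r.tt_of ha aa a0 c0 hc t
  have t2 := r.t2
  obtain ⟨f, hf, ff, af⟩ := r.partner' ha aa a0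
  have fa := h.flip_one af
  obtain ⟨b, b1, b2, b3, b4⟩ := r.hyp ha hf aa ff (by simp [af]) r.s2
  obtain ⟨b', b1', b2', b3', b4'⟩ := r.hyp ha hf aa ff (by simp [af]) (c := 2 / (c * c)) (by simp [r.s2, hc])
  have k : ∀ {b : V} {s : F}, T b = b → B a b = 0 → B f b = 0 → B b b = 2 * s →
      T (f - b - s • a) = f - b - s • a ∧ B (f - b - s • a) (f - b - s • a) = 0 := fun {b s} p q u v => by
    have : σ s = s := mul_left_cancel₀ t2 (by rw [← v, ← r.real p p, v, map_mul, r.s2])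
    exact ⟨by simp [r.smul, this, p, ha, hf], by
      simp [this, aa, ff, af, fa, q, u, v, h.refl q, h.refl u]; ring⟩
  obtain ⟨p3, q3⟩ := k (s := 1) b1 b2 b3 (by simp [b4])
  obtain ⟨p4, q4⟩ := k (s := 1 / (c * c)) b1' b2' b3' (by rw [b4']; ring)
  have t3 := r.trans ha p3 aa q3 a0 ta
  have t4 := r.trans ha p4 aa q4 a0 ta
  have tf := r.trans ha hf aa ff a0 ta
  have n3 : f - b - (1 : F) • a ≠ 0 := fun e => by simpa [af, b2, aa] using congrArg (B a) e
  have ne : ∀ s, σ s = s → (2 : F) + c * s ≠ 0 := fun s hs e => by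
    have := congrArg σ e
    simp only [map_add, map_mul, r.s2, hc, hs, map_zero] at this
    exact mul_ne_zero t2 t2 (by linear_combination this + e)
  by_cases e : B (f - b' - (1 / (c * c)) • a) (f - b - (1 : F) • a) = 0
  · refine r.om_of_full' p3 n3 (r.full p3 q3 n3 t3 t4 e fun k => ?_)
    obtain ⟨s, hs⟩ := Submodule.mem_span_singleton.1 k
    have e1 := congrArg (B a) hs
    have e2 := congrArg (B f) hs
    simp [af, fa, aa, ff, b2, b3, b2', b3'] at e1 e2
    subst e1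
    field_simp at e2
    exact mul_ne_zero (ne 2 r.s2) (ne (-2) (by simp [r.s2])) (by linear_combination (-4) * e2)
  have s34 := r.real p4 p3
  generalize hβ : B (f - b' - (1 / (c * c)) • a) (f - b - (1 : F) • a) = β at e s34
  have t5 := t3.map r.le (t4.2 (-c / β) (by simp [hc, s34, neg_div]))
  rw [tv h q4, hβ, div_mul_cancel₀ _ e] at t5
  have m := tf.2 c hc
  have e1 : h.eich f 0 c a = a - c • f := by rw [tv h ff, fa, mul_one]
  have gi' := h.om_le_isom (r.le m)
  refine r.om_of_full' ha a0 (r.full ha aa a0 ta (t5.map r.le (inv_mem m)) ?_ fun k => ?_)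
  · rw [← gi'.1, MX.app_inv, e1]
    simp [af, fa, aa, ff, b2, b3, b2', b3', h.refl b2, h.refl b3, h.refl b2', h.refl b3', hc]
    field_simp; ring
  · obtain ⟨s, hs⟩ := Submodule.mem_span_singleton.1 k
    have e2 := congrArg (fun v => B b (h.eich f 0 c v)) hs
    simp only [map_smul, e1, MX.app_inv] at e2
    simp [h.refl b2, h.refl b3, b4] at e2
    exact ne _ (r.real b1 b1') (by linear_combination e2)

end Re

end Cfsg.Agent.H26.U4
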