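import Cfsg.Agent.H26.U4c

/-!
Orthogonal subgroups of four-dimensional unitary groups: overgroups without transvections.
-/

set_option autoImplicit false
set_option linter.unusedSectionVars false

namespace Cfsg.Agent.H26.U4

open Module H10 H11 Cfsg.Geo

variable {F : Type*} [Field F] {V : Type*} [AddCommGroup V] [Module F V] {σ : F →+* F}
  {B : V →ₛₗ[σ] V →ₗ[F] F} [FiniteDimensional F V] [Finite F]
  {h : Cl 1 1 (trHom σ) B fun x => B x x} {T : V →+ V} {M : Subgroup (V ≃ₗ[F] V)} (r : Re h T M)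
  (hc : ¬ h.Om ≤ M)
include r hc

namespace Re

theorem nt {a : V} (ha : T a = a) (aa : B a a = 0) (a0 : a ≠ 0) {c : F} (sc : σ c = -c)
    (t : h.eich a 0 c ∈ M) : c = 0 := by_contra fun c0 => hc (r.om_of_tv ha aa a0 c0 sc t)

omit hc in
theorem neg_of {a y : V} (ha : T a = a) (a0 : a ≠ 0) {κ : F} (hκ : κ • a = T y - y) : σ κ = -κ :=
  smul_left_injective F a0 (by
    have := congrArg T hκ
    simp only [r.smul, ha, map_sub, r.inv] at this
    simp only [this, neg_smul, hκ, neg_sub])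

theorem rat_of {a y : V} (ha : T a = a) (aa : B a a = 0) (a0 : a ≠ 0) (ay : B a y = 0)
    (t : h.eich a y (B y y / 2) ∈ M) : T y = y := by
  have t2 := r.t2
  have ty : y ∈ h.Ar M a := (h.mem_ar aa).2 ⟨ay, _, by simp [r.hH.symm, r.s2]; field_simp; ring, t⟩
  have k1 : T y - y ∈ Submodule.span F {a} := h.form.mem_of_perp h.sep fun z hz =>
    r.ind (P := LinearMap.ker (B (T y - y))) (r.ker ha) (fun z hz tz => by
      have := r.nt hc ha aa a0 (by simp [r.hH.symm]) (h.comm_mem aa ty (r.ar ha tz aa hz))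
      rw [LinearMap.mem_ker, map_sub, LinearMap.sub_apply, r.BT', tz]
      linear_combination -this) (hz a (Submodule.mem_span_singleton_self a))
  obtain ⟨κ, hκ⟩ := Submodule.mem_span_singleton.1 k1
  have sκ := r.neg_of ha a0 hκ
  have z1 : T (y + (κ / 2) • a) = y + (κ / 2) • a := by
    rw [map_add, r.smul, ha, eq_add_of_sub_eq hκ.symm, map_div₀, sκ, r.s2]
    match_scalars <;> field_simp <;> ring
  have E := r.eM ha z1 aa (by simp [ay, aa])
  rw [h.eich_add_smul aa ay] at E
  have := mul_mem (inv_mem t) E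
  rw [h.eich_inv aa ay, h.eich_mul aa (by simp [ay]) ay, neg_add_cancel] at this
  have k0 : κ = 0 := r.nt hc ha aa a0 sκ (by
    convert this using 2
    simp [ay, aa, h.refl ay, sκ, r.s2]; field_simp; ring)
  rw [k0, zero_smul] at hκ
  exact sub_eq_zero.1 hκ.symm

theorem star {x : V ≃ₗ[F] V} (hx : x ∈ M) {a a' : V} (ha : T a = a) (aa : B a a = 0) (a0 : a ≠ 0)
    (ha' : T a' = a') {l : F} (e : x a = l • a') (v : V) : T (x v) = (σ l / l) • x (T v) := by
  have t2 := r.t2
  have xi := h.om_le_isom (r.le hx)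
  have n := MX.app_ne_zero x a0
  have l0 : l ≠ 0 := by rintro rfl; simp [e] at n
  have a0' : a' ≠ 0 := by rintro rfl; simp [e] at n
  have s0 := h.sigma_ne l0
  have aa' : B a' a' = 0 := by simpa [e, aa, l0, s0] using xi.1 a a
  have k1 : ∀ b, T b = b → B a b = 0 → T (x b) = (σ l / l) • x b := fun b p q => by
    have q' : B a' (x b) = 0 := by simpa [e, q, s0] using xi.1 a b
    have := mul_mem (mul_mem hx (r.eM ha p aa q)) (inv_mem hx)
    rw [h.conj_eich xi, e, h.eich_smul_left aa' q'] at this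
    have := r.rat_of hc (y := σ l • x b) ha' aa' a0' (by simp [q']) (by
      convert this using 2; simp [xi.1, h.invol]; ring)
    rw [r.smul, h.invol] at this
    rw [div_eq_inv_mul, mul_smul, ← this, inv_smul_smul₀ l0]
  obtain ⟨μ, hμ⟩ : ∃ μ, μ = σ l / l := ⟨_, rfl⟩
  have m1 : σ μ * μ = 1 := by simp [hμ, h.invol]; field_simp
  have m0 : μ ≠ 0 := by rintro rfl; simp at m1
  rw [← hμ] at k1 ⊢
  obtain ⟨f, hf, ff, af⟩ := r.partner' ha aa a0
  have k2 : x⁻¹ (T (x f)) - μ • f ∈ Submodule.span F {a} := h.form.mem_of_perp h.sep fun z hz =>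
    r.ind (P := LinearMap.ker (B _)) (r.ker ha) (fun z hz tz => h.refl (by
      have := r.iso (x z) (x f)
      rw [k1 z tz hz, xi.1] at this
      simp only [map_smulₛₗ, LinearMap.smul_apply, smul_eq_mul] at this
      rw [map_sub, Im.isom_inv xi, map_smul, smul_eq_mul, r.sy hf tz]
      linear_combination μ * this - B (x z) (T (x f)) * m1)) (hz a (Submodule.mem_span_singleton_self a))
  obtain ⟨κ, hκ⟩ := Submodule.mem_span_singleton.1 k2
  have k3 : T (x f) = μ • x f + κ • x a := by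
    rw [← map_smul, ← map_smul, ← map_add, hκ, add_sub_cancel, MX.app_inv]
  have k4 : σ κ * μ + σ μ * κ = 0 := smul_left_injective F n (by
    have := congrArg T k3
    rw [r.inv, map_add, r.smul, r.smul, k3, k1 a ha aa, smul_add, smul_smul, m1, one_smul, add_assoc,
      left_eq_add] at this
    simp only [zero_smul, ← this]; module)
  have sc : σ (-(σ μ * κ) / 2) = -(-(σ μ * κ) / 2) := by
    simp [h.invol, r.s2]; field_simp; linear_combination -k4
  have k5 : ∀ v, T ((x * h.eich a 0 (-(σ μ * κ) / 2)) v) = μ • (x * h.eich a 0 (-(σ μ * κ) / 2)) (T v) := fun v => by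
    let S : Submodule F V :=
      { carrier := {v | T ((x * h.eich a 0 (-(σ μ * κ) / 2)) v) = μ • (x * h.eich a 0 (-(σ μ * κ) / 2)) (T v)}
        add_mem' := fun {x y} (p : _ = _) (q : _ = _) => by change _ = _; simp only [map_add, p, q, smul_add]
        zero_mem' := by simp
        smul_mem' := fun c x (p : _ = _) => by change _ = _; simp only [map_smul, r.smul, p, smul_comm μ] }
    refine r.ind (S := ⊤) (P := S) (fun _ _ => trivial) (fun v _ tv' => ?_) (trivial : v ∈ ⊤)
    rw [show v = (v - B a v • f) + B a v • f by abel]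
    refine add_mem ?_ (S.smul_mem _ ?_)
    · have p : T (v - B a v • f) = v - B a v • f := by simp [r.smul, tv', hf, r.real ha tv']
      have q : B a (v - B a v • f) = 0 := by simp [af]
      change T ((x * _) _) = μ • (x * _) _
      rw [p, LinearEquiv.mul_apply, h.eich_fix _ q (by simp), k1 _ p q]
    · change T ((x * _) _) = μ • (x * _) _
      rw [hf, LinearEquiv.mul_apply, tv h aa, af, mul_one, map_sub, map_smul, map_sub, r.smul, sc, k3, k1 a ha aa]
      match_scalars
      · ring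
      · field_simp; linear_combination (-2 * κ) * m1
  have k6 := r.ov _ (mul_mem (r.le hx) (tv_om h aa sc)) μ m0 k5
  rw [r.nt hc ha aa a0 sc ((M.mul_mem_cancel_left hx).1 k6), h.eich_zero, mul_one] at k5
  exact k5 v

omit hc in
theorem scal {φ : V →ₗ[F] V} (sa : ∀ x y, B (T (φ x)) y = B (T (φ y)) x) {w w' : V} (hw : T w = w)
    (hw' : T w' = w') (w0 : w ≠ 0) (k : w' ∉ Submodule.span F {w})
    (N : ∀ x, φ (B w' x • w - B w x • w') = B w' (φ x) • w - B w (φ x) • w') :
    ∃ α : F, φ w = α • w ∧ φ w' = α • w' := by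
  have s1 : ∀ {u : V}, T u = u → ∀ x, B u (φ x) = B (T (φ u)) x := fun hu x => by
    rw [sa, r.BT', hu]
  have s2 : ∀ {u : V} (c : F), T u = u → ∀ x, B (T (c • u)) x = c * B u x := fun c hu x => by
    simp [r.smul, hu, h.invol]
  obtain ⟨x, -, x1, x2⟩ := r.dual hw' hw k
  obtain ⟨y, -, y1, y2⟩ := r.dual hw hw' (notMem_span_symm w0 k)
  have e1 := N x
  have e2 := N y
  simp only [x1, x2, y1, y2, one_smul, zero_smul, sub_zero, zero_sub, map_neg] at e1 e2
  rw [neg_eq_iff_eq_neg] at e2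
  have f1 := s1 hw x
  have f2 := s1 hw' y
  have f3 := s1 hw' x
  rw [e1, map_sub, map_sub, LinearMap.sub_apply, s2 _ hw, s2 _ hw', x1, x2] at f1
  rw [e2, neg_sub, map_sub, map_sub, LinearMap.sub_apply, s2 _ hw, s2 _ hw'] at f2 f3
  rw [y1, y2] at f2
  rw [x1, x2] at f3
  have g1 : B w (φ x) = 0 := mul_left_cancel₀ r.t2 (by linear_combination f1)
  have g2 : B w' (φ y) = 0 := mul_left_cancel₀ r.t2 (by linear_combination f2)
  exact ⟨B w' (φ x), by simp [e1, g1], by simp [e2, g2, f3]⟩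

omit hc in
theorem pair (h5 : ∀ α β : F, α ≠ 0 → ∃ s, σ s = s ∧ s ≠ 0 ∧ α + s * s * β ≠ 0) {P : Submodule F V}
    (hP : ∀ v ∈ P, T v ∈ P) (dP : 2 ≤ finrank F P) : ∃ w ∈ P, ∃ w' ∈ P, T w = w ∧ T w' = w' ∧ w ≠ 0 ∧
      w' ∉ Submodule.span F {w} ∧ ∃ t ∈ M, (∀ v, T (t v) = t (T v)) ∧ (∀ y, B w y = 0 → B w' y = 0 → t y = y) ∧
        ∃ c : F, c ≠ 0 ∧ ∀ x, t x - t⁻¹ x = c • (B w' x • w - B w x • w') := by
  have t2 := r.t2
  have ex : ∀ w : V, ∃ u ∈ P, T u = u ∧ u ∉ Submodule.span F {w} := fun w => by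
    by_contra! k
    have := (Submodule.finrank_mono (r.ind hP k)).trans (finrank_span_one_le w)
    omega
  by_cases k : ∃ w ∈ P, T w = w ∧ B w w ≠ 0
  · obtain ⟨w, hw, tw, ww⟩ := k
    obtain ⟨u, hu, tu, wu⟩ := ex w
    obtain ⟨v, hv⟩ : ∃ v, v = u - (B w u / B w w) • w := ⟨_, rfl⟩
    have v1 : T v = v := by simp [hv, r.smul, tw, tu, r.real]
    have v2 : B w v = 0 := by simp [hv, ww]
    obtain ⟨s, s1, s0, s2⟩ := h5 _ (B v v) ww
    have t' : T (w + s • v) = w + s • v := by simp [r.smul, tw, v1, s1]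
    have e1 : B (w + s • v) (w + s • v) ≠ 0 := by
      convert s2 using 1; simp [v2, h.refl v2, s1]; ring
    have e2 : B w (w + s • v) = B w w := by simp [v2]
    refine ⟨w, hw, w + s • v, add_mem hw (P.smul_mem _ (hv ▸ sub_mem hu (P.smul_mem _ hw))), tw, t',
      by rintro rfl; simp at ww, fun e => wu ?_, _, (r.refl2 tw ww t' e1).1, (r.refl2 tw ww t' e1).2,
      fun y p q => by rw [LinearEquiv.mul_apply, Im.rf_fix h _ _ q, Im.rf_fix h _ _ p],
      4 * B w w / (B w w * B (w + s • v) (w + s • v)), by simp only [ne_eq, div_eq_zero_iff, mul_eq_zero, ww, e1,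
        or_self, or_false, show (4 : F) = 2 * 2 by norm_num, t2, not_false_eq_true], fun x => ?_⟩
    · have m := Submodule.mem_span_singleton_self (R := F) w
      rwa [Submodule.add_mem_iff_right _ m, Submodule.smul_mem_iff _ s0, hv,
        Submodule.sub_mem_iff_left _ (Submodule.smul_mem _ _ m)] at e
    have a1 := r.adm tw ww
    have a2 := r.adm t' e1
    have e3 := (r.sy tw t').trans e2
    rw [mul_inv_rev, a1.inv, a2.inv, map_div₀, map_div₀, r.s2, r.real tw tw, r.real t' t']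
    generalize w + s • v = w' at *
    simp only [LinearEquiv.mul_apply, a1.apply, a2.apply, map_sub, map_smul, e2, e3, smul_eq_mul]
    match_scalars <;> field_simp <;> ring
  push Not at k
  obtain ⟨w, hw, tw, w0⟩ := ex 0
  obtain ⟨u, hu, tu, wu⟩ := ex w
  have ww := k w hw tw
  have uu := k u hu tu
  have e : B w u = 0 := mul_left_cancel₀ t2 (by
    simpa [ww, uu, r.sy tw tu, two_mul] using k _ (add_mem hw hu) (by simp [tw, tu]))
  refine ⟨w, hw, u, hu, tw, tu, by simpa using w0, wu, _, r.eM tw tu ww e,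
    r.eT tw tu ww e (by simp [uu]), fun y p q => h.eich_fix _ p q, 2, t2, fun x => ?_⟩
  rw [h.eich_inv ww e, h.eich_apply ww e, h.eich_apply ww (by simp [e])]
  simp [uu]; module

theorem main (h5 : ∀ α β : F, α ≠ 0 → ∃ s, σ s = s ∧ s ≠ 0 ∧ α + s * s * β ≠ 0) {g : V ≃ₗ[F] V} (hg : g ∈ M) :
    ∃ μ : F, μ ≠ 0 ∧ ∀ v, T (g v) = μ • g (T v) := by
  by_contra hn
  have gi := h.om_le_isom (r.le hg)
  have gi' := h.om_le_isom (r.le (inv_mem hg))
  have dj : ∀ a, T a = a → B a a = 0 → a ≠ 0 → ∀ c : F, T (g a) ≠ c • g a := fun a p q a0 c e => by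
    obtain ⟨l, l0, hl⟩ := r.h90 e
    exact hn ⟨_, by simp [l0, h.sigma_ne l0], r.star hc hg p q a0 hl (inv_smul_smul₀ l0 _).symm⟩
  obtain ⟨φ, hφ⟩ : ∃ φ : V →ₗ[F] V, ∀ x, φ x = T (g (T (g⁻¹ x))) :=
    ⟨⟨⟨fun x => T (g (T (g⁻¹ x))), by simp⟩, by simp [r.smul, h.invol]⟩, fun _ => rfl⟩
  obtain ⟨E, mE⟩ : ∃ E : F → Submodule F V, ∀ α v, v ∈ E α ↔ φ v = α • v :=
    ⟨fun α => LinearMap.ker (φ - α • LinearMap.id), fun α v => by simp [sub_eq_zero]⟩
  have sa : ∀ x y, B (T (φ x)) y = B (T (φ y)) x := fun x y => by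
    rw [hφ, hφ, r.inv, r.inv, ← Im.isom_inv gi, ← Im.isom_inv gi, r.BT']
  have ne : ∀ a, T a = a → B a a = 0 → a ≠ 0 → ∀ α : F, φ a ≠ α • a := fun a p q a0 α e => by
    have e1 : T (g⁻¹ a) = σ α • g⁻¹ a := by
      have := congrArg T e
      rw [hφ, r.inv, r.smul, p] at this
      rw [← map_smul, ← this, MX.inv_app]
    obtain ⟨l, l0, hl⟩ := r.h90 e1
    refine dj _ hl (by simp only [map_smulₛₗ, LinearMap.smul_apply, gi'.1, q, smul_zero]) (by simpa [l0]) (σ l / l) ?_
    rw [map_smul, MX.app_inv, r.smul, p, smul_smul, div_mul_cancel₀ _ l0]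
  have key : ∀ a, T a = a → B a a = 0 → a ≠ 0 → ∃ α, E α =
      perp B (Submodule.span F {g a, T (g a)}) ∧ finrank F (E α) = 2 ∧
      ∀ v ∈ E α, T v ∈ E α := fun a p q a0 => by
    have d1 := h.form.finrank_perp h.sep (Submodule.span F {g a, T (g a)})
    have d2 := finrank_span_pair_le (F := F) (g a) (T (g a))
    have mP : ∀ v, v ∈ perp B (Submodule.span F {g a, T (g a)}) ↔ B (g a) v = 0 ∧ B (T (g a)) v = 0 := fun v => by
      simp [mem_perp_span]
    have d3 := r.hn
    have hP : ∀ v ∈ perp B (Submodule.span F {g a, T (g a)}), T v ∈ perp B (Submodule.span F {g a, T (g a)}) :=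
      fun v hv => by
        rw [mP] at hv ⊢
        exact ⟨h.refl (by rw [r.BT', hv.2]), by rw [r.iso]; exact h.refl hv.1⟩
    obtain ⟨w, hw, w', hw', tw, tw', w0, ww, t, ht, t1, t2, c, c0, t3⟩ := r.pair h5 hP (by omega)
    have k1 := r.star hc (mul_mem (mul_mem (inv_mem hg) ht) hg) p q a0 p (l := 1) (by
      simp [t2 _ (h.refl ((mP w).1 hw).1) (h.refl ((mP w').1 hw').1)])
    have k2 : ∀ x, φ (t x) = t (φ x) := fun x => by
      have := k1 (g⁻¹ x)
      simp only [LinearEquiv.mul_apply, MX.app_inv, map_one, div_one, one_smul] at this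
      rw [hφ, hφ, this, MX.app_inv, t1]
    obtain ⟨α, e, e'⟩ := r.scal sa tw tw' w0 ww fun x => smul_right_injective V c0 (by
      have : φ (t⁻¹ x) = t⁻¹ (φ x) := (MX.inv_eq_of (by rw [← k2, MX.app_inv])).symm
      change c • φ _ = c • _
      rw [← map_smul, ← t3, ← t3, map_sub, k2, this])
    have f : ∀ v, φ v = α • v → v = α • g (T (g⁻¹ (T v))) := fun v e => by
      have := congrArg (fun x => g (T (g⁻¹ (T x)))) e
      simp only [hφ, r.inv, MX.inv_app, MX.app_inv, r.smul, map_smul, h.invol] at this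
      exact this
    have n1 : α * σ α = 1 := smul_left_injective F w0 (by
      have := f w e
      have e2 := congrArg T e
      rw [hφ, r.inv, r.smul, tw] at e2
      rw [tw, e2, smul_smul] at this
      simp only [← this, one_smul])
    have hE : ∀ v ∈ E α, T v ∈ E α := fun v hv => by
      rw [mE] at hv ⊢
      have := congrArg (fun x => α • T x) (f v hv)
      simp only [r.smul, smul_smul, n1, one_smul] at this
      rw [this, hφ]
    have d4 : finrank F (E α) ≤ 2 := by
      by_contra k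
      obtain ⟨x, x1, x2, x3, x4⟩ := r.sing _ hE (by omega)
      exact ne x x3 x4 x2 α ((mE _ x).1 x1)
    have d5 := finrank_span_eq_card ((LinearIndependent.pair_iff' w0).2 fun s hs =>
      ww (Submodule.mem_span_singleton.2 ⟨s, hs⟩) : LinearIndependent F ![w, w'])
    have d6 := finrank_span_eq_card ((LinearIndependent.pair_iff' (MX.app_ne_zero g a0)).2 fun s hs =>
      dj a p q a0 s hs.symm : LinearIndependent F ![g a, T (g a)])
    rw [Matrix.range_cons_cons_empty, Fintype.card_fin] at d5 d6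
    have e1 : Submodule.span F {w, w'} = E α := Submodule.eq_of_le_of_finrank_le
      (Submodule.span_le.2 (by rintro _ (rfl | rfl) <;> exact (mE _ _).2 ‹_›)) (by omega)
    have e2 : Submodule.span F {w, w'} = perp B (Submodule.span F {g a, T (g a)}) := Submodule.eq_of_le_of_finrank_le
      (Submodule.span_le.2 (by rintro _ (rfl | rfl) <;> assumption)) (by omega)
    exact ⟨α, e1.symm.trans e2, e1 ▸ d5, hE⟩
  obtain ⟨a, -, a0, p, q⟩ := r.sing ⊤ (fun _ _ => trivial) (by simp [r.hn])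
  obtain ⟨α, e1, e2, e3⟩ := key a p q a0
  obtain ⟨w, hw, w0⟩ := exists_ne_zero_of_finrank (W := E α) (by omega)
  have k : ∀ b, T b = b → B b b = 0 → B b (g⁻¹ w) = 0 := fun b p' q' => by
    by_cases b0 : b = 0
    · simp [b0]
    obtain ⟨β, f1, f2, f3⟩ := key b p' q' b0
    by_cases e : α = β
    · subst e
      rw [f1, mem_perp_span] at hw
      rw [Im.isom_inv gi]; exact hw _ (by simp)
    have l : E β ≤ perp B (E α) := r.ind f3 fun y hy ty =>
      h.form.mem_perp'.2 fun x hx => r.ind (P := LinearMap.ker (B y)) e3 (fun x hx tx => by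
        have := sa x y
        rw [(mE _ _).1 hx, (mE _ _).1 hy] at this
        simp only [r.smul, tx, ty, map_smulₛₗ, LinearMap.smul_apply, h.invol, smul_eq_mul, r.sy ty tx] at this
        exact (mul_eq_mul_right_iff.1 this).resolve_left e) hx
    have d := h.form.finrank_perp h.sep (E α)
    have := (Submodule.eq_of_le_of_finrank_le l (by have := r.hn; omega)).ge (x := g a) (by
      rw [e1]; exact h.form.le_perp_perp _ (Submodule.subset_span (by simp)))
    rw [mE, hφ, MX.inv_app, p] at this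
    exact (dj a p q a0 β this).elim
  obtain ⟨f, hf, ff, af⟩ := r.partner' p q a0
  refine MX.app_ne_zero g⁻¹ w0 (h.sep _ fun y => h.refl (r.ind (S := ⊤) (P := perp B (Submodule.span F {g⁻¹ w}))
    (fun _ _ => trivial) (fun v _ tv' => mem_perp_span.2 ?_) (trivial : y ∈ ⊤) _
      (Submodule.mem_span_singleton_self _) |> h.refl))
  rintro _ rfl
  have p1 : T (v + (1 - B a v) • f) = v + (1 - B a v) • f := by simp [r.smul, tv', hf, r.real p tv']
  obtain ⟨u1, u2⟩ := r.adj p p1 q (by simp [af])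
  have := k _ u1 u2
  simp only [map_sub, map_add, map_smulₛₗ _ _ a, map_smulₛₗ _ _ f, LinearMap.sub_apply, LinearMap.add_apply,
    LinearMap.smul_apply, k a p q, k f hf ff, smul_zero, add_zero, sub_zero] at this
  exact h.refl this

end Re

end Cfsg.Agent.H26.U4
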