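import Cfsg.Agent.H26.U4d

/-!
Geometric maximal subgroups of the four-dimensional special unitary group, in matrices.
-/

set_option autoImplicit false
set_option linter.unusedSectionVars false

namespace Cfsg.Agent.H26.U4

open Module H10 H11 Cfsg.Geo

section
variable {F : Type*} [Field F] [Finite F] {σ : F →+* F} {K : Subfield F} {θ : F ≃+* F} {ι : Type} [Fintype ι]
  [DecidableEq ι] {B : (ι → F) →ₛₗ[σ] (ι → F) →ₗ[F] F}

theorem th_eq (hθ : ∀ a, θ a = a ↔ a ∈ K) (hK : ∀ a, a ∈ K ↔ σ a = a) (inv : ∀ a, σ (σ a) = a) (a : F) :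
    θ a = σ a := by
  have k1 := (hθ _).2 ((hK (a + σ a)).2 (by simp [inv, add_comm]))
  have k2 := (hθ _).2 ((hK (a * σ a)).2 (by simp [inv, mul_comm]))
  rw [map_add] at k1
  rw [map_mul] at k2
  rcases mul_eq_zero.1 (show (θ a - a) * (θ a - σ a) = 0 by linear_combination θ a * k1 - k2) with e | e
  · rw [sub_eq_zero] at e
    rw [e, (hK a).1 ((hθ a).1 e)]
  · exact sub_eq_zero.1 e

theorem max_o4 (h : Cl 1 1 (trHom σ) B fun x => B x x) (hσ : σ ≠ RingHom.id F) (hθ : ∀ a, θ a = a ↔ a ∈ K)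
    (hK : ∀ a, a ∈ K ↔ σ a = a) (hn : Fintype.card ι = 4) (t2 : (2 : F) ≠ 0) (h5 : 4 ≤ Nat.card K)
    (hP : ∀ x y, B (jv K x) (jv K y) ∈ K) : IsMaximalIn h.Om (ratG θ ι ⊓ h.Om) := by
  have hH : IsHerm B := ⟨hσ, h.invol, fun x y => by rw [h.symm x y, one_mul]⟩
  have e := th_eq hθ hK h.invol
  have ht : ∀ t : K, (t : F) = σ t := fun t => ((hK t).1 t.2).symm
  have hP' : ∀ x y, 1 * B (jv K x) (jv K y) ∈ K := by simpa using hP
  have sy : ∀ x y, B (jv K x) (jv K y) = B (jv K y) (jv K x) := fun x y => by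
    rw [h.symm (jv K x), one_mul]; exact ht ⟨_, hP x y⟩
  have h0 := clQuad (B := descB (σ₀ := RingHom.id K) B 1 ht hP')
    (Q := fun x => ⟨B (jv K x) (jv K x) / 2, K.div_mem (hP x x) (by norm_num)⟩) (IsQuad.of_add_smul
      (fun x y => Subtype.ext (by simp [descB_apply, sy y x]; field_simp; ring))
      fun c x => Subtype.ext (by
        change B ((c : F) • jv K x) ((c : F) • jv K x) / 2 =
          (c : F) * c * (B (jv K x) (jv K x) / 2)
        simp [← ht]; ring)) (descB_sep h.sep one_ne_zero _ hP')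
  have R : Rat θ 1 1 (trHom σ) B (fun x => B x x) 1 2 (AddMonoidHom.id K) _ _ 1 :=
    ⟨h, h0, hθ, fun a => by rw [e, e], one_ne_zero, fun _ _ => rfl, by simp, fun x c e => by
      have : (c : F) = B (jv K x) (jv K x) / 2 := congrArg Subtype.val e
      rw [mul_one, trHom_apply, ← ht, this]
      simp; field_simp; ring⟩
  have r : ∀ M, ratG θ ι ⊓ h.Om ≤ M → M ≤ h.Om → Re h (th θ).toAddMonoidHom M := fun M a b =>
    ⟨hH, by simpa, t2, fun c x => by rw [← e]; exact th_smul c x,
      fun x => funext fun i => by simp [th_apply, e, h.invol],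
      fun x y => by simpa [e, hH.symm] using R.B_th x y, fun S hS d => by
        obtain ⟨x, x1, x2, x3⟩ := h0.exists_sing3 (W := pre K S) (by rwa [finrank_pre hθ hS])
        exact ⟨_, x1, jv_ne x2, th_jv hθ x, R.sing x3⟩,
      fun S hS nd d c hc => by
        have n0 : NondegOn (descB (σ₀ := RingHom.id K) B 1 ht hP') (pre K S) := fun x hx k =>
          jv_injective ((nd _ hx fun y hy => ext_le (T := LinearMap.ker (B (jv K x)))
            (fun z hz => R.perp (k z hz)) ((ext_pre hθ hS).ge hy)).trans (map_zero _).symm)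
        obtain ⟨x, hx⟩ := IsQuad.exists_eq (h0.restrict n0).form (h0.restrict n0).sep
          (by rwa [finrank_pre hθ hS]) ⟨c / 2, K.div_mem ((hK c).2 hc) (by norm_num)⟩
        exact ⟨_, x.2, th_jv hθ _, (div_left_inj' t2).1 (congrArg Subtype.val hx)⟩,
      fun g hg μ m k => a ⟨⟨μ, m, k⟩, hg⟩, b⟩
  refine isMaximalIn_inf (fun hc => ?_) fun M a b g hg hg' => by_contra fun c => hg' ((r M a b).main c
    (fun α β a0 => ?_) hg)
  · have r := r _ inf_le_right le_rfl
    obtain ⟨a, -, a0, p, q⟩ := r.sing ⊤ (fun _ _ => trivial) (by simp [hn])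
    obtain ⟨f, hf, ff, af⟩ := r.partner' p q a0
    obtain ⟨c, c0, hc'⟩ := H11.exists_trace_zero hσ h.invol
    have sc : σ c = -c := by linear_combination hc'
    obtain ⟨μ, -, k⟩ := hc (tv_om h q sc)
    have k1 := k a
    have k2 := k f
    replace p : th θ a = a := p
    replace hf : th θ f = f := hf
    rw [p, h.eich_fix _ q (by simp), p] at k1
    obtain rfl : 1 = μ := smul_left_injective F a0 (by simpa using k1)
    rw [hf, tv h q, af, mul_one, map_sub, th_smul, p, hf, one_smul, e, sc, sub_right_inj] at k2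
    exact mul_ne_zero t2 c0 (by linear_combination -smul_left_injective F a0 k2)
  classical
  by_contra! k
  have := Fintype.ofFinite K
  by_cases b0 : β = 0
  · exact a0 (by simpa [b0] using k 1 (map_one _) one_ne_zero)
  have k1 := k 1 (map_one _) one_ne_zero
  have : (Finset.univ : Finset K) ⊆ {0, 1, -1} := fun s _ => by
    by_cases s0 : s = 0
    · simp [s0]
    have := k s (ht s).symm (by simpa using s0)
    have : (s : F) * s = 1 := mul_right_cancel₀ b0 (by linear_combination this - k1)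
    rcases mul_self_eq_one_iff.1 this with e | e
    · simp [show s = 1 from Subtype.ext e]
    · simp [show s = -1 from Subtype.ext e]
  have := (Finset.card_le_card this).trans Finset.card_le_three
  rw [Nat.card_eq_fintype_card] at h5
  simp at this; omega

end

variable {F : Type*} [Field F] [Fintype F] (q : ℕ) (hF : Fintype.card F = q ^ 2)
include hF

theorem su4_nd (W : Submodule F (Fin 4 → F)) (hW0 : W ≠ ⊥) (hW : IsNondegenerateOn (hermForm 4 F q) W)
    (hdim : 2 * finrank F W < 4) : IsMaximalIn (GU 4 F q ⊓ specialLinear (Fin 4) F)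
      (subspaceStabilizer W ⊓ (GU 4 F q ⊓ specialLinear (Fin 4) F)) := by
  refine isMaximalIn_gl (mem_SU_iff hF) (fun g _ => mem_subspaceStabilizer_iff W g) ?_
  have := Submodule.one_le_finrank_iff.mpr hW0
  exact max_nd1 (clSU hF 4) ((qConj_conjQ hF).isHerm (Fin 4)) (by simp)
    (nondegOn_of (Or.inr (hermForm_eq hF)) hW) (by omega)

theorem su4_dec {t k : ℕ} {D : Fin t → Submodule F (Fin 4 → F)}
    (hD : IsNondegenerateMDecomposition (hermForm 4 F q) k D) :
    ∃ p, Dec (hermB (Fin 4) (conjQ hF)) (fun x => hermB (Fin 4) (conjQ hF) x x) D p := by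
  have hH := (qConj_conjQ hF).isHerm (Fin 4)
  have e := hD.decomp.finrank_eq
  have nd := fun i => nondegOn_of (Or.inr (hermForm_eq hF)) (hD.nondegenerate i)
  exact (clSU hF 4).exists_dec nd
    (fun i hi => by
      have h1 := e i
      have h2 := hD.decomp.pos
      rw [hi] at h1; simp at h1; omega)
    (fun i j hij x hx y hy => by
      rw [← hermForm_eq hF]; exact hD.orthogonal j i hij.symm y hy x hx)
    hD.decomp.iSup_eq_top
    (fun i j => by
      obtain ⟨g, hg⟩ := (hH.pull (D i).subtype).exists_equiv (nondegOn_iff.mp (nd i))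
        (hH.pull (D j).subtype) (nondegOn_iff.mp (nd j)) (by rw [e, e])
      exact ⟨g, fun x y => hg x y, fun x => hg x x⟩)

theorem su4_pl (hq : 3 ≤ q) (D : Fin 2 → Submodule F (Fin 4 → F))
    (hD : IsNondegenerateMDecomposition (hermForm 4 F q) 2 D) : IsMaximalIn (GU 4 F q ⊓ specialLinear (Fin 4) F)
      (decompositionStabilizer D ⊓ (GU 4 F q ⊓ specialLinear (Fin 4) F)) := by
  refine isMaximalIn_gl (mem_SU_iff hF) (fun g _ => mem_decompositionStabilizer_iff D g) ?_
  obtain ⟨p, d⟩ := su4_dec q hF hD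
  exact max_pl ((qConj_conjQ hF).isHerm (Fin 4)) _ (qConj_conjQ hF) hq (by simp) d hD.decomp.finrank_eq

theorem su4_o (hodd : Odd q) (h5 : 5 ≤ q) (F₀ : Subfield F) (P : Matrix.GeneralLinearGroup (Fin 4) F)
    (hcard : Fintype.card F = Nat.card F₀ ^ 2) (hP : IsFormRationalStructure (hermForm 4 F q) F₀ 1 P) :
    IsMaximalIn (GU 4 F q ⊓ specialLinear (Fin 4) F)
      (subfieldSubgroup F₀ P ⊓ (GU 4 F q ⊓ specialLinear (Fin 4) F)) := by
  obtain ⟨θ, hθ, hc⟩ := exists_frob F₀
  have hq : Nat.card F₀ = q := (Nat.pow_left_injective two_ne_zero (hF.symm.trans hcard)).symm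
  refine isMaximalIn_subfield hθ P
    (fun g => (mem_SU_iff hF g).trans ((clSU hF 4).mem_om_pull (glEquiv _ F P) _))
    (max_o4 _ ((qConj_conjQ hF).isHerm (Fin 0)).ne hθ
      (fun t => by rw [conjQ_apply, ← hq]; exact H26.mem_subfield_iff_pow_card) (by simp)
      (two_ne_zero_of_odd_card (hF ▸ hodd.pow)) (by omega) fun x y => ?_)
  have := hP _ _ (fun i => (y i).2) fun i => (x i).2
  rwa [hermForm_eq hF, one_mul] at this

end Cfsg.Agent.H26.U4
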