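import Cfsg.Agent.H26.U4e

/-!
Pairs of totally isotropic planes in four-dimensional unitary groups.
-/

set_option autoImplicit false
set_option linter.unusedSectionVars false

namespace Cfsg.Agent.H26.U4

open Module H10 H11 Cfsg.Geo

variable {F : Type*} [Field F] {V : Type*} [AddCommGroup V] [Module F V] {σ : F →+* F}
  {B : V →ₛₗ[σ] V →ₗ[F] F} [FiniteDimensional F V] [Finite F]

theorem span_eq2 {X : Submodule F V} (dX : finrank F X = 2) {a b : V} (ha : a ∈ X) (hb : b ∈ X) (a0 : a ≠ 0)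
    (k : b ∉ Submodule.span F {a}) : Submodule.span F {a, b} = X := by
  have d := finrank_span_eq_card ((LinearIndependent.pair_iff' a0).2 fun s hs =>
    k (Submodule.mem_span_singleton.2 ⟨s, hs⟩) : LinearIndependent F ![a, b])
  rw [Matrix.range_cons_cons_empty, Fintype.card_fin] at d
  exact Submodule.eq_of_le_of_finrank_le (Submodule.span_le.2 (by rintro _ (rfl | rfl) <;> assumption)) (by omega)

theorem hyp_elt (h : Cl 1 1 (trHom σ) B fun x => B x x) {e f : V} (ee : B e e = 0) (ff : B f f = 0)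
    (ef : B e f = 1) {l : F} (l0 : l ≠ 0) : ∃ t : V ≃ₗ[F] V, (∀ x y, B (t x) (t y) = B x y) ∧
      LinearMap.det (t : V →ₗ[F] V) = l / σ l ∧
        ∀ v, t v = v + ((l - 1) * B e v) • f + (((σ l)⁻¹ - 1) * B f v) • e := by
  have fe := h.flip_one ef
  have s0 := h.sigma_ne l0
  have p1 : 1 + ((l - 1) • B e) f = l := by simp [ef]
  have p2 : 1 + (((σ l)⁻¹ - 1) • B f) e = (σ l)⁻¹ := by simp [fe]
  have k : ∀ v, (dtv f ((l - 1) • B e) * dtv e (((σ l)⁻¹ - 1) • B f)) v =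
      v + ((l - 1) * B e v) • f + (((σ l)⁻¹ - 1) * B f v) • e := fun v => by
    rw [LinearEquiv.mul_apply, dtv_apply' (p1.trans_ne l0), dtv_apply' (p2.trans_ne (inv_ne_zero s0))]
    simp [ee]; module
  refine ⟨_, fun x y => ?_, ?_, k⟩
  · simp only [k, map_add, map_smulₛₗ, LinearMap.add_apply, LinearMap.smul_apply, ee, ff, ef, fe, smul_eq_mul,
      map_mul, map_sub, map_one, map_inv₀, h.invol, RingHom.id_apply, h.symm e x, h.symm f x, one_mul]
    field_simp; ring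
  · rw [LinearEquiv.coe_toLinearMap_mul, map_mul, det_dtv (p1.trans_ne l0), det_dtv (p2.trans_ne (inv_ne_zero s0)), p1, p2,
      div_eq_mul_inv]

/-- a pair of totally isotropic planes and an overgroup of its stabiliser -/
structure Tp (h : Cl 1 1 (trHom σ) B fun x => B x x) (X Y : Submodule F V) (M : Subgroup (V ≃ₗ[F] V)) : Prop where
  hH : IsHerm B
  hn : finrank F V = 4
  p : SPair B (fun x => B x x) X Y
  dX : finrank F X = 2
  dY : finrank F Y = 2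
  ov : ∀ g ∈ h.Om, (∀ x ∈ X, g x ∈ X) → (∀ x ∈ Y, g x ∈ Y) → g ∈ M
  sw : ∃ s ∈ M, (∀ x ∈ X, s x ∈ Y) ∧ ∀ x ∈ Y, s x ∈ X
  le : M ≤ h.Om
  ex : ∃ k : F, σ k = k ∧ k ≠ 0 ∧ k * k ≠ 1

variable {h : Cl 1 1 (trHom σ) B fun x => B x x} {X Y : Submodule F V} {M : Subgroup (V ≃ₗ[F] V)}
  (t : Tp h X Y M)
include t

namespace Tp

theorem symm : Tp h Y X M :=
  ⟨t.hH, t.hn, t.p.symm, t.dY, t.dX, fun g a b c => t.ov g a c b, t.sw.imp fun _ a => ⟨a.1, a.2.2, a.2.1⟩, t.le,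
    t.ex⟩

theorem eM {a b : V} (ha : a ∈ X) (hb : b ∈ Y) (ab : B a b = 0) : h.eich a b 0 ∈ M :=
  t.ov _ (h.eich_mem_om (t.p.tx.1 a ha) ab (by simpa using (t.p.ty.1 b hb).symm)) (h.pair_mem t.p ha hb ab).1
    (h.pair_mem t.p ha hb ab).2

theorem dual {a b : V} (ha : a ∈ X) (hb : b ∈ Y) (a0 : a ≠ 0) (b0 : b ≠ 0) (ab : B a b = 0) :
    ∃ a' ∈ X, ∃ b' ∈ Y, B a' b = 1 ∧ B a b' = 1 ∧ B a' b' = 0 ∧ Submodule.span F {a, a'} = X ∧
      Submodule.span F {b, b'} = Y := by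
  obtain ⟨a', ha', -, e⟩ := h.pair_dual t.p.symm (Z := ⊥) bot_le hb (by simpa)
  have k : a' ∉ Submodule.span F {a} := fun k => by
    obtain ⟨c, rfl⟩ := Submodule.mem_span_singleton.1 k
    simp [h.refl ab] at e
  obtain ⟨b', hb', e1, e2⟩ := h.pair_dual t.p (by simpa using ha') ha (notMem_span_symm a0 k)
  refine ⟨a', ha', b', hb', h.flip_one e, e2, e1 a' (Submodule.mem_span_singleton_self _),
    span_eq2 t.dX ha ha' a0 k, span_eq2 t.dY hb hb' b0 fun k => ?_⟩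
  obtain ⟨c, rfl⟩ := Submodule.mem_span_singleton.1 k
  simp [ab] at e2

theorem mate {a : V} (a0 : a ≠ 0) : ∃ b ∈ Y, b ≠ 0 ∧ B a b = 0 := by
  have d1 := finrank_le_inf_ker Y (B a)
  have := t.dY
  obtain ⟨b, ⟨b1, b2⟩, b0⟩ := exists_ne_zero_of_finrank (W := Y ⊓ LinearMap.ker (B a)) (by omega)
  exact ⟨b, b1, b0, b2⟩

theorem tor {a b : V} (ha : a ∈ X) (hb : b ∈ Y) (a0 : a ≠ 0) (b0 : b ≠ 0) (ab : B a b = 0) {l m : F}
    (l0 : l ≠ 0) (m0 : m ≠ 0) (e : σ l * σ m = l * m) : ∃ g ∈ M, g a = l • a ∧ g b = m • b := by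
  obtain ⟨a', ha', b', hb', e1, e2, e3, -⟩ := t.dual ha hb a0 b0 ab
  have x := t.p.tx.2
  have y := t.p.ty.2
  obtain ⟨g, g1, g2, g3⟩ := hyp_elt h (x a' ha' a' ha') (y b hb b hb) e1 m0
  obtain ⟨g', g1', g2', g3'⟩ := hyp_elt h (y b' hb' b' hb') (x a ha a ha) (h.flip_one e2) l0
  refine ⟨g * g', t.ov _ ((mem_om_herm t.hH h).2 ⟨fun u v => by simp [g1, g1'], ?_⟩) (fun v hv => ?_)
    fun v hv => ?_, ?_, ?_⟩
  · rw [LinearEquiv.coe_toLinearMap_mul, map_mul, g2, g2']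
    have := h.sigma_ne l0
    have := h.sigma_ne m0
    field_simp; linear_combination -e
  · have : g' v ∈ X := by simpa [g3', x a ha v hv] using add_mem hv (X.smul_mem _ ha)
    simpa [g3, x a' ha' _ this] using add_mem this (X.smul_mem _ ha')
  · have : g' v ∈ Y := by simpa [g3', y b' hb' v hv] using add_mem hv (Y.smul_mem _ hb')
    simpa [g3, y b hb _ this] using add_mem this (Y.smul_mem _ hb)
  · simp [g3, g3', h.flip_one e2, x a ha a ha, x a' ha' a ha, h.refl ab]; module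
  · simp [g3, g3', e1, y b hb b hb, y b' hb' b hb, ab]; module

theorem om_of_TT {b : V} (hb : b ∈ Y) (b0 : b ≠ 0) (k : TT h M b) : h.Om ≤ M := by
  obtain ⟨a, ha, a0, ba⟩ := t.symm.mate b0
  obtain ⟨a', ha', b', hb', e1, e2, e3, -, sp⟩ := t.dual ha hb a0 b0 (h.refl ba)
  have x := t.p.tx.2
  have y := t.p.ty.2
  have m := t.eM ha' hb' e3
  have e : h.eich a' b' 0 b = b - b' := by simp [h.eich_apply (x a' ha' a' ha') e3, e1, y b' hb' b hb]
  have m1 : a ∈ h.Arm M b := fun s => (h.mem_ar k.1).2 ⟨by simp [ba], 0, by simp [x a ha a ha],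
    t.symm.eM hb (X.smul_mem s ha) (by simp [ba])⟩
  have f := full_of_two t.hH t.hn b0 k.1 m1 ((e ▸ k.map t.le m).arm t.hH t.le (y _ (sub_mem hb hb') b hb) m1
    (by simp [ba, h.flip_one e2])) (fun c => by
      obtain ⟨s, rfl⟩ := Submodule.mem_span_singleton.1 c
      simp [y b hb b' hb'] at e2) fun c => by
      obtain ⟨s, r, hs⟩ := Submodule.mem_span_pair.1 c
      simpa [h.refl ba, x a ha a ha, e2] using congrArg (B a) hs
  obtain ⟨s, hs, -, s2⟩ := t.sw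
  by_cases c : B b (s b) = 0
  swap
  · exact om_of_full t.le f hs c
  have i := t.le.trans h.om_le_isom
  refine h.om_le_of_full i (f.map i m) (f.map i hs) fun c' => MX.app_ne_zero s b0 (h.sep _ fun v => ?_)
  obtain ⟨u, hu, w, hw, rfl⟩ := t.p.decomp v
  obtain ⟨p, q, rfl⟩ := Submodule.mem_span_pair.1 (sp.ge hw)
  have : B b' (s b) = 0 := by simpa [e, c] using c'
  simp [x _ (s2 b hb) u hu, h.refl c, h.refl this]

variable (hc : ¬ h.Om ≤ M)
include hc

theorem nt1 {a b : V} (ha : a ∈ X) (hb : b ∈ Y) (a0 : a ≠ 0) (b0 : b ≠ 0) (ab : B a b = 0) {c d : F}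
    (sd : σ d = -d) (m : h.eich a 0 c * h.eich b 0 d ∈ M) : d = 0 := by
  by_contra d0
  have bb := t.p.ty.2 b hb b hb
  obtain ⟨k, k1, k0, k2⟩ := t.ex
  obtain ⟨g, hg, g1, g2⟩ := t.tor ha hb a0 b0 ab one_ne_zero k0 (by simp [k1])
  have gi := h.om_le_isom (t.le hg)
  have m1 := mul_mem (inv_mem m) (mul_mem (mul_mem hg m) (inv_mem hg))
  rw [← conj_mul, h.conj_eich gi, h.conj_eich gi, g1, g2, map_zero, one_smul, mul_inv_rev, mul_assoc,
    inv_mul_cancel_left, h.eich_smul_left bb (map_zero _), h.eich_inv bb (map_zero _),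
    h.eich_mul bb (by simp) (by simp)] at m1
  simp only [neg_zero, smul_zero, add_zero, map_zero, mul_zero, zero_sub, k1] at m1
  have d1 : -d + k * k * d ≠ 0 := fun e => mul_ne_zero d0 (sub_ne_zero.2 k2) (by linear_combination e)
  refine hc (t.om_of_TT hb b0 ⟨bb, fun c sc => ?_⟩)
  by_cases c0 : c = 0
  · rw [c0, h.eich_zero]; exact one_mem _
  obtain ⟨l, hl⟩ := t.hH.exists_norm (a := c / (-d + k * k * d)) (by
    simp only [map_div₀, map_add, map_neg, map_mul, sc, sd, k1]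
    rw [← neg_div_neg_eq]; congr 1 <;> ring)
  have l0 : l ≠ 0 := by rintro rfl; simp [c0, d1, eq_comm] at hl
  obtain ⟨g, hg, -, g2⟩ := t.tor ha hb a0 b0 ab (inv_ne_zero l0) l0 (by simp [l0])
  have := mul_mem (mul_mem hg m1) (inv_mem hg)
  rwa [h.conj_eich (h.om_le_isom (t.le hg)), g2, map_zero, h.eich_smul_left bb (map_zero _), smul_zero, hl,
    div_mul_cancel₀ _ d1] at this

theorem nt {a b : V} (ha : a ∈ X) (hb : b ∈ Y) (a0 : a ≠ 0) (b0 : b ≠ 0) (ab : B a b = 0) {c d : F}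
    (sc : σ c = -c) (sd : σ d = -d) (m : h.eich a 0 c * h.eich b 0 d ∈ M) : c = 0 ∧ d = 0 := by
  have d0 := t.nt1 hc ha hb a0 b0 ab sd m
  rw [d0, h.eich_zero, mul_one, ← one_mul (h.eich a 0 c), ← h.eich_zero b] at m
  exact ⟨t.symm.nt1 hc hb ha b0 a0 (h.refl ab) sc m, d0⟩

omit hc in
theorem comp {x : V ≃ₗ[F] V} (hx : x ∈ M) {a b a' : V} (ha : a ∈ X) (ha' : a' ∈ X) (a0 : a ≠ 0) (b0 : b ≠ 0)
    (ab : B a b = 0) (e : B a' b = 1) (xa : x a ∈ X) (xb : x b ∈ Y) :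
    ∃ c, σ c = -c ∧ x a' - c • x b ∈ X := by
  have xi := (h.om_le_isom (t.le hx)).1
  obtain ⟨u, hu, w, hw, e1⟩ := t.p.decomp (x a')
  obtain ⟨-, -, b', hb', -, e2, -, -, sp⟩ := t.dual xa xb (MX.app_ne_zero x a0) (MX.app_ne_zero x b0) (by rw [xi, ab])
  obtain ⟨c, d, rfl⟩ := Submodule.mem_span_pair.1 (sp.ge hw)
  have k1 := xi a a'
  rw [← e1, t.p.tx.2 a ha a' ha'] at k1
  simp [t.p.tx.2 _ xa u hu, xi, ab, e2] at k1
  have k2 := xi a' b
  have k3 := xi a' a'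
  rw [← e1, k1, zero_smul, add_zero] at k2 k3
  have y := t.p.ty.2 _ xb _ xb
  simp [y, e] at k2
  simp [y, k2, h.flip_one k2, t.p.tx.2 _ hu u hu, t.p.tx.2 _ ha' _ ha'] at k3
  exact ⟨c, by linear_combination k3, by simpa [← e1, k1]⟩

theorem star1 {x : V ≃ₗ[F] V} (hx : x ∈ M) {a b : V} (ha : a ∈ X) (hb : b ∈ Y) (a0 : a ≠ 0) (b0 : b ≠ 0)
    (ab : B a b = 0) (xa : x a ∈ X) (xb : x b ∈ Y) : (∀ v ∈ X, x v ∈ X) ∧ ∀ v ∈ Y, x v ∈ Y := by
  have xi := (h.om_le_isom (t.le hx)).1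
  obtain ⟨a', ha', b', hb', e1, e2, e3, s1, s2⟩ := t.dual ha hb a0 b0 ab
  obtain ⟨d, sd, k1⟩ := t.comp hx ha ha' a0 b0 ab e1 xa xb
  obtain ⟨c, sc, k2⟩ := t.symm.comp hx hb hb' b0 a0 (h.refl ab) (h.flip_one e2) xb xa
  have p := t.p.tx.2
  have q := t.p.ty.2
  have aa := p _ xa _ xa
  have bb := q _ xb _ xb
  have k : (∀ v ∈ X, (h.eich (x a) 0 c * h.eich (x b) 0 d * x) v ∈ X) ∧
      ∀ v ∈ Y, (h.eich (x a) 0 c * h.eich (x b) 0 d * x) v ∈ Y := ⟨fun v hv => by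
    obtain ⟨r, s, rfl⟩ := Submodule.mem_span_pair.1 (s1.ge hv)
    rw [map_add, map_smul, map_smul]
    refine add_mem (X.smul_mem r ?_) (X.smul_mem s ?_)
    · simpa [tv h aa, tv h bb, xi, h.refl ab, p a ha a ha]
    · simpa [tv h aa, tv h bb, xi, ab, h.flip_one e1, p a ha a' ha'], fun v hv => by
    obtain ⟨r, s, rfl⟩ := Submodule.mem_span_pair.1 (s2.ge hv)
    rw [map_add, map_smul, map_smul]
    refine add_mem (Y.smul_mem r ?_) (Y.smul_mem s ?_)
    · simpa [tv h aa, tv h bb, xi, ab, q b hb b hb]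
    · simpa [tv h aa, tv h bb, xi, e2, q b hb b' hb']⟩
  have m := t.ov _ (mul_mem (mul_mem (tv_om h aa sc) (tv_om h bb sd)) (t.le hx)) k.1 k.2
  obtain ⟨rfl, rfl⟩ := t.nt hc xa xb (MX.app_ne_zero x a0) (MX.app_ne_zero x b0) (by rw [xi, ab]) sc sd
    ((M.mul_mem_cancel_right hx).1 m)
  simpa [h.eich_zero] using k

omit hc in
theorem back {w : V ≃ₗ[F] V} (w1 : ∀ x ∈ X, w x ∈ Y) (w2 : ∀ x ∈ Y, w x ∈ X) {v : V} (hv : w v ∈ X) : v ∈ Y := by
  obtain ⟨a, ha, b, hb, rfl⟩ := t.p.decomp v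
  rw [map_add, X.add_mem_iff_left (w2 b hb)] at hv
  have := (Submodule.disjoint_def.1 t.p.compl.disjoint) _ hv (w1 a ha)
  simpa [show a = 0 by simpa using this]

/-- the element preserves the pair -/
def Pres (_t : Tp h X Y M) (x : V ≃ₗ[F] V) : Prop :=
  ((∀ v ∈ X, x v ∈ X) ∧ ∀ v ∈ Y, x v ∈ Y) ∨ ((∀ v ∈ X, x v ∈ Y) ∧ ∀ v ∈ Y, x v ∈ X)

theorem star {x : V ≃ₗ[F] V} (hx : x ∈ M) {a b a' b' : V} (ha : a ∈ X) (hb : b ∈ Y) (a0 : a ≠ 0) (b0 : b ≠ 0)
    (ab : B a b = 0) (ha' : a' ∈ X) (hb' : b' ∈ Y) (a0' : a' ≠ 0) (b0' : b' ≠ 0) (ab' : B a' b' = 0)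
    (xa : x a ∈ Submodule.span F {a', b'}) (xb : x b ∈ Submodule.span F {a', b'}) : t.Pres x := by
  obtain ⟨p, r, e1⟩ := Submodule.mem_span_pair.1 xa
  obtain ⟨s, u, e2⟩ := Submodule.mem_span_pair.1 xb
  have xi := h.om_le_isom (t.le hx)
  have aa := t.p.tx.2 _ ha' _ ha'
  have bb := t.p.ty.2 _ hb' _ hb'
  have k : ∀ l : F, l * σ p * s - σ l * σ s * p = 0 ∧ l * σ r * u - σ l * σ u * r = 0 := fun l => by
    have m := mul_mem (mul_mem hx (t.eM ha (Y.smul_mem l hb) (by simp [ab]))) (inv_mem hx)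
    have m' := mul_mem (inv_mem (t.eM ha' (Y.smul_mem (l * σ p * u - σ l * σ s * r) hb') (by simp [ab']))) m
    refine t.nt hc ha' hb' a0' b0' ab' (by simp [h.invol]; ring) (by simp [h.invol]; ring) ?_
    convert m' using 1
    rw [eq_inv_mul_iff_mul_eq, h.conj_eich xi, map_smul, ← e1, ← e2]
    ext1 v
    rw [LinearEquiv.mul_apply, LinearEquiv.mul_apply, tv h aa, tv h bb, h.eich_apply aa (by simp [ab']),
      h.eich_apply (by simp [aa, bb, ab', h.refl ab']) (by simp [aa, bb, ab', h.refl ab'])]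
    simp [aa, bb, ab', h.refl ab', h.invol]
    module
  obtain ⟨z, hz⟩ := H11.exists_ne_conj t.hH.ne
  have k1 : σ p * s = 0 := mul_left_cancel₀ (sub_ne_zero.2 hz) (by
    linear_combination σ z * (k 1).1 - (k z).1 - σ z * σ s * p * (map_one σ).symm)
  have k2 : σ r * u = 0 := mul_left_cancel₀ (sub_ne_zero.2 hz) (by
    linear_combination σ z * (k 1).2 - (k z).2 - σ z * σ u * r * (map_one σ).symm)
  have n : p * u - r * s ≠ 0 := fun e => by
    have li := LinearIndependent.pair_iff.1 ((LinearIndependent.pair_iff' a0).2 fun c hc => b0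
      ((Submodule.disjoint_def.1 t.p.compl.disjoint) _ (hc ▸ X.smul_mem c ha) hb) : LinearIndependent F ![a, b])
    obtain ⟨f1, f2⟩ := li u (-r) (x.injective (by
      rw [map_add, map_smul, map_smul, ← e1, ← e2, map_zero]
      linear_combination (norm := module) e • a'))
    obtain ⟨f3, f4⟩ := li s (-p) (x.injective (by
      rw [map_add, map_smul, map_smul, ← e1, ← e2, map_zero]
      linear_combination (norm := module) (-e) • b'))
    exact MX.app_ne_zero x b0 (by simp [← e2, f1, f3])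
  by_cases p0 : p = 0
  · have u0 : u = 0 := by
      by_contra u0
      exact n (by simp [p0, show r = 0 by simpa [u0] using k2])
    obtain ⟨w, hw, w1, w2⟩ := t.sw
    obtain ⟨f1, f2⟩ := t.star1 hc (mul_mem hw hx) ha hb a0 b0 ab
      (by simpa [← e1, p0] using X.smul_mem r (w2 _ hb')) (by simpa [← e2, u0] using Y.smul_mem s (w1 _ ha'))
    exact Or.inr ⟨fun v hv => t.back w1 w2 (f1 v hv), fun v hv => t.symm.back w2 w1 (f2 v hv)⟩
  have s0 : s = 0 := by simpa [p0] using k1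
  have r0 : r = 0 := by
    by_contra r0
    exact n (by simp [s0, show u = 0 by simpa [r0] using k2])
  exact Or.inl (t.star1 hc hx ha hb a0 b0 ab (by simpa [← e1, r0] using X.smul_mem p ha')
    (by simpa [← e2, s0] using Y.smul_mem u hb'))

omit hc in
theorem find {L : Submodule F V} (dL : finrank F L = 2) (hL : ∀ x ∈ L, ∀ y ∈ L, B x y = 0) :
    ∃ a ∈ X, ∃ b ∈ Y, a ≠ 0 ∧ b ≠ 0 ∧ B a b = 0 ∧ ∀ v ∈ L, B b v • a - B a v • b ∈ L := by
  have x := t.p.tx.2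
  have y := t.p.ty.2
  obtain ⟨a, ha, b, hb, m, n, ab⟩ : ∃ a ∈ X, ∃ b ∈ Y, a + b ∈ L ∧ a + b ≠ 0 ∧ B a b = 0 := by
    obtain ⟨z, hz, z0⟩ := exists_ne_zero_of_finrank (W := L) (by omega)
    obtain ⟨a, ha, b, hb, rfl⟩ := t.p.decomp z
    by_cases ab : B a b = 0
    · exact ⟨a, ha, b, hb, hz, z0, ab⟩
    obtain ⟨z', hz', k⟩ := exists_mem_notMem (W := L) (Z := Submodule.span F {a + b})
      (by have := finrank_span_one_le (F := F) (a + b); omega)
    obtain ⟨w, hw⟩ : ∃ w, w = z' - (B a z' / B a b) • (a + b) := ⟨_, rfl⟩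
    have w1 : w ∈ L := hw ▸ sub_mem hz' (L.smul_mem _ hz)
    have w2 : B a w = 0 := by simp [hw, x a ha a ha, ab]
    obtain ⟨c, hc, d, hd, e⟩ := t.p.decomp w
    have k1 := hL _ hz _ hz
    have k2 := hL _ w1 _ w1
    have k3 := hL _ hz _ w1
    rw [← e] at w2 k2 k3
    simp [x a ha c hc] at w2
    simp [x a ha a ha, y b hb b hb, x c hc c hc, y d hd d hd, x a ha c hc, y b hb d hd, w2] at k1 k2 k3
    obtain ⟨s, hs⟩ := t.hH.exists_norm (a := -B c d / B a b) (by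
      rw [map_div₀, map_neg, t.hH.symm, t.hH.symm, eq_neg_of_add_eq_zero_right k1, eq_neg_of_add_eq_zero_right k2,
        neg_neg, div_neg, neg_div])
    refine ⟨s • a + c, add_mem (X.smul_mem _ ha) hc, s • b + d, add_mem (Y.smul_mem _ hb) hd, ?_, fun n => k ?_, ?_⟩
    · convert add_mem (L.smul_mem s hz) w1 using 1; rw [← e]; module
    · refine Submodule.mem_span_singleton.2 ⟨B a z' / B a b - s, ?_⟩
      rw [hw] at e
      linear_combination (norm := module) e - n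
    · rw [eq_div_iff ab] at hs
      simp [w2, h.refl k3]; linear_combination hs
  by_cases b0 : b = 0
  · subst b0
    rw [add_zero] at m n
    obtain ⟨b, hb, b0, ab⟩ := t.mate n
    exact ⟨a, ha, b, hb, n, b0, ab, fun v hv => by simpa [hL a m v hv] using L.smul_mem _ m⟩
  by_cases a0 : a = 0
  · subst a0
    rw [zero_add] at m
    obtain ⟨a, ha, a0, ab⟩ := t.symm.mate b0
    exact ⟨a, ha, b, hb, a0, b0, h.refl ab, fun v hv => by simpa [hL b m v hv] using L.smul_mem _ m⟩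
  refine ⟨a, ha, b, hb, a0, b0, ab, fun v hv => ?_⟩
  have := hL _ m v hv
  simp only [map_add, LinearMap.add_apply] at this
  convert L.smul_mem (B b v) m using 1
  rw [eq_neg_of_add_eq_zero_left this]; module

theorem main {g : V ≃ₗ[F] V} (hg : g ∈ M) : t.Pres g := by
  have gi := h.om_le_isom (t.le hg)
  have gi' := h.om_le_isom (t.le (inv_mem hg))
  have dj := Submodule.disjoint_def.1 t.p.compl.disjoint
  obtain ⟨e, he, e0⟩ := exists_ne_zero_of_finrank (W := X) (by rw [t.dX]; omega)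
  obtain ⟨f, hf, f0, ef⟩ := t.mate e0
  have ee := t.p.tx.2 e he e he
  have ff := t.p.ty.2 f hf f hf
  have nm : ∀ {e f}, e ∈ X → f ∈ Y → f ≠ 0 → f ∉ Submodule.span F {e} := fun he hf f0 k => by
    obtain ⟨c, rfl⟩ := Submodule.mem_span_singleton.1 k
    exact f0 (dj _ (X.smul_mem c he) hf)
  have d := finrank_span_eq_card ((LinearIndependent.pair_iff' e0).2 fun s hs =>
    nm he hf f0 (Submodule.mem_span_singleton.2 ⟨s, hs⟩) : LinearIndependent F ![e, f])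
  rw [Matrix.range_cons_cons_empty, Fintype.card_fin] at d
  obtain ⟨a, ha, b, hb, a0, b0, ab, k⟩ := t.find (L := (Submodule.span F {e, f}).map (g : V →ₗ[F] V))
    (by rw [LinearEquiv.finrank_map_eq, d]) (by
      rintro _ ⟨x, hx, rfl⟩ _ ⟨y, hy, rfl⟩
      obtain ⟨p, q, rfl⟩ := Submodule.mem_span_pair.1 hx
      obtain ⟨r, s, rfl⟩ := Submodule.mem_span_pair.1 hy
      simp only [LinearEquiv.coe_coe, gi.1]
      simp [ee, ff, ef, h.refl ef])
  have aa := t.p.tx.2 a ha a ha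
  have bb := t.p.ty.2 b hb b hb
  obtain ⟨u, hu⟩ : ∃ u, u = g⁻¹ a := ⟨_, rfl⟩
  obtain ⟨w, hw⟩ : ∃ w, w = g⁻¹ b := ⟨_, rfl⟩
  have uu : B u u = 0 := by rw [hu, gi'.1, aa]
  have ww : B w w = 0 := by rw [hw, gi'.1, bb]
  have uw : B u w = 0 := by rw [hu, hw, gi'.1, ab]
  have ap : ∀ s : F, σ s = s → ∀ v, h.eich u (s • w) 0 v = v + s • (B w v • u - B u v • w) := fun s hs v => by
    rw [h.eich_apply uu (by simp [uw])]; simp [hs]; module
  have k1 : ∀ s : F, σ s = s → t.Pres (h.eich u (s • w) 0) := fun s hs => by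
    have m := mul_mem (mul_mem (inv_mem hg) (t.eM ha (Y.smul_mem s hb) (by simp [ab]))) (inv_mem (inv_mem hg))
    rw [h.conj_eich gi', map_smul, ← hu, ← hw] at m
    have : ∀ v ∈ Submodule.span F {e, f}, h.eich u (s • w) 0 v ∈ Submodule.span F {e, f} := fun v hv => by
      obtain ⟨y, hy, e1⟩ := k _ ⟨v, hv, rfl⟩
      rw [ap s hs]
      refine add_mem hv (Submodule.smul_mem _ _ ?_)
      suffices k : B w v • u - B u v • w = y by rwa [k]
      apply g.injective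
      simp only [LinearEquiv.coe_coe] at e1
      rw [e1, map_sub, map_smul, map_smul, ← gi.1 w, ← gi.1 u, hu, hw, MX.app_inv, MX.app_inv]
    exact t.star hc m he hf e0 f0 ef he hf e0 f0 ef (this _ (Submodule.subset_span (by simp)))
      (this _ (Submodule.subset_span (by simp)))
  obtain ⟨s, s0, p1, p2⟩ : ∃ s : F, s ≠ 0 ∧ (∀ v ∈ X, s • (B w v • u - B u v • w) ∈ X) ∧
      ∀ v ∈ Y, s • (B w v • u - B u v • w) ∈ Y := by
    obtain ⟨s, s1, s0, s2⟩ := t.ex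
    have c : ∀ s : F, σ s = s → (∀ v ∈ X, h.eich u (s • w) 0 v ∈ X) ∧ (∀ v ∈ Y, h.eich u (s • w) 0 v ∈ Y) →
        (∀ v ∈ X, s • (B w v • u - B u v • w) ∈ X) ∧ ∀ v ∈ Y, s • (B w v • u - B u v • w) ∈ Y := fun s hs k =>
      ⟨fun v hv => by simpa only [ap s hs, X.add_mem_iff_right hv] using k.1 v hv,
        fun v hv => by simpa only [ap s hs, Y.add_mem_iff_right hv] using k.2 v hv⟩
    rcases k1 s s1 with k2 | k2
    · exact ⟨s, s0, c s s1 k2⟩
    rcases k1 1 (map_one σ) with k3 | k3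
    · exact ⟨1, one_ne_zero, c 1 (map_one σ) k3⟩
    have n : s - 1 ≠ 0 := by rw [sub_ne_zero]; rintro rfl; simp at s2
    have k4 := sub_mem (k2.1 e he) (k3.1 e he)
    have k5 := k3.1 e he
    rw [ap s s1, ap 1 (map_one σ), add_sub_add_left_eq_sub, ← sub_smul, Y.smul_mem_iff n] at k4
    rw [ap 1 (map_one σ), one_smul, Y.add_mem_iff_left k4] at k5
    exact (e0 (dj e he k5)).elim
  have li : w ∉ Submodule.span F {u} := fun k => by
    obtain ⟨c, hc⟩ := Submodule.mem_span_singleton.1 k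
    exact nm ha hb b0 (Submodule.mem_span_singleton.2 ⟨c, g⁻¹.injective (by rw [map_smul, ← hu, ← hw, hc])⟩)
  have u0 : u ≠ 0 := hu ▸ MX.app_ne_zero _ a0
  have ex : ∀ Z : Submodule F V, finrank F Z = 2 → (∀ v ∈ Z, s • (B w v • u - B u v • w) ∈ Z) →
      ∃ z ∈ Z, z ≠ 0 ∧ z ∈ Submodule.span F {u, w} := fun Z dZ k => by
    by_cases c : ∃ v ∈ Z, B w v • u - B u v • w ≠ 0
    · obtain ⟨v, hv, c⟩ := c
      exact ⟨_, k v hv, smul_ne_zero s0 c, Submodule.mem_span_pair.2 ⟨s * B w v, -(s * B u v), by module⟩⟩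
    push Not at c
    have l := LinearIndependent.pair_iff.1 ((LinearIndependent.pair_iff' u0).2 fun s hs =>
      li (Submodule.mem_span_singleton.2 ⟨s, hs⟩) : LinearIndependent F ![u, w])
    obtain ⟨z, hz, z0⟩ := exists_ne_zero_of_finrank (W := Z) (by omega)
    obtain ⟨c1, c2⟩ := l (B w z) (-B u z) (by rw [← c z hz]; module)
    have d1 := h.form.finrank_perp h.sep (Submodule.span F {u, w})
    have d2 := span_eq2 (X := perp B (Submodule.span F {u, w})) (a := u) (b := w) (by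
      have := finrank_span_eq_card (LinearIndependent.pair_iff.2 l)
      rw [Matrix.range_cons_cons_empty, Fintype.card_fin] at this
      have := t.hn; omega) (by simp [mem_perp_span, uu, h.refl uw]) (by simp [mem_perp_span, ww, uw]) u0 li
    exact ⟨z, hz, z0, d2.ge (by simpa [mem_perp_span, c1] using c2)⟩
  obtain ⟨x, hx, x0, x1⟩ := ex X t.dX p1
  obtain ⟨y, hy, y0, y1⟩ := ex Y t.dY p2
  obtain ⟨p, q, rfl⟩ := Submodule.mem_span_pair.1 x1
  obtain ⟨r, s, rfl⟩ := Submodule.mem_span_pair.1 y1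
  exact t.star hc hg hx hy x0 y0 (by simp [uu, ww, uw, h.refl uw]) ha hb a0 b0 ab
    (Submodule.mem_span_pair.2 ⟨p, q, by simp [hu, hw]⟩) (Submodule.mem_span_pair.2 ⟨r, s, by simp [hu, hw]⟩)

end Tp

omit t in
theorem max_tp (hH : IsHerm B) (hn : finrank F V = 4) {D : Fin 2 → Submodule F V}
    (p : SPair B (fun x => B x x) (D 0) (D 1)) (e : ∀ i, finrank F (D i) = 2)
    (ex : ∃ k : F, σ k = k ∧ k ≠ 0 ∧ k * k ≠ 1) : IsMaximalIn h.Om (dstab D ⊓ h.Om) := by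
  obtain ⟨s, hs, s1, s2⟩ := exists_swap_herm hH h p (by rw [e]; omega)
  have sw : ∀ {s : V ≃ₗ[F] V}, (∀ x ∈ D 0, s x ∈ D 1) → (∀ x ∈ D 1, s x ∈ D 0) → s ∈ dstab D := fun s1 s2 =>
    mem_dstab_two.mpr (Or.inr ⟨map_eq_of_le' p.dim (by rintro _ ⟨x, hx, rfl⟩; exact s1 x hx),
      map_eq_of_le' p.dim.symm (by rintro _ ⟨x, hx, rfl⟩; exact s2 x hx)⟩)
  have t : ∀ M, dstab D ⊓ h.Om ≤ M → M ≤ h.Om → Tp h (D 0) (D 1) M := fun M a b =>
    ⟨hH, hn, p, e 0, e 1, fun g c d f => a ⟨mem_dstab_of_le (Fin.forall_fin_two.2 ⟨d, f⟩), c⟩,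
      ⟨s, a ⟨sw s1 s2, hs⟩, s1, s2⟩, b, ex⟩
  refine isMaximalIn_inf (fun hc => ?_) fun M a b g hg hg' => by_contra fun c => hg' ?_
  · have t := t _ inf_le_right le_rfl
    obtain ⟨a, ha, a0⟩ := exists_ne_zero_of_finrank (W := D 0) (by rw [e]; omega)
    obtain ⟨b, hb, b0, ab⟩ := t.mate a0
    obtain ⟨a', ha', b', hb', -, e2, -⟩ := t.dual ha hb a0 b0 ab
    obtain ⟨c, c0, hc'⟩ := H11.exists_trace_zero hH.ne hH.invol
    have aa := p.tx.2 a ha a ha
    obtain ⟨π, hπ⟩ := Im.dstab_perm (hc (tv_om h aa (c := c) (by linear_combination hc')))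
    have k := hπ 1 b' hb'
    rw [tv h aa, e2, mul_one] at k
    generalize π 1 = i at k
    fin_cases i
    · simpa [aa, e2] using p.tx.2 a ha _ k
    · simpa [h.flip_one e2, c0, p.ty.2 _ hb' _ hb'] using p.ty.2 b' hb' _ k
  rcases (t M a b).main c hg with k | k
  · exact mem_dstab_of_le (Fin.forall_fin_two.2 k)
  · exact sw k.1 k.2

omit t in
theorem su4_tp {F : Type*} [Field F] [Fintype F] (q : ℕ) (hF : Fintype.card F = q ^ 2) (h4 : 4 ≤ q)
    (D : Fin 2 → Submodule F (Fin 4 → F)) (hD : IsMDecomposition 2 D)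
    (hts : ∀ i, IsTotallySingularFor (hermForm 4 F q) (D i)) :
    IsMaximalIn (GU 4 F q ⊓ specialLinear (Fin 4) F)
      (decompositionStabilizer D ⊓ (GU 4 F q ⊓ specialLinear (Fin 4) F)) := by
  classical
  refine isMaximalIn_gl (mem_SU_iff hF) (fun g _ => mem_decompositionStabilizer_iff D g) ?_
  have h0 : ∀ i, ∀ x ∈ D i, ∀ y ∈ D i, hermB (Fin 4) (conjQ hF) x y = 0 :=
    fun i x hx y hy => by rw [← hermForm_eq hF]; exact hts i y hy x hx
  refine max_tp ((qConj_conjQ hF).isHerm (Fin 4)) (by simp) ⟨⟨fun x hx => h0 0 x hx x hx, h0 0⟩,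
    ⟨fun x hx => h0 1 x hx x hx, h0 1⟩, isCompl_of_two hD.indep hD.iSup_eq_top, by
      rw [hD.finrank_eq, hD.finrank_eq]⟩ hD.finrank_eq ?_
  by_contra! k
  have h1 := (qConj_conjQ hF).card_fixed
  have : Nat.card {x : F // conjQ hF x = x} ≤ Nat.card ({0, 1, -1} : Finset F) := Nat.card_le_card_of_injective
    (fun x => ⟨x.1, by
      by_cases x0 : x.1 = 0
      · simp [x0]
      · simpa [x0] using mul_self_eq_one_iff.1 (k x.1 x.2 x0)⟩)
    fun x y e => Subtype.ext (congrArg Subtype.val e :)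
  have h2 := Finset.card_le_three (a := (0 : F)) (b := 1) (c := -1)
  rw [h1, Nat.card_eq_fintype_card, Fintype.card_coe] at this
  omega

end Cfsg.Agent.H26.U4
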