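import Cfsg.Agent.H26.L4h
import Cfsg.Agent.H11.Exc3

/-!
The Klein correspondence for the four-dimensional unitary group.
-/

set_option autoImplicit false
set_option linter.unusedSectionVars false

namespace Cfsg.Agent.H26.U4

open Module H10 H11 Cfsg.Geo Matrix L4

variable {K : Type*} [Field K] (σ : K →+* K)

/-- the fixed points of the semilinear involution of the exterior square -/
def tU : (Fin 3 → K) →ₛₗ[(fixF σ).subtype] (Fin 3 ⊕ Fin 3 → K) where
  toFun w := Sum.elim w (σ ∘ w)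
  map_add' x y := by ext (i | i) <;> simp
  map_smul' c x := by
    ext (i | i)
    · simp [Subfield.smul_def]
    · simp [Subfield.smul_def, mem_fixF.1 c.2]

theorem tU_apply (w : Fin 3 → K) : tU σ w = Sum.elim w (σ ∘ w) := rfl

theorem tU_inj : Function.Injective (tU σ) := fun _ _ e => funext fun i => congrFun e (.inl i)

variable {σ} (inv : ∀ a, σ (σ a) = a)

/-- the norm form -/
def qU (w : Fin 3 → K) : fixF σ := ⟨∑ i, w i * σ (w i), by simp [mem_fixF, inv, mul_comm]⟩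

/-- the trace form -/
def bU : (Fin 3 → K) →ₗ[fixF σ] (Fin 3 → K) →ₗ[fixF σ] fixF σ :=
  LinearMap.mk₂ _ (fun v w => ⟨∑ i, (v i * σ (w i) + σ (v i) * w i), by simp [mem_fixF, inv, add_comm]⟩)
    (fun a b c => Subtype.ext (by simp [← Finset.sum_add_distrib]; exact Finset.sum_congr rfl fun _ _ => by ring))
    (fun c a b => Subtype.ext (by
      simp [Finset.mul_sum, Subfield.smul_def, mem_fixF.1 c.2]; exact Finset.sum_congr rfl fun _ _ => by ring))
    (fun a b c => Subtype.ext (by simp [← Finset.sum_add_distrib]; exact Finset.sum_congr rfl fun _ _ => by ring))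
    (fun c a b => Subtype.ext (by
      simp [Finset.mul_sum, Subfield.smul_def, mem_fixF.1 c.2]; exact Finset.sum_congr rfl fun _ _ => by ring))

theorem bU_apply (v w : Fin 3 → K) : (bU inv v w : K) = ∑ i, (v i * σ (w i) + σ (v i) * w i) := rfl

theorem quad_tU (w : Fin 3 → K) : quadFormPlus 3 K (tU σ w) = qU inv w := by simp [quadFormPlus, tU_apply, qU]

theorem bil_tU (v w : Fin 3 → K) : bPlus 3 K (tU σ v) (tU σ w) = bU inv v w := by
  simp [bPlus_apply, tU_apply, bU_apply, Fin.sum_univ_three]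

theorem isQuad_U : IsQuad (bU inv) (qU inv) := IsQuad.of_add_smul
  (fun x y => Subtype.ext (by simp [qU, bU_apply, Fin.sum_univ_three]; ring))
  fun c x => Subtype.ext (by simp [qU, Fin.sum_univ_three, Subfield.smul_def, mem_fixF.1 c.2]; ring)

include inv

theorem span_tU (hσ : σ ≠ RingHom.id K) (P : Submodule K (Fin 3 ⊕ Fin 3 → K)) (hP : ∀ w, tU σ w ∈ P)
    (y : Fin 3 ⊕ Fin 3 → K) : y ∈ P := by
  obtain ⟨z, hz⟩ := exists_ne_conj hσ
  have d := sub_ne_zero.2 hz
  have k1 : ∀ w : Fin 3 → K, Sum.elim w (0 : Fin 3 → K) ∈ P := fun w => by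
    have := P.smul_mem (σ z - z)⁻¹ (sub_mem (P.smul_mem (σ z) (hP w)) (hP (z • w)))
    convert this using 1
    ext (i | i) <;> simp [tU_apply]
    field_simp
  have := add_mem (k1 (y ∘ Sum.inl - σ ∘ y ∘ Sum.inr)) (hP (σ ∘ y ∘ Sum.inr))
  convert this using 1
  ext (i | i) <;> simp [tU_apply, inv]

theorem sep_U (hσ : σ ≠ RingHom.id K) : (bU inv).SeparatingLeft := fun x hx => tU_inj σ (by
  rw [map_zero]
  exact bPlus_sep 3 K _ fun y => span_tU inv hσ (LinearMap.ker (bPlus 3 K (tU σ x)))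
    (fun w => by simp [bil_tU inv, hx]) y)

theorem map_M (w : Fin 3 → K) : (altM K (tU σ w)).map σ = altD K (tU σ w) := by
  ext i j; fin_cases i <;> fin_cases j <;> simp [altD_apply, altM_apply, tU_apply, inv]

theorem map_D (w : Fin 3 → K) : (altD K (tU σ w)).map σ = altM K (tU σ w) := by
  ext i j; fin_cases i <;> fin_cases j <;> simp [altD_apply, altM_apply, tU_apply, inv]

theorem lam_tU {g : Matrix (Fin 4) (Fin 4) K} (h1 : g.det = 1) (h2 : (g.map σ)ᵀ * g = 1) (w : Fin 3 → K) :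
    ∃ w', lam K g (tU σ w) = tU σ w' := by
  have e : ∀ y, (lam K g (tU σ w) ∘ Sum.swap) ⬝ᵥ y = (σ ∘ lam K g (tU σ w)) ⬝ᵥ y := fun y => by
    have e1 : ∀ x y : Fin 3 ⊕ Fin 3 → K, (x ∘ Sum.swap) ⬝ᵥ y = bPlus 3 K x y := fun x y => by
      simp [bPlus_apply, dotProduct, Fin.sum_univ_three]; ring
    have e2 : σ ∘ tU σ w = tU σ w ∘ Sum.swap := by ext (i | i) <;> simp [tU_apply, inv]
    have e3 : y = lam K g (lam K (g.map σ)ᵀ y) := by
      rw [← Module.End.mul_apply, ← map_mul, mul_eq_one_comm.1 h2, map_one]; rfl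
    rw [map_lam, e2, ← transpose_transpose (g.map σ), dot_lam, e1, e1]
    conv_lhs => rw [e3, bPlus_lam, h1, one_mul]
  have := dotProduct_eq _ _ e
  refine ⟨lam K g (tU σ w) ∘ Sum.inl, funext fun i => ?_⟩
  rcases i with i | i
  · rfl
  · exact congrFun this (.inl i)

omit inv in
theorem gu_iff [Fintype K] {q : ℕ} (hq : QConj σ q) {g : GL (Fin 4) K} (hd : g.1.det = 1) :
    g ∈ GU 4 K q ↔ (g.1.map σ)ᵀ * g.1 = 1 :=
  ⟨fun h => su_conj_transpose_mul hq ⟨⟨g.1, hd⟩, h⟩, fun h => mem_su_of_conj_transpose_mul hq (g := ⟨g.1, hd⟩) h⟩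

omit inv in
theorem kl_su [Fintype K] [Fintype (fixF σ)] {q : ℕ} (hq : QConj σ q) :
    ∃ φ, Kl (clQuad (isQuad_U hq.invol) (sep_U hq.invol hq.ne_id)) (fixF σ).subtype (tU σ) 1
      (GU 4 K q ⊓ specialLinear (Fin 4) K) φ := by
  have hQ := isQuad_U hq.invol
  have act : ∀ g : Matrix (Fin 4) (Fin 4) K, g.det = 1 → (g.map σ)ᵀ * g = 1 → ∀ x, ∃ y,
      lam K g (tU σ x) = tU σ y ∧ qU hq.invol y = qU hq.invol x := fun g a b x =>
    (lam_tU hq.invol a b x).imp fun y hy => ⟨hy, Subtype.ext (by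
      rw [← quad_tU, ← quad_tU, ← hy, quad_lam, a, one_mul])⟩
  obtain ⟨φ, hφ⟩ := hQ.exists_hom_of_act (tU σ) (tU_inj σ) ((lam K).comp ((Units.coeHom _).comp
    (GU 4 K q ⊓ specialLinear (Fin 4) K).subtype)) fun g => act _ (mem_specialLinear.1 g.2.2)
      ((gu_iff hq (mem_specialLinear.1 g.2.2)).1 g.2.1)
  obtain ⟨ψ, hψ⟩ := hQ.exists_hom_of_act (tU σ) (tU_inj σ) ((lam K).comp ((slToMat 4 K).comp (SU 4 K q).subtype))
    fun g => act _ g.1.2 (su_conj_transpose_mul hq g)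
  replace hφ : ∀ g x, tU σ ((φ g).1 x) = lam K g.1.1 (tU σ x) := hφ
  replace hψ : ∀ g x, tU σ ((ψ g).1 x) = lam K g.1.1 (tU σ x) := hψ
  have dim : finrank (fixF σ) (Fin 3 → K) = 6 := by
    have h1 := card_eq_pow_finrank_subfield (fixF σ)
    have h2 : Nat.card (fixF σ) = q := hq.card_fixed
    rw [h2, ← Nat.card_eq_fintype_card, hq.card] at h1
    rw [finrank_pi_fintype, ← Nat.pow_right_injective hq.two_le h1]; simp
  generalize clQuad (isQuad_U hq.invol) (sep_U hq.invol hq.ne_id) = h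
  refine ⟨(Subgroup.subtype _).comp φ, tU_inj σ, span_tU hq.invol hq.ne_id, one_ne_zero,
    fun w => by rw [one_mul, quad_tU hq.invol]; rfl, hφ, le_antisymm ?_ (h.om_le fun u w c qu uw hc => ?_), dim⟩
  · rintro _ ⟨g, rfl⟩
    obtain ⟨g', hg⟩ : ∃ g' : SU 4 K q, g'.1.1 = g.1.1 := ⟨⟨⟨g.1.1, mem_specialLinear.1 g.2.2⟩, g.2.1⟩, rfl⟩
    have : φ g = ψ g' := Subtype.ext (LinearEquiv.ext fun x => tU_inj σ (by rw [hφ, hψ, hg]))
    refine (mem_om_quad h (by omega) (φ g)).2 ?_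
    rw [this]
    exact mem_commutator_of_perfect (H10.commutator_eq_top_of_mulEquiv (suEquiv hq 4)
      ((hq.isHerm _).sisom_perfect (hermB_sep _) (Or.inl (by simp)))) ψ _
  obtain rfl : c = qU hq.invol w := hc
  have qu' : quadFormPlus 3 K (tU σ u) = 0 := by rw [quad_tU hq.invol, qu]; rfl
  have uw' : bPlus 3 K (tU σ u) (tU σ w) = 0 := by rw [bil_tU hq.invol, uw]; rfl
  have e : ∀ x, lam K (1 - altM K (tU σ u) * altD K (tU σ w)) (tU σ x) = tU σ (h.eich u w (qU hq.invol w) x) :=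
    fun x => by
    rw [eich_alt qu' uw', h.eich_apply qu uw, one_mul]
    simp only [map_sub, map_add, map_smulₛₗ, bil_tU hq.invol, quad_tU hq.invol, map_mul]; rfl
  have d : (1 - altM K (tU σ u) * altD K (tU σ w)).det = 1 := by
    have := quad_lam (1 - altM K (tU σ u) * altD K (tU σ w)) (tU σ (Pi.single 0 1))
    rw [e, quad_tU hq.invol, quad_tU hq.invol, (h.eich_mem_isom qu uw (c := qU hq.invol w) rfl).2] at this
    simpa [qU, Fin.sum_univ_three] using this.symm
  refine ⟨⟨GeneralLinearGroup.mkOfDetNeZero _ (d ▸ one_ne_zero), (gu_iff hq d).2 ?_, mem_specialLinear.2 d⟩,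
    LinearEquiv.ext fun x => tU_inj σ ((hφ _ x).trans (e x))⟩
  change ((1 - altM K (tU σ u) * altD K (tU σ w)).map σ)ᵀ * (1 - altM K (tU σ u) * altD K (tU σ w)) = 1
  rw [Matrix.map_sub _ (map_sub σ), Matrix.map_one _ (map_zero σ) (map_one σ), Matrix.map_mul, map_M hq.invol,
    map_D hq.invol, transpose_sub, transpose_one, transpose_mul, altM_tr, altD_tr, neg_mul_neg, sub_mul, one_mul,
    mul_sub, mul_one, mul_assoc, ← mul_assoc (altD K (tU σ u)), DM', qu', MD (tU σ u), uw']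
  simp

omit inv in
theorem su4_c6 {F : Type*} [Field F] [Fintype F] (q : ℕ) (hF : Fintype.card F = q ^ 2) (p : ℕ)
    (R : Subgroup (GL (Fin 4) F)) (hp : p.Prime) (hq : q = p) (h4 : p % 4 = 3) (hs : IsSymplecticTypeGroup 2 R)
    (habs : ActsAbsolutelyIrreducibly (matrixSet R)) (hR : R ≤ GU 4 F q)
    (hz : Nat.card (Subgroup.center R) = 4) : IsMaximalIn (GU 4 F q ⊓ specialLinear (Fin 4) F)
      (subgroupNormalizer R ⊓ (GU 4 F q ⊓ specialLinear (Fin 4) F)) := by
  subst hq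
  have hc := qConj_conjQ hF
  generalize conjQ hF = σ at hc
  have t2 : (2 : F) ≠ 0 := two_ne_zero_of_odd_card (hF ▸ (Nat.odd_iff.2 (by omega)).pow)
  have := Fintype.ofFinite (fixF σ)
  have es := es_of t2 hs habs hz
  obtain ⟨φ, k⟩ := kl_su hc
  refine k.c6 (fun e => t2 (congrArg Subtype.val e)) (by
    rw [← Nat.card_eq_fintype_card, show Nat.card (fixF σ) = q from hc.card_fixed]; exact hp) es
    (fun x hx => ⟨hR hx, mem_specialLinear.2 (es.det x hx)⟩) fun w w' s r hr q0 e => ?_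
  have u := mul_eq_one_comm.1 ((gu_iff hc (es.det r hr)).1 (hR hr))
  have e1 := congrArg det e
  simp only [det_smul, det_mul, det_altM, es.det r hr, Fintype.card_fin, quad_tU hc.invol] at e1
  have e2 := congrArg (fun X => X * (X.map σ)ᵀ) e
  have e3 : ∀ X : Matrix (Fin 4) (Fin 4) F, (s • X).map σ = σ s • X.map σ := fun X => by ext; simp
  simp only [e3, Matrix.map_mul, map_M hc.invol, transpose_smul, transpose_mul, altD_tr, mul_neg, MD',
    quad_tU hc.invol, smul_mul_smul_comm, mul_assoc, neg_neg, neg_mul] at e2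
  rw [← mul_assoc (altM F _), MD', quad_tU hc.invol] at e2
  simp only [neg_mul, smul_mul_assoc, one_mul, mul_neg, mul_smul_comm, u, neg_neg, smul_smul] at e2
  have e4 : (qU hc.invol w' : F) = s * σ s * qU hc.invol w := by simpa using congrFun (congrFun e2 0) 0
  have q1 : (qU hc.invol w : F) ≠ 0 := fun c => q0 (Subtype.ext c)
  by_cases s0 : s = 0
  · exact ⟨0, Subtype.ext (by simp [e4, s0])⟩
  rw [e4] at e1
  rcases sq_eq_sq_iff_eq_or_eq_neg.1 (show σ s ^ 2 = s ^ 2 from mul_left_cancel₀ (pow_ne_zero 2 (mul_ne_zero s0 q1))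
    (by linear_combination e1)) with a | a
  · exact ⟨⟨s, a⟩, Subtype.ext (by simp [e4, a])⟩
  obtain ⟨I, hI⟩ := es.im
  have sI : σ I = -I := by
    obtain ⟨m, hm⟩ : ∃ m, q = 4 * m + 3 := ⟨q / 4, by omega⟩
    rw [hc.eq, hm, pow_add, pow_mul, show I ^ 4 = 1 by linear_combination (I * I - 1) * hI]
    linear_combination I * hI
  exact ⟨⟨I * s, by simp [mem_fixF, sI, a]⟩, Subtype.ext (by
    simp [e4, a]; linear_combination (-s * s * qU hc.invol w) * hI)⟩

end Cfsg.Agent.H26.U4
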